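import Cfsg.Agent.Asch.Sp
import Cfsg.Agent.H7.SLCase

set_option autoImplicit false
set_option linter.unusedSectionVars false

/-! Maximal subgroups of the symplectic groups: the list of types. -/

namespace Cfsg.Agent.H2.Cases

open Module Cfsg.Agent.Form Cfsg.Agent.H7
open scoped Matrix MatrixGroups

theorem not_strict {G : Type*} [Group G] {K H M : Subgroup G} (hH : Geo.IsMaximalIn K H) (h : H ≤ M)
    (hM : ¬ K ≤ M) {g : G} (h1 : g ∈ K) (h2 : g ∈ M) (h3 : g ∉ H) : False :=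
  h3 (eq_inf_of_max hH h hM ▸ ⟨h2, h1⟩)

section
variable {F : Type*} [Field F] {V : Type*} [AddCommGroup V] [Module F V] [FiniteDimensional F V]

theorem exists_lagr (S : PQ (FP.symp F) V) (hS : S.Nondeg) (K : Subalgebra F (Module.End F V))
    (hsa : ∀ k ∈ K, ∀ u v, S.B (k u) v = S.B u (k v)) (halt : ∀ k ∈ K, ∀ v, S.B (k v) v = 0) :
    ∃ W : Submodule F V, (∀ k ∈ K, ∀ w ∈ W, k w ∈ W) ∧ 2 * finrank F W = finrank F V := by
  obtain ⟨W, hW, hmax⟩ := (wellFounded_gt (α := Submodule F V)).has_min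
    {W | (∀ k ∈ K, ∀ w ∈ W, k w ∈ W) ∧ S.TS W} ⟨⊥, by simp, S.ts_bot⟩
  have h1 : S.perp W = W := by
    refine le_antisymm (fun x hx => ?_) hW.2.le_perp
    by_contra hx'
    let X := K.toSubmodule.map (LinearMap.applyₗ x)
    refine hmax (W ⊔ X) ⟨fun k hk w hw => ?_, hW.2.sup ((S.symp_ts X).2 ?_) ?_⟩ ?_
    · obtain ⟨a, ha, _, ⟨l, hl, rfl⟩, rfl⟩ := Submodule.mem_sup.1 hw
      rw [map_add]
      exact Submodule.add_mem_sup (hW.1 k hk a ha) ⟨k * l, K.mul_mem hk hl, rfl⟩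
    · rintro _ ⟨k, hk, rfl⟩ _ ⟨l, hl, rfl⟩
      exact (hsa l hl (k x) x).symm.trans (halt (l * k) (mul_mem hl hk) x)
    · rintro _ ⟨k, hk, rfl⟩ w hw
      exact (hsa k hk x w).trans (hx _ (hW.1 k hk w hw))
    · refine lt_of_le_of_ne le_sup_left fun h0 => hx' ?_
      rw [h0]; exact Submodule.mem_sup_right ⟨1, one_mem K, rfl⟩
  have := hS.finrank_perp W
  rw [h1] at this
  exact ⟨W, hW.1, by omega⟩

theorem even_finrank (S : PQ (FP.symp F) V) (hS : S.Nondeg) : Even (finrank F V) := by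
  obtain ⟨W, -, h⟩ := exists_lagr S hS ⊥ (fun k hk u v => by
    obtain ⟨c, rfl⟩ := Algebra.mem_bot.1 hk
    simp [S.B_smul_left]) (fun k hk v => by
    obtain ⟨c, rfl⟩ := Algebra.mem_bot.1 hk
    simp [S.B_smul_left, S.symp_B_self])
  exact ⟨finrank F W, by omega⟩

end

variable {ι : Type} [Fintype ι] [DecidableEq ι] {F : Type*} [Field F] [Fintype F]

theorem dvd_finrank_of_field [Nonempty ι] {r : ℕ} {K : Subalgebra F (Matrix ι ι F)}
    (h : Geo.IsFieldSubalgebra r K) {W : Submodule F (ι → F)} (hW : ∀ k ∈ K, ∀ w ∈ W, k *ᵥ w ∈ W) :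
    r ∣ finrank F W := by
  have h1 : Nat.card K = Nat.card F ^ r := by rw [Module.natCard_eq_pow_finrank (K := F), h.finrank_eq]
  have h2 : Nat.card W = Nat.card F ^ finrank F W := Module.natCard_eq_pow_finrank
  letI := Asch.fieldOf K h.comm h.inv
  letI : Module K (ι → F) :=
    Module.compHom _ ((Matrix.toLinAlgEquiv' (R := F) (n := ι)).toRingHom.comp K.val.toRingHom)
  let W' : Submodule K (ι → F) := { W.toAddSubmonoid with smul_mem' := fun k w hw => hW k k.2 w hw }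
  have h3 : Nat.card W' = Nat.card K ^ finrank K W' := Module.natCard_eq_pow_finrank
  rw [h1, ← pow_mul] at h3
  exact ⟨_, Nat.pow_right_injective Finite.one_lt_card (h2.symm.trans h3)⟩

theorem two_mul_dvd_of_selfAdj [Nonempty ι] {f : (ι → F) → (ι → F) → F} (hf : Geo.IsSymplecticForm f) {r : ℕ}
    {K : Subalgebra F (Matrix ι ι F)} (h : Geo.IsFieldSubalgebra r K) (h1 : Geo.IsSelfAdjointFor f K)
    (h2 : ∀ k ∈ K, ∀ v, f (k *ᵥ v) v = 0) : 2 * r ∣ Fintype.card ι := by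
  obtain ⟨W, hW, hd⟩ := exists_lagr (sympPQ hf) (sympPQ_nondeg hf)
    (K.map (Matrix.toLinAlgEquiv' (R := F) (n := ι)).toAlgHom)
    (by rintro _ ⟨k, hk, rfl⟩; exact h1 k hk) (by rintro _ ⟨k, hk, rfl⟩; exact h2 k hk)
  rw [finrank_pi] at hd
  rw [← hd]
  exact Nat.mul_dvd_mul_left 2 (dvd_finrank_of_field h fun k hk => hW _ ⟨k, hk, rfl⟩)

theorem even_of_nondegOn {f : (ι → F) → (ι → F) → F} (hf : Geo.IsSymplecticForm f) {W : Submodule F (ι → F)}
    (hW : Geo.IsNondegenerateOn f W) : Even (finrank F W) :=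
  even_finrank _ (((sympPQ hf).nondegOn_iff_geo W).2 hW).restrict

theorem ne_top_of_ts {P : FP F} [Nonempty ι] {S : PQ P (ι → F)} (hS : S.Nondeg) {W : Submodule F (ι → F)}
    (hW : Geo.IsTotallySingularFor S.B W) : W ≠ ⊤ := by
  rintro rfl
  obtain ⟨i⟩ := ‹Nonempty ι›
  have := hS (Pi.single i 1) fun y => hW _ trivial _ trivial
  simpa using congrFun this i

/-- The possible shapes of a maximal subgroup of the symplectic group. -/
inductive SpMax (m : ℕ) (H : Subgroup (GL (Fin m ⊕ Fin m) F)) : Prop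
  | c1s (W : Submodule F (Fin m ⊕ Fin m → F)) : W ≠ ⊥ → Geo.IsTotallySingularFor (sympForm m F) W →
      H = Geo.subspaceStabilizer W ⊓ spGL m F → SpMax m H
  | c1n (W : Submodule F (Fin m ⊕ Fin m → F)) : W ≠ ⊥ → Geo.IsNondegenerateOn (sympForm m F) W →
      finrank F W < m → 2 < m → H = Geo.subspaceStabilizer W ⊓ spGL m F → SpMax m H
  | c2n (t k : ℕ) (D : Fin t → Submodule F (Fin m ⊕ Fin m → F)) :
      Geo.IsNondegenerateMDecomposition (sympForm m F) (2 * k) D → t * k = m → 2 ≤ t →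
      (k = 1 → 3 ≤ Fintype.card F) → H = Geo.decompositionStabilizer D ⊓ spGL m F → SpMax m H
  | c2s (D : Fin 2 → Submodule F (Fin m ⊕ Fin m → F)) : Odd (Fintype.card F) → Geo.IsMDecomposition m D →
      (∀ i, Geo.IsTotallySingularFor (sympForm m F) (D i)) → H = Geo.decompositionStabilizer D ⊓ spGL m F →
      SpMax m H
  | c3s (r : ℕ) (K : Subalgebra F (Matrix (Fin m ⊕ Fin m) (Fin m ⊕ Fin m) F)) : r.Prime → r ∣ m →
      Geo.IsFieldSubalgebra r K → Geo.IsSelfAdjointFor (sympForm m F) K →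
      (∀ k ∈ K, ∀ v, sympForm m F (k *ᵥ v) v = 0) → H = Geo.subalgebraNormalizer K ⊓ spGL m F → SpMax m H
  | c3u (K : Subalgebra F (Matrix (Fin m ⊕ Fin m) (Fin m ⊕ Fin m) F)) : Odd (Fintype.card F) →
      Geo.IsFieldSubalgebra 2 K → Geo.IsAdjointClosedFor (sympForm m F) K →
      ¬ Geo.IsSelfAdjointFor (sympForm m F) K → H = Geo.subalgebraNormalizer K ⊓ spGL m F → SpMax m H
  | c4 (n₁ n₂ : ℕ) (e : Fin m ⊕ Fin m ≃ Fin (2 * n₁) × Fin n₂) (P : GL (Fin m ⊕ Fin m) F)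
      (f₁ : (Fin (2 * n₁) → F) → (Fin (2 * n₁) → F) → F) (f₂ : (Fin n₂ → F) → (Fin n₂ → F) → F) :
      Odd (Fintype.card F) → 3 ≤ n₂ → n₁ * n₂ = m → (n₂ = 3 → 5 ≤ Fintype.card F) → Geo.IsSymplecticForm f₁ →
      Geo.IsSymmetricForm f₂ → Geo.IsTensorFormStructure id (sympForm m F) f₁ f₂ e P →
      H = Geo.tensorProductSubgroup (2 * n₁) n₂ e P ⊓ spGL m F → SpMax m H
  | c5 (F₀ : Subfield F) (r : ℕ) (P : GL (Fin m ⊕ Fin m) F) (ζ : F) : r.Prime →
      Fintype.card F = Nat.card F₀ ^ r → ζ ≠ 0 → Geo.IsFormRationalStructure (sympForm m F) F₀ ζ P →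
      H = Geo.subfieldSubgroup F₀ P ⊓ spGL m F → SpMax m H
  | c6 (R : Subgroup (GL (Fin m ⊕ Fin m) F)) (k : ℕ) : Geo.IsSymplecticTypeGroup 2 R →
      Geo.ActsAbsolutelyIrreducibly (Geo.matrixSet R) → R ≤ Geo.similarityGroup (sympForm m F) →
      (Fintype.card F).Prime → Odd (Fintype.card F) → Nat.card R = 2 ^ (1 + 2 * k) →
      Nat.card (Subgroup.center R) = 2 → Geo.IsOfMinusType k R → 2 * m = 2 ^ k →
      H = Geo.subgroupNormalizer R ⊓ spGL m F → SpMax m H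
  | c7 (k t : ℕ) (e : Fin m ⊕ Fin m ≃ (Fin t → Fin k)) (P : GL (Fin m ⊕ Fin m) F)
      (f₁ : (Fin k → F) → (Fin k → F) → F) : Odd (Fintype.card F) → Odd t → 3 ≤ t → 2 ≤ k → k ^ t = 2 * m →
      (k = 2 → 5 ≤ Fintype.card F) → Geo.IsSymplecticForm f₁ →
      Geo.IsTensorPowerFormStructure id (sympForm m F) f₁ e P →
      H = Geo.tensorWreathSubgroup k t e P ⊓ spGL m F → SpMax m H
  | c8 (Q : (Fin m ⊕ Fin m → F) → F) : ¬ Odd (Fintype.card F) → Geo.IsNondegenerateQuadraticForm Q →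
      (∀ u v, QuadraticMap.polar Q u v = sympForm m F u v) → H = Geo.quadSimilarityGroup Q ⊓ spGL m F →
      SpMax m H
  | res : Geo.InSymplecticResidualClass H → SpMax m H

theorem five_le_of_odd (h : Odd (Fintype.card F)) (h3 : Fintype.card F ≠ 3) : 5 ≤ Fintype.card F := by
  have := Fintype.one_lt_card (α := F)
  obtain ⟨k, hk⟩ := h
  omega

theorem spMax {m : ℕ} (hm : 2 ≤ m) {H : Subgroup (GL (Fin m ⊕ Fin m) F)}
    (hH : Geo.IsMaximalIn (spGL m F) H) : SpMax m H := by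
  have hf := isSymplecticForm_sympForm m F
  have hI : H ≤ Asch.IsoB (sympPQ hf) := hH.1.le
  have : Nonempty (Fin m ⊕ Fin m) := ⟨.inl ⟨0, by omega⟩⟩
  have hq := Fintype.one_lt_card (α := F)
  have c8 : ∀ Q : (Fin m ⊕ Fin m → F) → F, ¬ Odd (Fintype.card F) → Geo.IsNondegenerateQuadraticForm Q →
      (∀ u v, QuadraticMap.polar Q u v = sympForm m F u v) → H ≤ isometryGroup F Q → SpMax m H :=
    fun Q h1 h2 h3 h => .c8 Q h1 h2 h3 (eq_inf_of_max hH (h.trans (isometryGroup_le_quadSimilarityGroup Q))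
      (Sp_not_le_quadSimilarityGroup hm h2))
  have c2n : ∀ (t k : ℕ) (D : Fin t → Submodule F (Fin m ⊕ Fin m → F)),
      Geo.IsNondegenerateMDecomposition (sympForm m F) k D → H ≤ Geo.decompositionStabilizer D → SpMax m H := by
    intro t k D h1 h
    have h2 := h1.decomp.two_le
    obtain ⟨k, rfl⟩ : 2 ∣ k := by
      rw [← h1.decomp.finrank_eq ⟨0, by omega⟩]; exact (even_of_nondegOn hf (h1.nondegenerate _)).two_dvd
    by_cases a : k = 1 ∧ Fintype.card F = 2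
    · obtain ⟨rfl, a⟩ := a
      obtain ⟨Q, b1, b2, b3, -⟩ := symp_planes_card_two a hf h1
      exact c8 Q (by rw [a]; decide) b1 b2 (h.trans b3)
    have h3 := Asch.mul_eq_card_of_decomp h1.decomp
    simp only [Fintype.card_sum, Fintype.card_fin] at h3
    exact .c2n t k D h1 (by nlinarith) h2 (by omega)
      (eq_inf_of_max hH h (Sp_not_le_decompositionStabilizer hm h1.decomp))
  rcases Asch.spCase (sympPQ_nondeg hf) (by simp; omega) hI with ⟨W, h1, h2, h⟩ | ⟨W, h1, h2, h3, h⟩ |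
    ⟨t, k, D, h1, h⟩ | ⟨k, D, h1, h2, h3, h⟩ | ⟨r, K, h1, h2, h3, h4, h⟩ | ⟨K, h1, h2, h3, h4, h⟩ |
    ⟨n₁, n₂, e, P, f₁, f₂, h1, h2, h3, h4, h5, h⟩ | ⟨F₀, r, P, ζ, h1, h2, h3, h4, h⟩ |
    ⟨R, k, h1, h2, h3, h4, h5, h6, h7, h8, h9, h⟩ | ⟨k, t, e, P, f₁, h1, h2, h3, h4, h5, h6, h⟩ |
    ⟨Q, h1, h2, h3, h⟩ | h
  · exact .c1s W h1 h2 (eq_inf_of_max hH h (Sp_not_le_subspaceStabilizer hm h1
      (ne_top_of_ts (sympPQ_nondeg hf) h2)))
  · simp only [Fintype.card_sum, Fintype.card_fin] at h3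
    obtain ⟨j, hj⟩ := even_of_nondegOn hf h2
    have h4 : finrank F W ≠ 0 := fun h0 => h1 (Submodule.finrank_eq_zero.1 h0)
    refine .c1n W h1 h2 (by omega) (by omega) (eq_inf_of_max hH h (Sp_not_le_subspaceStabilizer hm h1 ?_))
    rintro rfl
    simp at h3; omega
  · exact c2n t k D h1 h
  · obtain rfl : k = m := by
      have := Asch.mul_eq_card_of_decomp h2
      simp at this; omega
    exact .c2s D h1 h2 h3 (eq_inf_of_max hH h (Sp_not_le_decompositionStabilizer hm h2))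
  · have h5 := two_mul_dvd_of_selfAdj hf h2 h3 h4
    simp only [Fintype.card_sum, Fintype.card_fin, ← two_mul] at h5
    exact .c3s r K h1 (Nat.dvd_of_mul_dvd_mul_left two_pos h5) h2 h3 h4
      (eq_inf_of_max hH h (Sp_not_le_subalgebraNormalizer hm h2 h1.one_lt))
  · exact .c3u K h1 h2 h3 h4 (eq_inf_of_max hH h (Sp_not_le_subalgebraNormalizer hm h2 one_lt_two))
  · obtain ⟨n₁, rfl⟩ : 2 ∣ n₁ := by simpa using (Asch.even_card_of_symplectic h3).two_dvd
    have h6 : m + m = 2 * n₁ * n₂ := by simpa using Fintype.card_congr e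
    have h7 : 1 ≤ n₁ := by
      rcases Nat.eq_zero_or_pos n₁ with rfl | h7
      · omega
      · exact h7
    by_cases a : n₂ = 3 ∧ Fintype.card F = 3
    · obtain ⟨rfl, a⟩ := a
      obtain ⟨D, b1, b2, -⟩ := symp_tensor_card_three a hf (by omega) h3 h4 h5
      exact c2n 3 _ D b1 ((le_inf h hH.1.le).trans b2)
    exact .c4 n₁ n₂ e P f₁ f₂ h1 h2 (by nlinarith) (fun h8 => five_le_of_odd h1 fun h9 => a ⟨h8, h9⟩) h3 h4 h5
      (eq_inf_of_max hH h (Sp_not_le_tensorProductSubgroup hm (by omega) (by omega) e P))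
  · exact .c5 F₀ r P ζ h1 h2 h3 h4
      (eq_inf_of_max hH h (Sp_not_le_subfieldSubgroup hm (ne_top_of_card_pow h1 h2) P))
  · exact .c6 R k h1 h2 (h3.trans Asch.IsoB_le_sim) h4 h5 h6 h7 h8 (by simpa [two_mul] using h9)
      (eq_inf_of_max hH h (Sp_not_le_subgroupNormalizer hm h1.prime h1.pGroup h2))
  · have h7 : m + m = k ^ t := by simpa using Fintype.card_congr e
    have h8 : 2 ≤ k := by
      by_contra h8
      have h9 : k ^ t ≤ 1 ^ t := Nat.pow_le_pow_left (by omega) t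
      rw [one_pow] at h9
      omega
    exact .c7 k t e P f₁ h1 h2 h3 h8 (by omega) (fun h9 => five_le_of_odd h1 fun h10 => h4 ⟨h10, h9⟩) h5 h6
      (eq_inf_of_max hH h (Sp_not_le_tensorWreathSubgroup hm h8 (by omega) e P))
  · exact c8 Q h1 h2 h3 h
  · exact .res h

theorem pow_small {k t n : ℕ} (hk : 2 ≤ k) (ht : 3 ≤ t) (h : k ^ t = n) (hn : n ≤ 15) : k = 2 ∧ t = 3 := by
  have h1 : k < 3 := by
    by_contra h1
    have : 3 ^ 3 ≤ k ^ t := (Nat.pow_le_pow_left (by omega) 3).trans (Nat.pow_le_pow_right (by omega) ht)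
    omega
  obtain rfl : k = 2 := by omega
  refine ⟨rfl, ?_⟩
  by_contra h2
  have : 2 ^ 4 ≤ 2 ^ t := Nat.pow_le_pow_right (by omega) (by omega)
  omega

theorem two_pow_small {k n : ℕ} (h : n = 2 ^ k) (hn : n ≤ 15) : k ≤ 3 := by
  by_contra h2
  have : 2 ^ 4 ≤ 2 ^ k := Nat.pow_le_pow_right (by omega) (by omega)
  omega

end Cfsg.Agent.H2.Cases
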