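import Cfsg.Agent.H2.MiQ
import Cfsg.Agent.H5.ZStar
import Cfsg.Agent.MH.Grp

/-!
Package I: there are no roots.
-/

set_option autoImplicit false

namespace Cfsg.Agent.H2.Mi

open Matrix Cfsg.Agent.H1.Mit

variable {T K : Type*} [Group T] [Field K] {ρ : SRep T K} {p : ℕ}

theorem gt [Finite T] (hp : commutator T = ⊤) {S N : Subgroup T} (hS : Odd S.index)
    (hN : ∀ a ∈ S, ∀ b ∈ S, a * b * a⁻¹ * b⁻¹ ∈ N) {t : T} (ht : t ∈ S) (h2 : t * t = 1)
    (h : ∀ g, g * t * g⁻¹ ∈ S → g * t * g⁻¹ * t ∈ N) : t ∈ N := by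
  classical
  have hn : (N.subgroupOf S).Normal := ⟨fun n hn g => by
    have := N.mul_mem (hN _ g.2 _ n.2) hn
    simpa [Subgroup.mem_subgroupOf] using this⟩
  letI : CommGroup (S ⧸ N.subgroupOf S) := { (inferInstance : Group (S ⧸ N.subgroupOf S)) with
    mul_comm := fun a b => by
      obtain ⟨a, rfl⟩ := QuotientGroup.mk_surjective a
      obtain ⟨b, rfl⟩ := QuotientGroup.mk_surjective b
      exact QuotientGroup.eq.2 (by
        simpa [Subgroup.mem_subgroupOf, mul_assoc] using hN _ (inv_mem b.2) _ (inv_mem a.2)) }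
  have := Fintype.ofFinite (Quotient (MulAction.orbitRel (Subgroup.zpowers t) (T ⧸ S)))
  have h1 := MH.hom_eq_one hp (MonoidHom.transfer (QuotientGroup.mk' (N.subgroupOf S))) t
  obtain ⟨c, hc⟩ : ∃ c, c = QuotientGroup.mk' (N.subgroupOf S) ⟨t, ht⟩ := ⟨_, rfl⟩
  have c2 : c ^ 2 = 1 := by rw [hc, ← map_pow, ← map_one (QuotientGroup.mk' _)]; congr 1; exact Subtype.ext (by simpa [pow_two])
  have t2 : t ^ 2 = 1 := by rwa [pow_two]
  rw [MonoidHom.transfer_eq_prod_quotient_orbitRel_zpowers_quot, Finset.prod_congr rfl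
    (g := fun q => c ^ Function.minimalPeriod (t • ·) q.out) fun q _ => ?_, Finset.prod_pow_eq_pow_sum,
    ← Subgroup.index_eq_sum_minimalPeriod] at h1
  · obtain ⟨k, hk⟩ := hS
    rw [hk, pow_succ, pow_mul, c2, one_pow, one_mul, hc] at h1
    simpa [Subgroup.mem_subgroupOf] using (QuotientGroup.eq_one_iff _).1 h1
  have hm := QuotientGroup.out_conj_pow_minimalPeriod_mem S t q.out
  change QuotientGroup.mk' (N.subgroupOf S) ⟨_, hm⟩ = _
  generalize Function.minimalPeriod (t • ·) q.out = m at hm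
  rcases Nat.even_or_odd' m with ⟨k, rfl | rfl⟩
  · simp only [pow_mul, t2, c2, one_pow, mul_one, inv_mul_cancel]
    exact map_one _
  · simp only [pow_succ, pow_mul, t2, c2, one_pow, one_mul] at hm ⊢
    rw [hc]
    refine (QuotientGroup.eq.2 ?_).symm
    have := hn.conj_mem ⟨_, S.mul_mem hm ht⟩ (by simpa [Subgroup.mem_subgroupOf] using h q.out.out⁻¹ (by simpa using hm))
      ⟨t, ht⟩⁻¹
    simpa [Subgroup.mem_subgroupOf, mul_assoc, h2] using this

theorem rot_odd {X : M4 K} {x : T} (hX : ρ.L x X) {c : K} (h : X + ad X = c • 1) :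
    (c * c = 1 → x ^ 3 = 1) ∧ (c * c * (c * c) - 3 * (c * c) + 1 = 0 → x ^ 5 = 1) := by
  have e1 : X ^ 1 = (1 : K) • X + (0 : K) • 1 := by simp
  have e3 := rot_step hX.sp h (rot_step hX.sp h e1)
  have e5 := rot_step hX.sp h (rot_step hX.sp h e3)
  have k : ∀ {n : ℕ} {a b : K}, X ^ n = a • X + b • 1 → a = 0 → x ^ n = 1 := fun {n a b} e ha =>
    L_scalar (c := b) ((hX.pow n).congr (by simp [e, ha]))
  exact ⟨fun e => k e3 (by linear_combination e), fun e => k e5 (by linear_combination e)⟩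

theorem fin3 {P : Fin 3 → Prop} (h0 : P 0) (h1 : P 1) (h2 : P 2) (i : Fin 3) : P i := by
  fin_cases i <;> assumption

theorem act_smul (X e : M4 K) (c : K) : act X (c • e) = c • act X e := by simp [act]

theorem act_sub (X e f : M4 K) : act X (e - f) = act X e - act X f := by simp [act, mul_sub, sub_mul]

theorem act_L {g : T} {X Y : M4 K} (hX : ρ.L g X) (hY : ρ.L g Y) (u : M4 K) : act Y u = act X u := by
  rcases hX.uniq hY with rfl | rfl <;> simp [act]

variable [NeZero (2 : K)]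

theorem not_anti {X : M4 K} (hX : Sp X) (h : X = -X) : False := hX.ne_neg two_ne_zero h

theorem comm_two {a b v : M4 K} (ha : Rt ρ a) (hb : Rt ρ b) (h : bt a b = 0) (hv : IsV v) (h1 : a * v = v * a)
    (h2 : b * v = v * b) : v = 0 := by
  obtain ⟨l, hl⟩ := ha.v.comm hv ha.ne h1
  obtain ⟨m, hm⟩ := hb.v.comm hv hb.ne h2
  have := congrArg (bt a) (hl.symm.trans hm)
  simp only [bt_smul_right, ha.bt_self, h, mul_zero, mul_eq_zero, two_ne_zero, or_false] at this
  rw [hl, this, zero_smul]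

variable [Finite T] [IsAlgClosed K]

theorem perp_root (h : Ctx ρ p) {a : M4 K} (ha : Rt ρ a) : ∃ b, Rt ρ b ∧ bt b a = 0 := by
  obtain ⟨t, ht⟩ := ha.ex
  have t2 : t * t = 1 := (ht.mul ht).eq_one_iff.2 (Or.inl ha.sq)
  by_contra! k
  obtain ⟨N, hn, ho, hN⟩ := H5.ZStar.zstar' t2 fun g => by
    obtain ⟨G, hG⟩ := ρ.exL g
    have hb := ha.conj hG
    have l := hG.conj ht
    obtain ⟨o3, o5⟩ := rot_odd (ht.mul l) (rt_rot ha.v hb.v)
    generalize G * a * ad G = b at *
    have o1 : ∀ b, ρ.L (g * t * g⁻¹) b → b = a → Odd (orderOf (t * (g * t * g⁻¹))) := fun b l e => by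
      rw [l.inj (e ▸ ht), t2, orderOf_one]; exact odd_one
    rcases gram h ha hb with e | e | ⟨e | e | e | e, -⟩
    · exact o1 _ l e
    · exact o1 _ l.neg (by simp [e])
    · exact (k b hb (by rw [bt_comm]; simpa using e)).elim
    · exact Odd.of_dvd_nat (by decide) (orderOf_dvd_of_pow_eq_one (o3 e))
    · exact (k _ (hb.refl ha) (by simp [ha.bt_self, bt_comm b a, e])).elim
    · exact Odd.of_dvd_nat (by decide) (orderOf_dvd_of_pow_eq_one (o5 e))
  have := h.hyp.simple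
  have := Fact.mk Nat.prime_two
  rcases hn.eq_bot_or_eq_top with rfl | rfl
  · refine ha.ne_one ht (h.cent fun g => ?_)
    rw [Subgroup.mem_bot.1 (hN _ _ (.refl t) (isConj_iff.2 ⟨g, rfl⟩)),
      Subgroup.mem_bot.1 (hN _ _ (isConj_iff.2 ⟨g, rfl⟩) (.refl t))]
  · have := ho.of_dvd_nat (Subgroup.orderOf_dvd_natCard ⊤ (Subgroup.mem_top t))
    rw [orderOf_eq_prime (p := 2) (by rwa [pow_two]) (ha.ne_one ht)] at this
    exact absurd this (by decide)

theorem no_m4 (h : Ctx ρ p) {a b : M4 K} (ha : Rt ρ a) (hb : Rt ρ b) : bt a b * bt a b ≠ 2 := fun hc => by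
  obtain ⟨s, hs⟩ := ha.ex
  obtain ⟨t, ht⟩ := hb.ex
  have l := hs.mul ht
  obtain ⟨y, A, B, G, hy, q⟩ := exists_quat h l (rt_rot ha.v hb.v) hc
  obtain ⟨c, e⟩ : ∃ c, c = bt a b := ⟨_, rfl⟩
  have r2 : Rt ρ (a - c • b) := by rw [e, bt_comm]; exact hb.refl ha
  rw [← e] at hc
  have a2 : bt a (a - c • b) = 0 := by simp [ha.bt_self, ← e, hc]
  have eb : b = (c / 2) • (a - (a - c • b)) := by simp [smul_smul, div_mul_eq_mul_div, hc, two_ne_zero]
  have ej : a * b * (a * b) = -(a * (a - c • b)) := by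
    have := rot_step l.sp (rt_rot ha.v hb.v) (n := 1) (a := 1) (b := 0) (by simp)
    rw [← pow_two, this, ← e, mul_sub, ha.sq]; simp [sub_eq_add_neg]
  have sj := (l.mul l).sp
  have jy : a * b * (a * b) * y = y * (a * b * (a * b)) := by rw [mul_assoc, hy, ← mul_assoc, hy, mul_assoc]
  generalize a - c • b = f at *
  have af := r2.v.anti ha.v (bt_comm a f ▸ a2)
  have y0 : ∀ u, IsV u → u * (a * f) = -(a * f * u) → bt u y = 0 := fun u hu k => by
    have := bt_act sj hu q.rt.v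
    have k' : a * b * (a * b) * u = -u * (a * b * (a * b)) := by rw [ej, neg_mul_neg, k, neg_mul]
    rw [act_fix sj jy, act, k', mul_assoc, sj.right, mul_one, bt_neg_left] at this
    exact (mul_eq_zero.1 (by linear_combination -this : 2 * bt u y = 0)).resolve_left two_ne_zero
  have k1 : a * (a * f) = -(a * f * a) := by rw [mul_assoc, af, mul_neg, neg_neg]
  have ay := y0 a ha.v k1
  have fy := y0 f r2.v (by rw [← mul_assoc, af, neg_mul])
  have by' : bt b y = 0 := by rw [eb]; simp [ay, fy]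
  have F := q.frame ha ay
  have e1 : act (A * B) a = f := by
    rw [q.jact a ha.v ay (by rw [ej, mul_neg, k1, neg_mul]), ej, neg_mul, ← k1, ← mul_assoc, ha.sq, one_mul]
  obtain ⟨_, lA⟩ := q.a
  obtain ⟨_, lB⟩ := q.b
  obtain ⟨_, lG⟩ := q.g
  have b1 : act B b = (c / 2) • (act B a - act A a) := by rw [eb, act_smul, act_sub, ← e1, ← act_mul, q.bab]
  have b2 : act A b = (c / 2) • (act A a + act B a) := by rw [eb, act_smul, act_sub, ← e1, q.act_a ha.v ay, sub_neg_eq_add]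
  have b3 : act (A * B) b = (c / 2) • (f + a) := by
    rw [eb, act_smul, act_sub, ← e1, ← act_mul, q.ab, act_root q.rt ha.v ay, sub_neg_eq_add]
  have g1 := q.gact a ha.v ay
  have g2 := q.gact b hb.v by'
  rw [b1, b2, b3] at g2
  rw [e1] at g1 F
  have R := F.rs5 h
  have k := F.2
  have k0 := fun i => (F.1 i).bt_self
  have m : ∀ {v : M4 K} {x : Fin 5 → K}, Rt ρ v → ∀ z : Fin 5 → K, v + v = ∑ i, z i • ![a, f, act A a, act B a, y] i →
      (∀ i, x i * x i = z i * z i) → x ∈ co ![a, f, act A a, act B a, y] '' {a | Rt ρ a} := fun {v x} hv z e k =>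
    R.sgn (x := z) ⟨v, hv, by
      rw [← (F.lift z).2]; congr 1
      refine half ?_
      rw [e, ← Finset.sum_add_distrib]
      exact Finset.sum_congr rfl fun i _ => by rw [← add_smul, add_halves]⟩ k
  refine R.f4 hc (m hb ![c, -c, 0, 0, 0] ?_ ?_) (m (hb.conj lG) ![c, 0, c, 0, 0] (g2.trans ?_) (fun _ => rfl))
    (m (hb.conj lB) ![0, 0, -c, c, 0] ?_ ?_) (m (ha.conj lG) ![1, 1, 1, -1, 0] (g1.trans ?_) ?_)
  · rw [eb, ← add_smul, add_halves]; simp [Fin.sum_univ_five, smul_sub, sub_eq_add_neg]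
  · intro i; fin_cases i <;> simp
  · have : c = c / 2 + c / 2 := (add_halves c).symm
    rw [eb]
    generalize c / 2 = d at this
    simp [Fin.sum_univ_five, this]; module
  · rw [← act, b1, ← add_smul, add_halves]; simp [Fin.sum_univ_five]; module
  · intro i; fin_cases i <;> simp
  · simp [Fin.sum_univ_five]; abel
  · intro i; fin_cases i <;> simp

theorem no_frame (h : Ctx ρ p) {e : Fin 5 → M4 K} (F : Fr ρ e) : False :=
  (F.rs5 h).no2 (by rintro _ ⟨a, ha, rfl⟩ _ ⟨b, hb, rfl⟩; rw [F.bt_eq ha.v]; exact no_m4 h ha hb)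

theorem rot_two (h : Ctx ρ p) {S : Subgroup T} (hS : IsPGroup 2 S) {x : T} (hx : x ∈ S) {X : M4 K} (hX : ρ.L x X) {c : K}
    (e : X + ad X = c • 1) : x = 1 ∨ c = 0 := by
  obtain ⟨n, hn⟩ := hS ⟨x, hx⟩
  have k : ∀ m, Odd m → x ^ m = 1 → x = 1 := fun m hm e => orderOf_eq_one_iff.1 (Nat.eq_one_of_dvd_coprimes
    ((Nat.coprime_two_left.2 hm).pow_left n) (orderOf_dvd_of_pow_eq_one (congrArg Subtype.val hn))
    (orderOf_dvd_of_pow_eq_one e))
  obtain ⟨o3, o5⟩ := rot_odd hX e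
  by_cases hc : c * c = 4
  · rcases h.u with ⟨-, hq⟩ | ⟨h3, -⟩
    · have k : ∀ X, ρ.L x X → X + ad X = (2 : K) • 1 → x = 1 := fun X hX e => hX.eq_one_iff.2 (Or.inl (hq _ _ hX (by
        rw [mul_sub, sub_mul, ← pow_two, rot_step hX.sp e (n := 1) (a := 1) (b := 0) (by simp)]; simp [two_smul]; abel)))
      rcases mul_self_eq_mul_self_iff.1 (hc.trans (by norm_num : (4 : K) = 2 * 2)) with rfl | rfl
      exacts [Or.inl (k X hX e), Or.inl (k _ hX.neg (by rw [ad_neg, ← neg_add, e]; simp))]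
    · exact Or.inl (k 3 (by decide) (o3 (by linear_combination hc + h3)))
  rcases rot_order h hX e hc with e' | e' | e' | e'
  · exact Or.inr (mul_self_eq_zero.1 e')
  · exact Or.inl (k 3 (by decide) (o3 e'))
  · obtain ⟨y, A, B, G, -, q⟩ := exists_quat h hX e e'
    obtain ⟨b, hb, h0⟩ := perp_root h q.rt
    exact (no_frame h (q.frame hb h0)).elim
  · exact Or.inl (k 5 (by decide) (o5 e'))

theorem perp_two (h : Ctx ρ p) {S : Subgroup T} (hS : IsPGroup 2 S) {s t : T} (hs : s ∈ S) (ht : t ∈ S) {a b : M4 K}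
    (ha : Rt ρ a) (hb : Rt ρ b) (l : ρ.L s a) (l' : ρ.L t b) : s = t ∨ bt a b = 0 :=
  (rot_two h hS (mul_mem hs ht) (l.mul l') (rt_rot ha.v hb.v)).imp_left fun e => by
    rw [← mul_one s, ← (l'.mul l').eq_one_iff.2 (Or.inl hb.sq), ← mul_assoc, e, one_mul]

theorem fix_two (h : Ctx ρ p) {S : Subgroup T} (hS : IsPGroup 2 S) {x : T} (hx : x ∈ S) {X a b : M4 K} (hX : ρ.L x X)
    (ha : Rt ρ a) (hb : Rt ρ b) (h0 : bt a b = 0) (h1 : X * a = a * X) (h2 : X * b = b * X) : x = 1 ∨ X * X = -1 := by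
  have := comm_two ha hb h0 (isV_av X) (av_comm hX.sp h1) (av_comm hX.sp h2)
  rw [av, sub_eq_zero] at this
  refine (rot_two h hS hx hX this).imp_right fun e => ?_
  rw [e, zero_smul] at this
  rw [← hX.sp.right, eq_neg_of_add_eq_zero_right this]; simp

theorem no_f3 (h : Ctx ρ p) (S : Sylow 2 T) {e : Fin 3 → M4 K} {t : Fin 3 → T} (he : ∀ i, Rt ρ (e i))
    (l : ∀ i, ρ.L (t i) (e i)) (hS : ∀ i, t i ∈ S) (h0 : ∀ i j, i ≠ j → bt (e i) (e j) = 0) : False := by
  have := Fact.mk Nat.prime_two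
  have all : ∀ s ∈ S, ∀ a, Rt ρ a → ρ.L s a → ∃ i, s = t i := fun s hs a ha la => by
    by_contra! k
    have := fun i => (perp_two h S.isPGroup' (hS i) hs (he i) ha (l i) la).resolve_left (k i).symm
    exact no_frame h (frame4 (he 0) (he 1) (he 2) ha (h0 _ _ (by decide)) (h0 _ _ (by decide)) (this 0)
      (h0 _ _ (by decide)) (this 1) (this 2))
  have an := fun i j hij => (he i).v.anti (he j).v (h0 i j hij)
  have inj : Function.Injective t := fun i j k => by
    by_contra hij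
    have := h0 i j hij
    rcases (l i).uniq (k ▸ l j) with k | k <;> simp [k, (he i).bt_self, two_ne_zero] at this
  have cj : ∀ (s : S) i, ∃ j, s.1 * t i * s.1⁻¹ = t j := fun s i => by
    obtain ⟨X, hX⟩ := ρ.exL s.1
    exact all _ (mul_mem (mul_mem s.2 (hS i)) (inv_mem s.2)) _ ((he i).conj hX) (hX.conj (l i))
  choose σ hσ using cj
  let φ : S →* Equiv.Perm (Fin 3) := MonoidHom.toHomPerm
    { toFun := σ
      map_one' := funext fun i => inj ((hσ 1 i).symm.trans (by simp; rfl))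
      map_mul' := fun a b => funext fun i => inj (by
        change t (σ (a * b) i) = t (σ a (σ b i))
        rw [← hσ, ← hσ, ← hσ]; simp [mul_assoc]) }
  let P : M4 K → Prop := fun u => IsV u ∧ ∀ i, bt u (e i) = 0
  have hP : ∀ s ∈ S, ∀ X, ρ.L s X → ∀ u, P u → P (act X u) := fun s hs X hX u hu => ⟨hu.1.act hX.sp, fun i => by
    have l' := (hX.inv.conj (l i)).congr' (hσ ⟨s, hs⟩⁻¹ i).symm
    rw [← bt_act hX.sp.inv (hu.1.act hX.sp) (he i).v, ← act_mul, hX.sp.left, act, act]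
    rcases (l _).uniq l' with k | k <;> rw [k] <;> simp [hu.2]⟩
  let Pm : T → Prop := fun g => ∃ X ε, ρ.L g X ∧ (ε : K) * ε = 1 ∧ ∀ u, P u → act X u = ε • u
  have m1 : ∀ i, ∀ u, P u → act (e i) u = -u := fun i u hu => act_root (he i) hu.1 (hu.2 i)
  have m2 : ∀ g i, Pm (g * t i) → Pm g := fun g i ⟨X, ε, hX, h1, h2⟩ => by
    obtain ⟨G, hG⟩ := ρ.exL g
    exact ⟨G, -ε, hG, by simpa using h1, fun u hu => by
      rw [neg_smul, ← h2 u hu, act_L (hG.mul (l i)) hX, act_mul, m1 i u hu, act_neg, neg_neg]⟩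
  have m0 : Pm 1 := ⟨1, 1, ρ.oneL, by simp, by simp [act]⟩
  have key1 : ∀ s ∈ S, ∀ X, ρ.L s X → (∀ i, X * e i = e i * X) → Pm s := fun s hs X hX k => by
    rcases fix_two h S.isPGroup' hs hX (he 0) (he 1) (h0 _ _ (by decide)) (k 0) (k 1) with rfl | k2
    · exact m0
    have lw := ((hX.mul (l 0)).mul (l 1)).mul (l 2)
    have k' : ∀ i x, e i * (X * x) = X * (e i * x) := fun i x => by rw [← mul_assoc, ← k, mul_assoc]
    have a' : ∀ i j, i ≠ j → ∀ x, e i * (e j * x) = -(e j * (e i * x)) := fun i j hij x => by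
      rw [← mul_assoc, an i j hij, neg_mul, mul_assoc]
    have s' : ∀ i x, e i * (e i * x) = x := fun i x => by rw [← mul_assoc, (he i).sq, one_mul]
    have w2 : X * e 0 * e 1 * e 2 * (X * e 0 * e 1 * e 2) = 1 := by
      simp only [mul_assoc, k', a' 1 0 (by decide), a' 2 0 (by decide), a' 2 1 (by decide), s', mul_neg, neg_neg, (he 2).sq,
        ← mul_assoc X X, k2]
      simp
    refine m2 _ 0 (m2 _ 1 (m2 _ 2 ?_))
    rcases root_cases lw.sp w2 with k3 | k3 | k3
    · rwa [lw.eq_one_iff.2 (Or.inl k3)]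
    · rwa [lw.eq_one_iff.2 (Or.inr k3)]
    · have := comm_two (he 0) (he 1) (h0 _ _ (by decide)) k3 (by
        simp only [mul_assoc, k', a' 1 0 (by decide), an 1 0 (by decide), an 2 0 (by decide), s', mul_neg, neg_neg]) (by
        simp only [mul_assoc, k', a' 1 0 (by decide), an 2 1 (by decide), s', mul_neg, neg_neg])
      simp [this] at w2
  have key2 : ∀ s ∈ S, ∀ X, ρ.L s X → (∀ i, X * e i = -(e i * X)) → False := fun s hs X hX k => by
    have c : ∀ i, i ≠ 0 → X * e 0 * e i = e i * (X * e 0) := fun i hi => by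
      rw [mul_assoc, an 0 i hi.symm, mul_neg, ← mul_assoc, k, neg_mul, neg_neg, mul_assoc]
    rcases fix_two h S.isPGroup' (mul_mem hs (hS 0)) (hX.mul (l 0)) (he 1) (he 2) (h0 _ _ (by decide)) (c 1 (by decide))
      (c 2 (by decide)) with k2 | k2
    · have := k 0
      rcases (l 0).inv.uniq (hX.congr' (eq_inv_of_mul_eq_one_left k2).symm) with rfl | rfl <;>
        simp only [(he 0).v.ad, (he 0).sq, neg_mul, mul_neg, neg_inj] at this <;> exact not_anti Sp.one this
    have k3 : X * X = 1 := by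
      rw [mul_assoc, ← mul_assoc (e 0), neg_eq_iff_eq_neg.2 (k 0) |>.symm, neg_mul, mul_assoc, (he 0).sq] at k2
      simpa using k2
    rcases root_cases hX.sp k3 with rfl | rfl | k4
    · exact not_anti (l 0).sp (by simpa using k 0)
    · exact not_anti (l 0).sp (by simpa using (k 0).symm)
    · obtain ⟨i, rfl⟩ := all s hs X ⟨k4, k3, _, hX⟩ hX
      have := k i
      rcases (l i).uniq hX with rfl | rfl <;> simp only [(he i).sq, neg_mul, mul_neg, neg_inj] at this <;>
        exact not_anti Sp.one this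
  have key : ∀ s : S, φ s = 1 → Pm s.1 := fun s hs => by
    obtain ⟨X, hX⟩ := ρ.exL s.1
    have c : ∀ i, X * e i = e i * X ∨ X * e i = -(e i * X) := fun i => ((l i).comm_iff hX).1 (by
      have := hσ s i
      rw [show σ s i = i from DFunLike.congr_fun hs i, mul_inv_eq_iff_eq_mul] at this
      exact this.symm)
    have f : ∀ i j, ∀ ε : K, X * e j = ε • (e j * X) → X * e i * e j = (if i = j then ε else -ε) • (e j * (X * e i)) :=
      fun i j ε k => by
        split_ifs with hij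
        · rw [hij, k, Matrix.smul_mul, mul_assoc, k]
        · rw [mul_assoc, an i j hij, mul_neg, ← mul_assoc, k]; simp [mul_assoc]
    have g1 := fun i => key1 _ (mul_mem s.2 (hS i)) _ (hX.mul (l i))
    have g2 := fun i => key2 _ (mul_mem s.2 (hS i)) _ (hX.mul (l i))
    have p1 := fun i j (k : X * e j = e j * X) => f i j 1 (by simpa using k)
    have p2 := fun i j (k : X * e j = -(e j * X)) => f i j (-1) (by simpa using k)
    rcases c 0 with c0 | c0 <;> rcases c 1 with c1 | c1 <;> rcases c 2 with c2 | c2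
    · exact key1 _ s.2 X hX (fin3 c0 c1 c2)
    · exact (g2 2 (fin3 (by simpa using p1 2 0 c0) (by simpa using p1 2 1 c1) (by simpa using p2 2 2 c2))).elim
    · exact (g2 1 (fin3 (by simpa using p1 1 0 c0) (by simpa using p2 1 1 c1) (by simpa using p1 1 2 c2))).elim
    · exact m2 _ 0 (g1 0 (fin3 (by simpa using p1 0 0 c0) (by simpa using p2 0 1 c1) (by simpa using p2 0 2 c2)))
    · exact (g2 0 (fin3 (by simpa using p2 0 0 c0) (by simpa using p1 0 1 c1) (by simpa using p1 0 2 c2))).elim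
    · exact m2 _ 1 (g1 1 (fin3 (by simpa using p2 1 0 c0) (by simpa using p1 1 1 c1) (by simpa using p2 1 2 c2)))
    · exact m2 _ 2 (g1 2 (fin3 (by simpa using p2 2 0 c0) (by simpa using p2 2 1 c1) (by simpa using p1 2 2 c2)))
    · exact (key2 _ s.2 X hX (fin3 c0 c1 c2)).elim
  let N : Subgroup T := ⨅ (u) (_ : P u), Stab ρ u
  have hN : ∀ g X, ρ.L g X → (g ∈ N ↔ ∀ u, P u → act X u = u) := fun g X hX => by
    simp only [N, Subgroup.mem_iInf, mem_Stab hX]
    exact forall₂_congr fun u _ => ⟨act_fix hX.sp, fun k => by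
      conv_rhs => rw [← k, act, mul_assoc, hX.sp.left, mul_one]⟩
  have cm : ∀ a b : S, φ a = 1 → a.1 * b.1 * a.1⁻¹ * b.1⁻¹ ∈ N := fun a b k => by
    obtain ⟨A, ε, hA, e1, e2⟩ := key a k
    obtain ⟨B, hB⟩ := ρ.exL b.1
    refine (hN _ _ (((hA.mul hB).mul hA.inv).mul hB.inv)).2 fun u hu => ?_
    have u1 := hP _ (inv_mem b.2) _ hB.inv u hu
    have e3 : act (ad A) (act (ad B) u) = ε • act (ad B) u := by
      conv_lhs => rw [← one_smul K (act (ad B) u), ← e1, mul_smul, ← e2 _ u1, act_smul, ← act_mul, hA.sp.left]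
      simp [act]
    rw [act_mul, act_mul, e3, act_mul, act_smul, ← act_mul B, hB.sp.right, act_smul, show act 1 u = u by simp [act], e2 u hu,
      smul_smul, e1, one_smul]
  have o3 : ∀ s : S, φ s ^ 3 = 1 → φ s = 1 := fun s k => by
    obtain ⟨n, hn⟩ := S.isPGroup' s
    exact orderOf_eq_one_iff.1 (Nat.eq_one_of_dvd_coprimes ((by norm_num : Nat.Coprime 2 3).pow_left n)
      (orderOf_dvd_of_pow_eq_one (by rw [← map_pow, hn, map_one])) (orderOf_dvd_of_pow_eq_one k))
  have t2 : t 0 * t 0 = 1 := ((l 0).mul (l 0)).eq_one_iff.2 (Or.inl (he 0).sq)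
  have := gt h.hyp.perf (N := N) (Nat.odd_iff.2 (Nat.two_dvd_ne_zero.1 S.not_dvd_index)) (fun a ha b hb => by
    rcases (by decide +kernel : ∀ σ τ : Equiv.Perm (Fin 3), (σ ^ 3 = 1 → σ = 1) → (τ ^ 3 = 1 → τ = 1) →
      ((σ * τ) ^ 3 = 1 → σ * τ = 1) → σ = 1 ∨ τ = 1 ∨ σ * τ = 1) _ _ (o3 ⟨a, ha⟩) (o3 ⟨b, hb⟩)
      (by rw [← map_mul]; exact o3 _) with k | k | k
    · exact cm ⟨a, ha⟩ ⟨b, hb⟩ k
    · simpa [mul_assoc] using inv_mem (cm ⟨b, hb⟩ ⟨a, ha⟩ k)
    · simpa [mul_assoc] using cm (⟨a, ha⟩ * ⟨b, hb⟩) ⟨b, hb⟩ (by rwa [map_mul])) (hS 0) t2 fun g hg => by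
    obtain ⟨G, hG⟩ := ρ.exL g
    obtain ⟨i, k⟩ := all _ hg _ ((he 0).conj hG) (hG.conj (l 0))
    exact k ▸ (hN _ _ ((l i).mul (l 0))).2 fun u hu => by rw [act_mul, m1 0 u hu, act_neg, m1 i u hu, neg_neg]
  obtain ⟨u, u1, u0, u2, u3, u4, -⟩ := exists_perp (e 0) (e 1) (e 2) 0
  have hu : P u := ⟨u1, fin3 u2 u3 u4⟩
  have := ((hN _ _ (l 0)).1 this u hu).symm.trans (m1 0 u hu)
  exact u0 (half (by rw [add_zero]; exact add_eq_zero_iff_eq_neg.2 this))

theorem no_root (h : Ctx ρ p) {a : M4 K} (ha : Rt ρ a) : False := by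
  have := Fact.mk Nat.prime_two
  obtain ⟨b, hb, h0⟩ := perp_root h ha
  obtain ⟨s, hs⟩ := ha.ex
  obtain ⟨t, ht⟩ := hb.ex
  have an := hb.v.anti ha.v h0
  have s2 : s * s = 1 := (hs.mul hs).eq_one_iff.2 (Or.inl ha.sq)
  have t2 : t * t = 1 := (ht.mul ht).eq_one_iff.2 (Or.inl hb.sq)
  obtain ⟨S, h1, h2⟩ : ∃ S : Sylow 2 T, s ∈ S ∧ t ∈ S := by
    obtain ⟨S, hS⟩ := ((MH.isPGroup_zpowers (r := 2) (k := 1) (z := s) (by simpa [pow_two])).to_sup_of_normal_right'
      (MH.isPGroup_zpowers (r := 2) (k := 1) (z := t) (by simpa [pow_two])) (Subgroup.zpowers_le.2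
      (Subgroup.centralizer_le_normalizer _ (Subgroup.mem_centralizer_iff.2 (by
        rintro _ ⟨k, rfl⟩
        exact (Commute.zpow_left ((hs.comm_iff ht).2 (Or.inr an)).symm k).eq))))).exists_le_sylow
    exact ⟨S, hS (Subgroup.mem_sup_left (Subgroup.mem_zpowers _)), hS (Subgroup.mem_sup_right (Subgroup.mem_zpowers _))⟩
  have all : ∀ u ∈ S, ∀ c, Rt ρ c → ρ.L u c → u = s ∨ u = t := fun u hu c hc l => by
    by_contra! k
    have k1 := (perp_two h S.isPGroup' hu h1 hc ha l hs).resolve_left k.1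
    have k2 := (perp_two h S.isPGroup' hu h2 hc hb l ht).resolve_left k.2
    refine no_f3 h S (e := ![a, b, c]) (t := ![s, t, u]) (fin3 ha hb hc) (fin3 hs ht l) (fin3 h1 h2 hu) fun i j hij => ?_
    fin_cases i <;> fin_cases j <;> simp [*, bt_comm a b, bt_comm a c, bt_comm b c] at hij ⊢
  have a1 : a * (a * b) = -(a * b * a) := by rw [mul_assoc, an, mul_neg, neg_neg]
  have b1 : b * (a * b) = -(a * b * b) := by rw [← mul_assoc, an, neg_mul]
  have sg : ∀ u ∈ S, ∀ X, ρ.L u X → ∃ ε : K, ε * ε = 1 ∧ act X (a * b) = ε • (a * b) := fun u hu X hX => by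
    have e : act X (a * b) = act X a * act X b := by
      simp only [act, mul_assoc, ← mul_assoc (ad X) X, hX.sp.left, one_mul]
    have l1 : ρ.L _ (act X a) := hX.conj hs
    have l2 : ρ.L _ (act X b) := hX.conj ht
    have n : bt (act X b) (act X a) = 0 := by rw [bt_act hX.sp hb.v ha.v, h0]
    rw [e]
    rcases all _ (mul_mem (mul_mem hu h1) (inv_mem hu)) _ (ha.conj hX) l1 with k | k <;>
      rcases all _ (mul_mem (mul_mem hu h2) (inv_mem hu)) _ (hb.conj hX) l2 with k' | k' <;> rw [k] at l1 <;> rw [k'] at l2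
    · rcases hs.uniq l1 with k | k <;> rcases hs.uniq l2 with k' | k' <;>
        simp [k, k', ha.bt_self, two_ne_zero] at n
    · rcases hs.uniq l1 with k | k <;> rcases ht.uniq l2 with k' | k' <;> rw [k, k']
      exacts [⟨1, by simp⟩, ⟨-1, by simp⟩, ⟨-1, by simp⟩, ⟨1, by simp⟩]
    · rcases ht.uniq l1 with k | k <;> rcases hs.uniq l2 with k' | k' <;> rw [k, k']
      exacts [⟨-1, by simp [an]⟩, ⟨1, by simp [an]⟩, ⟨1, by simp [an]⟩, ⟨-1, by simp [an]⟩]
    · rcases ht.uniq l1 with k | k <;> rcases ht.uniq l2 with k' | k' <;>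
        simp [k, k', hb.bt_self, two_ne_zero] at n
  have := gt h.hyp.perf (N := Stab ρ (a * b)) (Nat.odd_iff.2 (Nat.two_dvd_ne_zero.1 S.not_dvd_index))
    (fun x hx y hy => by
      obtain ⟨X, hX⟩ := ρ.exL x
      obtain ⟨Y, hY⟩ := ρ.exL y
      obtain ⟨ε, e1, e2⟩ := sg x hx X hX
      obtain ⟨η, e3, e4⟩ := sg y hy Y hY
      have : act (X * Y) (a * b) = act (Y * X) (a * b) := by
        rw [act_mul, act_mul, e2, e4, act_smul, act_smul, e2, e4, smul_comm]
      have l := hY.mul hX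
      rw [show x * y * x⁻¹ * y⁻¹ = x * y * (y * x)⁻¹ by group, mem_Stab ((hX.mul hY).mul l.inv)]
      have k : act (Y * X) (a * b) = (ε * η) • (a * b) := by rw [act_mul, e2, act_smul, e4, smul_smul]
      have k' : ∀ Z, Sp Z → act Z (a * b) = (ε * η) • (a * b) → Z * (a * b) = (ε * η) • (a * b * Z) := fun Z hZ e => by
        rw [← Matrix.smul_mul, ← e, act, mul_assoc, hZ.left, mul_one]
      have k2 : a * b * ad (Y * X) = (ε * η) • (ad (Y * X) * (a * b)) := by
        rw [← Matrix.mul_smul, ← k, act, ← mul_assoc, ← mul_assoc, l.sp.left, one_mul]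
      rw [← mul_assoc (a * b), ← one_smul K (a * b * (X * Y)), show (1 : K) = ε * η * (ε * η) by
        linear_combination -η * η * e1 - e3, mul_smul, ← k' _ (hX.mul hY).sp (this.trans k), Matrix.smul_mul,
        mul_assoc (X * Y) (a * b), k2, Matrix.mul_smul, smul_smul, show ε * η * (ε * η) = 1 by
        linear_combination η * η * e1 + e3, one_smul, mul_assoc]) h1 s2 fun g hg => by
    obtain ⟨G, hG⟩ := ρ.exL g
    rcases all _ hg _ (ha.conj hG) (hG.conj hs) with k | k <;> rw [k]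
    · rw [s2]; exact one_mem _
    · rw [mem_Stab (ht.mul hs), mul_assoc, a1, mul_neg, ← mul_assoc, b1, neg_mul, neg_neg, mul_assoc]
  exact not_anti ((hs.mul ht).mul hs).sp ((this a hs).symm.trans a1)

theorem pkgI {T K : Type*} [Group T] [Field K] [Finite K] {ρ : SRep T K} (h : ρ.Hyp) (hU : ρ.SmallU) : ρ.NoRoot := by
  have := ρ.finite
  have h' := h.map (algebraMap K (AlgebraicClosure K))
  have : NeZero (2 : AlgebraicClosure K) := ⟨h'.two⟩
  obtain ⟨p, hp⟩ := CharP.exists K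
  have pr := CharP.char_is_prime K p
  have ch : CharP (AlgebraicClosure K) p := inferInstance
  have c : Ctx (ρ.map (algebraMap K (AlgebraicClosure K))) p := by
    refine ⟨h', locFin K, pr, ch, (hU.map (algebraMap K (AlgebraicClosure K))).2.elim (fun hq => ?_) Or.inr⟩
    refine (em _).symm.imp (fun k => ⟨k, hq⟩) fun h3 => ⟨h3, fun h9 => ?_⟩
    have := Fact.mk Nat.prime_three
    obtain ⟨u, hu⟩ := exists_prime_orderOf_dvd_card' 3 ((by norm_num : 3 ∣ 9).trans h9)
    obtain rfl := (Nat.prime_dvd_prime_iff_eq pr Nat.prime_three).1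
      ((CharP.cast_eq_zero_iff (AlgebraicClosure K) p 3).1 (by exact_mod_cast h3))
    obtain ⟨X, hX, e⟩ := lift_unip h'.two pr (hu ▸ pow_orderOf_eq_one u)
    rw [hX.eq_one_iff.2 (Or.inl (hq _ _ hX (sq_of_cube hX.sp e))), orderOf_one] at hu
    exact absurd hu (by decide)
  intro x X hX e
  have l := hX.map (algebraMap K (AlgebraicClosure K))
  have e' : X.map (algebraMap K (AlgebraicClosure K)) * X.map (algebraMap K (AlgebraicClosure K)) = 1 := by
    rw [← Matrix.map_mul, e]; simp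
  rcases root_cases l.sp e' with k | k | k
  exacts [l.eq_one_iff.2 (Or.inl k), l.eq_one_iff.2 (Or.inr k), (no_root c ⟨k, e', x, l⟩).elim]

end Cfsg.Agent.H2.Mi
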