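import Cfsg.Agent.H2.MiE
import Cfsg.Agent.H4.Small

/-!
Package C: `A₅` and `A₆`.
-/

set_option autoImplicit false

namespace Cfsg.Agent.H2.Mi

open Matrix Cfsg.Agent.H1.Mit

variable {T K : Type*} [Group T] [Field K] {ρ : SRep T K}

theorem cyc5 : ∀ σ : Equiv.Perm (Fin 6), σ ^ 5 = 1 → σ ≠ 1 →
    ∃ j, σ j = j ∧ ∀ i k, i ≠ j → k ≠ j → ∃ m : Fin 5, (σ ^ m.1) i = k := by decide +kernel

theorem four_dvd [Finite T] {u v : T} (hu : u * u = 1) (hv : v * v = 1) (h1 : u ≠ 1) (h2 : v ≠ 1) (h3 : v ≠ u)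
    (h : u * v = v * u) : 4 ∣ Nat.card T := by
  classical
  have : Fact (Nat.Prime 2) := ⟨Nat.prime_two⟩
  have ou : orderOf u = 2 := orderOf_eq_prime (by rwa [pow_two]) h1
  have ov : orderOf v = 2 := orderOf_eq_prime (by rwa [pow_two]) h2
  have hc : ∀ (a : Subgroup.zpowers u) (b : Subgroup.zpowers v),
      Commute ((Subgroup.zpowers u).subtype a) ((Subgroup.zpowers v).subtype b) := by
    rintro ⟨_, i, rfl⟩ ⟨_, j, rfl⟩
    exact Commute.zpow_zpow h i j
  have := Subgroup.card_dvd_of_injective _ ((MonoidHom.noncommCoprod_injective _ _ hc).2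
    ⟨Subtype.val_injective, Subtype.val_injective, by
      rw [Subgroup.range_subtype, Subgroup.range_subtype, Subgroup.disjoint_def]
      intro x a b
      rw [mem_zpowers_iff_mem_range_orderOf, ou] at a
      rw [mem_zpowers_iff_mem_range_orderOf, ov] at b
      simp [Finset.range_add_one] at a b
      grind⟩)
  rwa [Nat.card_prod, Nat.card_zpowers, Nat.card_zpowers, ou, ov] at this

theorem three_comm {R : Type*} [CommRing R] {a b : R} (ha : a ^ 3 = 1) (hb : b ^ 3 = 1)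
    (h1 : 1 + b + b * b = 1 + a + a * a ∨ 1 + b + b * b = 2 - a - a * a)
    (h2 : 1 + a * b + a * b * (a * b) = 1 + a + a * a ∨ 1 + a * b + a * b * (a * b) = 2 - a - a * a)
    (h3 : 1 + a * (b * b) + a * (b * b) * (a * (b * b)) = 1 + a + a * a ∨
      1 + a * (b * b) + a * (b * b) * (a * (b * b)) = 2 - a - a * a) :
    3 * (a - 1) = 0 ∨ 3 * (b - 1) = 0 ∨ 3 * (1 + a + a * a) = 0 ∨ 3 * (2 - a - a * a) = 0 := by
  rcases h1 with h1 | h1
  · rcases h2 with h2 | h2
    · rcases h3 with h3 | h3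
      · right; right; right; grind
      · right; right; left; grind
    · right; right; left; grind
  · rcases h2 with h2 | h2
    · right; left; grind
    · left; grind

/-- a product of two transpositions -/
def alt {n : ℕ} (i j k l : Fin n) (h1 : i ≠ j := by decide) (h2 : k ≠ l := by decide) : alternatingGroup (Fin n) :=
  ⟨Equiv.swap i j * Equiv.swap k l, by simp [h1, h2]⟩

theorem A5_ex : ∃ s t : alternatingGroup (Fin 5), s * s = 1 ∧ s ≠ 1 ∧ t * t = 1 ∧ t ≠ 1 ∧ (s * t) ^ 5 = 1 ∧ s * t ≠ 1 :=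
  ⟨alt 1 2 3 4, alt 0 1 2 3, by decide +kernel⟩

theorem A6_ex : ∃ a b : alternatingGroup (Fin 6), a ^ 3 = 1 ∧ b ^ 3 = 1 ∧ a * b = b * a ∧ a ≠ 1 ∧ b ≠ 1 ∧
    ∀ y ∈ [a, b, a * b, a * (b * b)], y ≠ 1 ∧ ∃ s : alternatingGroup (Fin 6), s * s = 1 ∧ s ≠ 1 ∧ (s * y) ^ 5 = 1 ∧
      s * y ≠ 1 ∧ ∃ g, g = s * y * (s * y) * (s * (y * y)) ∧ g * s * g⁻¹ ≠ s ∧ s * (g * s * g⁻¹) = g * s * g⁻¹ * s := by
  refine ⟨alt 0 1 1 2, alt 3 4 4 5, by decide +kernel, by decide +kernel, by decide +kernel, by decide +kernel,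
    by decide +kernel, ?_⟩
  simp only [List.forall_mem_cons, exists_eq_left]
  exact ⟨⟨by decide +kernel, alt 1 3 2 4, by decide +kernel⟩, ⟨by decide +kernel, alt 1 3 2 4, by decide +kernel⟩,
    ⟨by decide +kernel, alt 2 3 4 5, by decide +kernel⟩, ⟨by decide +kernel, alt 2 3 4 5, by decide +kernel⟩, by simp⟩

theorem five (f : Fin 6 → K) (h : f 0 + f 1 + f 2 + f 3 + f 4 + f 5 = 0) {j : Fin 6} {m : K} (k : ∀ i, i ≠ j → f i = m) :
    f j = -5 * m := by
  have := k 0; have := k 1; have := k 2; have := k 3; have := k 4; have := k 5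
  fin_cases j <;> simp at * <;> grind

variable [NeZero (2 : K)]

theorem six_aux {a b c : K} (c0 : c ≠ 0) (h3 : (3 : K) ≠ 0) (h1 : a * (b * (-5 * c)) = c) (h2 : a * (a * (-5 * c)) = -5 * c)
    (h4 : b * (b * (-5 * c)) = -5 * c) : False := by
  have e1 : -5 * a * b = 1 := mul_right_cancel₀ c0 (by linear_combination h1)
  have e2 : 5 * a * a = 5 := mul_right_cancel₀ c0 (by linear_combination -h2)
  have e3 : 5 * b * b = 5 := mul_right_cancel₀ c0 (by linear_combination -h4)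
  exact mul_ne_zero (mul_ne_zero two_ne_zero four_ne) h3
    (by linear_combination (1 - 5 * a * b) * e1 - 5 * b * b * e2 - 5 * e3)

theorem comm_V {Z : M4 K} (hZ : Sp Z) (h : ∀ v, IsV v → Z * v = v * Z) : Z = 1 ∨ Z = -1 := by
  have h1 := h _ (isV_vv 1 0 0 0 0)
  have h2 := h _ (isV_vv 0 1 0 0 0)
  have h3 := h _ (isV_vv 0 0 1 0 0)
  have h4 := h _ (isV_vv 0 0 0 1 0)
  have h5 := h _ (isV_vv 0 0 0 0 1)
  simp only [← Matrix.ext_iff, Fin.forall_fin_succ, vv, Matrix.mul_apply, Fin.sum_univ_four] at h1 h2 h3 h4 h5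
  simp at h1 h2 h3 h4 h5
  have e : Z = Z 0 0 • 1 := by ext i j; fin_cases i <;> fin_cases j <;> simp <;> grind
  have := congrFun (congrFun hZ.left 0) 0
  rw [e] at this ⊢
  simp at this
  rcases mul_self_eq_one_iff.1 this with k | k <;> simp [k]

theorem inv_rot (hr : ρ.NoRoot) {s : T} {S : M4 K} (l : ρ.L s S) (h1 : s * s = 1) (h2 : s ≠ 1) :
    S * S = -1 ∧ S + ad S = (0 : K) • 1 := by
  have e := ((l.mul l).eq_one_iff.1 h1).resolve_left fun k => h2 (hr _ _ l k)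
  refine ⟨e, ?_⟩
  rw [← mul_one (ad S), ← neg_neg 1, ← e, mul_neg, ← mul_assoc, l.sp.left]; simp

theorem zero_sq_ne : (0 : K) * 0 ≠ 4 := by simpa using (four_ne (K := K)).symm

theorem fix_zero (h : ρ.Hyp) {y : M4 K} (hy : IsV y) (k : ∀ x X, ρ.L x X → X * y = y * X) : y = 0 :=
  (h.scalar fun x X hX => (k x X hX).symm).elim fun _ e => hy.eq_smul_one e

variable [Finite T]

theorem index_gt (h : ρ.Hyp) {y : M4 K} (hy : IsV y) (h0 : y ≠ 0) : 4 < (Stab ρ y).index := by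
  by_contra k
  exact h0 (fix_zero h hy fun x X hX => (MH.eq_top_of_index_le h.perf (not_lt.1 k)).ge (Subgroup.mem_top x) X hX)

theorem index_dvd {H : Subgroup T} {m n : ℕ} (hm : m ∣ Nat.card H) (h0 : m ≠ 0) (h : Nat.card T = m * n) : H.index ∣ n := by
  obtain ⟨k, hk⟩ := hm
  have := H.index_mul_card
  rw [h, hk, mul_left_comm] at this
  exact ⟨k, (mul_left_cancel₀ h0 this).symm⟩

theorem dvd_stab {H : Subgroup T} {u : T} (hu : u ∈ H) {p : ℕ} (hp : p.Prime) (h : u ^ p = 1) (h1 : u ≠ 1) :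
    p ∣ Nat.card H :=
  have := Fact.mk hp
  orderOf_eq_prime h h1 ▸ H.orderOf_dvd_natCard hu

theorem six (h : ρ.Hyp) {y : M4 K} (hy : IsV y) (h0 : y ≠ 0) (hi : (Stab ρ y).index = 6) {u : T} (hu : u ∈ Stab ρ y)
    (u5 : u ^ 5 = 1) (u1 : u ≠ 1) : ∃ (x : Fin 6 → M4 K) (c : K) (φ : T →* Equiv.Perm (Fin 6)), c ≠ 0 ∧ (3 : K) ≠ 0 ∧
      (∀ i, IsV (x i)) ∧ (∀ i j, bt (x i) (x j) = if i = j then -5 * c else c) ∧
      (∀ t X, ρ.L t X → ∀ i, X * x i = x (φ t i) * X) ∧
      (∀ g, ρ.Nrm g → ∃ (σ : Equiv.Perm (Fin 6)) (ε : K), ε * ε = 1 ∧ ∀ i, g * x i = ε • (x (σ i) * g)) ∧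
      ∀ v, IsV v → (∀ i j, bt v (x i - x j) = 0) → v = 0 := by
  have two : (2 : K) ≠ 0 := two_ne_zero
  have four : (4 : K) ≠ 0 := four_ne
  let ε : T ⧸ Stab ρ y ≃ Fin 6 := Finite.equivFinOfCardEq hi
  let φ : T →* Equiv.Perm (Fin 6) := ε.permCongrHom.toMonoidHom.comp (MulAction.toPermHom T _)
  have hφ : ∀ t g : T, φ t (ε g) = ε (t * g : T) := fun t g => by simp [φ]
  choose L hL using ρ.exL
  let x : Fin 6 → M4 K := fun i => act (L (ε.symm i).out) y
  have hx : ∀ (g : T) G, ρ.L g G → x (ε g) = act G y := fun g G hG => by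
    obtain ⟨k, hk⟩ := QuotientGroup.mk_out_eq_mul (Stab ρ y) g
    have l := hG.mul (hL k)
    have : act (G * L k) y = act G y := by rw [act_mul, act_fix (hL _).sp (k.2 _ (hL _))]
    simp only [x, Equiv.symm_apply_apply, hk, ← this]
    rcases l.uniq (hL _) with e | e <;> simp [e, act]
  have sj : ∀ i, ∃ g : T, i = ε g := fun i => ⟨(ε.symm i).out, by simp⟩
  have xa : ∀ t X, ρ.L t X → ∀ i, act X (x i) = x (φ t i) := fun t X hX i => by
    obtain ⟨g, rfl⟩ := sj i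
    rw [hφ, hx _ _ (hL g), hx _ _ (hX.mul (hL g)), act_mul]
  have xa' : ∀ t X, ρ.L t X → ∀ i, X * x i = x (φ t i) * X := fun t X hX i => by
    rw [← xa t X hX, act, mul_assoc, hX.sp.left, mul_one]
  have xv : ∀ i, IsV (x i) := fun i => hy.act (hL _).sp
  have xb : ∀ t i j, bt (x (φ t i)) (x (φ t j)) = bt (x i) (x j) := fun t i j => by
    rw [← xa t _ (hL t), ← xa t _ (hL t), bt_act (hL t).sp (xv i) (xv j)]
  have x0 : x (ε (1 : T)) = y := by simpa [act] using hx 1 1 ρ.oneL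
  have := h.simple
  have inj : ∀ t, φ t = 1 → t = 1 := fun t ht => by
    rcases φ.normal_ker.eq_bot_or_eq_top with k | k
    · exact Subgroup.mem_bot.1 (k ▸ ht)
    · refine (h0 (fix_zero h hy fun g G hG => ?_)).elim
      rw [← x0, xa' g G hG, (show φ g = 1 from (k ▸ Subgroup.mem_top g : g ∈ φ.ker))]; rfl
  have c5 := fun w : T => fun (a : w ^ 5 = 1) (b : w ≠ 1) => cyc5 (φ w) (by rw [← map_pow, a, map_one]) (mt (inj w) b)
  have fu : φ u (ε (1 : T)) = ε (1 : T) := by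
    rw [hφ]; exact congrArg ε (QuotientGroup.eq.2 (by simpa using hu))
  have fm : ∀ (σ : Equiv.Perm (Fin 6)) j, σ j = j → ∀ m : ℕ, (σ ^ m) j = j := fun σ j k m =>
    Equiv.Perm.pow_apply_eq_self_of_apply_eq_self k m
  obtain ⟨i1, hi1⟩ := exists_ne (ε (1 : T))
  obtain ⟨c, hc⟩ : ∃ c, c = bt y (x i1) := ⟨_, rfl⟩
  have g1 : ∀ i j, bt (x i) (x j) = if i = j then bt y y else c := fun i j => by
    obtain ⟨g, rfl⟩ := sj i
    rw [← xb g⁻¹, hφ, inv_mul_cancel]
    split_ifs with hij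
    · rw [← hij, hφ, inv_mul_cancel, x0]
    obtain ⟨j0, f0, tr⟩ := c5 u u5 u1
    have : j0 = ε (1 : T) := by
      by_contra k
      obtain ⟨l, h1, h2⟩ := (by decide : ∀ i j : Fin 6, ∃ l, l ≠ i ∧ l ≠ j) j0 (ε (1 : T))
      obtain ⟨m, hm⟩ := tr _ l (Ne.symm k) h1
      exact h2 (hm.symm.trans (fm _ _ fu m))
    subst this
    obtain ⟨m, hm⟩ := tr (φ g⁻¹ j) i1 (fun k => hij ((φ g⁻¹).injective (by rw [k, hφ, inv_mul_cancel]))) hi1
    rw [← xb (u ^ m.1), map_pow, hm, fm _ _ fu, x0, hc]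
  have sm : x 0 + x 1 + x 2 + x 3 + x 4 + x 5 = 0 := by
    refine fix_zero h ((((((xv 0).add (xv 1)).add (xv 2)).add (xv 3)).add (xv 4)).add (xv 5)) fun t X hX => ?_
    rw [← Fin.sum_univ_six, Finset.mul_sum, Finset.sum_mul]
    exact Fintype.sum_equiv (φ t) _ _ (xa' t X hX)
  have d5 : bt y y = -5 * c := by
    have := congrArg (bt (x 0)) sm
    simp [g1] at this
    linear_combination this
  rw [d5] at g1
  have g2 : ∀ a b c' d, bt (x a - x b) (x c' - x d) = -6 * c * dl K a b c' d := fun a b c' d => by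
    simp only [bt_sub_left, bt_sub_right, g1, dl]; split_ifs <;> ring
  have k0 : -6 * c ≠ 0 := fun k => h0 (fix_zero h hy fun g G hG => by
    have := ts_zero h (S := Set.range fun p : Fin 6 × Fin 6 => x p.1 - x p.2) (Set.finite_range _) (by
      rintro _ ⟨a, rfl⟩ _ ⟨b, rfl⟩
      exact ((xv _).sub (xv _)).anti ((xv _).sub (xv _)) (by rw [g2, k, zero_mul])) (by
      rintro t X hX _ ⟨a, rfl⟩
      exact ⟨(φ t a.1, φ t a.2), by simp only [← xa t X hX, act, mul_sub, sub_mul]⟩) _ ⟨(φ g (ε (1 : T)), ε (1 : T)), rfl⟩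
    rw [← x0, xa' g G hG, sub_eq_zero.1 this])
  have c0 : c ≠ 0 := right_ne_zero_of_mul k0
  have h3 : (3 : K) ≠ 0 := fun k => k0 (by linear_combination -2 * c * k)
  have sp : ∀ v, IsV v → (∀ i j, bt v (x i - x j) = 0) → v = 0 := fun v hv k =>
    span5 (d := fun i => x i.castSucc - x 5) (fun i => (xv _).sub (xv _)) h3 k0 (fun i j => by
      rw [g2]; congr 1; fin_cases i <;> fin_cases j <;> simp [dl]) hv fun i => k _ _
  refine ⟨x, c, φ, c0, h3, xv, g1, xa', fun g hg => ?_, sp⟩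
  have : ∀ i, ∃ j, ∃ l : K, act g (x i) = l • x j := fun i => by
    obtain ⟨t, rfl⟩ := sj i
    have l := (hL t).conj (hL u)
    obtain ⟨w, hw⟩ := hg.2 _ _ l
    have pw : ∀ n, ρ.L (w ^ n) (g * (L t * L u * ad (L t)) ^ n * ad g) := fun n => (hw.pow n).congr (by
      induction n with
      | zero => simp [hg.1.right]
      | succ n ih => rw [pow_succ, pow_succ, ← ih]; simp only [mul_assoc, ← mul_assoc (ad g) g, hg.1.left, one_mul])
    have e5 : (t * u * t⁻¹) ^ 5 = 1 := by rw [conj_pow, u5]; simp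
    obtain ⟨j, -, tr⟩ := c5 w (by
      rcases (l.pow 5).eq_one_iff.1 e5 with e | e <;> simp [(pw 5).eq_one_iff, e, hg.1.right]) fun k => u1 (by
      have : t * u * t⁻¹ = 1 := l.eq_one_iff.2 ((hw.eq_one_iff.1 k).imp
        (fun e => SRep.conj_cancel hg.1 (by simp [e, hg.1.right])) fun e => SRep.conj_cancel hg.1 (by simp [e, hg.1.right]))
      simpa using this)
    have v1 := (xv (ε t)).act hg.1
    have fx : act (g * (L t * L u * ad (L t)) * ad g) (act g (x (ε t))) = act g (x (ε t)) := by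
      rw [← act_mul, mul_assoc _ _ g, hg.1.left, mul_one, act_mul, xa _ _ l, hφ, inv_mul_cancel_right]
      exact congrArg (fun q => act g (x (ε q))) (QuotientGroup.eq.2 (by simpa using hu))
    generalize act g (x (ε t)) = v at v1 fx
    have fx' : ∀ m : ℕ, ∀ k, bt v (x ((φ w ^ m) k)) = bt v (x k) := fun m k => by
      induction m with
      | zero => rfl
      | succ m ih => rw [pow_succ', Equiv.Perm.mul_apply, ← xa w _ hw, ← ih]; conv_lhs => rw [← fx, bt_act hw.sp v1 (xv _)]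
    obtain ⟨k0, hk0⟩ := exists_ne j
    have e1 : ∀ k, k ≠ j → bt v (x k) = bt v (x k0) := fun k hk => by
      obtain ⟨m, hm⟩ := tr k0 k hk0 hk
      rw [← hm, fx']
    have e2 : ∀ k, bt v (x k) = bt v (x k0) / c * bt (x j) (x k) := fun k => by
      rw [g1]
      split_ifs with hk
      · rw [← hk, five (fun k => bt v (x k)) (by simpa using congrArg (bt v) sm) e1]; field_simp
      · rw [e1 k (Ne.symm hk), div_mul_cancel₀ _ c0]
    exact ⟨j, _, sub_eq_zero.1 (sp _ (v1.sub ((xv j).smul (bt v (x k0) / c))) fun a b => by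
      simp only [bt_sub_left, bt_sub_right, bt_smul_left, ← e2]; ring)⟩
  choose π l hl using this
  have e1 : ∀ i j, l i * (l j * bt (x (π i)) (x (π j))) = bt (x i) (x j) := fun i j => by
    rw [← bt_act hg.1 (xv i) (xv j), hl, hl, bt_smul_left, bt_smul_right]
  have pi : Function.Injective π := fun i j k => by
    by_contra hij
    have a := e1 i j; have b := e1 i i; have d := e1 j j
    simp only [g1, k, hij, if_true, if_false] at a b d
    exact six_aux c0 h3 a b d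
  have e2 : ∀ i j, i ≠ j → l i * l j = 1 := fun i j hij => by
    have := e1 i j
    simp only [g1, hij, pi.ne hij, if_false] at this
    exact mul_right_cancel₀ c0 (by linear_combination this)
  have e3 : ∀ i, l i = l 0 := fun i => by
    obtain ⟨k, h1, h2⟩ := (by decide : ∀ i j : Fin 6, ∃ l, l ≠ i ∧ l ≠ j) i 0
    linear_combination l 0 * e2 k i h1 - l i * e2 k 0 h2
  refine ⟨Equiv.ofBijective π (Finite.injective_iff_bijective.1 pi), l 0, by simpa [e3] using e2 0 1 (by decide), fun i => ?_⟩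
  rw [← Matrix.smul_mul, ← e3 i, Equiv.ofBijective_apply, ← hl, act, mul_assoc, hg.1.left, mul_one]

omit [Finite T] in
theorem ds_of {ι : Type*} [DecidableEq ι] {x : ι → M4 K} {κ : K} (hκ : κ ≠ 0) (hv : ∀ a b, IsV (x a - x b))
    (h : ∀ a b c d, bt (x a - x b) (x c - x d) = κ * dl K a b c d) : DS x κ :=
  ⟨hκ, fun a b => (hv a b).ad, fun a b c d => by rw [(hv a b).cliff (hv c d), h]⟩

theorem six_ds {x : Fin 6 → M4 K} {c : K} (c0 : c ≠ 0) (h3 : (3 : K) ≠ 0) (hv : ∀ i, IsV (x i))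
    (g : ∀ i j, bt (x i) (x j) = if i = j then -5 * c else c) : DS x (-6 * c) :=
  ds_of (mul_ne_zero (by rw [show (-6 : K) = -(2 * 3) by norm_num]; exact neg_ne_zero.2 (mul_ne_zero two_ne_zero h3)) c0)
    (fun _ _ => (hv _).sub (hv _)) fun a b c' d => by simp only [bt_sub_left, bt_sub_right, g, dl]; split_ifs <;> ring

theorem rot_three (h3 : (3 : K) ≠ 0) {a b : T} (ha : a ^ 3 = 1) (hb : b ^ 3 = 1) (hc : a * b = b * a) (a1 : a ≠ 1)
    (b1 : b ≠ 1) : ∃ y ∈ [a, b, a * b, a * (b * b)], ∃ Y, ρ.L y Y ∧ av Y = 0 ∧ Y ^ 3 = 1 := by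
  have lf : ∀ a : T, a ^ 3 = 1 → ∃ A, ρ.L a A ∧ A ^ 3 = 1 := fun a ha => by
    obtain ⟨A, hA⟩ := ρ.exL a
    rcases (hA.pow 3).eq_one_iff.1 ha with e | e
    exacts [⟨A, hA, e⟩, ⟨-A, hA.neg, by rw [Odd.neg_pow (by decide), e, neg_neg]⟩]
  obtain ⟨A, lA, A3⟩ := lf a ha
  obtain ⟨B, lB, B3⟩ := lf b hb
  have cm : B * A = A * B := ((lA.comm_iff lB).1 hc).resolve_right fun k => Sp.one.ne_neg (two_ne_zero (α := K)) (by
    have : ∀ n, B * A ^ n = (-A) ^ n * B := fun n => by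
      induction n with
      | zero => simp
      | succ n ih => rw [pow_succ, ← mul_assoc, ih, mul_assoc, k, pow_succ]; simp [mul_assoc]
    have := congrArg (· * ad B) (this 3)
    simpa [Odd.neg_pow (show Odd 3 by decide), A3, lB.sp.right] using this)
  have cm' : Commute A B := cm.symm
  by_contra! k
  simp only [List.forall_mem_cons] at k
  have ad3 : ∀ Y : M4 K, Sp Y → Y ^ 3 = 1 → ad Y = Y * Y := fun Y hY e => by
    rw [← mul_one (ad Y), ← e, pow_succ', ← mul_assoc, hY.left, one_mul, pow_two]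
  have n0 := fun e => k.1 A lA e A3
  have key : ∀ y Y, ρ.L y Y → Y ^ 3 = 1 → av Y ≠ 0 → A * Y = Y * A →
      1 + Y + Y * Y = 1 + A + A * A ∨ 1 + Y + Y * Y = 2 - A - A * A := fun y Y l e h0 c => by
    have idem : ∀ Y : M4 K, Sp Y → Y ^ 3 = 1 → ∀ m : K, av Y = m • av A → m ≠ 0 → 1 + Y + Y * Y = (3 / 2 : K) • 1 + m • av A ∧
        (3 / 2 : K) ^ 2 = m ^ 2 * (bt (av A) (av A) / 2) := fun Y hY e m hm m0 => by
      have e1 : 1 + Y + Y * Y = (1 + Y.trace / 2) • 1 + m • av A := by rw [← hm, av, ad3 Y hY e]; module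
      have e2 : (1 + Y + Y * Y) * (1 + Y + Y * Y) = (3 : K) • (1 + Y + Y * Y) := by
        rw [show (3 : K) = 1 + 1 + 1 by norm_num, add_smul, add_smul, one_smul]
        linear_combination (norm := noncomm_ring) (Y + 1 + 1) * e
      generalize 1 + Y.trace / 2 = s at e1
      rw [e1] at e2
      simp only [add_mul, mul_add, Matrix.smul_mul, Matrix.mul_smul, (isV_av A).sq, smul_smul, one_mul, mul_one] at e2
      have e3 : ((2 * s - 3) * m) • av A = (3 * s - s * s - m * m * (bt (av A) (av A) / 2)) • 1 := by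
        linear_combination (norm := module) e2
      have e4 := ((isV_av A).smul _).eq_smul_one e3
      have e5 : s = 3 / 2 := by
        have := (mul_eq_zero.1 ((smul_eq_zero.1 e4).resolve_right n0)).resolve_right m0
        field_simp; linear_combination this
      rw [e4] at e3
      have := congrFun (congrFun e3 0) 0
      simp [e5] at this
      exact ⟨e5 ▸ e1, by field_simp at this ⊢; linear_combination -this⟩
    obtain ⟨m, hm⟩ := (isV_av A).comm (isV_av Y) n0 (av_comm l.sp (av_comm lA.sp c))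
    obtain ⟨p1, p2⟩ := idem A lA.sp A3 1 (by simp) one_ne_zero
    obtain ⟨q1, q2⟩ := idem Y l.sp e m hm (by rintro rfl; exact h0 (by simpa using hm))
    have : m * m = 1 := mul_right_cancel₀ (pow_ne_zero 2 (div_ne_zero h3 two_ne_zero)) (by
      rw [one_pow, one_mul] at p2; rw [one_mul]; nth_rw 1 [p2]; rw [q2]; ring)
    rcases mul_self_eq_one_iff.1 this with rfl | rfl
    · exact Or.inl (q1.trans p1.symm)
    · refine Or.inr ?_
      have : (3 / 2 : K) • (1 : M4 K) + (3 / 2 : K) • 1 = 1 + 2 := by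
        rw [← add_smul, add_halves, show (3 : K) = 1 + 1 + 1 by norm_num, add_smul, add_smul, one_smul]; norm_num
      linear_combination (norm := module) q1 + p1 + this
  have t3 : ∀ Z : M4 K, Z + Z + Z = 0 → Z = 0 := fun Z e => (smul_eq_zero.1 (by
    rw [show (3 : K) = 1 + 1 + 1 by norm_num, add_smul, add_smul, one_smul, e])).resolve_left h3
  have AB3 : (A * B) ^ 3 = 1 := by rw [cm'.mul_pow, A3, B3, one_mul]
  have ABB3 : (A * (B * B)) ^ 3 = 1 := by rw [(cm'.mul_right cm').mul_pow, ← pow_two, ← pow_mul, mul_comm, pow_mul, A3, B3]; simp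
  have kB := key b B lB B3 (fun e => k.2.1 B lB e B3) cm.symm
  have kC := key _ _ (lA.mul lB) AB3 (fun e => k.2.2.1 _ (lA.mul lB) e AB3) (by rw [mul_assoc, cm])
  have kD := key _ _ (lA.mul (lB.mul lB)) ABB3 (fun e => k.2.2.2.1 _ (lA.mul (lB.mul lB)) e ABB3)
    ((Commute.refl A).mul_right (cm'.mul_right cm'))
  letI := Subring.closureCommRingOfComm (R := M4 K) (s := {A, B}) (by
    rintro _ (rfl | rfl) _ (rfl | rfl) <;> simp [cm])
  have := three_comm (R := Subring.closure {A, B}) (a := ⟨A, Subring.subset_closure (by simp)⟩)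
    (b := ⟨B, Subring.subset_closure (by simp)⟩) (Subtype.ext A3) (Subtype.ext B3) (kB.imp Subtype.ext Subtype.ext)
    (kC.imp Subtype.ext Subtype.ext) (kD.imp Subtype.ext Subtype.ext)
  have t4 : ∀ Z : M4 K, 3 * Z = 0 → Z = 0 := fun Z e => t3 Z (by rw [← e]; noncomm_ring)
  rcases this with e | e | e | e <;> replace e := t4 _ (congrArg Subtype.val e)
  · exact a1 (lA.eq_one_iff.2 (Or.inl (sub_eq_zero.1 e)))
  · exact b1 (lB.eq_one_iff.2 (Or.inl (sub_eq_zero.1 e)))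
  · refine n0 ((isV_av A).eq_smul_one (c := -1 - A.trace / 2) ?_)
    have e' : 1 + A + A * A = 0 := e
    rw [av, ad3 A lA.sp A3]
    linear_combination (norm := module) e'
  · refine n0 ((isV_av A).eq_smul_one (c := 2 - A.trace / 2) ?_)
    have e' : 2 - A - A * A = 0 := e
    rw [← one_add_one_eq_two] at e'
    rw [av, ad3 A lA.sp A3, sub_smul, two_smul]
    linear_combination (norm := noncomm_ring) -e'

theorem rot_of_av (h3 : (3 : K) ≠ 0) {y : T} {Y : M4 K} (l : ρ.L y Y) (h : av Y = 0) (e : Y ^ 3 = 1) (h1 : y ≠ 1) :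
    ∃ c : K, Y + ad Y = c • 1 ∧ c * c ≠ 4 := by
  rw [av, sub_eq_zero] at h
  refine ⟨_, h, fun k => h1 ?_⟩
  have e3 := rot_step l.sp h (rot_step l.sp h (n := 1) (a := 1) (b := 0) (by simp))
  generalize Y.trace / 2 = c at *
  refine L_scalar (c := (1 + c) / 3) (l.congr (smul_right_injective _ h3 ?_))
  rw [e] at e3
  simp only [smul_smul, mul_div_cancel₀ _ h3]
  rw [show (3 : K) = (1 * c + 0) * c + -1 by linear_combination -k]
  linear_combination (norm := module) e3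

end Cfsg.Agent.H2.Mi

namespace Cfsg.Agent.H2.Mi

open Matrix Cfsg.Agent.H1.Mit

variable {T K : Type*} [Group T] [Field K] [Finite K] {ρ : SRep T K}

theorem pkgC5 (h : ρ.Hyp) (hr : ρ.NoRoot) (hc : Nat.card T = 60) : ρ.NotMax := by
  have := ρ.finite
  have : NeZero (2 : K) := ⟨h.two⟩
  have := h.simple
  obtain ⟨e⟩ := H4.Small.A5_of (G := T) (fun N hN hp => by
    rcases hN.eq_bot_or_eq_top with rfl | rfl
    · simpa using hp.one_lt
    · rw [Subgroup.card_top, hc] at hp; exact absurd hp (by decide)) hc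
  obtain ⟨s, t, h1, h2, h3, h4, h5, h6⟩ := A5_ex
  obtain ⟨s, rfl⟩ := e.surjective s
  obtain ⟨t, rfl⟩ := e.surjective t
  simp only [← map_mul, ← map_pow, Ne, EmbeddingLike.map_eq_one_iff] at h1 h2 h3 h4 h5 h6
  obtain ⟨S, lS⟩ := ρ.exL s
  obtain ⟨U, lU⟩ := ρ.exL t
  obtain ⟨y, hy, h0, k1, k2⟩ := fix_rot lS.sp lU.sp (inv_rot hr lS h1 h2).2 zero_sq_ne (inv_rot hr lU h3 h4).2 zero_sq_ne
  have m1 := (mem_Stab lS).2 k1
  have m2 := mul_mem m1 ((mem_Stab lU).2 k2)
  have := index_dvd (n := 6) (Nat.Coprime.mul_dvd_of_dvd_of_dvd (by norm_num) (dvd_stab m1 Nat.prime_two (by rwa [pow_two]) h2)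
    (dvd_stab m2 Nat.prime_five h5 h6)) (by norm_num) hc
  have i1 := index_gt h hy h0
  have i2 := Nat.le_of_dvd (by norm_num) this
  obtain ⟨x, c, φ, c0, h3, xv, g, xa, nm, -⟩ := six h hy h0 (by interval_cases (Stab ρ y).index <;> omega) m2 h5 h6
  exact notMax_RS h h3 (by simp) (six_ds c0 h3 xv g) (fun _ _ => (xv _).sub (xv _)) φ
    (fun t X hX a b => by rw [mul_sub, sub_mul, xa t X hX, xa t X hX]) (fun g hg => ⟨hg.1, (nm g hg).imp fun σ =>
      Exists.imp fun ε k => ⟨k.1, fun a b => by rw [mul_sub, sub_mul, k.2, k.2, smul_sub]⟩⟩) (by rw [hc]; simp; decide)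

theorem pkgC6 (h : ρ.Hyp) (hr : ρ.NoRoot) (h3 : (3 : K) ≠ 0) (e : T ≃* alternatingGroup (Fin 6)) :
    ρ.TrIn ⊥ ∧ ((7 : K) = 0 → ρ.NotMax) := by
  have := ρ.finite
  have : NeZero (2 : K) := ⟨h.two⟩
  have hc : Nat.card T = 360 := by rw [Nat.card_congr e.toEquiv, nat_card_alternatingGroup]; simp; decide
  obtain ⟨a, b, a3, b3, ab, a1, b1, k⟩ := A6_ex
  obtain ⟨a, rfl⟩ := e.surjective a
  obtain ⟨b, rfl⟩ := e.surjective b
  simp only [← map_mul, ← map_pow, Ne, EmbeddingLike.map_eq_one_iff, EmbeddingLike.apply_eq_iff_eq] at a3 b3 ab a1 b1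
  obtain ⟨z, hz, Z, lZ, z0, z3⟩ := rot_three (ρ := ρ) h3 a3 b3 ab a1 b1
  obtain ⟨z1, s, h1, h2, h5, h6, g, rfl, h7, h8⟩ := k (e z) (by
    simp only [List.mem_cons, List.not_mem_nil, or_false, ← map_mul, EmbeddingLike.apply_eq_iff_eq] at hz ⊢; exact hz)
  obtain ⟨s, rfl⟩ := e.surjective s
  simp only [← map_mul, ← map_pow, ← map_inv, Ne, EmbeddingLike.map_eq_one_iff, EmbeddingLike.apply_eq_iff_eq]
    at z1 h1 h2 h5 h6 h7 h8
  obtain ⟨S, lS⟩ := ρ.exL s
  obtain ⟨c', r1, r2⟩ := rot_of_av h3 lZ z0 z3 z1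
  obtain ⟨y, hy, h0, k1, k2⟩ := fix_rot lS.sp lZ.sp (inv_rot hr lS h1 h2).2 zero_sq_ne r1 r2
  have m1 := (mem_Stab lS).2 k1
  have m3 := (mem_Stab lZ).2 k2
  have m2 := mul_mem m1 m3
  have m4 := mul_mem (mul_mem m2 m2) (mul_mem m1 (mul_mem m3 m3))
  generalize s * z * (s * z) * (s * (z * z)) = g at h7 h8 m4
  have d4 : 4 ∣ Nat.card (Stab ρ y) := four_dvd (u := ⟨s, m1⟩) (v := ⟨_, mul_mem (mul_mem m4 m1) (inv_mem m4)⟩)
    (Subtype.ext h1) (Subtype.ext (MH.conj_mul_self.2 h1)) (by simpa using h2) (by simpa using h2)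
    (fun k => h7 (congrArg Subtype.val k)) (Subtype.ext h8)
  have := index_dvd (n := 6) (Nat.Coprime.mul_dvd_of_dvd_of_dvd (by norm_num) (Nat.Coprime.mul_dvd_of_dvd_of_dvd
    (by norm_num) d4 (dvd_stab m3 Nat.prime_three ((lZ.pow 3).eq_one_iff.2 (Or.inl z3)) z1))
    (dvd_stab m2 Nat.prime_five h5 h6)) (by norm_num) hc
  have i1 := index_gt h hy h0
  have i2 := Nat.le_of_dvd (by norm_num) this
  obtain ⟨x, c, φ, c0, h3, xv, g, xa, nm, sp⟩ := six h hy h0 (by interval_cases (Stab ρ y).index <;> omega) m2 h5 h6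
  have ds := six_ds c0 h3 xv g
  refine ⟨trIn_of_model h x _ ds.ne ds.ad ds.cl (fun t X hX => ⟨φ t, Equiv.Perm.mem_alternatingGroup.2
    (MH.hom_eq_one h.perf (Equiv.Perm.sign.comp φ) t),
    fun a b => by rw [mul_sub, sub_mul, xa t X hX, xa t X hX]⟩) fun Z hZ k => comm_V hZ fun v hv => ?_, fun h7 => ?_⟩
  · have := sub_eq_zero.1 (sp _ ((hv.act hZ).sub hv) fun i j => by
      rw [bt_sub_left, ← bt_act hZ hv ((xv i).sub (xv j)), act_fix hZ (k i j), sub_self])
    conv_rhs => rw [← this, act, mul_assoc, hZ.left, mul_one]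
  have v' : ∀ i : Option (Fin 6), IsV (i.elim 0 x) := fun i => by cases i; exacts [IsV.zero, xv _]
  refine notMax_RS (e := fun i : Option (Fin 6) => i.elim 0 x) (κ := c) h h3 (by simp)
    (ds_of c0 (fun _ _ => (v' _).sub (v' _)) fun a b c' d => ?_) (fun _ _ => (v' _).sub (v' _))
    (MonoidHom.mk' (fun t => (φ t).optionCongr) fun a b => by ext1 i; cases i <;> simp)
    (fun t X hX a b => by cases a <;> cases b <;> simp [mul_sub, sub_mul, xa t X hX]) (fun g hg => ⟨hg.1, ?_⟩)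
    (by rw [hc]; simp; decide)
  · have : ∀ a b : Option (Fin 6), bt (a.elim 0 x) (b.elim 0 x) = c * ((if a = b then 1 else 0) + 1 -
        (if a = none then 1 else 0) - (if b = none then 1 else 0)) := fun a b => by
      cases a <;> cases b <;> simp [g]
      split_ifs
      exacts [by linear_combination -c * h7, by ring]
    simp only [bt_sub_left, bt_sub_right, this, dl]; ring
  · obtain ⟨σ, ε, k1, k2⟩ := nm g hg
    exact ⟨σ.optionCongr, ε, k1, fun a b => by cases a <;> cases b <;> simp [mul_sub, sub_mul, k2, smul_sub]⟩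

end Cfsg.Agent.H2.Mi
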