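import Cfsg.Agent.H2.MiF
import Cfsg.Agent.H5.MH6
import Cfsg.Agent.H1.M4L2

/-!
Package D: `L₂(7)` in characteristic seven.
-/

set_option autoImplicit false

namespace Cfsg.Agent.H2.Mi

open Matrix Cfsg.Agent.H1.Mit

variable {T K : Type*} [Group T] [Field K] {ρ : SRep T K}

/-- matrices over the field with two elements -/
abbrev M32 := Matrix (Fin 3) (Fin 3) (ZMod 2)

/-- points of the Fano plane -/
abbrev Pt := {v : Fin 3 → ZMod 2 // v ≠ 0}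

theorem all3 {P : M32 → Prop} (h : ∀ a b c d e f g h i, P !![a, b, c; d, e, f; g, h, i]) (A : M32) : P A :=
  Matrix.eta_fin_three A ▸ h _ _ _ _ _ _ _ _ _

theorem ex3 {P : M32 → Prop} (h : ∃ a b c d e f g h i, P !![a, b, c; d, e, f; g, h, i]) : ∃ A, P A :=
  let ⟨_, _, _, _, _, _, _, _, _, h⟩ := h
  ⟨_, h⟩

theorem exists_psi3 [Finite T] (hp : commutator T = ⊤) (hc : Nat.card T = 168) :
    ∃ ψ : T →* M32, Function.Injective ψ ∧ (∀ t, (ψ t).det = 1) ∧ ∀ A : M32, A.det = 1 → ∃ t, ψ t = A := by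
  have h2 : Nat.card (SpecialLinearGroup (Fin 3) (ZMod 2)) = 168 := by
    rw [Nat.card_congr (Equiv.ofBijective (SpecialLinearGroup.toGL (n := Fin 3) (R := ZMod 2))
      ⟨SpecialLinearGroup.toGL_injective, fun g => ⟨⟨g.val, by
        have := g.det_ne_zero; revert this; generalize g.val.det = d; revert d; decide⟩, Units.ext rfl⟩⟩),
      card_GL_field]
    simp [Fin.prod_univ_three]
  have := H5.MH.perfect_SL3
  have : Group.IsPerfect T := ⟨hp⟩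
  obtain ⟨e⟩ := H5.MH.iso_X8 hc
  obtain ⟨f⟩ := H5.MH.iso_X8 h2
  exact ⟨(SpecialLinearGroup.coeMonoidHom).comp (e.trans f.symm).toMonoidHom,
    Subtype.val_injective.comp (e.trans f.symm).injective, fun t => ((e.trans f.symm) t).2,
    fun A hA => ((e.trans f.symm).surjective ⟨A, hA⟩).imp fun t k => congrArg Subtype.val k⟩

theorem cj_pow {g : M4 K} (hg : Sp g) (X : M4 K) (n : ℕ) : (g * X * ad g) ^ n = g * X ^ n * ad g := SRep.cj_pow hg X n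

theorem nrm_one {g X : M4 K} {x y : T} (hg : Sp g) (l : ρ.L x X) (l' : ρ.L y (g * X * ad g)) (n : ℕ) :
    y ^ n = 1 ↔ x ^ n = 1 := by
  rw [(l'.pow n).eq_one_iff, (l.pow n).eq_one_iff, cj_pow hg]
  exact or_congr ⟨fun e => SRep.conj_cancel hg (by simp [e, hg.right]), fun e => by simp [e, hg.right]⟩
    ⟨fun e => SRep.conj_cancel hg (by simp [e, hg.right]), fun e => by simp [e, hg.right]⟩

theorem reg_rk1 {N : M4 K} {w : V4 K} (h4 : N ^ 4 = 0) (hw : N ^ 3 *ᵥ w ≠ 0) (v : V4 K) :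
    ∃ a : K, N ^ 3 *ᵥ v = a • N ^ 3 *ᵥ w := by
  have p : ∀ i j, N ^ i *ᵥ N ^ j *ᵥ w = N ^ (i + j) *ᵥ w := fun i j => by rw [mulVec_mulVec, pow_add]
  have z : ∀ i, N ^ (4 + i) *ᵥ w = 0 := fun i => by rw [pow_add, h4, zero_mul, zero_mulVec]
  have z4 := z 0; have z5 := z 1; have z6 := z 2
  obtain ⟨x, rfl⟩ := span_of_ker (P := col4 (N ^ 0 *ᵥ w) (N ^ 1 *ᵥ w) (N ^ 2 *ᵥ w) (N ^ 3 *ᵥ w)) (fun x k => by
    rw [col4_mulVec] at k
    have k0 := congrArg (N ^ 3 *ᵥ ·) k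
    have k1 := congrArg (N ^ 2 *ᵥ ·) k
    have k2 := congrArg (N ^ 1 *ᵥ ·) k
    simp only [mulVec_add, mulVec_smul, p, mulVec_zero] at k0 k1 k2
    norm_num [z4, z5, z6, hw] at k0
    norm_num [z4, z5, z6, hw, k0] at k1
    norm_num [z4, z5, z6, hw, k0, k1] at k2
    norm_num [hw, k0, k1, k2] at k
    ext i; fin_cases i <;> simp [*]) v
  exact ⟨x 0, by simp only [col4_mulVec, mulVec_add, mulVec_smul, p]; norm_num [z4, z5, z6]⟩

theorem reg_inv {U M : M4 K} (hU : Sp U) (hM : Sp M) (h4 : (U - 1) ^ 4 = 0) (h3 : (U - 1) ^ 3 ≠ 0)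
    (h : M * U = ad U * M) : IsSquare (-1 : K) := by
  obtain ⟨w, hw⟩ : ∃ w, (U - 1) ^ 3 *ᵥ w ≠ 0 := by
    by_contra! k
    exact h3 (Matrix.ext_iff_mulVec.2 (by simpa using k))
  have e0 : ad U * (U - 1) ^ 3 = (U - 1) ^ 3 := by
    have : U * (U - 1) ^ 3 = (U - 1) ^ 3 := by rw [← sub_eq_zero, ← sub_one_mul, ← pow_succ', h4]
    rw [← this, ← mul_assoc, hU.left, one_mul, this]
  have e1 : ad ((U - 1) ^ 3) = -(U - 1) ^ 3 := by
    rw [hU.ad_pow_sub, Odd.neg_pow (by decide), neg_mul, pow_three (ad U), mul_assoc, mul_assoc, e0, e0, e0]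
  have e2 : M * (U - 1) ^ 3 = -(U - 1) ^ 3 * M := by
    have : M * (U - 1) = ad (U - 1) * M := by simp [mul_sub, sub_mul, h]
    rw [← e1, ad_pow]; exact SemiconjBy.pow_right this 3
  have rk := reg_rk1 h4 hw
  generalize (U - 1) ^ 3 = N at *
  have sy : ∀ u v, B (N *ᵥ u) v = B (N *ᵥ v) u := fun u v => by rw [B_ad, e1, neg_mulVec, B_neg_right, ← B_swap]
  have b0 : B (N *ᵥ w) w ≠ 0 := fun k => hw (B_nd fun v => by
    obtain ⟨a, ha⟩ := rk v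
    rw [sy, ha, B_smul_left, k, mul_zero])
  obtain ⟨a, ha⟩ := rk (M *ᵥ w)
  have := hM.B_eq (N *ᵥ w) w
  rw [mulVec_mulVec, e2, neg_mul, neg_mulVec, ← mulVec_mulVec, ha, B_neg_left, B_smul_left, sy, ha, B_smul_left] at this
  exact ⟨a, mul_right_cancel₀ b0 (by linear_combination this)⟩

variable [NeZero (2 : K)] [Finite T]

theorem top168 (h : ρ.Hyp) (hc : Nat.card T = 168) {H : Subgroup T} {a b : T} (ha : a ∈ H) (hb : b ∈ H) (a3 : a ^ 3 = 1)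
    (a1 : a ≠ 1) (b2 : b ^ 2 = 1) (b1 : b ≠ 1) (h7 : ∃ c ∈ H, c ^ 7 = 1 ∧ c ≠ 1) : H = ⊤ :=
  let ⟨_, hc', c7, c1⟩ := h7
  MH.eq_top_of_index_le h.perf (Nat.le_of_dvd (by norm_num) (index_dvd (Nat.Coprime.mul_dvd_of_dvd_of_dvd (by norm_num)
    (Nat.Coprime.mul_dvd_of_dvd_of_dvd (by norm_num) (dvd_stab hb Nat.prime_two b2 b1) (dvd_stab ha Nat.prime_three a3 a1))
    (dvd_stab hc' (by norm_num) c7 c1)) (by norm_num) hc))

omit [NeZero (2 : K)] [Finite T] in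
theorem lift3 (ρ : SRep T K) {a : T} (ha : a ^ 3 = 1) : ∃ A, ρ.L a A ∧ A ^ 3 = 1 := by
  obtain ⟨A, hA⟩ := ρ.exL a
  rcases (hA.pow 3).eq_one_iff.1 ha with e | e
  exacts [⟨A, hA, e⟩, ⟨-A, hA.neg, by rw [Odd.neg_pow (by decide), e, neg_neg]⟩]

omit [Finite T] in
theorem lift3_eq {a : T} {A A' : M4 K} (l : ρ.L a A) (l' : ρ.L a A') (h : A ^ 3 = 1) (h' : A' ^ 3 = 1) : A' = A :=
  (l.uniq l').resolve_right fun e => Sp.one.ne_neg (two_ne_zero (α := K)) (by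
    rw [e, Odd.neg_pow (by decide), h] at h'; exact h'.symm)

theorem nrm_lift [Finite K] (h : ρ.Hyp) (hq : ρ.NoQ) (hK : Nat.card K = 7) (hc : Nat.card T = 168) {g : M4 K}
    (hg : ρ.Nrm g) : ∃ t, ρ.L t g := by
  obtain ⟨ψ, inj, det, sj⟩ := exists_psi3 h.perf hc
  have := Fintype.ofFinite K
  have : Fact (Nat.Prime 7) := ⟨by norm_num⟩
  have : CharP K 7 := charP_of_card_eq_prime (by rw [← Nat.card_eq_fintype_card, hK])
  have tr : ∀ {a b : T}, a = b ↔ ψ a = ψ b := inj.eq_iff.symm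
  obtain ⟨u, hu⟩ := sj !![0, 0, 1; 1, 0, 1; 0, 1, 0] (by decide)
  obtain ⟨w, hw⟩ := sj !![1, 0, 1; 0, 1, 0; 0, 0, 1] (by decide)
  have u7 : u ^ 7 = 1 := tr.2 (by rw [map_pow, hu, map_one]; decide)
  have u1 : u ≠ 1 := fun k => absurd (tr.1 k) (by rw [hu, map_one]; decide)
  have w2 : w ^ 2 = 1 := tr.2 (by rw [map_pow, hw, map_one]; decide)
  have w1 : w ≠ 1 := fun k => absurd (tr.1 k) (by rw [hw, map_one]; decide)
  have y3 : (u * w) ^ 3 = 1 := tr.2 (by rw [map_pow, map_mul, hu, hw, map_one]; decide)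
  have y1 : u * w ≠ 1 := fun k => absurd (tr.1 k) (by rw [map_mul, hu, hw, map_one]; decide)
  obtain ⟨U, lU, U7⟩ := lift_unip (ρ := ρ) h.two (by norm_num) u7
  obtain ⟨W, lW⟩ := ρ.exL w
  obtain ⟨v, lv⟩ := hg.2 _ _ lU
  obtain ⟨A, hA, k⟩ := ex3 (P := fun A => A.det = 1 ∧ (A * !![0, 0, 1; 1, 0, 1; 0, 1, 0] = ψ v * A ∨
    A = ψ v * A * !![0, 0, 1; 1, 0, 1; 0, 1, 0])) (all3 (P := fun m => m ^ 7 = 1 → m ≠ 1 → ∃ a b c d e f g h i : ZMod 2,
    (!![a, b, c; d, e, f; g, h, i] : M32).det = 1 ∧ (!![a, b, c; d, e, f; g, h, i] * !![0, 0, 1; 1, 0, 1; 0, 1, 0] =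
    m * !![a, b, c; d, e, f; g, h, i] ∨ !![a, b, c; d, e, f; g, h, i] = m * !![a, b, c; d, e, f; g, h, i] *
    !![0, 0, 1; 1, 0, 1; 0, 1, 0])) (by simp only [Matrix.det_fin_three]; decide +kernel) (ψ v)
    (by rw [← map_pow, (nrm_one hg.1 lU lv 7).2 u7, map_one])
    fun k => u1 (by simpa using (nrm_one hg.1 lU lv 1).1 (by simpa using tr.2 (k.trans (map_one ψ).symm))))
  obtain ⟨a, rfl⟩ := sj A hA
  rw [← hu, ← map_mul, ← map_mul, ← map_mul, ← tr, ← tr] at k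
  obtain ⟨A, lA⟩ := ρ.exL a
  have sM := lA.sp.inv.mul hg.1
  have nM : ∀ x X, ρ.L x X → ∃ y, ρ.L y (ad A * g * X * ad (ad A * g)) := fun x X hX =>
    (hg.2 x X hX).elim fun y l => ⟨_, (lA.inv.conj l).congr (by simp [mul_assoc])⟩
  have lv' : ρ.L (a⁻¹ * v * a⁻¹⁻¹) (ad A * g * U * ad (ad A * g)) := (lA.inv.conj lv).congr (by simp [mul_assoc])
  obtain ⟨M, hM⟩ : ∃ M, M = ad A * g := ⟨_, rfl⟩
  rw [← hM] at sM nM lv'
  have un : (M * U * ad M - 1) ^ 7 = 0 := by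
    rw [show M * U * ad M - 1 = M * (U - 1) * ad M by rw [mul_sub, sub_mul, mul_one, sM.right], cj_pow sM, U7]; simp
  have eU : M * U * ad M = U := by
    rcases k with k | k
    · exact (lU.uniq (lv'.congr' (by rw [inv_inv, mul_assoc, ← k]; simp))).resolve_right fun e => unip_neg U7 (e ▸ un)
    have e := (lU.inv.uniq (lv'.congr' (by rw [inv_inv, mul_assoc, eq_mul_inv_of_mul_eq k.symm]; simp))).resolve_right
      fun e => unip_neg (unip_ad U7) (e ▸ un)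
    have := FiniteField.isSquare_neg_one_iff.1 (reg_inv lU.sp sM
      (nil_of_pow (p := 7) (k := 1) (by norm_num) (CharP.cast_eq_zero K 7) (by
        rw [sub_pow_char_of_commute _ (Commute.one_right U), one_pow, sub_eq_zero] at U7; simpa using U7))
      (fun k => u1 (lU.eq_one_iff.2 (Or.inl (hq _ _ lU (sq_of_cube lU.sp k))))) (by rw [← e, mul_assoc, sM.left, mul_one]))
    rw [← Nat.card_eq_fintype_card, hK] at this
    exact (this rfl).elim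
  obtain ⟨w', lw⟩ := nM _ _ lW
  obtain ⟨k, hk⟩ := all3 (P := fun m => m ^ 2 = 1 → (!![0, 0, 1; 1, 0, 1; 0, 1, 0] * m) ^ 3 = 1 → ∃ k : Fin 7,
    m * !![0, 0, 1; 1, 0, 1; 0, 1, 0] ^ k.1 = !![0, 0, 1; 1, 0, 1; 0, 1, 0] ^ k.1 * !![1, 0, 1; 0, 1, 0; 0, 0, 1])
    (by decide +kernel) (ψ w') (by rw [← map_pow, (nrm_one sM lW lw 2).2 w2, map_one]) (by
      rw [← hu, ← map_mul, ← map_pow, (nrm_one sM (lU.mul lW) ((lU.mul lw).congr (by
        conv_rhs => rw [← eU]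
        simp only [mul_assoc, ← mul_assoc (ad M) M, sM.left, one_mul])) 3).2 y3, map_one])
  rw [← hu, ← hw, ← map_pow, ← map_mul, ← map_mul, ← tr] at hk
  have lk := lU.pow k.1
  have sN := lk.sp.inv.mul sM
  have e1 : ad (U ^ k.1) * M * U * ad (ad (U ^ k.1) * M) = U := by
    rw [ad_mul, ad_ad, mul_assoc _ M, ← mul_assoc, mul_assoc (ad _), eU, mul_assoc, ← pow_succ', pow_succ, ← mul_assoc,
      lk.sp.left, one_mul]
  have l1 : ρ.L w (ad (U ^ k.1) * M * W * ad (ad (U ^ k.1) * M)) :=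
    ((lk.inv.conj lw).congr (by simp [mul_assoc])).congr' (by rw [inv_inv, mul_assoc, hk]; simp)
  obtain ⟨N, hN⟩ : ∃ N, N = ad (U ^ k.1) * M := ⟨_, rfl⟩
  rw [← hN] at sN e1 l1
  have cm : ∀ X, N * X * ad N = X → X * N = N * X := fun X e => by
    conv_lhs => rw [← e, mul_assoc, sN.left, mul_one]
  obtain ⟨Y, lY, Y3⟩ := lift3 ρ y3
  have m1 := (mem_Stab lU).2 (cm U e1)
  have m2 := (mem_Stab lY).2 (cm Y (lift3_eq lY (by
    have := (lU.congr e1).mul l1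
    rcases (lU.mul lW).uniq lY with e | e <;> rw [e]
    · exact this.congr (by simp only [mul_assoc, ← mul_assoc (ad N) N, sN.left, one_mul])
    · exact this.neg.congr (by simp only [mul_assoc, ← mul_assoc (ad N) N, sN.left, one_mul, mul_neg, neg_mul])) Y3
    (by rw [cj_pow sN, Y3, mul_one, sN.right])))
  have := top168 h hc m2 (by simpa using mul_mem (inv_mem m1) m2) y3 y1 w2 w1 ⟨u, m1, u7, u1⟩
  obtain ⟨c, rfl⟩ := h.scalar (Z := N) fun x X hX => ((this.ge (Subgroup.mem_top x)) X hX).symm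
  have e2 : g = A * U ^ k.1 * c • 1 := by
    rw [hN, hM, mul_assoc, ← mul_assoc (U ^ k.1), lk.sp.right, one_mul, ← mul_assoc, lA.sp.right, one_mul]
  rcases sN.scalar with rfl | rfl
  exacts [⟨_, (lA.mul lk).congr (by simp [e2])⟩, ⟨_, (lA.mul lk).neg.congr (by simp [e2])⟩]

theorem av3_ne (h : ρ.Hyp) (hr : ρ.NoRoot) (h3 : (3 : K) ≠ 0) (hc : Nat.card T = 168) {γ s : T} {Γ : M4 K} (l : ρ.L γ Γ)
    (e : Γ ^ 3 = 1) (γ1 : γ ≠ 1) (s2 : s * s = 1) (s1 : s ≠ 1) (h7 : (γ * s) ^ 7 = 1) (h1 : γ * s ≠ 1) : av Γ ≠ 0 := fun k => by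
  obtain ⟨S, lS⟩ := ρ.exL s
  obtain ⟨c, r1, r2⟩ := rot_of_av h3 l k e γ1
  obtain ⟨y, hy, h0, k1, k2⟩ := fix_rot lS.sp l.sp (inv_rot hr lS s2 s1).2 zero_sq_ne r1 r2
  have m1 := (mem_Stab lS).2 k1
  have m2 := (mem_Stab l).2 k2
  have := index_gt h hy h0
  rw [top168 h hc m2 m1 ((l.pow 3).eq_one_iff.2 (Or.inl e)) γ1 (by rwa [pow_two]) s1 ⟨_, mul_mem m2 m1, h7, h1⟩] at this
  simp at this

omit [Finite T] in
theorem cocyc {γ d : T} {Γ D z : M4 K} (l : ρ.L γ Γ) (e : Γ ^ 3 = 1) (h0 : av Γ ≠ 0) (lD : ρ.L d D)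
    (hd : d * γ * d⁻¹ = γ⁻¹) (hz : IsV z) (h1 : act Γ z = z) (h2 : act D z = -z) : z = 0 := by
  obtain ⟨c, rfl⟩ := (isV_av Γ).comm hz h0 (av_comm l.sp (by conv_rhs => rw [← h1, act, mul_assoc, l.sp.left, mul_one])).symm
  have e1 : D * Γ * ad D = ad Γ := lift3_eq l.inv ((lD.conj l).congr' hd.symm) (by rw [← ad_pow, e, ad_one])
    (by rw [cj_pow lD.sp, e, mul_one, lD.sp.right])
  have e2 : D * ad Γ * ad D = Γ := by simpa [mul_assoc] using congrArg ad e1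
  have e3 : act D (c • av Γ) = c • av Γ := by simp [act, av, mul_add, add_mul, mul_sub, sub_mul, e1, e2, lD.sp.right, add_comm]
  exact half (by rw [add_zero]; exact add_eq_zero_iff_eq_neg.2 (e3.symm.trans h2))

set_option synthInstance.maxSize 4096 in
theorem pkgD {T K : Type*} [Group T] [Field K] [Finite K] {ρ : SRep T K} (h : ρ.Hyp) (hr : ρ.NoRoot) (hq : ρ.NoQ)
    (hK : Nat.card K = 7) (hc : Nat.card T = 168) : ρ.NotMax := by
  have := ρ.finite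
  have : NeZero (2 : K) := ⟨h.two⟩
  have h3 : (3 : K) ≠ 0 := by
    have := Fintype.ofFinite K
    have : Fact (Nat.Prime 7) := ⟨by norm_num⟩
    have : CharP K 7 := charP_of_card_eq_prime (by rw [← Nat.card_eq_fintype_card, hK])
    exact fun k => absurd ((CharP.cast_eq_zero_iff K 7 3).1 (by exact_mod_cast k)) (by decide)
  obtain ⟨ψ, inj, det, sj⟩ := exists_psi3 h.perf hc
  have tr : ∀ {a b : T}, a = b ↔ ψ a = ψ b := inj.eq_iff.symm
  let φ : T →* Equiv.Perm Pt := MonoidHom.toHomPerm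
    { toFun := fun t v => ⟨ψ t *ᵥ v.1, fun k => v.2 (Matrix.eq_zero_of_mulVec_eq_zero (by rw [det]; decide) k)⟩
      map_one' := funext fun v => Subtype.ext (by simp; rfl)
      map_mul' := fun a b => funext fun v => Subtype.ext
        (show ψ (a * b) *ᵥ v.1 = ψ a *ᵥ ψ b *ᵥ v.1 by rw [map_mul, mulVec_mulVec]) }
  have hφ : ∀ t v w, φ t v = w ↔ ψ t *ᵥ v.1 = w.1 := fun t v w => Subtype.ext_iff
  obtain ⟨s1, hs1⟩ := sj !![1, 0, 1; 0, 1, 0; 0, 0, 1] (by decide)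
  obtain ⟨s2, hs2⟩ := sj !![1, 0, 0; 0, 1, 1; 0, 0, 1] (by decide)
  obtain ⟨t, ht⟩ := sj !![0, 1, 0; 1, 0, 0; 0, 0, 1] (by decide)
  obtain ⟨γ1, hγ1⟩ := sj !![0, 0, 1; 1, 0, 0; 0, 1, 0] (by decide)
  obtain ⟨γ2, hγ2⟩ := sj !![0, 1, 0; 1, 1, 0; 0, 0, 1] (by decide)
  obtain ⟨r1, hr1⟩ := sj !![1, 0, 0; 0, 1, 0; 0, 1, 1] (by decide)
  obtain ⟨r2, hr2⟩ := sj !![0, 0, 1; 0, 1, 0; 1, 0, 0] (by decide)
  obtain ⟨f1, f2, f3, f4, f5, f6, f7, f8, f9, f10, f11, f12, f13, f14, f15, f16, f17, f18, f19, f20, f21, f22, f23, f24, f25,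
      f26⟩ :
      s1 * s1 = 1 ∧ ¬ s1 = 1 ∧ s2 * s2 = 1 ∧ ¬ s2 = 1 ∧ t * t = 1 ∧ γ1 ^ 3 = 1 ∧ ¬ γ1 = 1 ∧ γ2 ^ 3 = 1 ∧ ¬ γ2 = 1 ∧
      r1 * r1 = 1 ∧ ¬ r1 = 1 ∧ r2 * r2 = 1 ∧ ¬ r2 = 1 ∧ (γ1 * r1) ^ 7 = 1 ∧ ¬ γ1 * r1 = 1 ∧ (γ2 * r2) ^ 7 = 1 ∧
      ¬ γ2 * r2 = 1 ∧ γ1 * (t * γ1) = t ∧ γ2 * (t * γ2) = t ∧ s1 * t = t * s2 ∧ s2 * t = t * s1 ∧
      s1 * γ2 = γ2 * (s1 * s2) ∧ s2 * γ2 = γ2 * s1 ∧ s1 * γ2 * s1 * (γ2 * γ2) = s1 * s2 ∧ s1 * s2 * (s1 * s2) = 1 ∧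
      ¬ s1 * s2 = 1 := by
    simp only [tr, map_mul, map_pow, map_one, hs1, hs2, ht, hγ1, hγ2, hr1, hr2]
    decide
  have st : ∀ g, φ g ⟨![1, 0, 0], by decide⟩ = ⟨![1, 0, 0], by decide⟩ → φ g ⟨![0, 1, 0], by decide⟩ = ⟨![0, 1, 0], by decide⟩ →
      g = 1 ∨ g = s1 ∨ g = s2 ∨ g = s1 * s2 := fun g => by
    simp only [hφ, tr, map_mul, map_one, hs1, hs2]
    exact all3 (P := fun m => m.det = 1 → m *ᵥ ![1, 0, 0] = ![1, 0, 0] → m *ᵥ ![0, 1, 0] = ![0, 1, 0] → m = 1 ∨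
      m = !![1, 0, 1; 0, 1, 0; 0, 0, 1] ∨ m = !![1, 0, 0; 0, 1, 1; 0, 0, 1] ∨
      m = !![1, 0, 1; 0, 1, 0; 0, 0, 1] * !![1, 0, 0; 0, 1, 1; 0, 0, 1])
      (by simp only [Matrix.det_fin_three]; decide +kernel) _ (det g)
  have t2 : ∀ a b : Pt, a ≠ b → ∃ g, φ g ⟨![1, 0, 0], by decide⟩ = a ∧ φ g ⟨![0, 1, 0], by decide⟩ = b := fun a b hab => by
    obtain ⟨A, hA, k⟩ := ex3 (P := fun A => A.det = 1 ∧ A *ᵥ ![1, 0, 0] = a.1 ∧ A *ᵥ ![0, 1, 0] = b.1)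
      ((by simp only [Matrix.det_fin_three]; decide +kernel : ∀ a b : Pt, a ≠ b →
      ∃ x y z d e f g h i : ZMod 2, (!![x, y, z; d, e, f; g, h, i] : M32).det = 1 ∧
      (!![x, y, z; d, e, f; g, h, i] : M32) *ᵥ ![1, 0, 0] = a.1 ∧ (!![x, y, z; d, e, f; g, h, i] : M32) *ᵥ ![0, 1, 0] = b.1)
      a b hab)
    obtain ⟨g, rfl⟩ := sj A hA
    exact ⟨g, (hφ _ _ _).2 k.1, (hφ _ _ _).2 k.2⟩
  have t3 : ∀ c : Pt, c = ⟨![1, 0, 0], by decide⟩ ∨ c = ⟨![0, 1, 0], by decide⟩ ∨ c = ⟨![1, 1, 0], by decide⟩ ∨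
      ∃ g ∈ [1, s1, s2, s1 * s2], φ g ⟨![0, 0, 1], by decide⟩ = c := by
    simp only [List.mem_cons, List.not_mem_nil, or_false, exists_eq_or_imp, exists_eq_left, hφ, map_mul, map_one, hs1, hs2]
    decide
  obtain ⟨p1, p2, p3, p4, q1, q2, q3, q4, q5, q6, q7, q8, q9, q10, q11, q12, q13, q14, hp, st, t2, t3⟩ :
      ∃ p1 p2 p3 p4 : Pt, φ t p1 = p2 ∧ φ t p2 = p1 ∧ φ t p3 = p3 ∧ φ t p4 = p4 ∧ φ γ1 p1 = p2 ∧ φ γ1 p2 = p4 ∧
      φ γ1 p4 = p1 ∧ φ γ2 p1 = p2 ∧ φ γ2 p2 = p3 ∧ φ γ2 p3 = p1 ∧ φ s1 p1 = p1 ∧ φ s1 p2 = p2 ∧ φ s2 p1 = p1 ∧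
      φ s2 p2 = p2 ∧ p1 ≠ p2 ∧ (∀ g, φ g p1 = p1 → φ g p2 = p2 → g = 1 ∨ g = s1 ∨ g = s2 ∨ g = s1 * s2) ∧
      (∀ a b : Pt, a ≠ b → ∃ g, φ g p1 = a ∧ φ g p2 = b) ∧
      ∀ c : Pt, c = p1 ∨ c = p2 ∨ c = p3 ∨ ∃ g ∈ [1, s1, s2, s1 * s2], φ g p4 = c := by
    refine ⟨_, _, _, _, ?_, ?_, ?_, ?_, ?_, ?_, ?_, ?_, ?_, ?_, ?_, ?_, ?_, ?_, by decide, st, t2, t3⟩ <;>
      simp only [hφ, ht, hγ1, hγ2, hs1, hs2] <;> decide
  clear_value φ
  clear hφ hs1 hs2 ht hγ1 hγ2 hr1 hr2 tr inj det sj ψ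
  choose L hL using ρ.exL
  obtain ⟨Γ1, l1, e1⟩ := lift3 ρ f6
  obtain ⟨Γ2, l2, e2⟩ := lift3 ρ f8
  have n1 := av3_ne h hr h3 hc l1 e1 f7 f10 f11 f14 f15
  have n2 := av3_ne h hr h3 hc l2 e2 f9 f12 f13 f16 f17
  have aL : ∀ {g : T} {G : M4 K}, ρ.L g G → ∀ v, act (L g) v = act G v := fun l v => by
    rcases l.uniq (hL _) with e | e <;> simp [e, act]
  have am : ∀ a b v, act (L (a * b)) v = act (L a) (act (L b) v) := fun a b v => by rw [aL ((hL a).mul (hL b)), act_mul]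
  have a1 : ∀ v, act (L 1) v = v := fun v => by rw [aL ρ.oneL]; simp [act]
  have fx : ∀ g v, act (L g) v = v → L g * v = v * L g := fun g v k => by
    conv_rhs => rw [← k, act, mul_assoc, (hL g).sp.left, mul_one]
  obtain ⟨x, xv, x0, x1, x2, x3⟩ : ∃ x, IsV x ∧ x ≠ 0 ∧ act (L s1) x = x ∧ act (L s2) x = x ∧ act (L t) x = -x := by
    have key : ∀ y, IsV y → act (L s1) y = y → act (L s2) y = y → act (L t) y ≠ y →
        ∃ x, IsV x ∧ x ≠ 0 ∧ act (L s1) x = x ∧ act (L s2) x = x ∧ act (L t) x = -x := fun y hy k1 k2 k3 =>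
      ⟨y - act (L t) y, hy.sub (hy.act (hL _).sp), sub_ne_zero.2 k3.symm,
        by rw [act, mul_sub, sub_mul, ← act, ← act, ← am, f20, am, k1, k2],
        by rw [act, mul_sub, sub_mul, ← act, ← act, ← am, f21, am, k1, k2],
        by rw [act, mul_sub, sub_mul, ← act, ← act, ← am, f5, a1, neg_sub]⟩
    obtain ⟨y, hy, h0, k1, k2⟩ := fix_rot (hL s1).sp (hL s2).sp (inv_rot hr (hL _) f1 f2).2 zero_sq_ne
      (inv_rot hr (hL _) f3 f4).2 zero_sq_ne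
    replace k1 := act_fix (hL _).sp k1
    replace k2 := act_fix (hL _).sp k2
    by_cases k3 : act (L t) y = y
    swap
    · exact key y hy k1 k2 k3
    refine key (act (L γ2) y) (hy.act (hL _).sp) (by rw [← am, f22, am, am, k2, k1]) (by rw [← am, f23, am, k1]) fun k4 => ?_
    have k5 : act (L (γ2 * γ2)) y = y := by rw [am, ← k4, ← am, ← am, mul_assoc, f19, k3]
    have k6 : act (L γ2) y = y := by
      conv_lhs => rw [← k5, ← am, ← pow_three, f8, a1]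
    obtain ⟨c, hc'⟩ := hy.comm (isV_av Γ2) h0 (av_comm l2.sp ((mem_Stab (hL _)).2 (fx _ _ k6) _ l2))
    have ad3 : ad Γ2 = Γ2 * Γ2 := by rw [← mul_one (ad Γ2), ← e2, pow_succ', ← mul_assoc, l2.sp.left, one_mul, pow_two]
    have eP : 1 + Γ2 + Γ2 * Γ2 = (1 + Γ2.trace / 2) • 1 + c • y := by rw [← hc', av, ad3]; module
    have gP : Γ2 * (1 + Γ2 + Γ2 * Γ2) = 1 + Γ2 + Γ2 * Γ2 := by linear_combination (norm := noncomm_ring) e2
    have sP : L s1 * (1 + Γ2 + Γ2 * Γ2) = (1 + Γ2 + Γ2 * Γ2) * L s1 := by rw [eP]; simp [mul_add, add_mul, fx _ _ k1]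
    have w2 := (inv_rot hr ((((hL s1).mul l2).mul (hL s1)).mul (l2.mul l2)) (f24 ▸ f25) (f24 ▸ f26)).1
    generalize hP : 1 + Γ2 + Γ2 * Γ2 = P at gP sP
    have wP : L s1 * Γ2 * L s1 * (Γ2 * Γ2) * P = -P := by
      rw [mul_assoc, mul_assoc Γ2, gP, gP, mul_assoc, sP, mul_assoc, ← mul_assoc Γ2, gP, ← sP, ← mul_assoc,
        (inv_rot hr (hL _) f1 f2).1, neg_one_mul]
    generalize L s1 * Γ2 * L s1 * (Γ2 * Γ2) = W at w2 wP
    have := congrArg (· * P) w2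
    simp only [mul_assoc _ _ P, wP, mul_neg, neg_neg, neg_one_mul] at this
    rw [half (A := P) (B := 0) (by rw [add_zero]; exact add_eq_zero_iff_eq_neg.2 this)] at hP
    refine n2 ((isV_av _).eq_smul_one (c := -1 - Γ2.trace / 2) ?_)
    rw [av, ad3]
    linear_combination (norm := module) hP
  have s4 : ∀ g, g = 1 ∨ g = s1 ∨ g = s2 ∨ g = s1 * s2 → act (L g) x = x := by
    rintro g (rfl | rfl | rfl | rfl)
    exacts [a1 x, x1, x2, by rw [am, x2, x1]]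
  classical
  let xx : Pt → Pt → M4 K := fun a b => if k : a ≠ b then act (L (t2 a b k).choose) x else 0
  have hx : ∀ g, xx (φ g p1) (φ g p2) = act (L g) x := fun g => by
    have k := (φ g).injective.ne hp
    obtain ⟨k1, k2⟩ := (t2 _ _ k).choose_spec
    simp only [xx, dif_pos k]
    generalize (t2 _ _ k).choose = g' at k1 k2
    rw [← mul_inv_cancel_left g g', am, s4 _ (st _ (by simp [k1]) (by simp [k2]))]
  have xd : ∀ a, xx a a = 0 := fun a => by simp [xx]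
  have eq : ∀ g a b, act (L g) (xx a b) = xx (φ g a) (φ g b) := fun g a b => by
    by_cases k : a = b
    · simp [k, xd, act]
    obtain ⟨g', rfl, rfl⟩ := t2 a b k
    rw [hx, ← am, ← hx]; simp
  have vx : ∀ a b, IsV (xx a b) := fun a b => by
    simp only [xx]; split_ifs
    exacts [xv.act (hL _).sp, IsV.zero]
  have x12 : xx p1 p2 = x := by simpa [a1] using hx 1
  have an : ∀ a b, xx b a = -xx a b := fun a b => by
    by_cases k : a = b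
    · simp [k, xd]
    obtain ⟨g, rfl, rfl⟩ := t2 a b k
    have := hx (g * t)
    simp only [map_mul, Equiv.Perm.mul_apply, q1, q2] at this
    rw [this, am, x3, act_neg, hx]
  have aa : ∀ G u v w : M4 K, act G (u + v + w) = act G u + act G v + act G w := fun G u v w => by simp [act, mul_add, add_mul]
  have cc : ∀ {γ Γ} (c : Pt), ρ.L γ Γ → Γ ^ 3 = 1 → av Γ ≠ 0 → γ * (t * γ) = t → φ γ p1 = p2 → φ γ p2 = c → φ γ c = p1 →
      φ t c = c → xx p1 p2 + xx p2 c + xx c p1 = 0 := fun c l e n k k1 k2 k3 k4 =>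
    cocyc l e n (hL t) (by rw [mul_inv_eq_iff_eq_mul, eq_inv_mul_iff_mul_eq, k]) (((vx _ _).add (vx _ _)).add (vx _ _))
      (by rw [← aL l, aa, eq, eq, eq, k1, k2, k3]; abel) (by
        rw [aa, eq, eq, eq, q1, q2, k4, an p1 p2, an c p1, an p2 c]; abel)
  have co : ∀ a b c, xx a b + xx b c + xx c a = 0 := fun a b c => by
    by_cases k : a = b
    · rw [k, xd, an b c]; simp
    obtain ⟨g, rfl, rfl⟩ := t2 a b k
    obtain ⟨c, rfl⟩ := (φ g).surjective c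
    rw [← eq, ← eq, ← eq, ← aa]
    suffices xx p1 p2 + xx p2 c + xx c p1 = 0 by simp [this, act]
    rcases t3 c with rfl | rfl | rfl | ⟨s, hs, rfl⟩
    · rw [xd, an c p2]; simp
    · rw [xd, an p1 c]; simp
    · exact cc _ l2 e2 n2 f19 q8 q9 q10 q3
    · have : φ s p1 = p1 ∧ φ s p2 = p2 := by
        simp only [List.mem_cons, List.not_mem_nil, or_false] at hs
        rcases hs with rfl | rfl | rfl | rfl <;> simp [*]
      have k := congrArg (act (L s)) (cc _ l1 e1 n1 f18 q5 q6 q7 q4)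
      rwa [aa, eq, eq, eq, this.1, this.2, show act (L s) 0 = 0 by simp [act]] at k
  have df : ∀ a b, xx a p1 - xx b p1 = xx a b := fun a b => by
    have := co a b p1
    rw [an a p1] at this
    linear_combination (norm := abel) -this
  have nn : ∀ a b, a ≠ b → bt (xx a b) (xx a b) = bt x x := fun a b k => by
    obtain ⟨g, rfl, rfl⟩ := t2 a b k
    rw [hx, bt_act (hL g).sp xv xv]
  have g1 : ∀ a b, bt (xx a p1) (xx b p1) = bt x x / 2 * ((if a = b then 1 else 0) + 1 - (if a = p1 then 1 else 0) -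
      (if b = p1 then 1 else 0)) := fun a b => by
    by_cases k1 : a = p1
    · simp [k1, xd, eq_comm]
    by_cases k2 : b = p1
    · simp [k2, xd]
    by_cases k : a = b
    · simp [k, k2, nn b p1 k2]; field_simp; norm_num
    have := nn a b k
    rw [← df, bt_sub_left, bt_sub_right, bt_sub_right, nn a p1 k1, nn b p1 k2, bt_comm (xx b p1)] at this
    simp [k, k1, k2]; field_simp; linear_combination -this
  have g2 : ∀ a b c d, bt (xx a p1 - xx b p1) (xx c p1 - xx d p1) = bt x x / 2 * dl K a b c d := fun a b c d => by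
    simp only [bt_sub_left, bt_sub_right, g1, dl]; ring
  have k0 : bt x x / 2 ≠ 0 := fun k => x0 (ts_zero h (S := Set.range fun p : Pt × Pt => xx p.1 p.2) (Set.finite_range _) (by
      rintro _ ⟨a, rfl⟩ _ ⟨b, rfl⟩
      exact (vx _ _).anti (vx _ _) (show bt (xx a.1 a.2) (xx b.1 b.2) = 0 by rw [← df a.1, ← df b.1, g2, k, zero_mul])) (by
      rintro g X hX _ ⟨a, rfl⟩
      exact ⟨(φ g a.1, φ g a.2), by rw [← aL hX, eq]⟩) _ ⟨(p1, p2), x12⟩)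
  have fin : ∀ g X, ρ.L g X → ∀ a b, X * (xx a p1 - xx b p1) = (xx (φ g a) p1 - xx (φ g b) p1) * X := fun g X hX a b => by
    rw [df, df, ← eq, aL hX, act, mul_assoc, hX.sp.left, mul_one]
  have c7 : Nat.card Pt = 7 := by rw [Nat.card_eq_fintype_card]; decide
  exact notMax_RS (e := fun a => xx a p1) h h3 (by omega) (ds_of k0 (fun _ _ => (vx _ _).sub (vx _ _)) g2)
    (fun _ _ => (vx _ _).sub (vx _ _)) φ fin (fun g hg => (nrm_lift h hq hK hc hg).elim fun u l =>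
      ⟨hg.1, φ u, 1, by simp, by simpa using fin u g l⟩) (by rw [hc, c7]; decide)

end Cfsg.Agent.H2.Mi
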