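import Cfsg.Agent.H2.MiF
import Cfsg.Agent.H1.M4Out

/-!
The group `A₇` in `PSp₄(7)`.
-/

set_option autoImplicit false

namespace Cfsg.Agent.H2.Mi

open Matrix Cfsg.Agent.H1.Mit

variable {T K : Type*} [Group T] [Field K] {ρ : SRep T K}

theorem A7_le (H : Subgroup (Equiv.Perm (Fin 7))) (h1 : Equiv.swap 0 1 * Equiv.swap 2 3 ∈ H)
    (h2 : Equiv.swap 1 3 * Equiv.swap 1 2 ∈ H) (h3 : Equiv.swap 4 6 * Equiv.swap 4 5 ∈ H)
    (h4 : Equiv.swap 0 4 * Equiv.swap 5 6 ∈ H) : alternatingGroup (Fin 7) ≤ H := by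
  have : MulAction.IsPretransitive H (Fin 7) := (MulAction.isPretransitive_iff_base (0 : Fin 7)).2 fun x => by
    have k : ∀ g ∈ H, g 0 = x → ∃ g : H, g • (0 : Fin 7) = x := fun g h e => ⟨⟨g, h⟩, e⟩
    fin_cases x
    exacts [k _ H.one_mem rfl, k _ h1 (by decide), k _ (mul_mem h2 h1) (by decide),
      k _ (mul_mem h2 (mul_mem h2 h1)) (by decide), k _ h4 (by decide), k _ (mul_mem h3 h4) (by decide),
      k _ (mul_mem h3 (mul_mem h3 h4)) (by decide)]
  exact Equiv.Perm.alternatingGroup_le_of_isPreprimitive_of_isThreeCycle_mem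
    (MulAction.IsPreprimitive.of_prime_card (by simp; decide)) (card_support_eq_three_iff.1 (by decide)) h2

/-- quaternion units commuting with `I`, with sum `-J` -/
structure Qu (I J i j k : M4 K) : Prop where
  ai : ad i = -i
  aj : ad j = -j
  ii : i * i = -1
  jj : j * j = -1
  ij : i * j = k
  ji : j * i = -k
  ci : I * i = i * I
  cj : I * j = j * I
  s : J = -(i + j + k)

namespace Qu

variable {I J i j k i' j' k' : M4 K} (q : Qu I J i j k)
include q

theorem jk : j * k = i := by rw [← q.ij, ← mul_assoc, q.ji, ← q.ij, neg_mul, mul_assoc, q.jj]; simp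

theorem kj : k * j = -i := by rw [← q.ij, mul_assoc, q.jj]; simp

theorem rot : Qu I J j k i :=
  ⟨q.aj, by rw [← q.ij, ad_mul, q.ai, q.aj, neg_mul_neg, q.ji, q.ij], q.jj,
    by rw [← q.ij, mul_assoc, ← mul_assoc j, q.ji, neg_mul, q.kj, neg_neg, q.ii], q.jk, q.kj, q.cj,
    by rw [← q.ij, ← mul_assoc, q.ci, mul_assoc, q.cj, mul_assoc], by rw [q.s]; abel⟩

theorem kk : k * k = -1 := q.rot.jj
theorem ki : k * i = j := q.rot.jk
theorem ik : i * k = -j := q.rot.kj
theorem ck : I * k = k * I := q.rot.cj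

theorem aJ : ad J = -J := by rw [q.s]; simp [q.ai, q.aj, q.rot.aj]; abel

theorem JJ : J * J = -3 := by
  rw [q.s]; simp only [neg_mul_neg, mul_add, add_mul, q.ii, q.jj, q.kk, q.ij, q.ji, q.jk, q.kj, q.ki, q.ik]
  rw [show (3 : M4 K) = 1 + 1 + 1 by norm_num]; abel

theorem IJ : I * J = J * I := by rw [q.s]; simp [mul_add, add_mul, q.ci, q.cj, q.ck]

theorem iJ : i * J + J * i = 2 := by
  rw [q.s]; simp only [mul_neg, neg_mul, mul_add, add_mul, q.ii, q.ij, q.ji, q.ki, q.ik, ← one_add_one_eq_two]; abel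

theorem sp : Sp i := by rw [Sp, q.ai, neg_mul, q.ii, neg_neg]

variable [NeZero (2 : K)]

theorem v1 (h : ad I = -I) : IsV (I * i) := by
  refine ⟨by rw [ad_mul, q.ai, h, neg_mul_neg, q.ci], (mul_eq_zero.1 (?_ : 2 * (I * i).trace = 0)).resolve_left two_ne_zero⟩
  have : j * (I * k) = I * i := by rw [← mul_assoc, ← q.cj, mul_assoc, q.jk]
  have e : (I * i).trace = -(I * i).trace := by
    conv_lhs => rw [← this, trace_mul_comm, mul_assoc, q.kj, mul_neg, trace_neg]
  linear_combination e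

theorem v2 (h : ad I = -I) : IsV (I * (j + k)) := by rw [mul_add]; exact (q.rot.v1 h).add (q.rot.rot.v1 h)

omit [NeZero (2 : K)] in
theorem pp (h : I * I = -3) (h7 : (7 : K) = 0) : bt (I * (j + k)) (I * (j + k)) = -2 ∧ bt (I * (j + k)) (I * (k + i)) = -1 ∧
    bt (I * (k + i)) (I * (j + k)) = -1 := by
  have e : ∀ x y : M4 K, I * x = x * I → I * x * (I * y) = (-3 : K) • (x * y) := fun x y e => by
    rw [e, mul_assoc, ← mul_assoc I, h]; simp [← two_add_one_eq_three, add_smul, two_smul, two_mul, add_mul, mul_add]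
  have c1 : I * (j + k) = (j + k) * I := by rw [mul_add, add_mul, q.cj, q.ck]
  have c2 : I * (k + i) = (k + i) * I := by rw [mul_add, add_mul, q.ci, q.ck]
  have : bt (I * (j + k)) (I * (k + i)) = -1 := (bt_of (c := 6) (by
    rw [e _ _ c1, e _ _ c2]
    simp only [mul_add, add_mul, q.kk, q.ij, q.ji, q.jk, q.kj, q.ki, q.ik]; module)).trans (by linear_combination h7)
  exact ⟨(bt_of (c := 12) (by
    rw [e _ _ c1]; simp only [mul_add, add_mul, q.kk, q.jj, q.jk, q.kj]; module)).trans (by linear_combination 2 * h7),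
    this, by rw [bt_comm, this]⟩

theorem key (q' : Qu J I i' j' k') (h7 : (7 : K) = 0) : i * (J * (j' + k')) = (J * (j' + k') + I * (j + k)) * i ∧
    bt (I * (j + k)) (J * (j' + k')) = 1 := by
  have s7 : ∀ x : M4 K, (7 : K) • x = 0 := fun x => by rw [h7, zero_smul]
  obtain ⟨u, hu⟩ : ∃ u, u = J * i' + (5 : K) • (I * J) := ⟨_, rfl⟩
  have vf : IsV (I * J) := by
    have := (((q.v1 q'.aJ).add (q.v2 q'.aJ))).neg
    rwa [← mul_add, ← add_assoc, ← mul_neg, ← q.s] at this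
  have vu : IsV u := hu ▸ (q'.v1 q.aJ).add (vf.smul _)
  have II : ∀ x, I * (I * x) = (-3 : K) • x := fun x => by
    rw [← mul_assoc, q'.JJ]; simp [← two_add_one_eq_three, add_smul, two_smul, two_mul, add_mul]
  have a1 : u * I = -(I * u) := by
    have e1 : J * i' * I + I * (J * i') = (2 : K) • J := by
      rw [← mul_assoc I, q.IJ, mul_assoc, mul_assoc, ← mul_add, q'.iJ, mul_two, two_smul]
    rw [eq_neg_iff_add_eq_zero, hu, add_mul, mul_add, add_add_add_comm, e1, Matrix.smul_mul, Matrix.mul_smul, mul_assoc,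
      ← q.IJ, II, ← s7 ((-4 : K) • J)]
    module
  have a2 : ∀ x, IsV (I * x) → I * x = x * I → x * u = u * x ∧ bt (I * x) u = 0 := fun x hx e => by
    have e1 := hx.cliff vu
    have e2 : bt (I * x) u = 0 := by
      have := congrArg trace e1
      rw [trace_add, ← mul_assoc u, a1, neg_mul, trace_neg, trace_mul_comm (I * u), ← mul_assoc, ← e] at this
      exact (mul_eq_zero.1 (by simpa using this.symm : bt (I * x) u * 4 = 0)).resolve_right four_ne
    refine ⟨smul_right_injective _ (show (-3 : K) ≠ 0 from fun k => two_ne_zero (α := K) (by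
      linear_combination 2 * h7 + 4 * k)) ?_, e2⟩
    rw [e2, zero_smul, ← mul_assoc u, a1, neg_mul, ← sub_eq_add_neg, sub_eq_zero] at e1
    simp only [← II, ← mul_assoc]
    simp only [mul_assoc I I, mul_assoc I (I * x), mul_assoc I (I * u), e1]
  have e1 : J * (j' + k') = (4 : K) • (I * J) - u := by
    rw [hu, show j' + k' = -I - i' by rw [q'.s]; abel, mul_sub, mul_neg, ← q.IJ]; module
  have e2 : ∀ x y, I * x = x * I → x * (I * y) = I * (x * y) := fun x y e => by rw [← mul_assoc, ← e, mul_assoc]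
  rw [e1]
  constructor
  · rw [mul_sub, (a2 i (q.v1 q'.aJ) q.ci).1, Matrix.mul_smul, e2 _ _ q.ci, add_mul, sub_mul, Matrix.smul_mul, mul_assoc,
      mul_assoc, q.s, ← add_zero (_ + I * ((j + k) * i)), ← s7 (I * j - I * k)]
    simp only [mul_neg, neg_mul, mul_add, add_mul, q.ii, q.ij, q.ji, q.ki, q.ik]; module
  · have c1 : I * (j + k) = (j + k) * I := by rw [mul_add, add_mul, q.cj, q.ck]
    rw [bt_sub_right, (a2 _ (q.v2 q'.aJ) c1).2, bt_smul_right, bt_of (c := -12) (by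
      rw [mul_assoc, mul_assoc, e2 _ _ c1, e2 _ _ q.IJ, II, II, q.s]
      simp only [mul_neg, neg_mul, mul_add, add_mul, q.kk, q.jj, q.ij, q.ji, q.jk, q.kj, q.ki, q.ik]; module)]
    linear_combination -7 * h7

omit [NeZero (2 : K)] in
theorem a1 : i * (I * (j + k)) = -(I * (j + k)) * i ∧ i * (I * (k + i)) = (I * (i + j) - I * (j + k)) * i ∧
    i * (I * (i + j)) = (I * (k + i) - I * (j + k)) * i := by
  simp only [← mul_assoc, ← q.ci]
  simp only [mul_assoc, mul_neg, neg_mul, mul_add, add_mul, sub_mul, q.ii, q.ij, q.ji, q.ki, q.ik]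
  refine ⟨?_, ?_, ?_⟩ <;> abel

end Qu

variable [NeZero (2 : K)]

theorem qu_grp (h : ρ.II) {z w t : T} {X W : M4 K} (lX : ρ.O z X) (lW : ρ.O w W) (hW : W * W + W + 1 = 0) (ht : MH.Inv t)
    (c1 : t * z = z * t) (c2 : w * z = z * w) (n : w * t * w⁻¹ ≠ t) (c3 : w * t * w⁻¹ * t = t * (w * t * w⁻¹))
    (c4 : w * (w * t * w⁻¹) * w⁻¹ = t * (w * t * w⁻¹)) : ∃ i j k, ρ.L t i ∧ Qu (X - ad X) (W - ad W) i j k ∧
      (W * i = j * W ∧ W * j = k * W ∧ W * k = i * W) ∧ X * i = i * X ∧ X * j = j * X ∧ X * k = k * X := by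
  have sW := lW.1.sp
  have aW : ad W = -1 - W := by
    have := congrArg (ad W * ·) hW
    simp only [mul_add, ← mul_assoc, sW.left] at this
    linear_combination (norm := noncomm_ring) this
  obtain ⟨i, li, e⟩ : ∃ i, ρ.L t i ∧ W * (W * i * ad W) * ad W = i * (W * i * ad W) := by
    obtain ⟨i, li⟩ := ρ.exL t
    rcases (li.mul (lW.1.conj li)).uniq ((lW.1.conj (lW.1.conj li)).congr' c4.symm) with e | e
    exacts [⟨i, li, e⟩, ⟨-i, li.neg, by simp [e]⟩]
  have lj := lW.1.conj li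
  obtain ⟨j, hj⟩ : ∃ j, j = W * i * ad W := ⟨_, rfl⟩
  rw [← hj] at e lj
  have w1 : W * i = j * W := by rw [hj, mul_assoc, sW.left, mul_one]
  have w2 : W * j = i * j * W := by rw [← e, mul_assoc, sW.left, mul_one]
  have w3 : W * (i * j) = i * W := by
    have e3 : W * (W * W) = 1 := by linear_combination (norm := noncomm_ring) (W - 1) * hW
    refine sW.cancel' (sW.cancel' ?_)
    rw [mul_assoc W, ← w2, mul_assoc W, mul_assoc W, ← w1, mul_assoc i, mul_assoc i, mul_assoc W W W, e3, ← mul_assoc W W i,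
      ← mul_assoc W (W * W), e3, one_mul, mul_one]
  have ii := h.sq ht li
  have jj := h.sq (ht.conj w) lj
  have ji := h.anti ht (ht.conj w) n c3 li lj
  have ad1 : ∀ x : M4 K, Sp x → x * x = -1 → ad x = -x := fun x s e => s.cancel' (by rw [s.left, neg_mul, e, neg_neg])
  have x1 : X * i = i * X := (lX.comm h.two li c1).symm
  have x2 : X * j = j * X := (lX.comm h.two lj (by
    rw [mul_assoc, mul_assoc, (show Commute w z from c2).inv_left.eq, ← mul_assoc t, c1, ← mul_assoc, ← mul_assoc, c2]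
    simp only [mul_assoc])).symm
  have x3 : ∀ x, X * x = x * X → (X - ad X) * x = x * (X - ad X) := fun x e => by
    rw [sub_mul, mul_sub, e, ad_comm lX.1.sp e]
  refine ⟨i, j, i * j, li, ⟨ad1 i li.sp ii, ad1 j lj.sp jj, ii, jj, rfl, ji, x3 i x1, x3 j x2, half ?_⟩, ⟨w1, w2, w3⟩, x1, x2,
    by rw [← mul_assoc, x1, mul_assoc, x2, mul_assoc]⟩
  have e1 := ad_swap sW w1
  rw [aW] at e1 ⊢
  have e2 : W * (i * j - j) = j - i := by linear_combination (norm := noncomm_ring) w3 + e1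
  linear_combination (norm := noncomm_ring) -2 * e2 * (i * j - j) + 2 * W * (i * ji * j - i * i * jj + ii + jj - ji * j) -
    2 * ji * j + 2 * i * jj + 2 * jj + 2 * ii * j

omit [NeZero (2 : K)] in
theorem cyc3 {I W X i j k : M4 K} (h : W * I = I * W) (w : W * i = j * W ∧ W * j = k * W ∧ W * k = i * W)
    (h' : X * I = I * X) (x : X * i = i * X ∧ X * j = j * X ∧ X * k = k * X) :
    (W * (I * (j + k)) = I * (k + i) * W ∧ W * (I * (k + i)) = I * (i + j) * W ∧ W * (I * (i + j)) = I * (j + k) * W) ∧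
    X * (I * (j + k)) = I * (j + k) * X ∧ X * (I * (k + i)) = I * (k + i) * X ∧ X * (I * (i + j)) = I * (i + j) * X := by
  simp only [← mul_assoc, h, h']
  simp [mul_assoc, mul_add, add_mul, w, x]

/-- the pairs of an element and a permutation of the points it induces -/
def Gam (ρ : SRep T K) (e : Fin 7 → M4 K) : Subgroup (T × Equiv.Perm (Fin 7)) where
  carrier := {p | ∃ X, ρ.L p.1 X ∧ ∀ a b, X * (e a - e b) = (e (p.2 a) - e (p.2 b)) * X}
  one_mem' := ⟨1, ρ.oneL, by simp⟩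
  mul_mem' := fun ⟨X, l, k⟩ ⟨Y, l', k'⟩ => ⟨_, l.mul l', fun a b => by
    rw [mul_assoc, k', ← mul_assoc, k, mul_assoc]; rfl⟩
  inv_mem' := fun {p} ⟨X, l, k⟩ => ⟨_, l.inv, fun a b => by simpa using ad_swap l.sp (k (p.2⁻¹ a) (p.2⁻¹ b))⟩

omit [NeZero (2 : K)] in
theorem mem_Gam {e : Fin 7 → M4 K} {x : T} {X : M4 K} (l : ρ.L x X) {σ : Equiv.Perm (Fin 7)} (s : Fin 7 → Fin 7)
    (hs : ∀ a, σ a = s a) (k : ∀ a, X * e a = (e (s a) - e (s 0)) * X) : (x, σ) ∈ Gam ρ e :=
  ⟨X, l, fun a b => by rw [mul_sub, k, k, ← sub_mul, sub_sub_sub_cancel_right, hs, hs]⟩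

theorem A7_of [Finite K] (h : ρ.Hyp) (h3 : (3 : K) ≠ 0) (hc : Nat.card T = 2520) {e : Fin 7 → M4 K} (hv : ∀ a, IsV (e a))
    (g : ∀ a b, bt (e a) (e b) = -1 * ((if a = b then 1 else 0) + 1 - (if a = 0 then 1 else 0) - (if b = 0 then 1 else 0)))
    (h0 : e 0 = 0) (hA : alternatingGroup (Fin 7) ≤ (Gam ρ e).map (MonoidHom.snd _ _)) :
    Nonempty (T ≃* alternatingGroup (Fin 7)) ∧ ρ.TrIn ⊥ := by
  have := ρ.finite
  have ds : DS e (-1) := ds_of (by simp) (fun _ _ => (hv _).sub (hv _)) fun a b c d => by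
    simp only [bt_sub_left, bt_sub_right, g, dl]; ring
  have cen : ∀ Z, Sp Z → (∀ a b, Z * (e a - e b) = (e a - e b) * Z) → Z = 1 ∨ Z = -1 := fun Z hZ k =>
    comm_V hZ fun v v1 => by
      have := sub_eq_zero.1 (span5 (d := fun i => e i.succ.castSucc) (κ := -1) (fun _ => hv _) h3 (by simp)
        (fun i j => by rw [g]; fin_cases i <;> fin_cases j <;> simp) ((v1.act hZ).sub v1) fun i => by
          rw [bt_sub_left, ← bt_act hZ v1 (hv _), act_fix hZ (y := e _) (by simpa [h0] using k _ 0), sub_self])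
      conv_rhs => rw [← this, act, mul_assoc, hZ.left, mul_one]
  let f := (MonoidHom.fst T _).comp (Gam ρ e).subtype
  let f' := (MonoidHom.snd T _).comp (Gam ρ e).subtype
  have i1 : Function.Injective f := (injective_iff_map_eq_one f).2 fun ⟨⟨x, σ⟩, X, l, k⟩ e1 => by
    refine Subtype.ext (Prod.ext e1 (Equiv.ext fun a => ?_))
    obtain ⟨b, hb⟩ := exists_ne a
    have : e a - e b = e (σ a) - e (σ b) := by
      rcases l.eq_one_iff.1 e1 with rfl | rfl
      exacts [by simpa using k a b, neg_injective (by simpa only [neg_mul, mul_neg, one_mul, mul_one] using k a b)]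
    exact ((ds.eq_of h3 hb.symm (ε := 1) (by simp) (by rw [one_smul, ← this])).resolve_right
      fun k => two_ne_zero (α := K) (by linear_combination k.1)).2.1
  have i2 : Function.Injective f' := (injective_iff_map_eq_one f').2 fun ⟨⟨x, σ⟩, X, l, k⟩ e1 =>
    Subtype.ext (Prod.ext (l.eq_one_iff.2 (cen X l.sp (by simpa [show σ = 1 from e1] using k))) e1)
  have c7 : Nat.card (alternatingGroup (Fin 7)) = 2520 := by rw [nat_card_alternatingGroup]; simp; decide
  have b1 : Function.Bijective f := i1.bijective_of_nat_card_le (by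
    rw [hc, ← c7]
    exact (Subgroup.card_le_of_le hA).trans (Nat.le_of_dvd Nat.card_pos (Subgroup.card_map_dvd _ _)))
  let φ := f'.comp (MulEquiv.ofBijective f b1).symm.toMonoidHom
  refine ⟨H4.Small.alt_of_hom φ (i2.comp (MulEquiv.ofBijective f b1).symm.injective) (by rw [hc]; decide),
    trIn_of_model h e _ ds.ne ds.ad ds.cl (fun x X hX => ⟨φ x, Equiv.Perm.mem_alternatingGroup.2
      (MH.hom_eq_one h.perf (Equiv.Perm.sign.comp φ) x), fun a b => ?_⟩) cen⟩
  obtain ⟨Y, l, k⟩ := ((MulEquiv.ofBijective f b1).symm x).2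
  rcases (l.congr' ((MulEquiv.ofBijective f b1).apply_symm_apply x).symm).uniq hX with rfl | rfl
  · exact k a b
  · rw [neg_mul, mul_neg, k]; rfl

end Cfsg.Agent.H2.Mi

namespace Cfsg.Agent.H2.Mi

open Matrix Cfsg.Agent.H1.Mit

theorem pkgE {T K : Type*} [Group T] [Field K] [Finite K] {ρ : SRep T K} {t : T} {M Z : Subgroup T} {ψ : M →* S4} {z : T}
    {w : M} {g : T} (h : ρ.II) (o : ρ.OutA t M Z ψ z w g) : Nonempty (T ≃* alternatingGroup (Fin 7)) ∧ ρ.TrIn ⊥ := by
  have : NeZero (2 : K) := ⟨h.two⟩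
  have h7 := o.seven
  have h3 : (3 : K) ≠ 0 := fun k => two_ne_zero (α := K) (by linear_combination 2 * h7 - 4 * k)
  obtain ⟨X, m, lX, hX⟩ := o.nt.rot z o.hz
  have x3 : X ^ 3 = 1 := lX.pow_eq h.two (o.cz ▸ pow_card_mem o.hz)
  have hX' : X * X + X + 1 = 0 := by
    have e : (m * m - 1) • X = (m + 1) • (1 : M4 K) := by
      rw [pow_three', hX, sub_mul, Matrix.smul_mul, hX, one_mul] at x3
      linear_combination (norm := module) x3
    by_cases k : m * m - 1 = 0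
    · rw [k, zero_smul] at e
      rw [hX, show m = -1 from eq_neg_of_add_eq_zero_left (by simpa using congrFun (congrFun e.symm 0) 0)]; module
    · exact (o.z1 (L_scalar (c := (m + 1) / (m * m - 1)) (lX.1.congr (smul_right_injective _ k (by
        simp only [e, smul_smul]; rw [mul_div_cancel₀ _ k]))))).elim
  obtain ⟨G, lG⟩ := ρ.exL g
  have lW := o.g1 ▸ lX.conj lG
  have hW : G * X * ad G * (G * X * ad G) + G * X * ad G + 1 = 0 := by
    linear_combination (norm := noncomm_ring) G * hX' * ad G + G * X * lG.sp.left * X * ad G - lG.sp.right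
  generalize G * X * ad G = W at lW hW
  obtain ⟨u1, u2, u3⟩ := o.nt.tu
  obtain ⟨⟨s1, s2, -⟩, -⟩ := s4_gen _ u1 u2 u3 _ o.w1 o.w3
  have tt := o.nt.inv.2
  have sg : Equiv.Perm.sign (ψ (w * ⟨t, o.nt.tM⟩ * w⁻¹)) = 1 := by simp [u3]
  have c1 : z * t = t * z := MH.mem_Cn.1 (o.nt.cz u3 o.hz)
  have c2 : z * w = w * z := MH.mem_Cn.1 (o.nt.cz (s4_three _ o.w1 o.w3).1 o.hz)
  have n : (w : T) * t * (w : T)⁻¹ ≠ t := fun k => s1 (by
    rw [← map_inv, ← map_mul, ← map_mul]; exact congrArg ψ (Subtype.ext k))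
  have c3 : (w : T) * t * (w : T)⁻¹ * t = t * (w * t * (w : T)⁻¹) := by
    have := o.nt.ie (a := ⟨t, o.nt.tM⟩ * (w * ⟨t, o.nt.tM⟩ * w⁻¹) * (⟨t, o.nt.tM⟩ : M)⁻¹) (b := w * ⟨t, o.nt.tM⟩ * w⁻¹)
      (MH.conj_mul_self.2 (MH.conj_mul_self.2 tt)) (MH.conj_mul_self.2 tt) sg (by
        rw [map_mul, map_mul, s4_v _ _ u3 u2 sg (by simpa using u2), map_inv, mul_inv_cancel_right])
    exact (mul_inv_eq_iff_eq_mul.1 this).symm
  have c4 : (w : T) * (w * t * (w : T)⁻¹) * (w : T)⁻¹ = t * (w * t * (w : T)⁻¹) :=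
    o.nt.ie (a := w * (w * ⟨t, o.nt.tM⟩ * w⁻¹) * w⁻¹) (b := ⟨t, o.nt.tM⟩ * (w * ⟨t, o.nt.tM⟩ * w⁻¹))
      (MH.conj_mul_self.2 (MH.conj_mul_self.2 tt)) (by
        show t * (w * t * (w : T)⁻¹) * (t * (w * t * (w : T)⁻¹)) = 1
        rw [mul_assoc, ← mul_assoc _ t, c3, mul_assoc t, MH.conj_mul_self.2 tt, mul_one, tt])
      (by rw [map_mul, map_mul, sg, u3, one_mul]) (by simpa using s2)
  have ez : z = g⁻¹ * w * g := by rw [← o.g1]; group
  have ew : (w : T) = g⁻¹ * z⁻¹ * g := by rw [← o.g2]; group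
  obtain ⟨i, j, k, li, q, w1, x1⟩ := qu_grp h lX lW hW o.nt.inv c1.symm c2.symm n c3 c4
  obtain ⟨i', j', k', li', q', x2, w2⟩ := qu_grp h lW lX hX' (t := g⁻¹ * t * g) (by simpa using o.nt.inv.conj g⁻¹)
    (by rw [ew]; simp only [mul_assoc, mul_inv_cancel_left, mul_right_inj]
        rw [← mul_assoc, ← mul_assoc, (show Commute z t from c1).inv_left.eq]) c2
    (fun e => n (mul_right_cancel (b := g) (by rw [ez] at e; simpa [mul_assoc] using e)))
    (by rw [ez]; simpa [mul_assoc] using congrArg (· * g) c3)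
    (by rw [ez]; simpa only [mul_assoc, _root_.mul_inv_rev, inv_inv, mul_inv_cancel_left, mul_right_inj] using congrArg (· * g) c4)
  have xw : W * X = X * W := lX.comm h.two lW.1 c2.symm
  have cI : ∀ A B : M4 K, Sp B → A * B = B * A → A * (B - ad B) = (B - ad B) * A := fun A B s e => by
    rw [sub_mul, mul_sub, e, ad_comm s e.symm]
  obtain ⟨⟨p1, p2, p3⟩, p4, p5, p6⟩ := cyc3 (cI _ _ lX.1.sp xw) w1 (cI _ _ lX.1.sp rfl) x1
  obtain ⟨⟨r1, r2, r3⟩, r4, r5, r6⟩ := cyc3 (cI _ _ lW.1.sp xw.symm) x2 (cI _ _ lW.1.sp rfl) w2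
  generalize X - ad X = I at *
  generalize W - ad W = J at *
  refine A7_of h.toHyp h3 o.card (e := ![0, I * (j + k), I * (k + i), I * (i + j), -(J * (j' + k')), -(J * (k' + i')),
    -(J * (i' + j'))]) (fun a => ?_) (fun a b => ?_) rfl (A7_le _
      ⟨_, mem_Gam li ![1, 0, 3, 2, 4, 5, 6] (by decide) fun a => ?_, rfl⟩
      ⟨_, mem_Gam lW.1 ![0, 2, 3, 1, 4, 5, 6] (by decide) fun a => ?_, rfl⟩
      ⟨_, mem_Gam lX.1 ![0, 1, 2, 3, 5, 6, 4] (by decide) fun a => ?_, rfl⟩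
      ⟨_, mem_Gam li' ![4, 1, 2, 3, 0, 6, 5] (by decide) fun a => ?_, rfl⟩)
  · fin_cases a
    exacts [IsV.zero, q.v2 q'.aJ, q.rot.v2 q'.aJ, q.rot.rot.v2 q'.aJ, (q'.v2 q.aJ).neg, (q'.rot.v2 q.aJ).neg,
      (q'.rot.rot.v2 q.aJ).neg]
  · fin_cases a <;> fin_cases b <;> simp [q.pp q'.JJ h7, q.rot.pp q'.JJ h7, q.rot.rot.pp q'.JJ h7, q'.pp q.JJ h7,
      q'.rot.pp q.JJ h7, q'.rot.rot.pp q.JJ h7, (q.key q' h7).2, (q.key q'.rot h7).2, (q.key q'.rot.rot h7).2,
      (q.rot.key q' h7).2, (q.rot.key q'.rot h7).2, (q.rot.key q'.rot.rot h7).2, (q.rot.rot.key q' h7).2,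
      (q.rot.rot.key q'.rot h7).2, (q.rot.rot.key q'.rot.rot h7).2, (q'.key q h7).2, (q'.key q.rot h7).2,
      (q'.key q.rot.rot h7).2, (q'.rot.key q h7).2, (q'.rot.key q.rot h7).2, (q'.rot.key q.rot.rot h7).2,
      (q'.rot.rot.key q h7).2, (q'.rot.rot.key q.rot h7).2, (q'.rot.rot.key q.rot.rot h7).2] <;> norm_num
  · fin_cases a <;> simp [q.a1, (q.key q' h7).1, (q.key q'.rot h7).1, (q.key q'.rot.rot h7).1, sub_mul, add_mul] <;> abel
  · fin_cases a <;> simp [p1, p2, p3, r4, r5, r6]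
  · fin_cases a <;> simp [p4, p5, p6, r1, r2, r3]
  · fin_cases a <;> simp [q'.a1, (q'.key q h7).1, (q'.key q.rot h7).1, (q'.key q.rot.rot h7).1, sub_mul, add_mul] <;> abel

end Cfsg.Agent.H2.Mi
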