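import Cfsg.Agent.H2.M4b

set_option autoImplicit false

/-! The traces of the four-dimensional projective representations of `A₇`. -/

namespace Cfsg.Agent.H2.M4
open Cfsg Matrix Cfsg.Agent.Asch Subgroup Equiv Cfsg.Agent.H5.CT2
open Cfsg.Agent.H5.MH (A7 cd pm pw tb isP evn allA_spec h7 cd_mul cd_pow cd_inj cd_one evn_cd exists_of_isP a7_elt
  a7_seven a7_gen y7 n7 pz y7_mem n7_mem e7_1 e7_2 mkc)
open scoped Cfsg.Agent.H5.MH

noncomputable section

def r2 : Perm (Fin 7) := ⟨![1, 0, 3, 2, 4, 5, 6], ![1, 0, 3, 2, 4, 5, 6], by decide, by decide⟩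
def r4 : Perm (Fin 7) := ⟨![1, 2, 3, 0, 5, 4, 6], ![3, 0, 1, 2, 5, 4, 6], by decide, by decide⟩
def r5 : Perm (Fin 7) := ⟨![1, 2, 3, 4, 0, 5, 6], ![4, 0, 1, 2, 3, 5, 6], by decide, by decide⟩
def r6 : Perm (Fin 7) := ⟨![1, 2, 0, 4, 3, 6, 5], ![2, 0, 1, 4, 3, 6, 5], by decide, by decide⟩
def s4 : Perm (Fin 7) := ⟨![0, 3, 2, 1, 5, 4, 6], ![0, 3, 2, 1, 5, 4, 6], by decide, by decide⟩
def n5 : Perm (Fin 7) := ⟨![0, 2, 4, 1, 3, 6, 5], ![0, 3, 1, 4, 2, 6, 5], by decide, by decide⟩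
def g6 : Perm (Fin 7) := ⟨![0, 1, 2, 5, 6, 3, 4], ![0, 1, 2, 5, 6, 3, 4], by decide, by decide⟩
def i6 : Perm (Fin 7) := ⟨![0, 2, 1, 4, 3, 5, 6], ![0, 2, 1, 4, 3, 5, 6], by decide, by decide⟩
def g4 : Perm (Fin 7) := ⟨![2, 5, 3, 4, 1, 6, 0], ![6, 4, 0, 2, 3, 1, 5], by decide, by decide⟩
def b4 : Perm (Fin 7) := ⟨![0, 6, 5, 4, 2, 3, 1], ![0, 6, 4, 5, 3, 2, 1], by decide, by decide⟩

/-- check of a conjugating element -/
def ck (c r a0 a1 a2 a3 a4 a5 a6 : ℕ) : Bool :=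
  force (a0 + 8 * (a1 + 8 * (a2 + 8 * (a3 + 8 * (a4 + 8 * (a5 + 8 * a6)))))) fun g =>
    isP 7 g && evn 7 g && Nat.beq (pm 7 c g) (pm 7 g r)

theorem ck_spec {a r : Perm (Fin 7)} {a0 a1 a2 a3 a4 a5 a6 : ℕ} (h : ck (cd a) (cd r) a0 a1 a2 a3 a4 a5 a6 = true) :
    ∃ g ∈ A7, a * g = g * r := by
  simp only [ck, force_eq, Bool.and_eq_true, Nat.beq_eq] at h
  obtain ⟨g, hg⟩ := exists_of_isP h.1.1
  rw [← hg] at h
  exact ⟨g, (evn_cd h7 g).1 h.1.2, by simpa only [← cd_mul h7, cd_inj h7] using h.2⟩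

theorem a7_cls {a : Perm (Fin 7)} (ha : a ∈ A7) : a ^ 3 = 1 ∨ a ^ 7 = 1 ∨ (a ^ 2 = 1 ∧ ∃ g ∈ A7, a * g = g * r2) ∨
    a ^ 2 ≠ 1 ∧ ((∃ g ∈ A7, a * g = g * r4) ∨ (∃ g ∈ A7, a * g = g * r5) ∨ ∃ g ∈ A7, a * g = g * r6) := by
  have h := allA_spec h7 (f := fun c => Nat.beq (pw 7 c 3) (cd (1 : Perm (Fin 7))) ||
    Nat.beq (pw 7 c 7) (cd (1 : Perm (Fin 7))) || force (pw 7 c 2) fun d =>
    (Nat.beq d (cd (1 : Perm (Fin 7))) && anyLt 7 fun u => !Nat.beq (tb c u) u && anyLt 7 fun v => !Nat.beq (tb c v) v &&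
      anyLt 7 fun w => Nat.beq (tb c w) w && anyLt 7 fun x => Nat.beq (tb c x) x && anyLt 7 fun y =>
        Nat.beq (tb c y) y && ck c (cd r2) u (tb c u) v (tb c v) w x y) ||
    (!Nat.beq d (cd (1 : Perm (Fin 7))) && anyLt 7 fun u => !Nat.beq (tb d u) u && anyLt 7 fun v => Nat.beq (tb d v) v &&
      anyLt 7 fun w => Nat.beq (tb d w) w && (ck c (cd r4) u (tb c u) (tb d u) (tb d (tb c u)) v (tb c v) w ||
        ck c (cd r5) u (tb c u) (tb d u) (tb d (tb c u)) (tb d (tb d u)) v w ||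
        ck c (cd r6) u (tb c u) (tb d u) v (tb c v) w (tb c w)))) (by decide +kernel) ha
  simp only [Bool.or_eq_true, Bool.and_eq_true, Nat.beq_eq, force_eq, anyLt_iff, ← cd_pow h7, cd_inj h7,
    Bool.not_eq_true', H5.MH.beq_false, ne_eq] at h
  rcases h with (h | h) | ⟨h, _, -, -, _, -, -, _, -, -, _, -, -, _, -, -, h1⟩ | ⟨h, _, -, -, _, -, -, _, -, -, h1⟩
  · exact .inl h
  · exact .inr (.inl h)
  · exact .inr (.inr (.inl ⟨h, ck_spec h1⟩))
  · exact .inr (.inr (.inr ⟨h, or_assoc.1 (h1.imp (Or.imp ck_spec ck_spec) ck_spec)⟩))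

theorem a7_inv {a : Perm (Fin 7)} (ha : a ∈ A7) (h2 : a * a = 1) (h1 : a ≠ 1) : ∃ g ∈ A7, a * g = g * r2 := by
  rw [← pow_two] at h2
  rcases a7_cls ha with h | h | h | h
  exacts [(h1 (H5.MH.eq_one_of_cop h2 h rfl)).elim, (h1 (H5.MH.eq_one_of_cop h2 h rfl)).elim, h.2, (h.1 h2).elim]

theorem mA {a : Perm (Fin 7)} (h : evn 7 (cd a) = true) : a ∈ A7 := (evn_cd h7 a).1 h

theorem gen4 : A7 ≤ closure {r4, b4} := by
  have a : r4 ∈ closure {r4, b4} := subset_closure (by simp)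
  have b : b4 ∈ closure {r4, b4} := subset_closure (by simp)
  exact a7_gen (by rw [show y7 = b4 * r4 ^ 3 * b4 * r4 by perm_eq h7]; exact mul_mem (mul_mem (mul_mem b (pow_mem a _)) b) a)
    (by rw [show pz = r4 * b4 ^ 2 by perm_eq h7]; exact mul_mem a (pow_mem b _))

end

variable {K : Type*} [Field K] {P : Subgroup (G4 K)} {p : ℕ} [Fact p.Prime] [CharP K p]

theorem ng_eq_one (h2 : (2 : K) = 0) : (ng : G4 K) = 1 := Units.ext (by
  rw [ng_val, Units.val_one, neg_eq_iff_add_eq_zero, ← two_smul K, h2, zero_smul])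

theorem two_of_ng (h : (ng : G4 K) = 1) : (2 : K) = 0 := by
  have : (ng : G4 K).val 0 0 = (1 : G4 K).val 0 0 := by rw [h]
  simpa [ng, neg_eq_iff_add_eq_zero, one_add_one_eq_two] using this

theorem good_one : Good p (1 : G4 K) := good_of (N := 0) (one_pow _) fun k hk _ => ⟨1, by simp⟩

theorem Z2.sq {G : Type*} [Group G] {A : Subgroup G} {π : bar P ≃* A} (hz : Z2 P) {a : G} {x : G4 K} (h : Rp π a x)
    (h2 : a * a = 1) : x * x = 1 ∨ ((2 : K) ≠ 0 ∧ x * x = ng) := by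
  by_cases e : (2 : K) = 0
  · simpa [ng_eq_one e, e] using hz.or (h.mul h).1 (one_mem _) (by simpa using (h.mul h).eq_one_iff.1 h2)
  · simpa [e] using hz.or (h.mul h).1 (one_mem _) (by simpa using (h.mul h).eq_one_iff.1 h2)

theorem cj_neg {x z : G4 K} (h1 : x * x = ng) (h2 : z * z = ng) (h3 : z * x * (z * x) = ng) : z * x * z⁻¹ = ng * x := by
  calc _ = z * x * (z * x) * x⁻¹ * (z * z)⁻¹ := by group
    _ = ng * x⁻¹ * ng⁻¹ := by rw [h3, h2]
    _ = x⁻¹ * (x * x) * ng := by rw [← (ng_comm _).eq, mul_inv_cancel_right, h1, mul_assoc, ng_ng, mul_one]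
    _ = _ := by rw [inv_mul_cancel_left, (ng_comm _).eq]

theorem tr7 [Finite K] (hp : ⁅P, P⁆ = P) (hF : Full (Geo.matrixSet P)) (π : bar P ≃* A7) : Tr7 p P := by
  have hd : ∀ x ∈ P, x.val.det = 1 := fun x => det_eq_one_of_perfect hp
  have m4 : r4 ∈ A7 := mA (by decide +kernel)
  have hz : Z2 P := fun z => sc_sq hp π m4 (n := 4) (k := 157) (orderOf_eq_prime_pow (p := 2) (n := 1) (by decide) (by decide))
    (by rw [Nat.card_eq_fintype_card, card_alternatingGroup]; rfl)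
  obtain ⟨x2, h2⟩ := Rp.ex π (mA (a := r2) (by decide +kernel))
  have sq : ∀ {a x}, Rp π a x → a * a = 1 → a ≠ 1 → x * x = x2 * x2 := fun h e1 e2 => by
    obtain ⟨g, hg, e⟩ := a7_inv h.memA e1 e2
    exact h2.sq_eq hz h hg e.symm (by decide)
  have ne : ∀ {a x}, Rp π a x → a ≠ 1 → pr x ≠ 1 := fun h e e' => e (h.eq_one_iff.2 e')
  have d2 := hz.sq h2 (by decide)
  intro x hx
  obtain ⟨a, ha⟩ := Rp.ex' π hx
  rcases a7_cls ha.memA with h | h | ⟨-, g, hg, h⟩ | ⟨-, ⟨g, hg, h⟩ | ⟨g, hg, h⟩ | ⟨g, hg, h⟩⟩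
  · obtain ⟨y, hy, e⟩ := ha.lift hd h (by decide)
    obtain ⟨g, hg, e1⟩ := (a7_elt ha.memA).2 (.inl h)
    obtain ⟨z, hz'⟩ := Rp.ex π hg
    refine .inl (ha.good hz hy (one_mem _) (by simp) (good_of (N := 2) e fun k hk hc => ?_))
    interval_cases k
    · simp at hc
    · exact ⟨1, by simp⟩
    · exact ⟨z, hy.conj_odd hd (hy.pow 2) hz' (by
        rw [← mul_right_inj a, ← mul_assoc, e1, ← mul_assoc, ← pow_succ', h, one_mul]) (n := 3) (by decide) e
        (by rw [← pow_mul, mul_comm, pow_mul, e, one_pow])⟩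
  · by_cases e : a = 1
    · exact .inl (ha.good hz (Rp.one π) (one_mem _) (by simp [e]) good_one)
    obtain ⟨s, hs, hS⟩ := Rp.sev (π := π) hd y7_mem n7_mem e7_1 e7_2
    have k : ∀ {b s}, Rp π b s → Sev s → ∀ g ∈ A7, a * g = g * b → ∃ s, Sev s ∧ (x = s ∨ x = ng * s) := by
      intro b s hs hS g hg e
      obtain ⟨z, hz'⟩ := Rp.ex π hg
      refine ⟨z * s * z⁻¹, ⟨det_conj _ hS.det, by rw [conj_pow, hS.pow]; simp,
        hS.cj.imp' (z * · * z⁻¹) fun c hc => by rw [conj_pow, ← hc]; group⟩, ?_⟩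
      exact hz.or hx (mul_mem (mul_mem hz'.1 hs.1) (inv_mem hz'.1)) (by simpa using (hs.conj ha hz' e.symm).symm)
    obtain ⟨g, hg, e | e⟩ := a7_seven ha.memA h e
    · exact .inr (k hs hS g hg e)
    · exact .inr (k (hs.pow 6) (hS.inv_eq ▸ hS.inv) g hg e)
  · refine .inl (ha.good hz h2 hg h ?_)
    rcases d2 with e | ⟨e2, e⟩
    · exact good_of (N := 1) (by rw [pow_two, e]) fun k hk hc => ⟨1, by interval_cases k <;> simp_all⟩
    · exact good_zero (T_two e2 (hd _ h2.1) (.inr e) (ne h2 (by decide)))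
  · obtain ⟨y, hy⟩ := Rp.ex π m4
    refine .inl (ha.good hz hy hg h ?_)
    have e4 : y ^ 4 = x2 * x2 := by rw [← sq (hy.mul hy) (by decide) (by decide), ← pow_two, ← pow_two, ← pow_mul]
    rcases d2 with e | ⟨e2, e⟩
    · obtain ⟨z, hz'⟩ := Rp.ex π (mA (a := s4) (by decide +kernel))
      have e1 := sq hz' (by decide) (by decide)
      have e2 := sq (hz'.mul hy) (by decide) (by decide)
      rw [e] at e1 e2 e4
      refine good_of (N := 3) e4 fun k hk hc => ?_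
      interval_cases k
      · simp at hc
      · exact ⟨1, by simp⟩
      · norm_num at hc
      · refine ⟨z, ?_⟩
        calc _ = z * y * (z * y) * y⁻¹ * (z * z)⁻¹ * y ^ 4 := by rw [e4]; group
          _ = _ := by rw [e1, e2]; group
    · exact good_zero (T_eight (hd _ hy.1) (e4.trans e) (ne hy (by decide))
        (hy.not_qd hF gen4 (g := g4) (mA (by decide +kernel)) (by decide)))
  · obtain ⟨y, hy⟩ := Rp.ex π (mA (a := r5) (by decide +kernel))
    obtain ⟨y, hy, e⟩ := hy.lift hd (n := 5) (by decide) (by decide)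
    obtain ⟨z, hz'⟩ := Rp.ex π (mA (a := n5) (by decide +kernel))
    have e1 := hy.conj_odd hd (hy.pow 2) hz' (by decide) (n := 5) (by decide) e
      (by rw [← pow_mul, mul_comm, pow_mul, e, one_pow])
    have e2 : z * z * y * (z * z)⁻¹ = y ^ 4 := by
      rw [show z * z * y * (z * z)⁻¹ = z * (z * y * z⁻¹) * z⁻¹ by group, e1, ← conj_pow, e1, ← pow_mul]
    refine .inl (ha.good hz hy hg h (good_of (N := 4) e fun k hk hc => ?_))
    interval_cases k
    · simp at hc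
    · exact ⟨1, by simp⟩
    · exact ⟨z, e1⟩
    · exact ⟨z * (z * z), by
        rw [show z * (z * z) * y * (z * (z * z))⁻¹ = z * (z * z * y * (z * z)⁻¹) * z⁻¹ by group, e2, ← conj_pow, e1,
          ← pow_mul, pow_eq_pow_mod _ e]⟩
    · exact ⟨_, e2⟩
  · obtain ⟨y, hy⟩ := Rp.ex π (mA (a := r6) (by decide +kernel))
    refine .inl (ha.good hz hy hg h ?_)
    have e3 := sq (hy.pow 3) (by decide) (by decide)
    have c3 : ∀ {b c} {z w : G4 K}, Rp π b z → Rp π c w → b * r6 = c * b → z * y ^ 3 * z⁻¹ = w ^ 3 →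
        z * y * z⁻¹ = w ∨ (2 : K) = 0 := fun {b c z w} hb hc e1 e2 => (hy.conj_or hz hc hb e1).imp_right fun e => by
      rw [← conj_pow, e, (ng_comm w).symm.mul_pow, pow_succ, pow_two, ng_ng, one_mul, mul_eq_right] at e2
      exact two_of_ng e2
    rcases d2 with e | ⟨e2, e⟩
    · obtain ⟨z, hz'⟩ := Rp.ex π (mA (a := i6) (by decide +kernel))
      have e1 := sq hz' (by decide) (by decide)
      have e2 := sq (hz'.mul (hy.pow 3)) (by decide) (by decide)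
      rw [e] at e1 e2 e3
      have e6 : y ^ 6 = 1 := by rw [← e3]; group
      have e5 : z * y * z⁻¹ = y ^ 5 := by
        rcases c3 hz' (hy.pow 5) (by decide) (by
          calc _ = z * y ^ 3 * (z * y ^ 3) * (y ^ 3)⁻¹ * (z * z)⁻¹ * (y ^ 6) ^ 3 := by rw [e6]; group
            _ = _ := by rw [e1, e2]; group) with h | h
        · exact h
        · simpa [ng_eq_one h] using hy.conj_or hz (hy.pow 5) hz' (by decide)
      refine good_of (N := 5) e6 fun k hk hc => ?_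
      interval_cases k
      exacts [by simp at hc, ⟨1, by simp⟩, by norm_num at hc, by norm_num at hc, by norm_num at hc, ⟨z, e5⟩]
    · obtain ⟨z, hz'⟩ := Rp.ex π (mA (a := g6) (by decide +kernel))
      have e1 := sq hz' (by decide) (by decide)
      have e4 := sq (hz'.mul (hy.pow 3)) (by decide) (by decide)
      rw [e] at e1 e4 e3
      have e5 := (c3 hz' (hy.of_pr (y := ng * y) (mul_mem (e1 ▸ (hz'.mul hz').1) hy.1) (by simp [pr_ng])) (by decide) (by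
        rw [cj_neg e3 e1 e4, (ng_comm y).symm.mul_pow, pow_succ ng, pow_two, ng_ng, one_mul])).resolve_right e2
      have k : ∀ t : K, t = -t → t = 0 := fun t h => (mul_eq_zero.1 (by linear_combination h : 2 * t = 0)).resolve_left e2
      exact good_zero ⟨k _ (by rw [← T_ng, ← e5, T_conj]), k _ (by
        rw [← T_ng, ← ng_inv, ← e5, show (z * y * z⁻¹)⁻¹ = z * y⁻¹ * z⁻¹ by group, T_conj])⟩

end Cfsg.Agent.H2.M4
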