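import Cfsg.Agent.H3.C2e
import Cfsg.Agent.H2.M4c

set_option autoImplicit false

/-! Recognition of `A₇` inside `SL₄` in characteristic two. -/

namespace Cfsg.Agent.H2.A7
open Matrix Equiv Cfsg.Agent.H2.M4 Cfsg.Agent.H3.C2 Cfsg.Agent.H5.CT2
open Cfsg.Agent.H5.MH (A7 cd pm pw allA_spec h7 cd_mul cd_pow cd_inj a7_seven a7_gen y7 pz)
open scoped Cfsg.Agent.H5.MH

/-- seven alternating matrices permuted by `A₇` -/
def aZ : Fin 7 → M4 (ZMod 2) := ![!![0,0,0,1;0,0,1,1;0,1,0,0;1,1,0,0], !![0,1,0,0;1,0,1,0;0,1,0,1;0,0,1,0],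
  !![0,0,1,0;0,0,0,1;1,0,0,1;0,1,1,0], !![0,1,1,1;1,0,1,1;1,1,0,1;1,1,1,0], !![0,0,1,1;0,0,1,0;1,1,0,0;1,0,0,0],
  !![0,1,0,1;1,0,0,0;0,0,0,1;1,0,1,0], !![0,1,1,0;1,0,0,1;1,0,0,0;0,1,0,0]]

/-- the elementary alternating matrices as sums -/
def cf : Fin 4 → Fin 4 → Finset (Fin 7) := ![![∅, {1,2,3,5}, {1,4,5}, {0,1,3,4}], ![{1,2,3,5}, ∅, {0,3,4,5}, {0,1,5}],
  ![{1,4,5}, {0,3,4,5}, ∅, {0,2,4}], ![{0,1,3,4}, {0,1,5}, {0,2,4}, ∅]]

theorem cf_spec : ∀ p q : Fin 4, ∑ i ∈ cf p q, aZ i = single p q 1 + single q p 1 := by decide +kernel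

theorem aZ_inj : ∀ i j : Fin 7, aZ i = aZ j → i = j := by decide +kernel

noncomputable section
def sz : Perm (Fin 7) := ⟨![4, 5, 2, 3, 0, 1, 6], ![4, 5, 2, 3, 0, 1, 6], by decide, by decide⟩
def sx : Perm (Fin 7) := ⟨![0, 5, 6, 3, 4, 1, 2], ![0, 5, 6, 3, 4, 1, 2], by decide, by decide⟩
def sy : Perm (Fin 7) := ⟨![1, 2, 0, 3, 5, 6, 4], ![2, 0, 1, 3, 6, 4, 5], by decide, by decide⟩
def su : Perm (Fin 7) := ⟨![1, 0, 2, 3, 5, 4, 6], ![1, 0, 2, 3, 5, 4, 6], by decide, by decide⟩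
def sk : Perm (Fin 7) := ⟨![0, 1, 3, 6, 4, 5, 2], ![0, 1, 6, 2, 4, 5, 3], by decide, by decide⟩
def ss : Perm (Fin 7) := ⟨![0, 1, 3, 2, 4, 6, 5], ![0, 1, 3, 2, 4, 6, 5], by decide, by decide⟩
def sg : Perm (Fin 7) := ⟨![2, 0, 6, 5, 3, 1, 4], ![1, 5, 0, 4, 6, 3, 2], by decide, by decide⟩

theorem tr7 {d : Perm (Fin 7)} (hd : d ∈ A7) (e : d * sz = ss * d) :
    d ^ 7 = 1 ∨ (d ^ 2 * d ^ 2 = 1 ∧ d ^ 2 ≠ 1) ∨ (d ^ 3 * d ^ 3 = 1 ∧ d ^ 3 ≠ 1) := by
  have h := allA_spec h7 (f := fun c => !Nat.beq (pm 7 c (cd sz)) (pm 7 (cd ss) c) ||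
    (Nat.beq (pw 7 c 7) (cd (1 : Perm (Fin 7))) ||
    ((Nat.beq (pw 7 c 4) (cd (1 : Perm (Fin 7))) && !Nat.beq (pw 7 c 2) (cd (1 : Perm (Fin 7)))) ||
    (Nat.beq (pw 7 c 6) (cd (1 : Perm (Fin 7))) && !Nat.beq (pw 7 c 3) (cd (1 : Perm (Fin 7))))))) (by decide +kernel) hd
  simpa only [Bool.or_eq_true, Bool.and_eq_true, Nat.beq_eq, ← cd_pow h7, ← cd_mul h7, cd_inj h7, Bool.not_eq_true',
    H5.MH.beq_false, ne_eq, e, not_true_eq_false, false_or, ← pow_add] using h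
end

variable {K : Type*} [Field K] [CharP K 2] {G : Type*} [Group G] {ρ : G →* M4 K}

/-- reduction of the prime field -/
def fm (K : Type*) [Field K] [CharP K 2] : M4 (ZMod 2) →+* M4 K := (ZMod.castHom (dvd_refl 2) K).mapMatrix

theorem fm_inj : Function.Injective (fm K) := fun _ _ e =>
  Matrix.ext fun i j => (ZMod.castHom (dvd_refl 2) K).injective (congrFun (congrFun e i) j)

theorem fm_t (A : M4 (ZMod 2)) : (fm K A)ᵀ = fm K Aᵀ := rfl

/-- `g` acts on the seven forms through `σ` -/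
def R (ρ : G →* M4 K) (g : G) (σ : Perm (Fin 7)) : Prop :=
  σ ∈ A7 ∧ ∀ i, ρ g * fm K (aZ i) * (ρ g)ᵀ = fm K (aZ (σ i))

theorem R.of {g : G} {σ : Perm (Fin 7)} {A : M4 (ZMod 2)} (e : ρ g = fm K A) (h : σ ∈ A7)
    (h2 : ∀ i, A * aZ i * Aᵀ = aZ (σ i)) : R ρ g σ :=
  ⟨h, fun i => by rw [e, fm_t, ← map_mul, ← map_mul, h2]⟩

/-- the graph group -/
def Gm (ρ : G →* M4 K) : Subgroup (G × Perm (Fin 7)) where
  carrier := {p | R ρ p.1 p.2}
  one_mem' := ⟨one_mem _, fun i => by simp⟩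
  mul_mem' := fun {a b} ha hb => ⟨mul_mem ha.1 hb.1, fun i => by
    rw [Prod.fst_mul, map_mul, transpose_mul, Prod.snd_mul, Perm.mul_apply, ← ha.2, ← hb.2]; noncomm_ring⟩
  inv_mem' := fun {a} ha => ⟨inv_mem ha.1, fun i => by
    have := ha.2 (a.2⁻¹ i)
    rw [show a.2 (a.2⁻¹ i) = i by simp] at this
    rw [Prod.fst_inv, Prod.snd_inv, ← this]
    calc _ = (ρ a.1⁻¹ * ρ a.1) * fm K (aZ (a.2⁻¹ i)) * (ρ a.1⁻¹ * ρ a.1)ᵀ := by rw [transpose_mul]; noncomm_ring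
      _ = _ := by rw [← map_mul]; simp⟩

theorem R.mul {g h : G} {σ τ : Perm (Fin 7)} (a : R ρ g σ) (b : R ρ h τ) : R ρ (g * h) (σ * τ) :=
  (Gm ρ).mul_mem (x := (g, σ)) (y := (h, τ)) a b
theorem R.inv {g : G} {σ : Perm (Fin 7)} (a : R ρ g σ) : R ρ g⁻¹ σ⁻¹ := (Gm ρ).inv_mem (x := (g, σ)) a
theorem R.pow {g : G} {σ : Perm (Fin 7)} (a : R ρ g σ) (n : ℕ) : R ρ (g ^ n) (σ ^ n) :=
  (Gm ρ).pow_mem (x := (g, σ)) a n

theorem R.snd {σ : Perm (Fin 7)} (a : R ρ 1 σ) : σ = 1 :=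
  Equiv.ext fun i => (aZ_inj _ _ (fm_inj (K := K) (by simpa using a.2 i))).symm

theorem R.fst (hi : Function.Injective ρ) {g : G} (a : R ρ g 1) : g = 1 := by
  have h2 : (2 : K) = 0 := CharTwo.two_eq_zero
  set M := ρ g with hM
  have k : ∀ p q r s : Fin 4, M r p * M s q + M r q * M s p =
      (single p q (1 : K) + single q p 1 : M4 K) r s := fun p q r s => by
    have e : fm K (single p q 1 + single q p 1) = single p q 1 + single q p 1 := by
      ext i j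
      simp only [fm, RingHom.mapMatrix_apply, map_apply, Matrix.add_apply, single, of_apply, map_add]
      split_ifs <;> simp
    have : M * (single p q 1 + single q p 1) * Mᵀ = single p q 1 + single q p 1 := by
      rw [← e, ← cf_spec, map_sum, Finset.mul_sum, Finset.sum_mul]
      exact Finset.sum_congr rfl fun i _ => a.2 i
    have k : ∀ p q : Fin 4, (M * single p q (1 : K) * Mᵀ) r s = M r p * M s q := fun p q => by
      simp [mul_apply, single, ite_and]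
    rw [← this, mul_add, add_mul, Matrix.add_apply, k, k]
  have off : ∀ r p : Fin 4, r ≠ p → M r p = 0 := fun r p hrp => by
    obtain ⟨q, h1, h3⟩ : ∃ q, q ≠ r ∧ q ≠ p := by revert r p; decide
    have e1 := k p q p q
    have e2 := k p q r q
    have e3 := k p q r p
    simp [single, h1, h3, h3.symm, hrp.symm] at e1 e2 e3
    linear_combination (-M r p) * e1 + M p p * e2 + M q p * e3 - (M p p * M r q * M q p) * h2
  have dg : ∀ p q : Fin 4, p ≠ q → M p p * M q q = 1 := fun p q h => by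
    have e1 := k p q p q
    simpa [single, h, h.symm, off _ _ h] using e1
  have d1 : ∀ p, M p p = 1 := fun p => by
    obtain ⟨q, r, h1, h3, h4⟩ : ∃ q r, p ≠ q ∧ p ≠ r ∧ q ≠ r := by revert p; decide
    have : (M p p - 1) ^ 2 = 0 := by
      linear_combination (-M p p ^ 2) * dg q r h4 + (M p p * M r r) * dg p q h1 + dg p r h3 + (1 - M p p) * h2
    exact sub_eq_zero.1 (pow_eq_zero_iff two_ne_zero |>.1 this)
  refine hi (Matrix.ext fun i j => ?_)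
  rw [map_one, ← hM]
  by_cases h : i = j
  · rw [h, d1, one_apply_eq]
  · rw [off _ _ h, one_apply_ne h]

theorem R.fst_eq (hi : Function.Injective ρ) {g h : G} {σ : Perm (Fin 7)} (a : R ρ g σ) (b : R ρ h σ) : g = h :=
  mul_inv_eq_one.1 (R.fst hi (by simpa using a.mul b.inv))

theorem R.snd_eq {g : G} {σ τ : Perm (Fin 7)} (a : R ρ g σ) (b : R ρ g τ) : σ = τ :=
  mul_inv_eq_one.1 (R.snd (ρ := ρ) (by simpa using a.mul b.inv))

theorem iso_of (hi : Function.Injective ρ) (h1 : ∀ g, ∃ σ, R ρ g σ) (h2 : ∀ σ ∈ A7, ∃ g, R ρ g σ) :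
    Nonempty (G ≃* alternatingGroup (Fin 7)) := by
  choose f hf using h1
  let θ : G →* A7 := MonoidHom.mk' (fun g => ⟨f g, (hf g).1⟩) fun a b =>
    Subtype.ext ((hf _).snd_eq ((hf a).mul (hf b)))
  refine ⟨MulEquiv.ofBijective θ ⟨fun a b e => ?_, fun σ => ?_⟩⟩
  · have e : f a = f b := congrArg Subtype.val e
    exact (hf a).fst_eq hi (e ▸ hf b)
  · obtain ⟨g, hg⟩ := h2 _ σ.2
    exact ⟨g, Subtype.ext ((hf g).snd_eq hg)⟩

theorem a7_of' [Finite G] (hi : Function.Injective ρ) {z x y u k : G} (hz : ρ z = mz) (hx : ρ x = mx) (hy : ρ y = my)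
    (hu : ρ u = mu) (hk : ρ k = mh) (hC : ∀ g, g * z = z * g → g ∈ Subgroup.closure {z, x, u, k}) :
    Nonempty (G ≃* alternatingGroup (Fin 7)) := by
  have ez : ρ z = fm K mz := hz.trans (by ext i j; fin_cases i <;> fin_cases j <;> simp [fm, mz])
  have ex : ρ x = fm K mx := hx.trans (by ext i j; fin_cases i <;> fin_cases j <;> simp [fm, mx])
  have ey : ρ y = fm K my := hy.trans (by ext i j; fin_cases i <;> fin_cases j <;> simp [fm, my])
  have eu : ρ u = fm K mu := hu.trans (by ext i j; fin_cases i <;> fin_cases j <;> simp [fm, mu])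
  have ek : ρ k = fm K mh := hk.trans (by ext i j; fin_cases i <;> fin_cases j <;> simp [fm, mh])
  have rz : R ρ z sz := .of ez (mA (by decide)) (by decide +kernel)
  have rx : R ρ x sx := .of ex (mA (by decide)) (by decide +kernel)
  have ry : R ρ y sy := .of ey (mA (by decide)) (by decide +kernel)
  have ru : R ρ u su := .of eu (mA (by decide)) (by decide +kernel)
  have rk : R ρ k sk := .of ek (mA (by decide)) (by decide +kernel)
  have r7 : R ρ (y * k) y7 := by rw [show y7 = sy * sk by perm_eq h7]; exact ry.mul rk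
  have sur : ∀ σ ∈ A7, ∃ g, R ρ g σ := fun σ hσ => by
    have := a7_gen (Q := (Gm ρ).map (MonoidHom.snd _ _)) ⟨(_, _), r7, rfl⟩ ⟨(_, _),
      ((((((((ry.mul rk).mul ry).mul rk).mul rx).mul ry).mul rk).mul ry).mul rk).mul rx, by
        change (_ * _ : Perm (Fin 7)) = _; perm_eq h7⟩ hσ
    obtain ⟨p, hp, rfl⟩ := this
    exact ⟨p.1, hp⟩
  let N : Subgroup G := (Gm ρ).map (MonoidHom.fst _ _)
  have mN : ∀ {g}, g ∈ N ↔ ∃ σ, R ρ g σ := fun {g} =>
    ⟨fun ⟨p, hp, e⟩ => ⟨p.2, e ▸ hp⟩, fun ⟨σ, h⟩ => ⟨(g, σ), h, rfl⟩⟩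
  have cN : ∀ g, g * z = z * g → g ∈ N := fun g e => (Subgroup.closure_le N).2 (by
    rintro _ (rfl | rfl | rfl | rfl)
    exacts [mN.2 ⟨_, rz⟩, mN.2 ⟨_, rx⟩, mN.2 ⟨_, ru⟩, mN.2 ⟨_, rk⟩]) (hC g e)
  have cj : ∀ s ∈ N, s * s = 1 → s ≠ 1 → ∃ d ∈ N, s = d * z * d⁻¹ := fun s hs s2 s1 => by
    obtain ⟨σ, hσ⟩ := mN.1 hs
    obtain ⟨γ, hγ, e⟩ := a7_inv hσ.1 (R.snd (ρ := ρ) (s2 ▸ hσ.mul hσ)) fun e => s1 (R.fst hi (e ▸ hσ))
    obtain ⟨d, hd⟩ := sur (γ * sg) (mul_mem hγ (mA (by decide)))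
    refine ⟨d, mN.2 ⟨_, hd⟩, hσ.fst_eq hi ?_⟩
    have : σ = γ * sg * sz * (γ * sg)⁻¹ := by
      rw [eq_mul_inv_of_mul_eq e, show r2 = sg * sz * sg⁻¹ from eq_mul_inv_of_mul_eq (by perm_eq h7)]; group
    rw [this]; exact (hd.mul rz).mul hd.inv
  have se : ∀ g, ∀ s ∈ N, s * s = 1 → s ≠ 1 → g * s * g⁻¹ ∈ N → g ∈ N := fun g s hs s2 s1 h => by
    obtain ⟨d', hd', e'⟩ := cj _ h (conj_sq s2) (conj_ne s1)
    obtain ⟨d, hd, rfl⟩ := cj s hs s2 s1
    have := cN (d'⁻¹ * g * d) (by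
      calc _ = d'⁻¹ * (g * (d * z * d⁻¹) * g⁻¹) * g * d := by group
        _ = _ := by rw [e']; group)
    exact (N.mul_mem_cancel_left (inv_mem hd')).1 ((N.mul_mem_cancel_right hd).1 this)
  have z2 : z * z = 1 := R.fst hi (by rw [show (1 : Perm (Fin 7)) = sz * sz by perm_eq h7]; exact rz.mul rz)
  have z1 : z ≠ 1 := fun e => absurd (R.snd (e ▸ rz)) (by decide)
  have zN : z ∈ N := mN.2 ⟨_, rz⟩
  refine iso_of hi (fun g => mN.1 (se g z zN z2 z1 ?_)) sur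
  have j2 := conj_sq (g := g) z2
  generalize g * z * g⁻¹ = j at j2
  by_contra hj
  have ji : j⁻¹ = j := inv_eq_of_mul_eq_one_right j2
  obtain ⟨s, hs⟩ := sur ss (mA (by decide))
  have s2 : s * s = 1 := R.fst hi (by rw [show (1 : Perm (Fin 7)) = ss * ss by perm_eq h7]; exact hs.mul hs)
  have s1 : s ≠ 1 := fun e => absurd (R.snd (e ▸ hs)) (by decide)
  have sN : s ∈ N := mN.2 ⟨_, hs⟩
  rcases H3.Sz3.dih (P := ⊤) (y := z) (y' := j * s * j⁻¹) trivial trivial z2 (conj_sq s2) with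
    ⟨t, -, t2, e⟩ | ⟨w, -, w1, w2, e1, e2⟩
  · have ti : t⁻¹ = t := inv_eq_of_mul_eq_one_right t2
    have e' : j * t * z * (j * t)⁻¹ = s := by
      calc _ = j * (t * z * t) * j := by rw [_root_.mul_inv_rev, ti, ji]; group
        _ = (j * j) * s * (j⁻¹ * j) := by rw [e]; group
        _ = s := by simp [j2]
    have dN := se (j * t) z zN z2 z1 (e' ▸ sN)
    have di : j * (j * t) * j⁻¹ = (j * t)⁻¹ := by rw [← mul_assoc, j2, one_mul, _root_.mul_inv_rev, ti]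
    generalize j * t = d at e' dN di
    obtain ⟨δ, hδ⟩ := mN.1 dN
    have ee : δ * sz = ss * δ := (hδ.mul rz).snd_eq (by rw [eq_mul_of_mul_inv_eq e']; exact hs.mul hδ)
    have no : ∀ n : ℕ, δ ^ n * δ ^ n = 1 → δ ^ n = 1 := fun n h => by
      by_contra h1
      refine hj (se j (d ^ n) (pow_mem dN n) (R.fst hi (h ▸ (hδ.pow n).mul (hδ.pow n)))
        (fun e => h1 (R.snd (e ▸ hδ.pow n))) ?_)
      rw [← conj_pow, di]; exact pow_mem (inv_mem dN) n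
    have d7 : δ ^ 7 = 1 := ((tr7 hδ.1 ee).resolve_right fun h => h.elim (fun h => h.2 (no _ h.1)) fun h => h.2 (no _ h.1))
    have tc : ∀ a b : G, (ρ (a * b * a⁻¹)).trace = (ρ b).trace := fun a b => by
      rw [map_mul, trace_mul_comm, ← map_mul]; simp
    have t1 : (ρ (y * k)).trace = 1 := by
      rw [map_mul, hy, hk]; simp [my, mh, trace, Fin.sum_univ_four]
    have t6 : (ρ (y * k)⁻¹).trace = 0 := by
      have : (y * k)⁻¹ = (y * k) ^ 6 := r7.inv.fst_eq hi (by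
        rw [show y7⁻¹ = y7 ^ 6 from inv_eq_of_mul_eq_one_right (by perm_eq h7)]; exact r7.pow 6)
      rw [this, map_pow, map_mul, ey, ek, ← map_mul, ← map_pow,
        show (my * mh : M4 (ZMod 2)) ^ 6 = (my * mh) * (my * mh) * (my * mh) * (my * mh) * (my * mh) * (my * mh) by
          simp only [pow_succ, pow_zero, one_mul]]
      have : ((my * mh) * (my * mh) * (my * mh) * (my * mh) * (my * mh) * (my * mh) : M4 (ZMod 2)).trace = 0 := by
        decide +kernel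
      have h := congrArg (ZMod.castHom (dvd_refl 2) K) this
      rw [map_zero] at h
      rw [← h, AddMonoidHom.map_trace (ZMod.castHom (dvd_refl 2) K)]; rfl
    have td := tc j d
    rw [di] at td
    obtain ⟨γ, hγ, h⟩ := a7_seven hδ.1 d7 (fun e => absurd (by simpa [e] using ee : sz = ss) (by decide))
    obtain ⟨c, hc⟩ := sur γ hγ
    rcases h with h | h
    · have : d = c * (y * k) * c⁻¹ := hδ.fst_eq hi (eq_mul_inv_of_mul_eq h ▸ (hc.mul r7).mul hc.inv)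
      rw [this, conj_inv, tc, tc, t1, t6] at td
      exact zero_ne_one td
    · have : d = c * (y * k)⁻¹ * c⁻¹ := hδ.fst_eq hi (by
        rw [eq_mul_inv_of_mul_eq h, ← show y7⁻¹ = y7 ^ 6 from inv_eq_of_mul_eq_one_right (by perm_eq h7)]
        exact (hc.mul r7.inv).mul hc.inv)
      rw [this, conj_inv, tc, tc, inv_inv, t1, t6] at td
      exact one_ne_zero td
  · refine hj (inv_mem_iff.1 (se j⁻¹ w (cN w e1) w2 w1 (se _ s sN s2 s1 ?_)))
    have : j⁻¹ * w * j⁻¹⁻¹ * s * (j⁻¹ * w * j⁻¹⁻¹)⁻¹ = s := by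
      calc _ = j⁻¹ * (w * (j * s * j⁻¹)) * w⁻¹ * j := by group
        _ = s := by rw [e2]; group
    rw [this]; exact sN

theorem a7_of [Finite K] [Finite G] (h : Bas ρ) {z x y u k : G} (hz : ρ z = mz) (hx : ρ x = mx) (hy : ρ y = my)
    (hu : ρ u = mu) (hk : ρ k = mh) (_hT : ∀ s : G, s * s = 1 → s ≠ 1 → ∃ g, g * s * g⁻¹ = z)
    (hC : ∀ g, g * z = z * g → g ∈ Subgroup.closure {z, x, u, k}) : Nonempty (G ≃* alternatingGroup (Fin 7)) :=
  a7_of' h.inj hz hx hy hu hk hC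

end Cfsg.Agent.H2.A7
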