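import Cfsg.Agent.H2.M4f

set_option autoImplicit false

/-! The residual classes of `SL₄(q)` and `SU₄(q)`, given the classification of the simple irreducible subgroups. -/

namespace Cfsg.Agent.H2.M4
open Cfsg Matrix Cfsg.Agent.Asch Cfsg.Agent.Form Polynomial
open Cfsg.Agent.H5.MH (card_le_pow card_eq_p mod_seven int_pow cube_pow)

universe u
variable {K : Type*} [Field K]

/-- case (1): a special linear group over a subfield -/
def C1 (P : Subgroup (G4 K)) : Prop :=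
  ∃ (E : Subfield K) (Q : G4 K), ∀ g, g ∈ P ↔ g.val.det = 1 ∧ Over E (cj Q⁻¹ g.val)

/-- case (2): a special unitary group over a subfield -/
def C2 (P : Subgroup (G4 K)) : Prop :=
  ∃ (E : Subfield K) (q : ℕ) (Q : G4 K), Nat.card E = q ^ 2 ∧ ∀ g, g ∈ P ↔ g.val.det = 1 ∧
    Over E (cj Q⁻¹ g.val) ∧ (cj Q⁻¹ g.val)ᵀ * (cj Q⁻¹ g.val).map (· ^ q) = 1

/-- case (3): self-dual -/
def C3 (P : Subgroup (G4 K)) : Prop := ∀ x ∈ P, T x⁻¹ = T x

/-- case (4): `L₂(7)` -/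
def C4 (P : Subgroup (G4 K)) : Prop := (2 : K) ≠ 0 ∧ Nat.card (PQ P) = 168

/-- case (5): `A₇` -/
def C5 (P : Subgroup (G4 K)) : Prop := Nonempty (PQ P ≃* alternatingGroup (Fin 7))

/-- `P` is `U₄(2)` modulo scalars -/
def IsoU (P : Subgroup (G4 K)) : Prop :=
  ∃ (L : Type) (_ : Field L) (_ : Fintype L), Fintype.card L = 4 ∧ Nonempty (PQ P ≃* PSU 4 L 2)

/-- `P` is `L₃(4)` modulo scalars -/
def IsoL (P : Subgroup (G4 K)) : Prop :=
  ∃ (L : Type) (_ : Field L) (_ : Fintype L), Fintype.card L = 4 ∧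
    Nonempty (PQ P ≃* Matrix.ProjectiveSpecialLinearGroup (Fin 3) L)

/-- case (6): `U₄(2)` -/
def C6 (P : Subgroup (G4 K)) : Prop :=
  (2 : K) ≠ 0 ∧ IsoU P ∧ ∃ ω : K, ω ^ 2 + ω + 1 = 0 ∧ ∀ x ∈ P, ∃ a b : ℤ, T x = a + b * ω ∧ T x⁻¹ = a + b * ω ^ 2

/-- case (7): `L₃(4)` -/
def C7 (P : Subgroup (G4 K)) : Prop := (3 : K) = 0 ∧ IsoL P ∧ ∀ x ∈ P, T x ^ 3 = T x⁻¹

/-- the conclusion of the main theorem -/
def Concl4 (P : Subgroup (G4 K)) : Prop := C1 P ∨ C2 P ∨ C3 P ∨ C4 P ∨ C5 P ∨ C6 P ∨ C7 P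

/-- the main theorem, as a hypothesis -/
def Main4 : Prop := ∀ (K : Type u) [Field K] [Finite K] (P : Subgroup (G4 K)), ⁅P, P⁆ = P → IsSimpleGroup (PQ P) →
  Full (Geo.matrixSet P) → (∀ x ∈ P, x.val.charpoly.Splits) → (∃ ζ : K, ζ ^ 8 = -1) → (∃ ω : K, ω ^ 2 + ω + 1 = 0) →
  Concl4 P

theorem exists_ext (F : Type u) [Field F] [Finite F] {f : F[X]} (h : f ≠ 0) :
    ∃ (K : Type u) (_ : Field K) (_ : Finite K) (φ : F →+* K), (f.map φ).Splits ∧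
      ∀ g : G4 F, (gm φ g).val.charpoly.Splits := by
  have := Fintype.ofFinite (G4 F)
  let f' : F[X] := f * ∏ g : G4 F, g.val.charpoly
  have hf : f' ≠ 0 := mul_ne_zero h (Finset.prod_ne_zero_iff.2 fun g _ => g.val.charpoly_monic.ne_zero)
  have k : ∀ g, g ∣ f' → (g.map (algebraMap F f'.SplittingField)).Splits := fun g hg =>
    (SplittingField.splits f').of_dvd (Polynomial.map_ne_zero hf) (Polynomial.map_dvd _ hg)
  refine ⟨f'.SplittingField, inferInstance, Module.finite_of_finite F, algebraMap _ _, k _ (dvd_mul_right _ _),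
    fun g => ?_⟩
  rw [gm_val, Matrix.charpoly_map]
  exact k _ ((Finset.dvd_prod_of_mem _ (Finset.mem_univ g)).mul_left _)

theorem two_step' {P : Subgroup (G4 K)} {a b : ℕ} (h : ∀ x ∈ P, T x ^ a = T x⁻¹) (h' : ∀ x ∈ P, T x ^ b = T x⁻¹) :
    ∀ x ∈ P, T x ^ (a * b) = T x := fun x hx => by rw [pow_mul, h x hx, h' _ (inv_mem hx), inv_inv]

theorem core_cases (hM : Main4.{u}) {F : Type u} [Field F] [Finite F] {H P : Subgroup (G4 F)}
    (hc : Geo.IsResidualCore H P) (p : ℕ) [Fact p.Prime] [CharP F p] (nr : ¬ C3 P) :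
    (∀ g : G4 F, g.val.det = 1 → g ∈ P) ∨
    (∃ k, (∀ x ∈ P, T x ^ p ^ k = T x⁻¹) ∧ ((∀ g ∈ P, g.valᵀ * g.val.map (· ^ p ^ k) = 1) →
      ∀ g : G4 F, g.val.det = 1 → g.valᵀ * g.val.map (· ^ p ^ k) = 1 → g ∈ P)) ∨ C4 P ∨ C5 P ∨
    (IsoU P ∧ ((p % 6 = 1 ∧ ∀ x ∈ P, T x ^ p ^ 1 = T x) ∨ p % 6 = 5 ∧ ∀ x ∈ P, T x ^ p ^ 1 = T x⁻¹)) ∨
    (IsoL P ∧ p = 3 ∧ ∀ x ∈ P, T x ^ p ^ 1 = T x⁻¹) := by
  have hF := full_iff_absIrr.2 hc.absIrred
  have hd : ∀ x ∈ P, x.val.det = 1 := fun x => det_eq_one_of_perfect hc.perfect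
  have m : (X ^ 48 - C 1 : F[X]).Monic := monic_X_pow_sub_C _ (by norm_num)
  obtain ⟨K, _, _, φ, s1, s2⟩ := exists_ext F m.ne_zero
  have : CharP K p := charP_of_injective_ringHom φ.injective p
  have rt : ∀ f g : K[X], f.Monic → f.degree ≠ 0 → X ^ 48 - 1 = f * g → ∃ a, f.eval a = 0 := fun f g h1 h2 h3 =>
    (s1.of_dvd (m.map φ).ne_zero ⟨g, by simpa using h3⟩).exists_eval_eq_zero h2
  have sub : ∀ {E : Subfield K} {A : G4 K}, (∀ g ∈ P.map (gm φ), Over E (cj A⁻¹ g.val)) → ∀ g : G4 F,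
      Over E (cj A⁻¹ (A * gm φ (1 * g * 1⁻¹) * A⁻¹).val) := fun {E A} h g i j => by
    obtain ⟨Q, hQ⟩ := exists_over_of_trace (E.comap φ) (one_mem_matrixSet P) (mul_mem_matrixSet P) hF (by
      rintro _ ⟨x, hx, rfl⟩
      have := (h _ ⟨x, hx, rfl⟩).trace
      rwa [trace_cj, ← T, T_gm] at this)
    have := core_top hc fun g hg => (hQ g.val).1 (Submodule.subset_span ⟨g, hg, rfl⟩)
    rw [← cj_coe, cj_inv_cj]
    exact this.ge trivial
  have det : ∀ (A : G4 K) {g : G4 F}, g.val.det = 1 → (A * gm φ (1 * g * 1⁻¹) * A⁻¹).val.det = 1 := fun A g h =>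
    det_conj _ (by rw [det_gm, det_conj _ h, map_one])
  have tr : ∀ {n}, (∀ x ∈ P.map (gm φ), T x ^ n = T x⁻¹) → ∀ x ∈ P, T x ^ n = T x⁻¹ := fun h x hx => φ.injective (by
    simpa only [← map_inv, T_gm, ← map_pow] using h _ ⟨x, hx, rfl⟩)
  have ch : ∀ {n : ℕ}, n.Prime → ((n : K) = 0 ↔ p = n) := fun hn => by
    rw [CharP.cast_eq_zero_iff K p, Nat.prime_dvd_prime_iff_eq Fact.out hn]
  have := hc.simple
  rcases hM K (P.map (gm φ)) (by rw [← Subgroup.map_commutator, hc.perfect]) (pqMap φ P).symm.isSimpleGroup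
    (full_map φ hF) (by rintro _ ⟨x, -, rfl⟩; exact s2 x)
    ((rt (X ^ 8 + 1) ((X ^ 8 - 1) * (X ^ 32 + X ^ 16 + 1)) (by monicity!)
      (by rw [show (X ^ 8 + 1 : K[X]).degree = 8 by compute_degree!]; decide) (by ring)).imp fun a e => eq_neg_of_add_eq_zero_left (by simpa using e))
    ((rt (X ^ 2 + X + 1) ((X - 1) * (X ^ 3 + 1) * (X ^ 6 + 1) * (X ^ 12 + 1) * (X ^ 24 + 1)) (by monicity!)
      (by rw [show (X ^ 2 + X + 1 : K[X]).degree = 2 by compute_degree!]; decide) (by ring)).imp fun a e => by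
        simpa using e) with
    ⟨E, A, h⟩ | ⟨E, q, A, hE, h⟩ | h | ⟨h2, h⟩ | ⟨⟨e⟩⟩ | ⟨h2, ⟨L, _, _, hL, ⟨e⟩⟩, ω, hω, h⟩ | ⟨h3, ⟨L, _, _, hL, ⟨e⟩⟩, h⟩
  · exact .inl fun g => (eq_of_inj φ hd A 1 (fun g hg => (h _).2 ⟨det A hg, sub (fun g hg => ((h g).1 hg).2) g⟩) g).2
  · obtain ⟨k, rfl⟩ : ∃ k, q = p ^ k := by
      have := Fintype.ofFinite E
      obtain ⟨n, -, e⟩ := FiniteField.card E p
      obtain ⟨k, -, h⟩ := (Nat.dvd_prime_pow Fact.out).1 (show q ∣ p ^ (n : ℕ) from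
        ⟨q, by rw [← e, ← Nat.card_eq_fintype_card, hE, sq]⟩)
      exact ⟨k, h⟩
    refine .inr (.inl ⟨k, tr fun x hx => ?_, fun hu g g1 g2 => (eq_of_inj φ (fun g hg => And.intro (hd g hg) (hu g hg))
      A 1 (fun g hg => (h _).2 ⟨det A hg.1, sub (fun g hg => ((h g).1 hg).2.1) g, ?_⟩) g).2 ⟨g1, g2⟩⟩)
    · have a1 := ((h x).1 hx).2.2
      rw [cj_coe] at a1
      rw [← T_conj A⁻¹ x, ← T_conj A⁻¹ x⁻¹, ← conj_inv, ← iterateFrobenius_def, ← T_gm]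
      generalize A⁻¹ * x * A⁻¹⁻¹ = y at a1
      rw [T, T, ← trace_transpose (y⁻¹).val]
      congr 1
      calc _ = (y.val * (y⁻¹).val)ᵀ * y.val.map (· ^ p ^ k) := by simp; rfl
        _ = _ := by rw [transpose_mul, Matrix.mul_assoc, a1, Matrix.mul_one]
    · rw [← cj_coe, cj_inv_cj, one_mul, inv_one, mul_one, gm_val]
      have := congrArg (Matrix.map · φ) hg.2
      simp only [Matrix.map_mul, Matrix.map_one, map_zero, map_one] at this
      rw [← this]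
      congr 1
      ext; simp
  · exact (nr fun x hx => by simpa using (tr (n := 1) (fun x hx => by rw [h x hx, pow_one]) x hx).symm).elim
  · exact .inr (.inr (.inl ⟨fun e => h2 (by rw [← map_ofNat φ 2, e, map_zero]),
      (Nat.card_congr (pqMap φ P).toEquiv).trans h⟩))
  · exact .inr (.inr (.inr (.inl ⟨(pqMap φ P).trans e⟩)))
  · have h3 : ω ^ 3 = 1 := by linear_combination (ω - 1) * hω
    have a1 : ∀ a b : ℤ, ((a : K) + b * ω) ^ p ^ 1 = a + b * ω ^ (p % 3) := fun a b => by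
      rw [add_pow_char_pow, mul_pow, int_pow, int_pow, pow_one, ← cube_pow h3]
    have a2 : p ≠ 3 := fun e => nr fun x hx => by
      have : ω = 1 := H5.MH.cube_three p e h3
      simpa using (tr (n := 1) (fun x hx => by obtain ⟨a, b, e1, e2⟩ := h x hx; simp [e1, e2, this]) x hx).symm
    have a3 : p % 3 ≠ 0 := fun h => a2 ((Nat.prime_dvd_prime_iff_eq (by norm_num) Fact.out).1
      (Nat.dvd_of_mod_eq_zero h)).symm
    have a4 := (Fact.out : p.Prime).eq_two_or_odd.resolve_left fun e => h2 ((ch Nat.prime_two).2 e)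
    refine .inr (.inr (.inr (.inr (.inl ⟨⟨L, _, _, hL, ⟨(pqMap φ P).trans e⟩⟩, ?_⟩))))
    by_cases a5 : p % 3 = 1
    · refine .inl ⟨by omega, fun x hx => φ.injective ?_⟩
      obtain ⟨a, b, e1, -⟩ := h _ ⟨x, hx, rfl⟩
      rw [map_pow, ← T_gm, e1, a1, a5, pow_one]
    · refine .inr ⟨by omega, tr fun x hx => ?_⟩
      obtain ⟨a, b, e1, e2⟩ := h _ hx
      rw [e1, e2, a1, show p % 3 = 2 by omega]
  · obtain rfl := (ch Nat.prime_three).1 h3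
    exact .inr (.inr (.inr (.inr (.inr ⟨⟨L, _, _, hL, ⟨(pqMap φ P).trans e⟩⟩, rfl, tr h⟩))))

theorem s5782 (hM : Main4.{u}) {F : Type u} [Field F] [Fintype F] (H : Subgroup (G4 F))
    (hH : Geo.IsMaximalIn (SL4 F) H) (hS : Geo.InLinearResidualClass H) :
    ∃ (P : Subgroup (G4 F)) (p : ℕ), Geo.IsResidualCore H P ∧ p.Prime ∧ Fintype.card F = p ∧
    ((C5 P ∧ (p = 2 ∨ p % 7 = 1 ∨ p % 7 = 2 ∨ p % 7 = 4)) ∨ (IsoU P ∧ p % 6 = 1)) := by
  obtain ⟨P, hc, h1, h2, h3⟩ := hS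
  have hF := full_iff_absIrr.2 hc.absIrred
  obtain ⟨p, _⟩ := CharP.exists F
  have : Fact p.Prime := ⟨CharP.char_is_prime F p⟩
  have nr : ¬ C3 P := fun h => (bil_of_trace hF h).elim h1 h2
  have nb : ∀ k, ¬ ∀ x ∈ P, T x ^ p ^ k = T x⁻¹ := fun k h => by
    by_cases e : ∀ a : F, a ^ p ^ k = a
    · exact nr fun x hx => by rw [← h x hx, e]
    · refine h3 (uni_of_trace hF (σ := iterateFrobenius F p k) (fun a => ?_) (not_forall.1 e) h)
      rw [iterateFrobenius_def, iterateFrobenius_def, ← pow_mul, ← pow_add]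
      exact core_fix p _ hc (pow_add p k k ▸ two_step' h h) a
  have na : (∀ x ∈ P, T x ^ p ^ 1 = T x) → Fintype.card F = p := fun h =>
    card_eq_p p (card_le_pow p 1 one_ne_zero (core_fix p 1 hc h))
  refine ⟨P, p, hc, Fact.out, ?_⟩
  rcases core_cases hM hc p nr with h | ⟨k, h, -⟩ | h | ⟨⟨e⟩⟩ | ⟨e, h | h⟩ | ⟨-, -, h⟩
  · exact (hH.1.not_ge fun g hg => hc.le (h g (mem_SL4.1 hg))).elim
  · exact (nb k h).elim
  · exact (not_max_SL hH hc h.2 h.1 nr).elim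
  · obtain ⟨π⟩ := pi_of e
    have h7 := tr7 (p := p) hc.perfect hF ((π.trans (MulEquiv.refl _)))
    have h8 := (mod_seven p fun e => nr (h7.real e)).resolve_right fun e => nb 1 (h7.nres e)
    exact ⟨na (h7.res h8), .inl ⟨⟨e⟩, .inr h8⟩⟩
  · exact ⟨na h.2, .inr ⟨e, h.1⟩⟩
  · exact (nb 1 h.2).elim
  · exact (nb 1 h).elim

theorem s5785 (hM : Main4.{u}) {F : Type u} [Field F] [Fintype F] (q : ℕ) (hq : Fintype.card F = q ^ 2)
    (H : Subgroup (G4 F)) (hH : Geo.IsMaximalIn (SU4 F q) H) (hS : Geo.InUnitaryResidualClass H) :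
    ∃ P : Subgroup (G4 F), Geo.IsResidualCore H P ∧ q.Prime ∧
    ((C5 P ∧ (q % 7 = 3 ∨ q % 7 = 5 ∨ q % 7 = 6)) ∨ (IsoL P ∧ q = 3) ∨ (IsoU P ∧ q % 6 = 5)) := by
  obtain ⟨P, hc, -⟩ := hS
  have hF := full_iff_absIrr.2 hc.absIrred
  obtain ⟨p, _⟩ := CharP.exists F
  have : Fact p.Prime := ⟨CharP.char_is_prime F p⟩
  obtain ⟨k, rfl⟩ : ∃ k, q = p ^ k := by
    obtain ⟨n, -, e⟩ := FiniteField.card F p
    obtain ⟨k, -, h⟩ := (Nat.dvd_prime_pow Fact.out).1 (show q ∣ p ^ (n : ℕ) from ⟨q, by rw [← e, hq, sq]⟩)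
    exact ⟨k, h⟩
  have hg := fun x hx => (mem_GU4 hq (g := x)).1 (hH.1.le (hc.le hx)).1
  have hu : ∀ x ∈ P, T x ^ p ^ k = T x⁻¹ := fun x hx => T_inv_of_herm (UP hq).σσ (B := 1) (by simp) (hg x hx)
  have na : ¬ ∀ x ∈ P, T x ^ p ^ k = T x := fun h => by
    obtain ⟨a, ha⟩ := UP_ne hq
    exact ha (core_fix p k hc h a)
  have nr : ¬ C3 P := fun h => na fun x hx => (hu x hx).trans (h x hx)
  have n1 : ¬ ∀ x ∈ P, T x ^ p ^ 1 = T x := fun h => na fun x hx => by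
    clear hq hu hH na hg
    induction k with
    | zero => simp
    | succ k ih => rw [pow_succ, pow_mul, ih, ← pow_one p, h x hx]
  have k1 : (∀ x ∈ P, T x ^ p ^ 1 = T x⁻¹) → k = 1 := fun h => by
    have h1 := card_le_pow p 2 two_ne_zero (core_fix p 2 hc (two_step p h))
    rw [hq, ← pow_mul, Nat.pow_le_pow_iff_right (Fact.out : p.Prime).one_lt] at h1
    have : k ≠ 0 := by
      rintro rfl
      have := Fintype.one_lt_card (α := F)
      simp [hq] at this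
    omega
  suffices (∀ x ∈ P, T x ^ p ^ 1 = T x⁻¹) ∧
      ((C5 P ∧ (p % 7 = 3 ∨ p % 7 = 5 ∨ p % 7 = 6)) ∨ (IsoL P ∧ p = 3) ∨ (IsoU P ∧ p % 6 = 5)) by
    obtain rfl := k1 this.1
    rw [pow_one]
    exact ⟨P, hc, Fact.out, this.2⟩
  rcases core_cases hM hc p nr with h | ⟨j, h, h'⟩ | h | ⟨⟨e⟩⟩ | ⟨e, h | h⟩ | ⟨e, h⟩
  · exact (hH.1.not_ge fun g hg => hc.le (h g (mem_SL4.1 hg.2))).elim
  · have e : ∀ a : F, a ^ p ^ j = (UP hq).σ a := fun a => by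
      have := core_fix p _ hc (pow_add p k j ▸ two_step' hu h) ((UP hq).σ a)
      rwa [pow_add, pow_mul, ← UP_σ (hq := hq), (UP hq).σσ] at this
    simp only [e] at h'
    exact (hH.1.not_ge fun g h1 => hc.le (h' (fun x hx => by simpa using hg x hx) g (mem_SL4.1 h1.2)
      (by simpa using (mem_GU4 hq).1 h1.1))).elim
  · exact (not_max_SU hq hH hc h.2 h.1 nr).elim
  · obtain ⟨π⟩ := pi_of e
    have h7 := tr7 (p := p) hc.perfect hF ((π.trans (MulEquiv.refl _)))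
    have h8 := (mod_seven p fun e => nr (h7.real e)).resolve_left fun e => n1 (h7.res e)
    exact ⟨h7.nres h8, .inl ⟨⟨e⟩, h8⟩⟩
  · exact (n1 h.2).elim
  · exact ⟨h.2, .inr (.inr ⟨e, h.1⟩)⟩
  · exact ⟨h.2, .inr (.inl ⟨e, h.1⟩)⟩

end Cfsg.Agent.H2.M4
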