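import Cfsg.Agent.H1.N4i
import Cfsg.Agent.H1.N1d
import Cfsg.Agent.H7.M4D
import Cfsg.Agent.H2.M4g
import Cfsg.Agent.H4.CA3

set_option autoImplicit false

/-! From the group level results to the low rank cases of the main theorem. -/

namespace Cfsg.Agent.H2.BG
open Cfsg Matrix Subgroup Cfsg.Agent.H2.M4 Cfsg.Agent.H7.M4 Cfsg.Agent.H1.N1 Cfsg.Agent.MH
open Cfsg.Agent.H1.Mit (Od Rk1 NF card_two)

universe u

/-- the results on projective representations that are used -/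
structure Pk {T K : Type*} [Group T] [Field K] (ρ : PR T K) : Prop where
  e4 : ∀ p : ℕ, p.Prime → (p : K) = 0 → E4 T p
  tri : Tri T
  three : Three ρ.Rt
  rc : RC ρ.Rt
  nq : ρ.Neg → NQ ρ.Rt
  ng : ρ.Neg → NG ρ.Rt
  a7 : ρ.Neg → ∀ z w t v, OutA ρ.Rt z w t v → Nonempty (T ≃* alternatingGroup (Fin 7))
  cs : ∀ x y X Y (i : K), ρ.L x X → ρ.L y Y → i * i = -1 → X * Y = i • (Y * X) → x ^ 4 = 1 → y ^ 4 = 1 →
    ∀ a, Od a → a ∈ Cn x → a ∈ Cn y → a = 1
  ca : ∀ x y X Y (i : K), ρ.L x X → ρ.L y Y → i * i = -1 → X * Y = i • (Y * X) → x ^ 4 = 1 → y ^ 4 = 1 →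
    ∀ a g, Od a → a ≠ 1 → a ∈ Cn x → y * y * a * (y * y)⁻¹ = a⁻¹ → g ∈ Cn a → g ∈ Cn (y * a * y⁻¹) → g ∈ Cn x

variable {K : Type u} [Field K] {P : Subgroup (G4 K)}

/-- the projective representation of the projective image -/
def rep (h : Hy P) : PR (bar P) K where
  R t X := ∃ g ∈ P, pr g = t ∧ g.val = X
  ex t := t.2.elim fun g hg => ⟨_, g, hg.1, hg.2, rfl⟩
  one := ⟨1, one_mem _, map_one _, rfl⟩
  r_mul := by
    rintro x y _ _ ⟨g, hg, e, rfl⟩ ⟨g', hg', e', rfl⟩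
    exact ⟨_, mul_mem hg hg', by rw [map_mul, e, e']; rfl, rfl⟩
  r_uniq := by
    rintro x _ _ ⟨g, -, e, rfl⟩ ⟨g', -, e', rfl⟩
    exact pr_eq_iff.1 (e'.trans e.symm)
  r_inj := by
    rintro x y _ c ⟨g, -, e, rfl⟩ ⟨g', -, e', k⟩
    exact Subtype.ext (by rw [← e, ← e', pr_eq_iff.2 ⟨c, k⟩])
  r_det := by rintro x _ ⟨g, hg, -, rfl⟩; exact h.det g hg
  r_inv := by
    rintro x _ ⟨g, hg, e, rfl⟩
    exact ⟨_, inv_mem hg, by rw [map_inv, e]; rfl, Matrix.coe_units_inv g⟩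

theorem rk1_ex {N : M4 K} (h : Rk1 N) : ∃ v φ, N = vecMulVec v φ := by
  by_cases e : ∀ k l, N k l = 0
  · exact ⟨0, 0, by ext i j; simp [e]⟩
  simp only [not_forall] at e
  obtain ⟨k, l, e⟩ := e
  exact ⟨fun i => N i l / N k l, N k, by ext i j; rw [vecMulVec_apply]; field_simp; exact h i j k l⟩

variable (h : Hy P)

theorem L_of {g : G4 K} (hg : g ∈ P) : (rep h).L ⟨pr g, mem_bar hg⟩ g.val := ⟨g, hg, rfl, rfl⟩

theorem gm : (rep h).Gm where
  two := h.two
  spl := by rintro x _ ⟨g, hg, -, rfl⟩; exact h.spl g hg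
  per := by
    rintro x _ c ⟨g, hg, e, rfl⟩ k
    obtain ⟨v, φ, k⟩ := rk1_ex k
    have c0 : c ≠ 0 := by
      rintro rfl
      have := h.det g hg
      rw [show g.val = vecMulVec v φ by simpa using k, det_vecMulVec] at this
      exact zero_ne_one this
    refine Subtype.ext (e ▸ h.per g hg c (c⁻¹ • v) φ ?_)
    rw [smul_add, smul_vecMulVec, smul_smul, mul_inv_cancel₀ c0, one_smul, ← k]; abel
  sq := by
    rintro x _ ⟨g, hg, e, rfl⟩ g1 k
    obtain ⟨h3, h4⟩ := h.sq g hg (fun e => g1 (e ▸ rfl)) (by rwa [pow_two])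
    refine ⟨h3, ?_⟩
    rintro y _ ⟨g', hg', e', rfl⟩ a b
    obtain ⟨n, rfl⟩ := h4 g' hg' a b
    have g3 : g ^ (3 : ℤ) = 1 := Units.ext (by
      have : g.val * g.val * g.val = 1 + (3 : K) • (g.val - 1) + (g.val - 1) * (g.val - 1) * (g.val + 2) := by
        rw [show (3 : K) • (g.val - 1) = 3 * (g.val - 1) by rw [← map_ofNat (algebraMap K (M4 K)), Algebra.smul_def]]
        noncomm_ring
      rw [k, h3] at this
      simpa [zpow_ofNat, pow_succ] using this)
    simp only [Subtype.ext_iff, ← e', coe_inv, ← e, coe_one, ← map_inv]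
    rw [zpow_eq_zpow_emod n g3]
    have : n % 3 = 0 ∨ n % 3 = 1 ∨ n % 3 = 2 := by omega
    rcases this with a | a | a <;> rw [a]
    · simp
    · simp
    · exact .inr (.inr (congrArg pr (eq_inv_of_mul_eq_one_left (by rw [← g3]; group))))
  rot := by
    rintro x _ a b ⟨g, hg, e, rfl⟩ k
    simpa only [Subtype.ext_iff, SubmonoidClass.coe_pow, ← e, coe_one] using h.rot g hg a b k

theorem perf_of {G : Type*} [Group G] {H : Subgroup G} (e : ⁅H, H⁆ = H) : _root_.commutator H = ⊤ :=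
  map_injective H.subtype_injective (by
    rw [commutator_def, map_commutator, ← MonoidHom.range_eq_map, range_subtype, e])

include h in
theorem perf : _root_.commutator (bar P) = ⊤ := perf_of (by rw [bar, ← map_commutator, h.perf])

variable [Finite K] (k : Pk (rep h))

include k in
theorem lg {p : ℕ} (hp : p.Prime) (p0 : (p : K) = 0) : LG (rep h).Rt p :=
  ⟨h.sbar, perf h, hp, (gm h).oa, k.e4 p hp p0, k.tri, fun _ g r => r.conj g, fun _ r => (gm h).ord r, k.three, k.rc⟩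

include h in
theorem odd : Even (Nat.card (bar P)) := by
  have := h.sbar
  have := Fintype.ofFinite (bar P)
  by_contra n
  have o := Nat.not_even_iff_odd.1 n
  have a : ∀ y : bar P, y ≠ 1 → ∀ a ∈ Cn y, ∀ b ∈ Cn y, a * b = b * a := fun y y1 =>
    (gm h).oa y _ y1 le_rfl (o.of_dvd_nat (card_subgroup_dvd_card _))
  refine H4.CAG.odd_case (fun c => bot_ne_top (perf h ▸ (commutator_eq_bot_iff_center_eq_top (G := bar P)).2
    (eq_top_iff.2 fun a _ => mem_center_iff.2 fun b => c.1.1 b a)).symm) o fun y y1 x hx x1 => le_antisymm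
    (fun z hz => mem_Cn.2 (a x x1 y (mem_Cn_comm.1 hx) z hz)) fun z hz => mem_Cn.2 (a y y1 x hx z hz)

section
variable {S : Sylow 2 (bar P)} {x s : bar P} (s2 : s * s = 1) (hs : s ∉ zpowers x)
  (hS : ∀ g, g ∈ S ↔ g ∈ zpowers x ∨ s * g ∈ zpowers x)
include s2 hs hS

theorem cardS : Nat.card S = 2 * Nat.card (zpowers x) :=
  card_two (fun g a => (hS g).2 (.inl a)) ((hS s).2 (.inr (s2 ▸ one_mem _))) hs fun a ha b hb h1 _ => by
    refine ((hS _).1 (mul_mem ha hb)).resolve_right fun e => ‹b ∉ _› ?_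
    rwa [← mul_assoc, (zpowers x).mul_mem_cancel_left (((hS a).1 ha).resolve_left h1)] at e

theorem pm {c : K} (hc : (rep h).L 1 (c • 1)) : c * c = 1 := by
  obtain ⟨z, hz, e, ez⟩ := hc
  let π : P →* bar P := pr.subgroupMap P
  let B := (zpowers x).comap π
  have i1 : B.index % 4 = 2 := by
    have h1 := index_odd S le_rfl
    have h2 := S.1.card_mul_index
    rw [← (zpowers x).card_mul_index, cardS s2 hs hS, mul_comm 2, mul_assoc] at h2
    have := Nat.eq_of_mul_eq_mul_left Nat.card_pos h2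
    rw [show B.index = (zpowers x).index from index_comap_of_surjective _ (pr.subgroupMap_surjective P)]; omega
  obtain ⟨g, hg, eg⟩ := x.2
  have kB : ∀ a : B, ∃ (n : ℤ) (d : K), a.1.1.val = d • (g ^ n).val := fun a => by
    obtain ⟨n, hn⟩ := a.2
    exact ⟨n, pr_eq_iff.1 (by rw [map_zpow, eg]; exact (congrArg Subtype.val hn).symm)⟩
  letI : CommGroup B := { (inferInstance : Group B) with
    mul_comm := fun a b => Subtype.ext (Subtype.ext (Units.ext (by
      obtain ⟨n, d, ha⟩ := kB a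
      obtain ⟨m, d', hb⟩ := kB b
      change a.1.1.val * b.1.1.val = b.1.1.val * a.1.1.val
      rw [ha, hb]
      simp only [smul_mul_smul, ← Units.val_mul, mul_comm d, _root_.zpow_mul_comm]))) }
  have ep : ∀ n : ℕ, ((⟨z, hz⟩ : P) ^ n).1.val = c ^ n • 1 := fun n => by simp [ez, _root_.smul_pow]
  have t := hom_eq_one (perf_of h.perf) (MonoidHom.transfer (MonoidHom.id B)) ⟨z, hz⟩
  rw [MonoidHom.transfer_eq_pow _ _ fun n a _ => by
    rw [mul_assoc, inv_mul_eq_iff_eq_mul]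
    refine Subtype.ext (Units.ext ?_)
    change (_ : P).1.val * a.1.val = a.1.val * (_ : P).1.val
    rw [ep]; simp] at t
  have t1 : c ^ B.index = 1 := smul_inj (X := 1) (by simp) (by
    rw [← ep, show (⟨z, hz⟩ : P) ^ B.index = 1 from congrArg Subtype.val t]; simp)
  have t4 : c ^ 4 = 1 := four_of (X := 1) (by simp) (ez ▸ h.det z hz)
  rwa [← Nat.div_add_mod B.index 4, pow_add, pow_mul, t4, one_pow, one_mul, i1, pow_two] at t1

theorem sq_eq {u v : bar P} {U V : M4 K} (hu : Inv u) (hv : Inv v) (hU : (rep h).L u U) (hV : (rep h).L v V) :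
    ∃ c : K, c * c = 1 ∧ U * U = c • 1 ∧ V * V = c • 1 := by
  obtain ⟨a, ha⟩ := thompson_half (perf h) S le_rfl (cardS s2 hs hS) hu.2
  obtain ⟨b, hb⟩ := thompson_half (perf h) S le_rfl (cardS s2 hs hS) hv.2
  have e := inv_zpowers (hu.conj a) (hv.conj b) ha hb
  obtain ⟨c, -, ec⟩ := (hU.mul hU).of_one hu.2
  obtain ⟨G, hG⟩ := (rep h).exL (b⁻¹ * a)
  obtain ⟨d, -, ed⟩ := (hG.conj hU).uniq (hV.congr' (by
    calc _ = b⁻¹ * (a * u * a⁻¹) * b := by group
      _ = v := by rw [e]; group))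
  have d2 : d * d = 1 := pm h s2 hs hS (((hV.mul (hG.conj hU).inv).congr' (by
    calc 1 = b⁻¹ * ((b * v * b⁻¹) * (a * u * a⁻¹)⁻¹) * b := by rw [e]; group
      _ = _ := by group)).congr (by rw [ed, smul_mul_assoc, ri (hG.conj hU).nz]))
  refine ⟨c, pm h s2 hs hS (((hU.mul hU).congr' hu.2.symm).congr ec.symm), ec, ?_⟩
  rw [ed, smul_mul_smul, d2, one_smul, cj_mul hG.nz, ec, mul_smul_comm, smul_mul_assoc, cj_one hG.nz]

end

include k in
theorem dih (gnf : GNF.{u}) (gnc : GNC.{u}) (gnm : GNM.{u}) (hD : Dih P) (hI : SelfI P) : C3 P ∨ C4 P ∨ C5 P := by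
  obtain ⟨p, hp, p0⟩ := H1.Mit.exists_char K
  have G := lg h k hp p0
  have hD' : DihT (bar P) := hD
  obtain ⟨S, x, s, -, s2, -, hs, hS⟩ := hD
  by_cases nf : NF (bar P)
  · rcases gnf _ _ p G hD' nf with c | c
    · exact .inr (.inl ⟨h.two, (card_bar P).symm.trans c⟩)
    refine .inl fun g hg => ?_
    have hG := L_of h hg
    rcases c ⟨pr g, mem_bar hg⟩ with ⟨n, e⟩ | ⟨t, h1, h2⟩
    · have := Fact.mk hp
      have : CharP K p := (CharP.charP_iff_prime_eq_zero hp).2 p0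
      obtain ⟨c, -, ec⟩ := (hG.pow _).of_one e
      have c2 := pm h s2 hs hS (((hG.pow _).congr' e.symm).congr ec.symm)
      have e1 : (g ^ p ^ n).val = c • (1 : G4 K).val := by simpa using ec
      refine (iterateFrobenius K p n).injective ?_
      rw [iterateFrobenius_def, iterateFrobenius_def, ← T_pow_char_pow, ← T_pow_char_pow, inv_pow, T_of_smul e1,
        T_of_smul (inv_of_smul e1), inv_eq_of_mul_eq_one_right c2, inv_one]
    · obtain ⟨_, a, ha, ea, rfl⟩ := (rep h).exL t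
      have hA : (rep h).L t a.val := ⟨a, ha, ea, rfl⟩
      obtain ⟨c, -, e1, e2⟩ := sq_eq h s2 hs hS h1 h2 hA (hA.mul hG)
      have : a * g * (a * g) = a * a := Units.ext (e2.trans e1.symm)
      rw [← T_conj a g]; congr 1
      calc g⁻¹ = g⁻¹ * a⁻¹ * (a * a) * a⁻¹ := by group
        _ = _ := by rw [← this]; group
  · have ng : (rep h).Neg := ⟨fun c => pm h s2 hs hS, fun u U hu hU => by_contra fun n => nf fun v w hv hw vw c y o y1 y2 => by
      have one : ∀ (v : bar P) V, Inv v → (rep h).L v V → V * V = 1 := fun v V hv hV => by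
        obtain ⟨c, c2, e1, e2⟩ := sq_eq h s2 hs hS hu hv hU hV
        rcases mul_self_eq_one_iff.1 c2 with rfl | rfl
        exacts [by simpa using e2, (n (by simpa using e1)).elim]
      obtain ⟨a, ha, ea⟩ := v.2
      obtain ⟨b, hb, eb⟩ := w.2
      have hA : (rep h).L v a.val := ⟨a, ha, ea, rfl⟩
      have hB : (rep h).L w b.val := ⟨b, hb, eb, rfl⟩
      have a2 : a * a = 1 := Units.ext (one _ _ hv hA)
      have b2 : b * b = 1 := Units.ext (one _ _ hw hB)
      have ab : a * b * (a * b) = 1 := Units.ext (one _ _ (hv.mul hw vw c) (hA.mul hB))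
      have := hI a ha b hb (by
        rw [eq_inv_of_mul_eq_one_left ab, _root_.mul_inv_rev, inv_eq_of_mul_eq_one_right a2, inv_eq_of_mul_eq_one_right b2])
        (by rw [← map_mul, a2, map_one]) (by rw [← map_mul, b2, map_one]) (ea ▸ fun e => hv.1 (Subtype.ext e))
        (eb ▸ fun e => hw.1 (Subtype.ext e)) (ea ▸ eb ▸ fun e => vw (Subtype.ext e)) y y.2
        (ea ▸ (congrArg Subtype.val (mem_Cn.1 y1)).symm) (eb ▸ (congrArg Subtype.val (mem_Cn.1 y2)).symm)
      rw [ea, eb] at this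
      rcases this with e | e | e | e
      · exact Subtype.ext e
      · exact o.eq_one (by rw [show y = v from Subtype.ext e, hv.2])
      · exact o.eq_one (by rw [show y = w from Subtype.ext e, hw.2])
      · exact o.eq_one (by rw [show y = v * w from Subtype.ext e, (hv.mul hw vw c).2])⟩
    obtain ⟨t, M, Z, ψ, n⟩ := gnc _ _ p G hD' nf (k.nq ng) (k.ng ng) ⟨1, (rep h).oneL, 1, 0, by simp⟩
    obtain ⟨z, w, t, v, o⟩ := gnm _ _ p t M Z ψ G n
    exact .inr (.inr ((k.a7 ng z w t v o).map (pqEquiv P).trans))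

include k in
theorem hc (ghc : GHC.{u}) (hH : HC2 P) : False := by
  obtain ⟨p, hp, p0⟩ := H1.Mit.exists_char K
  obtain ⟨S, x, y, i, hx, hy, i2, e, x4, y4, c, hS⟩ := hH
  have hX := L_of h hx
  have hY := L_of h hy
  have x4' : (⟨pr x, mem_bar hx⟩ : bar P) ^ 4 = 1 := Subtype.ext x4
  have y4' : (⟨pr y, mem_bar hy⟩ : bar P) ^ 4 = 1 := Subtype.ext y4
  have cm : Commute (⟨pr x, mem_bar hx⟩ : bar P) ⟨pr y, mem_bar hy⟩ := ((hY.mul hX).inj (hX.mul hY) e).symm
  refine ghc _ _ p S _ _ (lg h k hp p0) ⟨c, fun g => (hS g).trans (by simp only [Subtype.ext_iff]; rfl), x4', y4', cm,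
    k.cs _ _ _ _ i hX hY i2 e x4' y4', ?_⟩
  rintro _ (rfl | rfl)
  · exact k.ca _ _ _ _ i hX hY i2 e x4' y4'
  · refine k.ca _ _ _ _ i (hX.mul (hY.mul hY)) hY i2 ?_ ?_ y4'
    · rw [← mul_assoc]; nth_rw 1 [e]; simp only [smul_mul_assoc, mul_assoc]
    · rw [(cm.mul_right cm).mul_pow, x4', (Commute.refl _).mul_pow, y4']; simp

end Cfsg.Agent.H2.BG
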