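import Cfsg.Agent.H7.M4D
import Cfsg.Agent.O6.Def

set_option autoImplicit false

/-! The exterior square `GL₄ → GO₆` in an orthonormal basis of skew matrices. -/

namespace Cfsg.Agent.H2.BR
open Cfsg Matrix Cfsg.Agent.Asch Cfsg.Agent.H2.M4 Cfsg.Agent.O6

variable {K : Type*} [Field K]

/-- skew matrices -/
def sk (a b c d e f : K) : M4 K := !![0, a, b, c; -a, 0, d, e; -b, -d, 0, f; -c, -e, -f, 0]

theorem sk_tr (a b c d e f : K) : (sk a b c d e f)ᵀ = -sk a b c d e f := by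
  ext i j; fin_cases i <;> fin_cases j <;> simp [sk]

theorem eq_sk (h2 : (2 : K) ≠ 0) {w : M4 K} (h : wᵀ = -w) : w = sk (w 0 1) (w 0 2) (w 0 3) (w 1 2) (w 1 3) (w 2 3) := by
  have a : ∀ i j, w j i = -w i j := fun i j => congrFun (congrFun h i) j
  have b : ∀ i, w i i = 0 := fun i => (mul_eq_zero.1 (by linear_combination a i i : 2 * w i i = 0)).resolve_left h2
  ext i j
  fin_cases i <;> fin_cases j <;> simp [sk, b] <;> exact a _ _

/-- the dual skew matrix -/
def hat (w : M4 K) : M4 K := sk (w 2 3) (-w 1 3) (w 1 2) (w 0 3) (-w 0 2) (w 0 1)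

theorem det4 (X : M4 K) : X.det =
    X 0 0 * (X 1 1 * (X 2 2 * X 3 3 - X 2 3 * X 3 2) - X 1 2 * (X 2 1 * X 3 3 - X 2 3 * X 3 1) +
      X 1 3 * (X 2 1 * X 3 2 - X 2 2 * X 3 1)) -
    X 0 1 * (X 1 0 * (X 2 2 * X 3 3 - X 2 3 * X 3 2) - X 1 2 * (X 2 0 * X 3 3 - X 2 3 * X 3 0) +
      X 1 3 * (X 2 0 * X 3 2 - X 2 2 * X 3 0)) +
    X 0 2 * (X 1 0 * (X 2 1 * X 3 3 - X 2 3 * X 3 1) - X 1 1 * (X 2 0 * X 3 3 - X 2 3 * X 3 0) +
      X 1 3 * (X 2 0 * X 3 1 - X 2 1 * X 3 0)) -
    X 0 3 * (X 1 0 * (X 2 1 * X 3 2 - X 2 2 * X 3 1) - X 1 1 * (X 2 0 * X 3 2 - X 2 2 * X 3 0) +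
      X 1 2 * (X 2 0 * X 3 1 - X 2 1 * X 3 0)) := by
  simp [det_succ_row_zero, Fin.sum_univ_succ, Fin.succAbove]; ring

/-- entries of a transformed skew matrix -/
def mn (X : M4 K) (a b c d e f : K) (r s : Fin 4) : K :=
  a * (X r 0 * X s 1 - X r 1 * X s 0) + b * (X r 0 * X s 2 - X r 2 * X s 0) + c * (X r 0 * X s 3 - X r 3 * X s 0) +
    d * (X r 1 * X s 2 - X r 2 * X s 1) + e * (X r 1 * X s 3 - X r 3 * X s 1) + f * (X r 2 * X s 3 - X r 3 * X s 2)

theorem conj_sk (X : M4 K) (a b c d e f : K) : X * sk a b c d e f * Xᵀ = sk (mn X a b c d e f 0 1)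
    (mn X a b c d e f 0 2) (mn X a b c d e f 0 3) (mn X a b c d e f 1 2) (mn X a b c d e f 1 3) (mn X a b c d e f 2 3) := by
  have : ∀ r s, (X * sk a b c d e f * Xᵀ) r s = mn X a b c d e f r s := fun r s => by
    simp [sk, mn, Matrix.mul_apply, Fin.sum_univ_four]; ring
  ext i j
  rw [this]
  fin_cases i <;> fin_cases j <;> simp [sk, mn] <;> ring

theorem hat_sk (a b c d e f : K) : hat (sk a b c d e f) = sk f (-e) d c (-b) a := rfl

theorem smul_sk (t a b c d e f : K) : t • sk a b c d e f = sk (t * a) (t * b) (t * c) (t * d) (t * e) (t * f) := by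
  ext i j; fin_cases i <;> fin_cases j <;> simp [sk]

theorem hat_conj (X : M4 K) (a b c d e f : K) :
    Xᵀ * hat (X * sk a b c d e f * Xᵀ) * X = X.det • hat (sk a b c d e f) := by
  rw [conj_sk, hat_sk, hat_sk, smul_sk, det4]
  refine (conj_sk Xᵀ _ _ _ _ _ _).trans ?_
  congr 1 <;> simp only [mn, transpose_apply] <;> ring

/-- a square root of `-1` in odd characteristic -/
structure Ii (K : Type*) [Field K] where
  i : K
  sq : i * i = -1
  two : (2 : K) ≠ 0

namespace Ii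
variable (c : Ii K)

/-- the skew matrix of a vector -/
def S : W K →ₗ[K] M4 K where
  toFun x := sk (x 0 + c.i * x 1) (x 2 + c.i * x 3) (x 4 + c.i * x 5) (x 4 - c.i * x 5) (-x 2 + c.i * x 3) (x 0 - c.i * x 1)
  map_add' x y := by ext i j; fin_cases i <;> fin_cases j <;> simp [sk] <;> ring
  map_smul' a x := by ext i j; fin_cases i <;> fin_cases j <;> simp [sk] <;> ring

/-- the dual skew matrix of a vector -/
def D : W K →ₗ[K] M4 K where
  toFun x := -hat (c.S x)
  map_add' x y := by ext i j; fin_cases i <;> fin_cases j <;> simp [sk, hat] <;> ring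
  map_smul' a x := by ext i j; fin_cases i <;> fin_cases j <;> simp [sk, hat]

/-- coordinates -/
def co : M4 K →ₗ[K] W K where
  toFun w := ![(w 0 1 + w 2 3) / 2, -c.i * (w 0 1 - w 2 3) / 2, (w 0 2 - w 1 3) / 2, -c.i * (w 0 2 + w 1 3) / 2,
    (w 0 3 + w 1 2) / 2, -c.i * (w 0 3 - w 1 2) / 2]
  map_add' x y := by ext i; fin_cases i <;> simp <;> ring
  map_smul' a x := by ext i; fin_cases i <;> simp <;> ring

theorem S_tr (x : W K) : (c.S x)ᵀ = -c.S x := sk_tr _ _ _ _ _ _

theorem D_tr (x : W K) : (c.D x)ᵀ = -c.D x := by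
  change (-hat (c.S x))ᵀ = - -hat (c.S x)
  rw [transpose_neg, hat, sk_tr]

theorem co_S (x : W K) : c.co (c.S x) = x := by
  have := c.two
  ext i
  fin_cases i <;> simp [co, S, sk] <;> field_simp
  all_goals first | ring1 | linear_combination (-2 * x 1) * c.sq | linear_combination (-2 * x 3) * c.sq |
    linear_combination (-2 * x 5) * c.sq

theorem S_inj : Function.Injective c.S := Function.LeftInverse.injective c.co_S

theorem S_co {w : M4 K} (h : wᵀ = -w) : c.S (c.co w) = w := by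
  have := c.two
  rw [eq_sk c.two h]
  generalize w 0 1 = a; generalize w 0 2 = b; generalize w 0 3 = d; generalize w 1 2 = e; generalize w 1 3 = f
  generalize w 2 3 = g
  simp only [co, S, LinearMap.coe_mk, AddHom.coe_mk]
  congr 1 <;> simp [sk] <;> field_simp
  exacts [by linear_combination (g - a) * c.sq, by linear_combination (-b - f) * c.sq,
    by linear_combination (e - d) * c.sq, by linear_combination (d - e) * c.sq, by linear_combination (-b - f) * c.sq,
    by linear_combination (a - g) * c.sq]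

theorem SD (x y : W K) : c.S x * c.D y + c.S y * c.D x = (2 * (x ⬝ᵥ y)) • (1 : M4 K) := by
  ext i j
  fin_cases i <;> fin_cases j <;> simp [S, D, hat, sk, Matrix.mul_apply, Fin.sum_univ_four, dotProduct, Fin.sum_univ_six]
  all_goals first | ring1 | linear_combination (-2 * (x 1 * y 1 + x 3 * y 3 + x 5 * y 5)) * c.sq

theorem DS (x y : W K) : c.D x * c.S y + c.D y * c.S x = (2 * (x ⬝ᵥ y)) • (1 : M4 K) := by
  have := congrArg transpose (c.SD x y)
  simpa [S_tr, D_tr, add_comm] using this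

theorem SD1 (x : W K) : c.S x * c.D x = (x ⬝ᵥ x) • (1 : M4 K) :=
  smul_right_injective _ c.two (by simp only [two_smul, c.SD, ← add_smul, two_mul])

theorem DS1 (x : W K) : c.D x * c.S x = (x ⬝ᵥ x) • (1 : M4 K) :=
  smul_right_injective _ c.two (by simp only [two_smul, c.DS, ← add_smul, two_mul])

/-- the exterior square -/
def La (X : M4 K) : M6 K := LinearMap.toMatrix' (c.co ∘ₗ LinearMap.mulRight K Xᵀ ∘ₗ LinearMap.mulLeft K X ∘ₗ c.S)

theorem S_La (X : M4 K) (x : W K) : c.S (c.La X *ᵥ x) = X * c.S x * Xᵀ := by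
  rw [La, ← toLin'_apply, toLin'_toMatrix']
  exact c.S_co (by simp [S_tr, Matrix.mul_assoc])

theorem La_ext {A B : M6 K} (h : ∀ x, c.S (A *ᵥ x) = c.S (B *ᵥ x)) : A = B :=
  Matrix.ext_iff_mulVec.2 fun x => c.S_inj (h x)

theorem La_mul (X Y : M4 K) : c.La (X * Y) = c.La X * c.La Y := c.La_ext fun x => by
  simp only [← mulVec_mulVec, S_La, transpose_mul, Matrix.mul_assoc]

theorem La_one : c.La 1 = 1 := c.La_ext fun x => by simp [S_La]

theorem La_smul (a : K) (X : M4 K) : c.La (a • X) = (a * a) • c.La X := c.La_ext fun x => by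
  simp [S_La, smul_mulVec, smul_smul]

/-- the exterior square as a homomorphism -/
def Lm : G4 K →* M6 K where
  toFun g := c.La g.val
  map_one' := c.La_one
  map_mul' _ _ := c.La_mul _ _

theorem Lm_ap (g : G4 K) : c.Lm g = c.La g.val := rfl

theorem D_La (X : M4 K) (x : W K) : Xᵀ * c.D (c.La X *ᵥ x) * X = X.det • c.D x := by
  change Xᵀ * -hat (c.S _) * X = X.det • -hat (c.S x)
  rw [S_La, Matrix.mul_neg, Matrix.neg_mul, smul_neg]
  exact congrArg _ (hat_conj X _ _ _ _ _ _)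

theorem dot_La (g : G4 K) (x y : W K) : (c.Lm g *ᵥ x) ⬝ᵥ (c.Lm g *ᵥ y) = g.val.det * (x ⬝ᵥ y) := by
  have a := congrArg (fun Z => (g⁻¹).val * Z * g.val) (c.SD (c.Lm g *ᵥ x) (c.Lm g *ᵥ y))
  simp only [Lm_ap, S_La, Matrix.mul_add, Matrix.add_mul, Matrix.mul_assoc, Units.inv_mul_cancel_left] at a
  simp only [← Matrix.mul_assoc g.valᵀ, D_La, Matrix.mul_smul, ← smul_add, SD, Matrix.smul_mul, Matrix.one_mul,
    Units.inv_mul, smul_smul] at a
  have := congrFun (congrFun a 0) 0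
  simp only [Matrix.smul_apply, one_apply_eq, smul_eq_mul, mul_one] at this
  exact mul_left_cancel₀ c.two (by rw [Lm_ap]; linear_combination -this)

theorem La_orth (g : G4 K) : (c.Lm g)ᵀ * c.Lm g = g.val.det • 1 := by
  ext i j
  have := c.dot_La g (Pi.single i 1) (Pi.single j 1)
  simpa [Matrix.mul_apply, dotProduct, Matrix.one_apply, Pi.single_apply, eq_comm] using this

theorem _root_.Cfsg.Agent.H2.BR.rf_mulVec (u x : W K) : rf u *ᵥ x = x - (2 * (u ⬝ᵥ x) / (u ⬝ᵥ u)) • u := by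
  simp only [rf, sub_mulVec, one_mulVec, smul_mulVec, vecMulVec_mulVec, op_smul_eq_smul, smul_smul]
  congr 2; ring

theorem DSD {v : W K} (hv : v ⬝ᵥ v ≠ 0) (x : W K) : c.D v * c.S x * c.D v = -(v ⬝ᵥ v) • c.D (rf v *ᵥ x) := by
  rw [eq_sub_of_add_eq (c.DS v x), Matrix.sub_mul, Matrix.mul_assoc, SD1, rf_mulVec, map_sub, map_smul]
  simp only [Matrix.smul_mul, Matrix.mul_smul, Matrix.one_mul, Matrix.mul_one]
  match_scalars <;> field_simp

theorem SDS {v : W K} (hv : v ⬝ᵥ v ≠ 0) (x : W K) : c.S v * c.D x * c.S v = -(v ⬝ᵥ v) • c.S (rf v *ᵥ x) := by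
  rw [eq_sub_of_add_eq (c.SD v x), Matrix.sub_mul, Matrix.mul_assoc, DS1, rf_mulVec, map_sub, map_smul]
  simp only [Matrix.smul_mul, Matrix.mul_smul, Matrix.one_mul, Matrix.mul_one]
  match_scalars <;> field_simp

theorem La_SD {u v : W K} (hu : u ⬝ᵥ u ≠ 0) (hv : v ⬝ᵥ v ≠ 0) :
    c.La (c.S u * c.D v) = (u ⬝ᵥ u * (v ⬝ᵥ v)) • (rf u * rf v) := c.La_ext fun x => by
  rw [S_La, transpose_mul, S_tr, D_tr, neg_mul_neg, smul_mulVec, ← mulVec_mulVec]
  calc _ = c.S u * (c.D v * c.S x * c.D v) * c.S u := by simp only [Matrix.mul_assoc]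
    _ = _ := by rw [c.DSD hv, Matrix.mul_smul, Matrix.smul_mul, c.SDS hu, map_smul, smul_smul]; congr 1; ring

theorem La_minor {X Y : M4 K} {a : K} (h : ∀ x, c.S x * X = a • (Y * c.S x)) (r s p q : Fin 4) :
    (if r = p then X q s else 0) - (if r = q then X p s else 0) =
      a * ((if s = q then Y r p else 0) - if s = p then Y r q else 0) := by
  have := h (c.co (single p q 1 - single q p 1))
  rw [c.S_co (by simp)] at this
  have := congrFun (congrFun this r) s
  simpa [Matrix.mul_apply, single_apply, ite_and, sub_mul, mul_sub, Finset.sum_sub_distrib, eq_comm] using this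

theorem sc_of_La {g : G4 K} {a : K} (h : c.Lm g = a • 1) : ∃ d : K, g.val = d • 1 ∧ d * d = a := by
  have k := c.La_minor (X := g.valᵀ) (Y := (g⁻¹).val) (a := a) fun x => by
    have := c.S_La g.val x
    rw [← Lm_ap, h, smul_mulVec, one_mulVec, map_smul] at this
    rw [← Matrix.mul_smul, this, ← Matrix.mul_assoc, Units.inv_mul_cancel_left]
  have e : g.val = g.val 0 0 • 1 := by
    have a1 := k 1 0 1 0
    have a2 := k 1 2 1 2
    have a3 := k 1 3 1 3
    have a4 := k 2 0 2 0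
    have a5 := k 2 1 2 1
    have k' : ∀ r s q, r ≠ s → r ≠ q → s ≠ q → g.val s q = 0 := fun r s q h1 h2 h3 => by
      simpa [h1.symm, h2, h3] using k r s r q
    simp at a1 a2 a3 a4 a5
    ext i j
    fin_cases i <;> fin_cases j <;> simp [a1, a2, a3, a5.trans a4.symm] <;>
      first | exact k' 0 _ _ (by decide) (by decide) (by decide) | exact k' 1 _ _ (by decide) (by decide) (by decide) |
        exact k' 2 _ _ (by decide) (by decide) (by decide)
  refine ⟨_, e, ?_⟩
  rw [Lm_ap, e, La_smul, La_one] at h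
  simpa using congrFun (congrFun h 0) 0

theorem of_La {g h : G4 K} {a : K} (e : c.Lm g = a • c.Lm h) : ∃ d : K, g.val = d • h.val ∧ d * d = a := by
  obtain ⟨d, h1, h2⟩ := c.sc_of_La (g := g * h⁻¹) (a := a) (by rw [map_mul, e, Matrix.smul_mul, ← map_mul]; simp)
  exact ⟨d, by simpa using congrArg (· * h.val) h1, h2⟩

end Ii

end Cfsg.Agent.H2.BR
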