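import Cfsg.Agent.H2.BR1
import Cfsg.Agent.H2.M4g

set_option autoImplicit false

/-! The image of a subgroup of `SL₄` in `SO₆` satisfies the hypotheses `OG`. -/

namespace Cfsg.Agent.H2.BR
open Cfsg Matrix Cfsg.Agent.Asch Cfsg.Agent.H2.M4 Cfsg.Agent.O6 Cfsg.Agent.H7.M4 Module

variable {K : Type*} [Field K] {P : Subgroup (G4 K)}

theorem hom_one (hp : ⁅P, P⁆ = P) (χ : P →* K) (x : P) : χ x = 1 :=
  congrArg Units.val (Abelianization.commutator_subset_ker χ.toHomUnits (comm_top hp ▸ Subgroup.mem_top x))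

theorem fix_of_perf (hp : ⁅P, P⁆ = P) (σ : K →+* K) {G : M4 K} (hG : G ≠ 0)
    (h : ∀ x ∈ P, ∃ d : K, x.val * G * (x.val.map σ)ᵀ = d • G) : ∀ x ∈ P, x.val * G * (x.val.map σ)ᵀ = G := by
  choose d hd using h
  let χ : P →* K := ⟨⟨fun x => d x.1 x.2, smul_left_injective K hG (by simpa using (hd 1 (one_mem _)).symm)⟩,
    fun x y => smul_left_injective K hG (by
      simp only [← hd, mul_comm (d x.1 x.2), ← smul_smul]
      rw [← Matrix.smul_mul, ← Matrix.mul_smul, ← hd]
      simp [Matrix.map_mul, Matrix.mul_assoc])⟩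
  intro x hx
  rw [hd x hx, show d x hx = 1 from hom_one hp χ ⟨x, hx⟩, one_smul]

theorem co_zero {x : G4 K} {e s : K} (h : e • x.val = s • (1 : M4 K)) (hx : pr x ≠ 1) : e = 0 := by
  by_contra he
  exact hx (pr_eq_one'.2 ⟨e⁻¹ * s, by rw [← smul_smul, ← h, smul_smul, inv_mul_cancel₀ he, one_smul]⟩)

theorem refl_of (h2 : (2 : K) ≠ 0) {Y : M4 K} (h : Y * Y = 1) (hd : Y.det = -1) :
    ∃ (e : K) (v φ : Fin 4 → K), Y = e • (1 + vecMulVec v φ) := by
  have a1 : Y.adjugate = -Y := by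
    have := congrArg (Y * ·) (mul_adjugate Y)
    simpa [← Matrix.mul_assoc, h, hd] using this
  have a2 := adj_mat Y
  rw [a1, h, trace_neg, Matrix.one_mul] at a2
  have a3 : e2 Y = 0 := by
    have := congrArg (fun Z => (Y * Z) 0 0) (show e2 Y • Y = 0 by linear_combination (norm := module) a2)
    simpa [h] using this
  have a4 := tr_sq_mat Y
  rw [h, a3, trace_one, Fintype.card_fin] at a4
  obtain ⟨e, e1, e3⟩ : ∃ e : K, e * e = 1 ∧ Y.trace = 2 * e :=
    ⟨Y.trace / 2, by field_simp; linear_combination -a4, by field_simp⟩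
  obtain ⟨E, hE⟩ : ∃ E, E = (2 : K)⁻¹ • (1 - e • Y) := ⟨_, rfl⟩
  have b0 : Y = e • (1 - (2 : K) • E) := by simp [hE, smul_smul, h2, e1]
  have b1 : E * E = E := by
    simp only [hE, Matrix.smul_mul, Matrix.mul_smul, Matrix.sub_mul, Matrix.mul_sub, Matrix.one_mul, Matrix.mul_one, h]
    match_scalars <;> field_simp
    exacts [by linear_combination e1, by ring]
  have b2 := (LinearMap.isProj_range_iff_isIdempotentElem (toLin' E) |>.2 (by
    rw [IsIdempotentElem, End.mul_eq_comp, ← toLin'_mul, b1])).trace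
  have b3 := (LinearMap.range (toLin' E)).finrank_le
  rw [trace_toLin'_eq, show E.trace = 1 by simp [hE, e3]; field_simp; linear_combination -2 * e1] at b2
  rw [finrank_fin_fun] at b3
  have b4 : finrank K (LinearMap.range (toLin' E)) = 1 := by
    generalize hr : finrank K (LinearMap.range (toLin' E)) = r at *
    interval_cases r
    · simp at b2
    · rfl
    · exact (one_ne_zero (by linear_combination -b2 : (1 : K) = 0)).elim
    · exact (h2 (by linear_combination -b2)).elim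
    · have : E = 1 := Matrix.ext_iff_mulVec.2 fun v => by
        obtain ⟨w, rfl⟩ := (Submodule.eq_top_of_finrank_eq (hr.trans (finrank_fin_fun K).symm)).ge (Submodule.mem_top (x := v))
        rw [toLin'_apply, mulVec_mulVec, b1, one_mulVec]
      rw [b0, this, show (1 : M4 K) - (2 : K) • 1 = (-1 : K) • 1 by module, smul_smul, det_smul] at hd
      exact (h2 (by simp at hd; linear_combination hd - (e * e + 1) * e1)).elim
  obtain ⟨v, -, hv⟩ := finrank_eq_one_iff'.1 b4
  choose φ hφ using fun j => hv ⟨_, Pi.single j 1, rfl⟩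
  refine ⟨e, (-2 : K) • v.1, φ, ?_⟩
  rw [smul_vecMulVec, ← show E = vecMulVec v.1 φ from Matrix.ext fun i j => by
    simpa [vecMulVec_apply, mul_comm] using (congrFun (congrArg Subtype.val (hφ j)) i).symm, b0]
  module

/-- the exterior product -/
def wg (a b : Fin 4 → K) : M4 K := vecMulVec a b - vecMulVec b a

theorem wg_dep {a b : Fin 4 → K} (h : wg a b = 0) (ha : a ≠ 0) : ∃ l : K, b = l • a := by
  obtain ⟨i, hi⟩ := Function.ne_iff.1 ha
  refine ⟨b i / a i, funext fun j => ?_⟩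
  have := congrFun (congrFun h i) j
  simp only [wg, Matrix.sub_apply, vecMulVec_apply, Matrix.zero_apply, Pi.zero_apply] at this hi
  simp only [Pi.smul_apply, smul_eq_mul]
  field_simp
  linear_combination this

theorem wg_map (X : M4 K) (a b : Fin 4 → K) : X * wg a b * Xᵀ = wg (X *ᵥ a) (X *ᵥ b) := by
  simp [wg, Matrix.mul_sub, Matrix.sub_mul, mul_vecMulVec, vecMulVec_mul, vecMul_transpose]

theorem rk_one {M : M4 K} (h : ∀ a b, M * wg a b * Mᵀ = 0) : ∃ v φ, M = vecMulVec v φ := by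
  by_cases h0 : ∀ a, M *ᵥ a = 0
  · exact ⟨0, 0, by simpa using Matrix.ext_iff_mulVec.2 fun a => (h0 a).trans (zero_mulVec a).symm⟩
  obtain ⟨a, ha⟩ := not_forall.1 h0
  choose φ hφ using fun j => wg_dep ((wg_map M a (Pi.single j 1)).symm.trans (h _ _)) ha
  exact ⟨M *ᵥ a, φ, Matrix.ext fun i j => by simpa [vecMulVec_apply, mul_comm] using congrFun (hφ j) i⟩

theorem three_of {Y : M4 K} (h3 : Y * Y * Y = 1)
    (h : ∀ a b, wg a b + Y * wg a b * Yᵀ + Y * Y * wg a b * (Y * Y)ᵀ = 0) :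
    ∃ (e : K) (v φ : Fin 4 → K), Y = e • (1 + vecMulVec v φ) := by
  by_cases h0 : ∀ a, (Y - 1) *ᵥ a = 0
  · exact ⟨1, 0, 0, by simpa [sub_eq_zero] using Matrix.ext_iff_mulVec.2 fun a => (h0 a).trans (zero_mulVec a).symm⟩
  obtain ⟨a, ha⟩ := not_forall.1 h0
  have k : ∀ b, ∃ l : K, Y *ᵥ ((Y - 1) *ᵥ b) = l • (Y - 1) *ᵥ b := fun b => by
    by_cases hb : (Y - 1) *ᵥ b = 0
    · exact ⟨0, by simp [hb]⟩
    refine wg_dep ?_ hb
    have := h b (Y *ᵥ b)
    rw [wg_map, wg_map, mulVec_mulVec b (Y * Y), h3, one_mulVec, ← mulVec_mulVec] at this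
    simp only [wg, sub_mulVec, one_mulVec, mulVec_sub, sub_vecMulVec, vecMulVec_sub] at this ⊢
    linear_combination (norm := abel) this
  obtain ⟨c, hc⟩ := k a
  have a1 : Y * (Y - 1) = c • (Y - 1) := Matrix.ext_iff_mulVec.2 fun b => by
    obtain ⟨l, hl⟩ := k b
    obtain ⟨m, hm⟩ := k (a + b)
    rw [← mulVec_mulVec, smul_mulVec]
    rw [mulVec_add, mulVec_add, hc, hl] at hm
    by_cases e : m = c
    · rw [hl]; subst e; linear_combination (norm := module) hm
    · have a2 : (Y - 1) *ᵥ a = ((l - m) / (m - c)) • (Y - 1) *ᵥ b := by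
        rw [div_eq_inv_mul, ← smul_smul, eq_inv_smul_iff₀ (sub_ne_zero.2 e)]
        linear_combination (norm := module) -hm
      rw [a2, mulVec_smul, hl, smul_comm, ← a2] at hc
      rw [hl, smul_left_injective K ha hc]
  have a2 : Y * Y = (c + 1) • Y - c • 1 := by
    rw [Matrix.mul_sub, Matrix.mul_one] at a1; linear_combination (norm := module) a1
  have a3 : c * c + c + 1 = 0 := by
    rw [a2, Matrix.sub_mul, Matrix.smul_mul, a2, Matrix.smul_mul, Matrix.one_mul] at h3
    have : (c * c + c + 1) • (Y - 1) = 0 := by linear_combination (norm := module) h3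
    exact (smul_eq_zero.1 this).resolve_right fun e => ha (by simp [e])
  have a4 : c ≠ 0 := by rintro rfl; simp at a3
  obtain ⟨v, φ, e⟩ := rk_one (M := Y - c • 1) fun a b => smul_right_injective _ (mul_ne_zero a4 a4) (by
    have := h a b
    simp only [a2, transpose_sub, transpose_smul, transpose_one, Matrix.mul_sub, Matrix.sub_mul, Matrix.mul_smul,
      Matrix.smul_mul, Matrix.mul_one, Matrix.one_mul, smul_zero] at this ⊢
    linear_combination (norm := module) -this + a3 • ((2 : K) • (Y * wg a b * Yᵀ) - c • (Y * wg a b + wg a b * Yᵀ) +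
      (c * c - c + 1) • wg a b))
  exact ⟨c, c⁻¹ • v, φ, by rw [smul_vecMulVec, smul_add, smul_smul, mul_inv_cancel₀ a4, one_smul, ← e]; abel⟩

theorem det_unip {N : M4 K} (h : N * N = 0) : (1 + N).det = 1 := by
  obtain ⟨r, -, hr⟩ := Polynomial.isUnit_iff.1 (isUnit_charpolyRev_of_isNilpotent (M := N) ⟨2, by rw [pow_two, h]⟩)
  have a := eval_charpolyRev (M := N)
  have b := congrArg (Polynomial.eval (-1)) hr
  rw [← hr, Polynomial.eval_C] at a
  rw [Polynomial.eval_C, charpolyRev, ← Polynomial.coe_evalRingHom, RingHom.map_det] at b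
  rw [← a, b]
  congr 1
  ext i j
  by_cases h : i = j <;> simp [h]

theorem unip (h : Hy P) {Y : G4 K} (hY : pr Y ∈ bar P) {a : K} {N : M4 K} (e : Y.val = a • (1 + N)) (h2 : N * N = 0)
    (h0 : N ≠ 0) : (3 : K) = 0 ∧ ∃ u ∈ P, u.val = 1 + N := by
  obtain ⟨X, hX, e'⟩ := hY
  obtain ⟨d, hd⟩ := pr_eq_iff.1 e'
  rw [e, smul_smul] at hd
  have a1 := h.det X hX
  rw [hd, det_smul, det_unip h2, Fintype.card_fin, mul_one] at a1
  have a2 : (X ^ 4).val = 1 + (4 : K) • N := by
    rw [Units.val_pow_eq_pow_val, hd, smul_pow, a1, one_smul]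
    simp only [pow_succ, pow_zero, Matrix.mul_add, Matrix.add_mul, Matrix.one_mul, Matrix.mul_one, h2, add_zero]
    module
  have h4 : (4 : K) ≠ 0 := fun e => mul_ne_zero h.two h.two (by linear_combination e)
  have a3 := (h.sq _ (pow_mem hX 4) (fun e => h0 (by simpa [e, h4] using a2.symm)) (by simp [a2, pow_two, h2])).1
  exact ⟨a3, _, pow_mem hX 4, by rw [a2, show (4 : K) = 1 by linear_combination a3, one_smul]⟩

theorem rf_sq {u : W K} (hu : u ⬝ᵥ u ≠ 0) : rf u * rf u = 1 := Matrix.ext_iff_mulVec.2 fun x => by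
  simp only [← mulVec_mulVec, rf_mulVec, dotProduct_sub, dotProduct_smul, one_mulVec, smul_eq_mul]
  match_scalars <;> field_simp
  ring

end Cfsg.Agent.H2.BR
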