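import Cfsg.Agent.H2.BR2

set_option autoImplicit false

/-! The image of a subgroup of `SL₄` in `SO₆` satisfies the hypotheses `OG`, continued. -/

namespace Cfsg.Agent.H2.BR
open Cfsg Matrix Cfsg.Agent.Asch Cfsg.Agent.H2.M4 Cfsg.Agent.O6 Cfsg.Agent.H7.M4 Module

variable {K : Type*} [Field K] {P : Subgroup (G4 K)}

/-- the transpose -/
def tp (g : G4 K) : G4 K := ⟨g.valᵀ, (g⁻¹).valᵀ, by simp [← transpose_mul], by simp [← transpose_mul]⟩

namespace Ii
variable (c : Ii K)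

/-- the image in the orthogonal group, together with `-1` -/
def Gm (P : Subgroup (G4 K)) : Subgroup (M6 K)ˣ where
  carrier := {g | ∃ X ∈ P, ∃ e : K, e * e = 1 ∧ g.val = e • c.Lm X}
  one_mem' := ⟨1, one_mem _, 1, by simp⟩
  mul_mem' := by
    rintro g h ⟨X, hX, e, e1, e2⟩ ⟨Y, hY, d, d1, d2⟩
    exact ⟨X * Y, mul_mem hX hY, e * d, by linear_combination d * d * e1 + d1, by simp [e2, d2, smul_smul, mul_comm]⟩
  inv_mem' := by
    rintro g ⟨X, hX, e, e1, e2⟩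
    exact ⟨X⁻¹, inv_mem hX, e, e1, Units.inv_eq_of_mul_eq_one_right (by simp [e2, smul_smul, e1, ← map_mul])⟩

/-- the map to the image -/
def lam (P : Subgroup (G4 K)) : P →* c.Gm P :=
  (c.Lm.toHomUnits.comp P.subtype).codRestrict _ fun x => ⟨x.1, x.2, 1, by simp⟩

theorem lam_val (x : P) : (c.lam P x).1.val = c.Lm x := rfl

/-- the element `-1` -/
def mm (P : Subgroup (G4 K)) : c.Gm P := ⟨-1, 1, one_mem _, -1, by simp⟩

theorem ex_lam (x : c.Gm P) : ∃ X, x = c.lam P X ∨ x = c.mm P * c.lam P X := by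
  obtain ⟨X, hX, e, e1, e2⟩ := x.2
  refine ⟨⟨X, hX⟩, (mul_self_eq_one_iff.1 e1).imp ?_ ?_⟩ <;> rintro rfl <;>
    exact Subtype.ext (Units.ext (by simpa [lam_val, mm] using e2))

theorem mm_mm : c.mm P * c.mm P = 1 := Subtype.ext (by simp [mm])

theorem mm_comm (x : c.Gm P) : x * c.mm P = c.mm P * x := Subtype.ext (by simp [mm])

theorem lam_sc (hd : ∀ x ∈ P, x.val.det = 1) (x : P) : pr x.1 = 1 ↔ c.lam P x = 1 ∨ c.lam P x = c.mm P := by
  simp only [Subtype.ext_iff, Units.ext_iff, lam_val]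
  constructor
  · intro h
    obtain ⟨d, e⟩ := pr_eq_one'.1 h
    have := four_of_smul (hd _ x.2) (show (1 : G4 K).val.det = 1 by simp) e
    rw [Lm_ap, e, La_smul, La_one]
    rcases mul_self_eq_one_iff.1 (show d * d * (d * d) = 1 by linear_combination this) with e | e <;> simp [e, mm]
  · rintro (e | e)
    · exact pr_eq_one'.2 ((c.sc_of_La (a := 1) (by simpa using e)).imp fun _ h => h.1)
    · exact pr_eq_one'.2 ((c.sc_of_La (a := -1) (by simpa [mm] using e)).imp fun _ h => h.1)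

/-- the lift of a product of two reflections -/
def gSD {u v : W K} (hu : u ⬝ᵥ u ≠ 0) (hv : v ⬝ᵥ v ≠ 0) : G4 K :=
  Matrix.GeneralLinearGroup.mkOfDetNeZero (c.S u * c.D v) (IsUnit.of_mul_eq_one
    (((u ⬝ᵥ u * (v ⬝ᵥ v))⁻¹ • (c.S v * c.D u)).det) (by
      rw [← det_mul, Matrix.mul_smul, Matrix.mul_assoc, ← Matrix.mul_assoc (c.D v), DS1, Matrix.smul_mul,
        Matrix.one_mul, Matrix.mul_smul, SD1, smul_smul, smul_smul,
        show (u ⬝ᵥ u * (v ⬝ᵥ v))⁻¹ * (v ⬝ᵥ v) * (u ⬝ᵥ u) = 1 by field_simp, one_smul, det_one])).ne_zero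

theorem gSD_val {u v : W K} (hu : u ⬝ᵥ u ≠ 0) (hv : v ⬝ᵥ v ≠ 0) : (c.gSD hu hv).val = c.S u * c.D v := rfl

theorem of_rf {u v : W K} (hu : u ⬝ᵥ u ≠ 0) (hv : v ⬝ᵥ v ≠ 0) {x : c.Gm P} (e : x.1.val = rf u * rf v) :
    pr (c.gSD hu hv) ∈ bar P ∧ ∃ d : K, d * d * (d * d) = (u ⬝ᵥ u * (v ⬝ᵥ v)) ^ 2 := by
  obtain ⟨X, hX, a, a1, a2⟩ := x.2
  obtain ⟨d, d1, d2⟩ := c.of_La (g := c.gSD hu hv) (h := X) (a := u ⬝ᵥ u * (v ⬝ᵥ v) * a) (by
    rw [Lm_ap, gSD_val, c.La_SD hu hv, ← e, a2, smul_smul])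
  exact ⟨pr_eq_iff.2 ⟨d, d1⟩ ▸ mem_bar hX, d, by rw [d2]; linear_combination (u ⬝ᵥ u * (v ⬝ᵥ v)) ^ 2 * a1⟩

theorem g_h2 (h : Hy P) (x : c.Gm P) : x.1.val * x.1.val ≠ -1 := fun e => by
  obtain ⟨X, hX, a, a1, a2⟩ := x.2
  obtain ⟨d, d1, d2⟩ := c.sc_of_La (g := X * X) (a := -1) (by simpa [a2, smul_smul, a1] using e)
  obtain ⟨ζ, hζ⟩ := h.z16
  obtain ⟨l, hl⟩ : ∃ l, l * l = d := by
    rcases mul_self_eq_mul_self_iff.1 (show d * d = ζ ^ 4 * ζ ^ 4 by linear_combination d2 - hζ) with e | e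
    exacts [⟨ζ ^ 2, by rw [e]; ring⟩, ⟨ζ ^ 6, by rw [e]; linear_combination ζ ^ 4 * hζ⟩]
  have l0 : l ≠ 0 := by rintro rfl; simp [← hl] at d2
  obtain ⟨s, v, φ, e⟩ := refl_of h.two (Y := l⁻¹ • X.val) (by
    rw [Matrix.smul_mul, Matrix.mul_smul, ← Units.val_mul, d1, ← hl, smul_smul, smul_smul]; field_simp; simp) (by
    rw [det_smul, h.det X hX, Fintype.card_fin]; field_simp; linear_combination d2 + (l * l + d) * hl)
  obtain ⟨b, hb⟩ := pr_eq_one'.1 (h.per X hX (l * s) v φ (by rw [← smul_smul, ← e, smul_smul, mul_inv_cancel₀ l0, one_smul]))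
  have b1 := four_of_smul (h.det _ hX) (show (1 : G4 K).val.det = 1 by simp) hb
  have b2 := congrFun (congrFun d1 0) 0
  simp [hb] at b2
  exact h.two (by rw [← b2] at d2; linear_combination d2 - b1)

theorem g_h3 (h : Hy P) (x : c.Gm P) (e : x.1.val * x.1.val + x.1.val + 1 = 0) : x = 1 := by
  obtain ⟨X, hX, a, a1, a2⟩ := x.2
  have b1 : x.1.val ^ 3 = 1 := by
    have := congrArg ((x.1.val - 1) * ·) e
    rw [← sub_eq_zero, ← mul_zero (x.1.val - 1), ← this]; noncomm_ring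
  have b2 : c.Lm (X ^ 4) = x.1.val := by
    rw [← one_mul x.1.val, ← b1, ← pow_succ, a2, smul_pow, map_pow, show a ^ 4 = 1 by linear_combination (a * a + 1) * a1,
      one_smul]
  obtain ⟨d, d1, d2⟩ := c.sc_of_La (g := (X ^ 4) ^ 3) (a := 1) (by rw [map_pow, b2, b1, one_smul])
  obtain ⟨Y, hY, y1, y2⟩ : ∃ Y ∈ P, Y ^ 3 = 1 ∧ c.Lm Y = x.1.val := ⟨(X ^ 4) ^ 4, pow_mem (pow_mem hX _) _, Units.ext (by
    rw [pow_right_comm, Units.val_pow_eq_pow_val, d1, smul_pow, show d ^ 4 = 1 by linear_combination (d * d + 1) * d2]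
    simp), by rw [map_pow, b2, pow_succ, b1, one_mul]⟩
  obtain ⟨s, v, φ, e'⟩ := three_of (Y := Y.val) (by simpa [pow_succ] using congrArg Units.val y1) fun a b => by
    rw [← c.S_co (w := wg a b) (by simp [wg]), ← S_La, ← S_La, La_mul, ← Lm_ap, y2, ← map_add, ← map_add]
    have := congrArg (· *ᵥ c.co (wg a b)) e
    simp only [add_mulVec, one_mulVec, zero_mulVec] at this
    rw [← c.S.map_zero, ← this]; congr 1; abel
  have b3 := sc_four (h.det Y hY) (h.per Y hY s v φ e')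
  rw [pow_succ, y1, one_mul] at b3
  exact Subtype.ext (Units.ext (by rw [← y2, b3, map_one]; rfl))

theorem g_rot (h : Hy P) (x : c.Gm P) (u v : W K) (hu : u ⬝ᵥ u ≠ 0) (hv : v ⬝ᵥ v ≠ 0) (e : x.1.val = rf u * rf v) :
    x = 1 ∨ Al (4 * (u ⬝ᵥ v) ^ 2 / (u ⬝ᵥ u * (v ⬝ᵥ v))) := by
  have hY := (c.of_rf hu hv e).1
  have y1 := c.gSD_val hu hv
  generalize c.gSD hu hv = Y at hY y1
  have n0 := mul_ne_zero hu hv
  refine or_iff_not_imp_left.2 fun h1 => ?_
  have h2 : pr Y ≠ 1 := fun h2 => h1 (by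
    obtain ⟨a, ha⟩ := pr_eq_one'.1 h2
    have a1 : (v ⬝ᵥ v) • u = a • v := c.S_inj (by
      have := congrArg (· * c.S v) (ha.symm.trans y1)
      simpa [Matrix.mul_assoc, DS1] using this.symm)
    have a2 := congrArg (fun w => w ⬝ᵥ w) a1
    simp only [smul_dotProduct, dotProduct_smul, smul_eq_mul] at a2
    have a3 := c.La_SD hu hv
    rw [← y1, ha, La_smul, La_one, ← e, show a * a = u ⬝ᵥ u * (v ⬝ᵥ v) from
      mul_right_cancel₀ hv (by linear_combination -a2)] at a3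
    exact Subtype.ext (Units.ext (smul_right_injective _ n0 a3).symm))
  have y2 : Y.val * Y.val = (2 * (u ⬝ᵥ v)) • Y.val + (-(u ⬝ᵥ u * (v ⬝ᵥ v))) • 1 := by
    rw [y1, Matrix.mul_assoc, ← Matrix.mul_assoc (c.D v), eq_sub_of_add_eq (c.DS v u), Matrix.sub_mul, Matrix.mul_sub,
      Matrix.mul_assoc (c.D u), SD1, dotProduct_comm v u]
    simp only [Matrix.mul_smul, Matrix.smul_mul, Matrix.mul_one, Matrix.one_mul, SD1]
    module
  rw [show 4 * (u ⬝ᵥ v) ^ 2 = (2 * (u ⬝ᵥ v)) ^ 2 by ring]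
  generalize 2 * (u ⬝ᵥ v) = t at *
  generalize u ⬝ᵥ u * (v ⬝ᵥ v) = n at *
  have k : ∀ m : ℕ, pr Y ^ m = 1 → ∀ a b : K, Y.val ^ m = a • Y.val + b • 1 → a = 0 := fun m e a b e' => by
    obtain ⟨s, hs⟩ := pr_eq_one'.1 ((map_pow pr Y m).trans e)
    exact co_zero (s := s - b) (by rw [sub_smul, ← hs, Units.val_pow_eq_pow_val, e']; abel) h2
  rcases h.rot.bar hY y2 with e | e | e
  · exact .inl (by rw [k 2 e _ _ ((pow_two _).trans y2)]; simp)
  · have := k 3 e (t ^ 2 - n) (-(t * n)) (by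
      simp only [pow_succ, pow_zero, Matrix.one_mul, y2, Matrix.add_mul, Matrix.smul_mul]; module)
    exact .inr (.inl (by rw [sub_eq_zero.1 this, div_self n0]))
  · have a1 := k 5 e (t ^ 4 - 3 * n * t ^ 2 + n ^ 2) (-(n * (t ^ 3 - 2 * t * n))) (by
      simp only [pow_succ, pow_zero, Matrix.one_mul, y2, Matrix.add_mul, Matrix.smul_mul]; module)
    refine .inr (.inr ⟨by field_simp; linear_combination a1, fun h5 => ?_⟩)
    have a2 : t ^ 2 = 4 * n := sub_eq_zero.1 (pow_eq_zero_iff two_ne_zero |>.1 (by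
      linear_combination a1 + (3 * n ^ 2 - n * t ^ 2) * h5))
    have h4 : (4 : K) ≠ 0 := fun e => mul_ne_zero h.two h.two (by linear_combination e)
    have t0 : t ≠ 0 := by rintro rfl; exact mul_ne_zero h4 n0 (by simpa using a2.symm)
    have := h.two
    refine h.two (by linear_combination h5 - (unip h hY (a := t / 2) (N := (2 / t) • Y.val - 1) ?_ ?_ fun e => ?_).1)
    · match_scalars <;> field_simp
      ring
    · simp only [Matrix.sub_mul, Matrix.mul_sub, Matrix.smul_mul, Matrix.mul_smul, y2, Matrix.one_mul, Matrix.mul_one]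
      match_scalars <;> field_simp
      exacts [by ring, by linear_combination a2]
    · exact div_ne_zero h.two t0 (co_zero (s := 1) (by rw [one_smul, sub_eq_zero.1 e]) h2)

theorem g_un (h : Hy P) {x : c.Gm P} {v a : W K} (a0 : a ≠ 0) (a1 : a ⬝ᵥ a = 0) (a2 : v ⬝ᵥ a = 0) (a3 : v ⬝ᵥ v = 1)
    (e : x.1.val = rf v * rf (v + a)) : (3 : K) = 0 ∧ ∃ u : P, u.1.val = 1 + c.S v * c.D a ∧ c.S v * c.D a ≠ 0 ∧
      x = c.lam P u ∧ ∀ w, c.S w * c.D a * (c.S v * c.D a) = 0 := by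
  have b1 : (v + a) ⬝ᵥ (v + a) = 1 := by simp [add_dotProduct, dotProduct_add, a1, a2, a3, dotProduct_comm a v]
  have hu : v ⬝ᵥ v ≠ 0 := by simp [a3]
  have hv : (v + a) ⬝ᵥ (v + a) ≠ 0 := by simp [b1]
  have b2 : ∀ w, c.S w * c.D a * (c.S v * c.D a) = 0 := fun w => by
    rw [Matrix.mul_assoc, ← Matrix.mul_assoc (c.D a), eq_sub_of_add_eq (c.DS a v), dotProduct_comm a v, a2]
    simp [Matrix.mul_assoc, SD1, a1]
  have b3 : c.S v * c.D a ≠ 0 := fun e => a0 (c.S_inj (by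
    have := congrArg (fun Z => c.S v * (c.D v * Z) * c.S v) e
    simp only [← Matrix.mul_assoc (c.D v), DS1, a3, one_smul, Matrix.one_mul, c.SDS hu, rf_mulVec, a2] at this
    simpa using this))
  have b4 : c.S v * c.D (v + a) = 1 + c.S v * c.D a := by rw [map_add, Matrix.mul_add, SD1, a3, one_smul]
  obtain ⟨h3, u, u1, u2⟩ := unip h (c.of_rf hu hv e).1 (a := 1) (by rw [gSD_val, b4, one_smul]) (b2 v) b3
  exact ⟨h3, ⟨u, u1⟩, u2, b3, Subtype.ext (Units.ext (by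
    rw [lam_val, Lm_ap, u2, ← b4, c.La_SD hu hv, a3, b1, e]; simp)), b2⟩

theorem g_sq (h : Hy P) (x y : c.Gm P) (v v' a : W K) (a0 : a ≠ 0) (a1 : a ⬝ᵥ a = 0) (a2 : v ⬝ᵥ a = 0)
    (a2' : v' ⬝ᵥ a = 0) (a3 : v ⬝ᵥ v = 1) (a3' : v' ⬝ᵥ v' = 1) (e : x.1.val = rf v * rf (v + a))
    (e' : y.1.val = rf v' * rf (v' + a)) : y = 1 ∨ y = x ∨ y = x⁻¹ := by
  obtain ⟨h3, u, u1, u2, rfl, u3⟩ := c.g_un h a0 a1 a2 a3 e
  obtain ⟨-, w, w1, -, rfl, w3⟩ := c.g_un h a0 a1 a2' a3' e'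
  obtain ⟨k, hk⟩ := (h.sq u u.2 (fun e => u2 (by simpa [e] using u1)) (by simp [u1, pow_two, u3])).2 w w.2
    (by simp [u1, w1, u3]) (by simp [u1, w1, w3])
  have b1 : u ^ (3 : ℤ) = 1 := Subtype.ext (Units.ext (by
    simp only [zpow_ofNat, SubgroupClass.coe_pow, Units.val_pow_eq_pow_val, u1, pow_succ, pow_zero, Matrix.mul_add,
      Matrix.add_mul, Matrix.one_mul, Matrix.mul_one, u3, add_zero, OneMemClass.coe_one, Units.val_one,
      Units.val_mul, Subgroup.coe_mul]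
    linear_combination (norm := module) h3 • (c.S v * c.D a)))
  obtain rfl : u ^ k = w := Subtype.ext hk
  rw [zpow_eq_zpow_emod k b1, ← map_inv]
  obtain e | e | e : k % 3 = 0 ∨ k % 3 = 1 ∨ k % 3 = 2 := by omega
  exacts [.inl (by simp [e]), .inr (.inl (by simp [e])), .inr (.inr (by
    rw [e, inv_eq_of_mul_eq_one_right (show u * u ^ (2 : ℤ) = 1 by rw [← b1]; group)]))]

theorem g_irr (h : Hy P) (nr : ¬ C3 P) (f : Fin 6 → W K) (hf : ON f) : ∃ x : c.Gm P,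
    x.1.val * (rf (f 0) * rf (f 1) * rf (f 2)) ≠ rf (f 0) * rf (f 1) * rf (f 2) * x.1.val ∧
    x.1.val * (rf (f 0) * rf (f 1) * rf (f 2)) ≠ -(rf (f 0) * rf (f 1) * rf (f 2) * x.1.val) := by
  by_contra hn
  simp only [not_exists, not_and_or, not_not] at hn
  have n : ∀ i, f i ⬝ᵥ f i = 1 := fun i => by simp [hf i i]
  have n0 : ∀ i, f i ⬝ᵥ f i ≠ 0 := fun i => by simp [n i]
  obtain ⟨R, hR⟩ : ∃ R, R = rf (f 0) * rf (f 1) * rf (f 2) := ⟨_, rfl⟩
  have r1 : R * (rf (f 2) * rf (f 1) * rf (f 0)) = 1 := by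
    simp only [hR, Matrix.mul_assoc, ← Matrix.mul_assoc (rf (f 2)) (rf (f 2)), ← Matrix.mul_assoc (rf (f 1)) (rf (f 1)),
      rf_sq (n0 _), Matrix.one_mul]
  have s1 : c.S (f 0) * c.D (f 1) * c.S (f 2) * (c.D (f 2) * c.S (f 1) * c.D (f 0)) = 1 := by
    simp only [Matrix.mul_assoc, ← Matrix.mul_assoc (c.S (f 2)) (c.D (f 2)), ← Matrix.mul_assoc (c.D (f 1)) (c.S (f 1)),
      SD1, DS1, n, one_smul, Matrix.one_mul]
  obtain ⟨s, s2⟩ : ∃ s : G4 K, ∀ x, s.val * c.D x * s.valᵀ = c.S (R *ᵥ x) := ⟨⟨_, _, s1, mul_eq_one_comm.1 s1⟩, fun x => by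
    calc _ = -(c.S (f 0) * (c.D (f 1) * (c.S (f 2) * c.D x * c.S (f 2)) * c.D (f 1)) * c.S (f 0)) := by
          simp [S_tr, D_tr, Matrix.mul_assoc]
      _ = _ := by simp [c.SDS (n0 _), c.DSD (n0 _), n, hR, Matrix.mul_assoc]⟩
  rw [← hR] at hn
  refine nr fun X hX => ?_
  have := fix_of_perf h.perf (RingHom.id K) s.ne_zero (fun X hX => ?_) X hX
  · exact (trace_transpose _).symm.trans ((T_inv_of_symm s.det_ne_zero (x := tp X) (by simpa [tp] using this)).trans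
      (trace_transpose _))
  have b1 : c.Lm (X * s * tp X * s⁻¹) * R * c.Lm X = c.Lm X * R := c.La_ext fun x => by
    simp only [← mulVec_mulVec, Lm_ap]
    rw [S_La, S_La, ← s2, ← s2, ← one_smul K (c.D x), ← h.det X hX, ← D_La]
    calc _ = (X * s * tp X * s⁻¹ * s).val * c.D (c.La X.val *ᵥ x) * (X * s * tp X * s⁻¹ * s).valᵀ := by
          simp only [Units.val_mul, transpose_mul, Matrix.mul_assoc]
      _ = _ := by simp only [inv_mul_cancel_right, Units.val_mul, transpose_mul, Matrix.mul_assoc, tp, transpose_transpose]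
  obtain ⟨a, ha⟩ : ∃ a : K, c.Lm X * R = a • (R * c.Lm X) :=
    (hn (c.lam P ⟨X, hX⟩)).elim (fun e => ⟨1, by simpa [lam_val] using e⟩) fun e => ⟨-1, by simpa [lam_val] using e⟩
  obtain ⟨d, hd, -⟩ := c.sc_of_La (g := X * s * tp X * s⁻¹) (a := a) (by
    have := congrArg (· * (c.Lm X⁻¹ * (rf (f 2) * rf (f 1) * rf (f 0)))) (b1.trans ha)
    have k : ∀ Z : M6 K, Z * R * c.Lm X * (c.Lm X⁻¹ * (rf (f 2) * rf (f 1) * rf (f 0))) = Z := fun Z => by
      rw [Matrix.mul_assoc, ← Matrix.mul_assoc (c.Lm X), ← map_mul, mul_inv_cancel, map_one, Matrix.one_mul,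
        Matrix.mul_assoc, r1, Matrix.mul_one]
    rwa [k, ← Matrix.one_mul R, ← Matrix.smul_mul, ← Matrix.smul_mul, k] at this)
  have := congrArg (· * s.val) hd
  rw [← Units.val_mul, inv_mul_cancel_right] at this
  exact ⟨d, by simpa [tp] using this⟩

theorem g_simp (h : Hy P) (N : Subgroup (c.Gm P)) (hN : N.Normal) :
    (∀ x ∈ N, x = 1 ∨ x = c.mm P) ∨ ∀ x, x ∈ N ∨ c.mm P * x ∈ N := by
  let M : Subgroup P :=
    { carrier := {x | c.lam P x ∈ N ∨ c.mm P * c.lam P x ∈ N}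
      one_mem' := .inl (by simp)
      mul_mem' := by
        rintro a b (ha | ha) (hb | hb) <;> have := mul_mem ha hb
        exacts [.inl (by simpa), .inr (by simpa [← mul_assoc, mm_comm] using this), .inr (by simpa [mul_assoc] using this),
          .inl (by simpa [mul_assoc, ← mul_assoc (c.lam P a), mm_comm, ← mul_assoc (c.mm P) (c.mm P), mm_mm] using this)]
      inv_mem' := by
        rintro a (ha | ha) <;> have := inv_mem ha
        exacts [.inl (by simpa), .inr (by simpa [inv_eq_of_mul_eq_one_right c.mm_mm, mm_comm] using this)] }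
  have hM : M.Normal := ⟨fun a ha g => ha.imp (fun h => by simpa using hN.conj_mem _ h (c.lam P g)) fun h => by
    simpa [← mul_assoc, mm_comm] using hN.conj_mem _ h (c.lam P g)⟩
  have k : ∀ x, (x ∈ N ∨ c.mm P * x ∈ N) ↔ ∀ X, x = c.lam P X ∨ x = c.mm P * c.lam P X → X ∈ M := fun x =>
    ⟨by rintro h X (rfl | rfl); exacts [h, by rw [← mul_assoc, mm_mm, one_mul] at h; exact h.symm], fun h => by
      obtain ⟨X, e⟩ := c.ex_lam x
      have := h X e
      rcases e with rfl | rfl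
      exacts [this, by simpa [← mul_assoc, mm_mm] using this.symm]⟩
  have := h.simple
  refine ((hM.map _ (QuotientGroup.mk'_surjective ((Sc K).subgroupOf P))).eq_bot_or_eq_top).imp (fun e x hx => ?_)
    fun e x => (k x).2 fun X _ => ?_
  · obtain ⟨X, e'⟩ := c.ex_lam x
    have := (c.lam_sc h.det X).1 (pr_eq_one.2 ((QuotientGroup.eq_one_iff X).1 (e.le ⟨X, (k x).1 (.inl hx) X e', rfl⟩)))
    rcases e' with rfl | rfl
    exacts [this, this.symm.imp (fun e => by rw [e, mm_mm]) fun e => by rw [e, mul_one]]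
  · obtain ⟨Y, hY, e'⟩ := e.ge (Subgroup.mem_top (QuotientGroup.mk' _ X))
    have := (c.lam_sc h.det (Y⁻¹ * X)).1 (pr_eq_one.2 (QuotientGroup.eq (s := (Sc K).subgroupOf P) |>.1 e'))
    simpa using mul_mem hY (show Y⁻¹ * X ∈ M from this.imp (fun e => by rw [e]; exact one_mem _)
      fun e => by rw [e, mm_mm]; exact one_mem _)

/-- the hypotheses of the rank four case -/
def og (h : Hy P) (nr : ¬ C3 P) {r : K} (hr : 2 * r * r = 1) : OG (c.Gm P) K where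
  φ := (Units.coeHom _).comp (c.Gm P).subtype
  inj := fun _ _ e => Subtype.ext (Units.ext e)
  two := h.two
  h := r
  hh := hr
  orth := fun x => by
    obtain ⟨X, hX, a, a1, a2⟩ := x.2
    simp [a2, smul_smul, a1, La_orth, h.det X hX]
  det := fun x => by
    obtain ⟨X, hX, a, a1, a2⟩ := x.2
    have := hom_one h.perf (detMonoidHom.comp (c.Lm.comp P.subtype)) ⟨X, hX⟩
    simp only [MonoidHom.comp_apply, Subgroup.coe_subtype, coe_detMonoidHom] at this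
    simp only [MonoidHom.comp_apply, Subgroup.coe_subtype, Units.coeHom_apply, a2, det_smul, this, Fintype.card_fin]
    linear_combination (a ^ 4 + a ^ 2 + 1) * a1
  m := c.mm P
  hm := rfl
  h2 := c.g_h2 h
  h3 := c.g_h3 h
  rot := c.g_rot h
  sq := c.g_sq h
  irr := c.g_irr h nr
  simp := c.g_simp h

end Ii

end Cfsg.Agent.H2.BR
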