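import Cfsg.Agent.H2.BR3

set_option autoImplicit false

/-! The bridge between `SL₄` and `SO₆` in the case of `2`-rank four. -/

namespace Cfsg.Agent.H2.BR
open Cfsg Matrix Cfsg.Agent.Asch Cfsg.Agent.H2.M4 Cfsg.Agent.O6 Cfsg.Agent.H7.M4 Module

universe u
variable {K : Type*} [Field K] {P : Subgroup (G4 K)}

theorem dot_orth {M : M6 K} {a : K} (h : Mᵀ * M = a • 1) (x y : W K) : (M *ᵥ x) ⬝ᵥ (M *ᵥ y) = a * (x ⬝ᵥ y) := by
  rw [dotProduct_mulVec, vecMul_mulVec, h, vecMul_smul, vecMul_one, smul_dotProduct, smul_eq_mul]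

theorem eig_one (h2 : (2 : K) ≠ 0) (A : Finset (M6 K)) (a1 : ∀ g ∈ A, gᵀ * g = 1) (a2 : ∀ g ∈ A, g * g = 1)
    (a3 : ∀ g ∈ A, ∀ h ∈ A, g * h = h * g) (U : Submodule K (W K)) (hU : ∀ g ∈ A, ∀ x ∈ U, g *ᵥ x ∈ U)
    (h0 : ∃ x ∈ U, x ⬝ᵥ x ≠ 0) : ∃ x ∈ U, x ⬝ᵥ x ≠ 0 ∧ ∀ g ∈ A, g *ᵥ x = x ∨ g *ᵥ x = -x := by
  classical
  induction A using Finset.induction_on with
  | empty => simpa using h0
  | insert g A _ ih =>
    simp only [Finset.forall_mem_insert] at a1 a2 a3 hU ⊢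
    obtain ⟨x, x1, x2, x3⟩ := ih a1.2 a2.2 (fun g hg => (a3.2 g hg).2) hU.2
    have b1 := dot_orth (a1.1.trans (one_smul K _).symm) x x
    have k : ∀ e : K, e * e = 1 → (x + e • g *ᵥ x) ⬝ᵥ (x + e • g *ᵥ x) ≠ 0 → ∃ x ∈ U, x ⬝ᵥ x ≠ 0 ∧
        (g *ᵥ x = x ∨ g *ᵥ x = -x) ∧ ∀ g ∈ A, g *ᵥ x = x ∨ g *ᵥ x = -x := fun e e1 e2 =>
      ⟨_, add_mem x1 (U.smul_mem _ (hU.1 x x1)), e2, by
        rcases mul_self_eq_one_iff.1 e1 with rfl | rfl <;> simp [mulVec_add, mulVec_neg, a2.1, add_comm], fun h hh => by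
        rw [mulVec_add, mulVec_smul, mulVec_mulVec, ← a3.1.2 h hh, ← mulVec_mulVec]
        exact (x3 h hh).imp (fun e => by rw [e]) fun e => by simp [e, mulVec_neg, add_comm]⟩
    by_contra hn
    have c1 := not_not.1 fun e => hn (k 1 (by simp) e)
    have c2 := not_not.1 fun e => hn (k (-1) (by simp) e)
    simp only [add_dotProduct, dotProduct_add, smul_dotProduct, dotProduct_smul, smul_eq_mul, b1] at c1 c2
    exact mul_ne_zero (mul_ne_zero h2 h2) x2 (by linear_combination c1 + c2)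

theorem eig_frame (h2 : (2 : K) ≠ 0) (A : Finset (M6 K)) (a1 : ∀ g ∈ A, gᵀ * g = 1) (a2 : ∀ g ∈ A, g * g = 1)
    (a3 : ∀ g ∈ A, ∀ h ∈ A, g * h = h * g) (k : ℕ) (hk : k ≤ 6) : ∃ f : Fin k → W K, (∀ i, f i ⬝ᵥ f i ≠ 0) ∧
      (∀ i j, i ≠ j → f i ⬝ᵥ f j = 0) ∧ ∀ i, ∀ g ∈ A, g *ᵥ f i = f i ∨ g *ᵥ f i = -f i := by
  induction k with
  | zero => exact ⟨Fin.elim0, by simp⟩
  | succ k ih =>
    obtain ⟨f, f1, f2, f3⟩ := ih (by omega)
    have m : ∀ x, x ∈ LinearMap.ker (toLin' (of f)) ↔ ∀ i, f i ⬝ᵥ x = 0 := fun x => funext_iff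
    obtain ⟨x, x1, x2, x3⟩ := eig_one h2 A a1 a2 a3 (LinearMap.ker (toLin' (of f))) (fun g hg x hx => (m _).2 fun i => by
      have := dot_orth ((a1 g hg).trans (one_smul K _).symm) (f i) x
      rw [(m x).1 hx i, mul_zero] at this
      rcases f3 i g hg with e | e <;> simpa [e] using this) (by
      by_contra hn
      simp only [not_exists, not_and, not_not] at hn
      obtain ⟨y, y1, y2⟩ := (Submodule.ne_bot_iff _).1 (LinearMap.ker_ne_bot_of_finrank_lt (f := toLin' (of f))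
        (by simp; omega))
      refine y2 (dotProduct_eq_zero_iff.1 fun w => ?_)
      have b1 : w - ∑ j, (f j ⬝ᵥ w / (f j ⬝ᵥ f j)) • f j ∈ LinearMap.ker (toLin' (of f)) := (m _).2 fun i => by
        rw [dotProduct_sub, dotProduct_sum, Finset.sum_eq_single i (fun j _ e => by simp [f2 i j e.symm]) (by simp)]
        simp [f1 i]
      have b2 := hn _ (add_mem y1 b1)
      rw [add_dotProduct, dotProduct_add, dotProduct_add, hn _ y1, hn _ b1, dotProduct_comm _ y, dotProduct_sub,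
        dotProduct_sum, Finset.sum_eq_zero fun j _ => by simp [dotProduct_comm y, (m y).1 y1 j]] at b2
      exact (mul_eq_zero.1 (by linear_combination b2 : 2 * (y ⬝ᵥ w) = 0)).resolve_left h2)
    refine ⟨Fin.cons x f, Fin.forall_fin_succ.2 ⟨x2, f1⟩, ?_, Fin.forall_fin_succ.2 ⟨x3, f3⟩⟩
    simpa [Fin.forall_fin_succ, dotProduct_comm x, (m x).1 x1] using f2

theorem rf_map {M : M6 K} {a : K} (h : Mᵀ * M = a • 1) (a0 : a ≠ 0) (u : W K) {s : K} (s0 : s ≠ 0) :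
    rf (s • M *ᵥ u) * M = M * rf u := Matrix.ext_iff_mulVec.2 fun x => by
  simp only [← mulVec_mulVec, rf_mulVec, smul_dotProduct, dotProduct_smul, dot_orth h, mulVec_sub, mulVec_smul,
    smul_smul, smul_eq_mul]
  congr 2
  by_cases e : u ⬝ᵥ u = 0
  · simp [e]
  · field_simp

theorem rf_orth {u : W K} (hu : u ⬝ᵥ u ≠ 0) : (rf u)ᵀ * rf u = 1 := by
  rw [show (rf u)ᵀ = rf u by simp [rf, transpose_vecMulVec], rf_sq hu]

theorem hom_cg (g : G4 K) (h : C7 (cg g P)) : C7 P := by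
  obtain ⟨h3, ⟨L, _, _, hL, ⟨e⟩⟩, h⟩ := h
  refine ⟨h3, ⟨L, _, _, hL, ⟨((pqEquiv P).trans (barCg g P)).trans ((pqEquiv _).symm.trans e)⟩⟩, fun x hx => ?_⟩
  simpa only [conj_inv, T_conj] using h _ (cg_mem hx)

namespace Ii
variable (c : Ii K)

theorem frame0 [Finite K] (h : Hy P) (hE : E16 P) : ∃ f : Fin 6 → W K, (∀ i, f i ⬝ᵥ f i ≠ 0) ∧
    (∀ i j, i ≠ j → f i ⬝ᵥ f j = 0) ∧ ∀ i j, ∃ x : c.Gm P, x.1.val = rf (f i) * rf (f j) := by
  classical
  obtain ⟨E, e1, e2, e3⟩ := hE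
  let A : Set (M6 K) := {g | ∃ X : P, pr X.1 ∈ E ∧ ∃ e : ℤˣ, g = ((e : ℤ) : K) • c.Lm X}
  have u : ∀ e : ℤˣ, ((e : ℤ) : K) * ((e : ℤ) : K) = 1 := fun e => by rw [← Int.cast_mul, Int.units_coe_mul_self]; simp
  have a2 : ∀ g ∈ A, g * g = 1 := by
    rintro _ ⟨X, hX, e, rfl⟩
    rcases (c.lam_sc h.det (X * X)).1 (e3 _ hX) with e' | e'
    · simpa [smul_smul, u, lam_val] using congrArg (·.1.val) e'
    · exact absurd (by simpa [lam_val, mm] using congrArg (·.1.val) e') (c.g_h2 h (c.lam P X))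
  obtain ⟨f, f1, f2, f3⟩ := eig_frame h.two (Set.toFinite A).toFinset (by
      simp only [Set.Finite.mem_toFinset]
      rintro _ ⟨X, hX, e, rfl⟩
      simp [smul_smul, u, La_orth, h.det X X.2]) (by simpa using a2) (by
      simp only [Set.Finite.mem_toFinset]
      intro g hg g' hg'
      have : g * g' ∈ A := by
        obtain ⟨X, hX, e, rfl⟩ := hg
        obtain ⟨Y, hY, d, rfl⟩ := hg'
        exact ⟨X * Y, mul_mem hX hY, e * d, by simp [smul_smul, mul_comm]⟩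
      calc _ = g' * g' * (g * g') * (g * g) := by rw [a2 g hg, a2 g' hg', Matrix.one_mul, Matrix.mul_one]
        _ = g' * (g' * g * (g' * g)) * g := by simp only [Matrix.mul_assoc]
        _ = _ := by
          rw [show g' * g * (g' * g) = g' * (g * g' * (g * g')) * g' by
            simp only [Matrix.mul_assoc, a2 g' hg', Matrix.mul_one], a2 _ this, Matrix.mul_one, a2 g' hg', Matrix.mul_one])
    6 le_rfl
  simp only [Set.Finite.mem_toFinset] at f3
  have F0 : (of f)ᵀ.det ≠ 0 := fun e => by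
    have : of f * (of f)ᵀ = diagonal fun i => f i ⬝ᵥ f i := Matrix.ext fun i j => by
      by_cases e : i = j
      exacts [by subst e; simp [Matrix.mul_apply, dotProduct], by simpa [Matrix.mul_apply, dotProduct, e] using f2 i j e]
    have := congrArg det this
    rw [det_mul, e, mul_zero, det_diagonal] at this
    exact Finset.prod_ne_zero_iff.2 (fun i _ => f1 i) this.symm
  have ext : ∀ {g : M6 K} {d : W K}, (∀ i, g *ᵥ f i = d i • f i) → g * (of f)ᵀ = (of f)ᵀ * diagonal d :=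
    fun {g d} e => Matrix.ext fun i j => by
      rw [mul_diagonal, mul_comm]; exact congrFun (e j) i
  choose X hX using fun e : E => (show ∃ X : P, pr X.1 = e from let ⟨X, a, b⟩ := e1 e.2; ⟨⟨X, a⟩, b⟩)
  choose s hs using fun (p : E × ℤˣ) i => (show ∃ s : ℤˣ, (((p.2 : ℤ) : K) • c.Lm (X p.1)) *ᵥ f i = ((s : ℤ) : K) • f i from
    (f3 i _ ⟨X p.1, (hX p.1).symm ▸ p.1.2, p.2, rfl⟩).elim (fun e => ⟨1, by simpa using e⟩) fun e => ⟨-1, by simpa using e⟩)
  have ci : ∀ a b : ℤˣ, ((a : ℤ) : K) = ((b : ℤ) : K) → a = b := fun a b e => by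
    rcases Int.units_eq_one_or a with rfl | rfl <;> rcases Int.units_eq_one_or b with rfl | rfl <;>
      first | rfl | exact (h.two (by simp at e; first | linear_combination e | linear_combination -e)).elim
  have b1 : ∀ p, ∏ i, s p i = 1 := fun p => ci _ _ (by
    have := congrArg det (ext (hs p))
    have d := hom_one h.perf (detMonoidHom.comp (c.Lm.comp P.subtype)) (X p.1)
    simp only [MonoidHom.comp_apply, Subgroup.coe_subtype, coe_detMonoidHom] at d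
    rw [det_mul, det_mul, det_diagonal, mul_comm, mul_right_inj' F0, det_smul, d] at this
    simp only [Units.coe_prod, Int.cast_prod, ← this, Fintype.card_fin]
    simp
    linear_combination ((p.2 : ℤ) ^ 4 + (p.2 : ℤ) ^ 2 + 1 : K) * u p.2)
  have cf : ∀ {g g' : M6 K}, g * (of f)ᵀ = g' * (of f)ᵀ → g = g' := fun e =>
    (isUnit_iff_isUnit_det _ |>.2 F0.isUnit).mul_right_cancel e
  have b2 : Function.Bijective fun p => (⟨s p, b1 p⟩ : {t : Fin 6 → ℤˣ // ∏ i, t i = 1}) :=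
    (Nat.bijective_iff_injective_and_card _).2 ⟨fun p q e => by
      have a := cf ((ext (hs p)).trans (by rw [show s p = s q from congrArg Subtype.val e, ext (hs q)]))
      obtain ⟨d, d1, -⟩ := c.of_La (g := X p.1) (h := X q.1) (a := (p.2 : ℤ) * (q.2 : ℤ)) (by
        rw [← smul_smul, ← a, smul_smul, u, one_smul])
      have a' : p.1 = q.1 := Subtype.ext (by rw [← hX, ← hX, pr_eq_iff.2 ⟨d, d1⟩])
      rw [a'] at a
      exact Prod.ext a' (ci _ _ (smul_left_injective K ((Group.isUnit _).map c.Lm).ne_zero a)), by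
      rw [Nat.card_prod, e2, Nat.card_eq_fintype_card, Nat.card_eq_fintype_card]; decide +kernel⟩
  refine ⟨f, f1, f2, fun i j => ?_⟩
  obtain ⟨p, hp⟩ := b2.2 ⟨fun k => (if k = i then -1 else 1) * if k = j then -1 else 1, by
    rw [Finset.prod_mul_distrib]; simp⟩
  refine ⟨⟨⟨_, _, a2 _ ⟨X p.1, (hX p.1).symm ▸ p.1.2, p.2, rfl⟩, a2 _ ⟨X p.1, (hX p.1).symm ▸ p.1.2, p.2, rfl⟩⟩,
    X p.1, (X p.1).2, _, u p.2, rfl⟩, cf ((ext (hs p)).trans (ext fun k => ?_).symm)⟩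
  have r : ∀ i, rf (f i) *ᵥ f k = (if k = i then -1 else 1 : K) • f k := fun i => by
    rw [rf_mulVec]
    split_ifs with e
    · rw [e, mul_div_assoc, div_self (f1 i)]; module
    · simp [f2 i k (Ne.symm e)]
  rw [← mulVec_mulVec, r, mulVec_smul, r, smul_smul, show s p k = (if k = i then -1 else 1) * if k = j then -1 else 1
    from congrFun (congrArg Subtype.val hp) k]
  generalize f k = v
  split_ifs <;> simp

theorem frame [Finite K] (h : Hy P) (hE : E16 P) : ∃ (g : G4 K) (f : Fin 6 → W K), ON f ∧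
    ∀ i j, ∃ x : c.Gm (cg g P), x.1.val = rf (f i) * rf (f j) := by
  obtain ⟨f, f1, f2, f3⟩ := c.frame0 h hE
  have k : ∀ i, ∃ s, s * s = f 0 ⬝ᵥ f 0 * (f i ⬝ᵥ f i) := fun i => by
    obtain ⟨x, hx⟩ := f3 0 i
    obtain ⟨-, d, hd⟩ := c.of_rf (f1 0) (f1 i) hx
    rcases mul_self_eq_mul_self_iff.1 (hd.trans (pow_two _)) with e | e
    exacts [⟨d, e⟩, ⟨c.i * d, by linear_combination d * d * c.sq - e⟩]
  choose s hs using k
  have s0 : ∀ i, s i ≠ 0 := fun i e => mul_ne_zero (f1 0) (f1 i) (by rw [← hs, e, mul_zero])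
  obtain ⟨g, hg⟩ : ∃ g : G4 K, g.val.det = f 0 ⬝ᵥ f 0 :=
    ⟨Matrix.GeneralLinearGroup.mkOfDetNeZero (diagonal ![f 0 ⬝ᵥ f 0, 1, 1, 1]) (by simp [Fin.prod_univ_four, f1]),
      by simp [Fin.prod_univ_four]⟩
  refine ⟨g, fun i => (s i)⁻¹ • c.Lm g *ᵥ f i, fun i j => ?_, fun i j => ?_⟩
  · simp only [smul_dotProduct, dotProduct_smul, dot_La, hg, smul_eq_mul]
    split_ifs with e
    · rw [e, ← hs]; field_simp [s0 j]
    · simp [f2 i j e]
  · obtain ⟨x, hx⟩ := f3 i j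
    obtain ⟨X, hX, e, e1, e2⟩ := x.2
    refine ⟨⟨c.Lm.toHomUnits g * x * (c.Lm.toHomUnits g)⁻¹, _, cg_mem hX, e, e1, by simp [← map_inv, e2]⟩, ?_⟩
    have r := fun i => rf_map (c.La_orth g) g.det_ne_zero (f i) (inv_ne_zero (s0 i))
    rw [Units.val_mul, Units.mul_inv_eq_iff_eq_mul, Units.val_mul, hx, MonoidHom.coe_toHomUnits, Matrix.mul_assoc, r,
      ← Matrix.mul_assoc, ← Matrix.mul_assoc, r]

theorem stand {f : Fin 6 → W K} (hf : ON f) (k : ℕ) : ∃ (g : G4 K) (a : K) (M : M6 K), a ≠ 0 ∧ c.Lm g = a • M ∧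
    Mᵀ * M = 1 ∧ ∀ j : Fin 6, j.1 < k → ∃ e : K, e * e = 1 ∧ M *ᵥ f j = e • Pi.single j 1 := by
  induction k with
  | zero => exact ⟨1, 1, 1, by simp⟩
  | succ k ih =>
    obtain ⟨g, a, M, a0, h1, h2, h3⟩ := ih
    by_cases hk : k < 6
    swap
    · exact ⟨g, a, M, a0, h1, h2, fun j _ => h3 j (by omega)⟩
    obtain ⟨i, rfl⟩ : ∃ i : Fin 6, i.1 = k := ⟨⟨k, hk⟩, rfl⟩
    have d := dot_orth (h2.trans (one_smul K _).symm)
    have b1 := d (f i) (f i)
    rw [hf, if_pos rfl, mul_one] at b1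
    have n1 : (Pi.single i 1 : W K) ⬝ᵥ Pi.single i 1 ≠ 0 := by simp
    obtain ⟨e, e1, e2⟩ : ∃ e : K, e * e = 1 ∧
        (M *ᵥ f i - e • Pi.single i 1) ⬝ᵥ (M *ᵥ f i - e • Pi.single i 1) ≠ 0 := by
      by_contra hn
      simp only [not_exists, not_and, not_not] at hn
      have c1 := hn 1 (by simp)
      have c2 := hn (-1) (by simp)
      simp [b1] at c1 c2
      exact mul_ne_zero c.two c.two (by linear_combination c1 + c2)
    refine ⟨c.gSD n1 e2 * g, _ * a, rf (Pi.single i 1) * rf (M *ᵥ f i - e • Pi.single i 1) * M,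
      mul_ne_zero (mul_ne_zero n1 e2) a0, by rw [map_mul, h1, Lm_ap, gSD_val, c.La_SD n1 e2, smul_mul_smul_comm], by
        simp only [transpose_mul, Matrix.mul_assoc, ← Matrix.mul_assoc (rf _)ᵀ (rf _), rf_orth n1, rf_orth e2,
          Matrix.one_mul, h2], fun j hj => ?_⟩
    rw [← mulVec_mulVec, ← mulVec_mulVec]
    rcases (Nat.lt_succ_iff.1 hj).lt_or_eq with hj | hj
    · obtain ⟨e', e3, e4⟩ := h3 j hj
      have ne : i ≠ j := by rintro rfl; omega
      have b2 := d (f i) (f j)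
      rw [hf, if_neg ne, mul_zero] at b2
      refine ⟨e', e3, ?_⟩
      rw [rf_mulVec (_ - _), sub_dotProduct, b2, e4]
      simp [rf_mulVec, ne.symm]
    · obtain rfl : j = i := Fin.ext hj
      refine ⟨-e, by simpa, ?_⟩
      rw [rf_mulVec (_ - _), show 2 * ((M *ᵥ f j - e • Pi.single j 1) ⬝ᵥ M *ᵥ f j) =
        (M *ᵥ f j - e • Pi.single j 1) ⬝ᵥ (M *ᵥ f j - e • Pi.single j 1) by simp [b1]; linear_combination -e1,
        div_self e2, one_smul, sub_sub_cancel, mulVec_smul, rf_mulVec]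
      simp
      module

theorem tr3 [Finite K] (h3 : (3 : K) = 0) (hp : ⁅P, P⁆ = P) (h : ∀ X ∈ P, ∀ i j, c.Lm X i j ^ 3 = c.Lm X i j) :
    ∀ X ∈ P, T X ^ 3 = T X⁻¹ := fun X hX => by
  have : CharP K 3 := (CharP.charP_iff_prime_eq_zero Nat.prime_three).2 h3
  have a1 : ∀ x, (c.S x).map (frobenius K 3) = -c.D (frobenius K 3 ∘ x) := fun x => by
    have : frobenius K 3 c.i = -c.i := by rw [frobenius_def]; linear_combination c.i * c.sq
    ext i j
    fin_cases i <;> fin_cases j <;> simp [S, D, sk, hat, this] <;> ring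
  have a2 : ∀ y, ∃ x, c.S y = c.D (frobenius K 3 ∘ x) := fun y => by
    obtain ⟨x, hx⟩ := (surjective_frobenius K 3).comp_left ![-y 0, y 1, -y 2, y 3, -y 4, y 5]
    refine ⟨x, ?_⟩
    rw [show frobenius K 3 ∘ x = _ from hx]
    ext i j
    fin_cases i <;> fin_cases j <;> simp [S, D, sk, hat] <;> ring
  have := fix_of_perf hp (frobenius K 3) one_ne_zero (fun X hX => ?_) X hX
  · rw [Matrix.mul_one] at this
    rw [T, T, Units.inv_eq_of_mul_eq_one_right this, trace_transpose, ← frobenius_def]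
    exact AddMonoidHom.map_trace (frobenius K 3) X.val
  obtain ⟨d, hd, -⟩ := c.sc_of_La (g := tp X * gm (frobenius K 3) X) (a := 1) (c.La_ext fun y => by
    obtain ⟨x, hx⟩ := a2 y
    have b := congrArg (Matrix.map · (frobenius K 3)) (c.S_La X.val x)
    have b' : frobenius K 3 ∘ (c.La X.val *ᵥ x) = c.La X.val *ᵥ (frobenius K 3 ∘ x) := funext fun i => by
      rw [Function.comp_apply, RingHom.map_mulVec]
      congr 1
      exact Matrix.ext (h X hX)
    simp only [Matrix.map_mul, a1, b', Matrix.mul_neg, Matrix.neg_mul, neg_inj, transpose_map] at b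
    have b2 := c.D_La X.val (frobenius K 3 ∘ x)
    rw [det_eq_one_of_perfect hp hX, one_smul, b] at b2
    rw [Lm_ap, S_La, one_smul, one_mulVec, hx]
    simpa [tp, gm_val, Matrix.mul_assoc] using b2)
  have b := congrArg (fun Z => X.val * Zᵀ * (X⁻¹).val) hd
  simp only [Units.val_mul, tp, transpose_mul, transpose_transpose, gm_val, ← Matrix.mul_assoc,
    Units.mul_inv_cancel_right] at b
  exact ⟨d, by simpa using b⟩

end Ii

/-- the statement of the identification of `L₃(4)` -/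
def L34 (Γ K : Type*) [Group Γ] [Field K] : Prop := ∀ G : OG Γ K, G.Out → (3 : K) = 0 ∧
  (∃ (L : Type) (_ : Field L) (_ : Fintype L), Fintype.card L = 4 ∧
    ∃ π : Γ →* Matrix.ProjectiveSpecialLinearGroup (Fin 3) L, Function.Surjective π ∧ ∀ x, π x = 1 ↔ x = 1 ∨ x = G.m) ∧
  ∃ f, G.Fr f ∧ ∀ x i j, (f i ⬝ᵥ G.φ x *ᵥ f j) ^ 3 = f i ⬝ᵥ G.φ x *ᵥ f j

theorem bridge {K : Type u} [Field K] [Finite K] {P : Subgroup (G4 K)} (h : Hy P) (nr : ¬ C3 P) (hE : E16 P)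
    (h1 : ∀ (Γ : Type u) [Group Γ] [Finite Γ], RK4 Γ K) (h2 : ∀ (Γ : Type u) [Group Γ] [Finite Γ], L34 Γ K) :
    C7 P := by
  obtain ⟨ζ, hζ⟩ := h.z16
  let c : Ii K := ⟨ζ ^ 4, by linear_combination hζ, h.two⟩
  have := h.two
  have hr : 2 * ((ζ ^ 2 - ζ ^ 6) / 2) * ((ζ ^ 2 - ζ ^ 6) / 2) = 1 := by
    field_simp; linear_combination (ζ ^ 4 - 2) * hζ
  obtain ⟨g, f, f1, f2⟩ := c.frame h hE
  refine hom_cg g ?_
  have h := h.cj g
  have nr : ¬ C3 (cg g P) := fun e => nr fun x hx => by simpa only [conj_inv, T_conj] using e _ (cg_mem hx)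
  generalize cg g P = P at *
  obtain ⟨h3, ⟨L, _, _, hL, π, p1, p2⟩, f, ⟨f1, -⟩, f2⟩ := h2 _ (c.og h nr hr) (h1 _ _ f ⟨f1, f2⟩)
  refine ⟨h3, ⟨L, _, _, hL, ⟨(QuotientGroup.quotientMulEquivOfEq (Subgroup.ext fun x => ?_)).trans
    (QuotientGroup.quotientKerEquivOfSurjective (π.comp (c.lam P)) fun y => ?_)⟩⟩, fun X hX => ?_⟩
  · exact (pr_eq_one.symm.trans (c.lam_sc h.det x)).trans (p2 _).symm
  · obtain ⟨x, rfl⟩ := p1 y
    obtain ⟨X, rfl | rfl⟩ := c.ex_lam x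
    exacts [⟨X, rfl⟩, ⟨X, by rw [map_mul, (p2 (c.mm P)).2 (.inr rfl), one_mul]; rfl⟩]
  obtain ⟨g, a, M, a0, m1, m2, m3⟩ := c.stand f1 6
  choose e e1 e2 using fun j : Fin 6 => m3 j j.2
  have := c.tr3 h3 (h.cj g).perf (by
    rintro _ ⟨X, hX, rfl⟩ i j
    have b1 : c.Lm (g * X * g⁻¹) * M = M * c.Lm X := smul_right_injective _ a0 (by
      simp only [← Matrix.mul_smul, ← Matrix.smul_mul M, ← m1, ← map_mul, inv_mul_cancel_right]
      rw [Matrix.mul_smul, ← Matrix.smul_mul, ← m1, ← map_mul])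
    have b2 := dot_orth (m2.trans (one_smul K _).symm) (f i) (c.Lm X *ᵥ f j)
    rw [mulVec_mulVec, ← b1, ← mulVec_mulVec, e2, e2, one_mul] at b2
    have b3 := f2 (c.lam P ⟨X, hX⟩) i j
    change (f i ⬝ᵥ c.Lm X *ᵥ f j) ^ 3 = f i ⬝ᵥ c.Lm X *ᵥ f j at b3
    rw [← b2] at b3
    simp only [mulVec_smul, smul_dotProduct, dotProduct_smul, single_one_dotProduct, mulVec_single_one, smul_eq_mul,
      col_apply] at b3
    change c.Lm (g * X * g⁻¹) i j ^ 3 = c.Lm (g * X * g⁻¹) i j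
    generalize c.Lm (g * X * g⁻¹) i j = t at b3
    linear_combination e i * e j * b3 + (t - t ^ 3 * (e i ^ 2 + 1) * e j ^ 4) * e1 i +
      (e i ^ 2 * t - t ^ 3 * (e j ^ 2 + 1)) * e1 j) _ (cg_mem hX)
  simpa only [conj_inv, T_conj] using this

end Cfsg.Agent.H2.BR
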