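import Cfsg.Agent.H2.CKf

/-! Cameron-Kantor, general dimension: the closed case. -/

set_option autoImplicit false
set_option linter.unusedSectionVars false

namespace Cfsg.Agent.H5.CK

open Module

variable {F V W Γ : Type*} [Field F] [Fintype F] [AddCommGroup V] [Module F V] [Finite V]
  [AddCommGroup W] [Module F W] [Finite W] [Group Γ] [Finite Γ]
  [DistribMulAction Γ V] [SMulCommClass Γ F V] [DistribMulAction Γ W] [SMulCommClass Γ F W]
  {B : V →ₗ[F] W →ₗ[F] F} {ν μ : ℕ} {x x' y z : V} {φ φ' ψ : W} {g : Γ}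

/-- the common hyperplane of the spaces `M` -/
def RE (Γ : Type*) [Group Γ] [Finite Γ] [DistribMulAction Γ V] [DistribMulAction Γ W]
    (B : V →ₗ[F] W →ₗ[F] F) (x : V) (φ : W) : Submodule F V :=
  ⨅ ψ ∈ NN Γ B.flip φ x, ⨅ _ : ψ ≠ 0, MM Γ B x ψ

theorem mem_RE : z ∈ RE Γ B x φ ↔ ∀ ψ ∈ NN Γ B.flip φ x, ψ ≠ 0 → z ∈ MM Γ B x ψ := by
  simp only [RE, Submodule.mem_iInf]

theorem Hyp.RE_smul (h : Hyp Γ B) (f : Fl B x φ) (a : g • x ∈ F ∙ x') (b : g • φ ∈ F ∙ φ')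
    (hz : z ∈ RE Γ B x φ) : g • z ∈ RE Γ B x' φ' := mem_RE.2 fun ψ c d => by
  have c' : g⁻¹ • ψ ∈ NN Γ B.flip φ x := by
    rwa [← h.toPre.flip.NN_iff f.flip b a, smul_inv_smul]
  exact h.toPre.MM_smul (h.flip.Fl_N f.flip c' (smul_ne d)).flip a (by simp)
    (mem_RE.1 hz _ c' (smul_ne d))

theorem Hyp.RE_le (h : Hyp Γ B) (f : Fl B x φ) : RE Γ B x φ ≤ MM Γ B x φ :=
  fun _ hz => mem_RE.1 hz φ (h.flip.x_mem_N f.flip) f.f0

theorem Hyp.x_mem_RE (h : Hyp Γ B) (f : Fl B x φ) : x ∈ RE Γ B x φ :=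
  mem_RE.2 fun _ a b => h.x_mem_M (h.flip.Fl_N f.flip a b).flip

theorem Hyp.RE_eq (h : Hyp Γ B) (hc : Cl Γ B.flip μ) (f : Fl B x φ) (a : ψ ∈ NN Γ B.flip φ x)
    (b : ψ ∉ F ∙ φ) : RE Γ B x φ = perp B (NN Γ B.flip φ x ⊔ NN Γ B.flip ψ x) := by
  have pp : ∀ χ, perp B (NN Γ B.flip χ x) = MM Γ B x χ := fun χ => by
    rw [NN_flip, h.toPre.perp_perp]
  refine le_antisymm (fun z hz => mem_perp.2 fun w hw => ?_) fun z hz => mem_RE.2 fun χ c d => ?_
  · obtain ⟨u, hu, v, hv, rfl⟩ := Submodule.mem_sup.1 hw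
    rw [map_add, mem_NN_flip.1 hu z (h.RE_le f hz),
      mem_NN_flip.1 hv z (mem_RE.1 hz ψ a (ne_zero_of_not_mem b)), add_zero]
  by_cases e : χ ∈ F ∙ φ
  · rw [h.toPre.MM_congr (h.flip.Fl_N f.flip c d).flip (Submodule.mem_span_singleton_self _) e,
      ← pp]
    exact perp_anti le_sup_left hz
  · rw [(hc φ x ψ f.flip a b).2 χ c e] at hz
    exact pp χ ▸ perp_anti le_sup_right hz

theorem Hyp.RE_congr (h : Hyp Γ B) (hc : Cl Γ B.flip μ) (f : Fl B x φ) (a : ψ ∈ NN Γ B.flip φ x)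
    (b : ψ ≠ 0) (hz : z ∈ RE Γ B x ψ) : z ∈ RE Γ B x φ := by
  have f' := h.flip.Fl_N f.flip a b
  by_cases e : ψ ∈ F ∙ φ
  · simpa using h.RE_smul (g := 1) (x' := x) (φ' := φ) f'.flip (by simp) (by simpa using e) hz
  · rwa [h.RE_eq hc f a e, sup_comm,
      ← h.RE_eq hc f'.flip (h.flip.N_symm f.flip a b) (not_mem_span_symm f.f0 e)]

theorem NT.dR (h : NT Γ B ν μ) (hc : Cl Γ B.flip μ) (f : Fl B x φ) :
    finrank F (RE Γ B x φ) + 1 = finrank F (MM Γ B x φ) := by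
  obtain ⟨ψ, a, b⟩ := H7.exists_mem_notMem_of_finrank_lt (U := NN Γ B.flip φ x) (W := F ∙ φ)
    (by rw [h.dN' f, finrank_span_singleton f.f0]; have := h.μ1; omega)
  have e1 := h.pre.finrank_perp (NN Γ B.flip φ x ⊔ NN Γ B.flip ψ x)
  have e2 := Submodule.finrank_sup_add_finrank_inf_eq (NN Γ B.flip φ x) (NN Γ B.flip ψ x)
  rw [(hc φ x ψ f.flip a b).1, h.dN' f,
    h.dN' (h.toHyp.flip.Fl_N f.flip a (ne_zero_of_not_mem b)).flip] at e2
  have := h.dM f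
  rw [h.toHyp.RE_eq hc f a b]
  omega

theorem ncard_dvd_card {α : Type*} [MulAction Γ α] (Y : Subgroup Γ) (A : Set α) {v : α}
    (h : ∀ u, u ∈ A ↔ ∃ g ∈ Y, g • v = u) : A.ncard ∣ Nat.card Γ := by
  have : A = MulAction.orbit Y v := Set.ext fun u => (h u).trans
    ⟨fun ⟨g, a, b⟩ => ⟨⟨g, a⟩, b⟩, fun ⟨g, b⟩ => ⟨g, g.2, b⟩⟩
  rw [this, ← Nat.card_coe_set_eq, Nat.card_congr (MulAction.orbitEquivQuotientStabilizer _ v)]
  exact (Subgroup.card_quotient_dvd_card _).trans (Subgroup.card_subgroup_dvd_card Y)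

theorem caseE (h : NT Γ B ν μ)
    (MS : ∀ {x φ y}, Fl B x φ → y ∈ NN Γ B x φ → y ∉ F ∙ x → MM Γ B x φ ≤ SX F Γ x y)
    (NTl : ∀ {x φ ψ}, Fl B x φ → ψ ∈ NN Γ B.flip φ x → ψ ∉ F ∙ φ → NN Γ B x φ ≤ TT Γ B φ ψ)
    (hc : Cl Γ B.flip μ) :
    Odd (finrank F V) ∧ Fintype.card F ^ (finrank F V - 3) - 1 ∣ Nat.card Γ := by
  obtain ⟨x, φ, f⟩ := h.toHyp.exists_Fl
  have q1 := Fintype.one_lt_card (α := F)
  have ν1 := h.ν1
  have μ1 := h.μ1
  have dM := h.dM f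
  by_cases hm : finrank F V = μ + 3
  · have hν : ν = 1 := by
      have := Submodule.finrank_mono (h.NM f)
      rw [h.dN f] at this
      omega
    subst hν
    have dH := h.pre.finrank_Hy f.f0
    constructor
    · have al : ∀ {u v}, Fl B u φ → v ∈ NN Γ B u φ → v ≠ 0 → NN Γ B v φ = NN Γ B u φ :=
        fun {u v} fu a b => by
          by_cases e : v ∈ F ∙ u
          · exact h.pre.NN_congr (h.toHyp.Fl_N fu a b) e (Submodule.mem_span_singleton_self _)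
          · have fv := h.toHyp.Fl_N fu a b
            exact Submodule.eq_of_le_of_finrank_eq (span_two_le (h.dN fv) fu.x0 e
              (h.toHyp.N_symm fu a b) (h.toHyp.x_mem_N fv) (h.toHyp.x_mem_N fu) a)
              (by rw [h.dN fu, h.dN fv])
      have dc := dc_eq {L : Set V | ∃ u, Fl B u φ ∧ L = NN Γ B u φ} {v | v ∈ Hy B φ ∧ v ≠ 0}
        (fun L v => v ∈ L) (Fintype.card F ^ 2 - 1) 1 (by
          rintro _ ⟨u, fu, rfl⟩
          rw [← show _ = 2 from h.dN fu, ← ncard_ne, Nat.add_sub_cancel]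
          congr 1
          exact Set.ext fun v => ⟨fun a => ⟨a.2, a.1.2⟩, fun a => ⟨⟨h.toHyp.N_inc fu a.1, a.2⟩, a.1⟩⟩)
        (fun v a => Set.ncard_eq_one.2 ⟨NN Γ B v φ, Set.ext fun L => ⟨by
          rintro ⟨⟨u, fu, rfl⟩, b⟩
          exact congrArg _ (al fu b a.2).symm, by
          rintro rfl
          exact ⟨⟨v, ⟨a.2, f.f0, a.1⟩, rfl⟩, h.toHyp.x_mem_N ⟨a.2, f.f0, a.1⟩⟩⟩⟩)
      have c := ncard_ne (Hy B φ)
      rw [← Nat.not_even_iff_odd]
      rintro ⟨k, hk⟩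
      rw [show finrank F (Hy B φ) = 2 * (k - 1) + 1 by omega, ← mul_one (Set.ncard _), ← dc] at c
      have e1 : 1 ≡ Fintype.card F ^ 2 [MOD Fintype.card F ^ 2 - 1] :=
        (Nat.modEq_iff_dvd' (Nat.one_le_pow _ _ (by omega))).2 dvd_rfl
      have e2 := (e1.pow (k - 1)).mul_right (Fintype.card F)
      rw [← pow_mul, ← pow_succ, ← c, one_pow, one_mul] at e2
      have e3 := (Nat.modEq_iff_dvd' q1.le).1 (e2.trans (Nat.ModEq.add_right 1
        (Nat.modEq_zero_iff_dvd.2 (Dvd.intro_left _ rfl)))).symm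
      have := Nat.le_of_dvd (by omega) e3
      have : Fintype.card F < Fintype.card F ^ 2 := by nlinarith
      omega
    · obtain ⟨v, v1, v2⟩ := SetLike.exists_of_lt (h.toHyp.M_lt f)
      have d := ncard_dvd_card (GG F Γ x φ) {u | u ∈ Hy B φ ∧ u ∉ MM Γ B x φ} (v := v) fun u =>
        ⟨fun a => h.toHyp.M_tr f v1 a.1 v2 a.2, by
          rintro ⟨g, hg, rfl⟩
          exact ⟨h.pre.ker_SS hg.2 v v1, fun c => v2 ((SS_iff (h.pre.MM_inv f hg)).1 c)⟩⟩
      have c := ncard_diff (h.toHyp.M_lt f).le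
      rw [show finrank F (MM Γ B x φ) = 2 by omega, show finrank F (Hy B φ) = μ + 2 by omega,
        pow_add] at c
      refine Dvd.dvd.trans ⟨Fintype.card F ^ 2, ?_⟩ d
      rw [show finrank F V - 3 = μ by omega, Nat.sub_mul, ← c, one_mul, Nat.add_sub_cancel]
  exfalso
  have NR : ∀ {x φ}, Fl B x φ → NN Γ B x φ ≤ RE Γ B x φ := fun {x φ} f => by
    obtain ⟨u, a, b⟩ := H7.exists_mem_notMem_of_finrank_lt (U := RE Γ B x φ) (W := F ∙ x) (by
      have := h.dR hc f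
      have := h.dM f
      have := Submodule.finrank_mono (h.NM f)
      rw [h.dN f] at this
      rw [finrank_span_singleton f.x0]
      omega)
    exact h.toHyp.N_min f (fun g hg _ => h.toHyp.RE_smul f (mem_SS_span_iff.1 hg.1)
      (mem_SS_span_iff.1 hg.2)) (h.toHyp.x_mem_RE f) a b
  have RR : ∀ {x y}, Fl B x φ → y ∈ NN Γ B x φ → y ≠ 0 → RE Γ B x φ ≤ RE Γ B y φ :=
    fun {x y} f a b z hz => by
      have fy := h.toHyp.Fl_N f a b
      have a' := h.toHyp.N_symm f a b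
      by_cases e : y ∈ F ∙ x
      · simpa using h.toHyp.RE_smul (g := 1) (x' := y) (φ' := φ) f
          (by simpa using span_symm b e) (by simp) hz
      by_cases e' : z ∈ Submodule.span F {x, y}
      · obtain ⟨c, d, rfl⟩ := Submodule.mem_span_pair.1 e'
        exact NR fy (Submodule.add_mem _ (Submodule.smul_mem _ _ a')
          (Submodule.smul_mem _ _ (h.toHyp.x_mem_N fy)))
      obtain ⟨g, g1, g2, g3⟩ := h.toHyp.swap3 f.x0 e e'
      have k1 : g • x ∈ F ∙ y := g1 ▸ Submodule.mem_span_singleton_self _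
      have k2 := h.pre.NN_smul f k1 (Submodule.mem_span_singleton_self (g • φ)) a
      have e2 := not_mem_span_symm f.x0 e
      rw [g2, Submodule.neg_mem_iff] at k2
      have k3 := h.E_of (h.pre.Fl_of f k1 (Submodule.mem_span_singleton_self _)) k2 e2
      refine h.toHyp.RE_congr hc fy (ψ := g • φ) ?_ (smul_ne f.f0)
        (g3 ▸ h.toHyp.RE_smul f k1 (Submodule.mem_span_singleton_self _) hz)
      rw [NN_flip]
      exact perp_anti (MS fy a' e2) k3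
  refine h.cls_false (φ := φ) (fun x => {z | z ∈ MM Γ B x φ ∧ z ∉ RE Γ B x φ})
    (fun g hg x f z hz => ⟨h.pre.MM_smul f (Submodule.mem_span_singleton_self _)
      (mem_SS_span_iff.1 hg) hz.1, fun c => hz.2 ?_⟩)
    (fun x f z hz => h.toHyp.Fl_M f hz.1 (ne_zero_of_not_mem hz.2)) (fun x y f a b => ?_) f
    (k := finrank F (RE Γ B x φ)) (by rw [h.dR hc f]; exact ncard_diff (h.toHyp.RE_le f))
  · simpa using h.toHyp.RE_smul (g := g⁻¹) (x' := x) (φ' := φ) (h.pre.Fl_of f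
      (Submodule.mem_span_singleton_self _) (mem_SS_span_iff.1 hg)) (by simp)
      (mem_SS_span_iff.1 (Subgroup.inv_mem _ hg)) c
  · rw [h.M_eq_of_NTl NTl f a b, le_antisymm (RR f a b)
      (RR (h.toHyp.Fl_N f a b) (h.toHyp.N_symm f a b) f.x0)]

end Cfsg.Agent.H5.CK
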