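import Cfsg.Agent.H5.CKc

/-! Cameron-Kantor, general dimension: the fixed hyperplane graph. -/

set_option autoImplicit false
set_option linter.unusedSectionVars false

namespace Cfsg.Agent.H5.CK

open Module

variable {F V W Γ : Type*} [Field F] [Fintype F] [AddCommGroup V] [Module F V] [Finite V]
  [AddCommGroup W] [Module F W] [Finite W] [Group Γ] [Finite Γ]
  [DistribMulAction Γ V] [SMulCommClass Γ F V] [DistribMulAction Γ W] [SMulCommClass Γ F W]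
  {B : V →ₗ[F] W →ₗ[F] F} {ν μ : ℕ} {x x' y y' z z' r : V} {φ φ' : W}

theorem Hyp.fg_tr (h : Hyp Γ B) (f : Fl B x φ) (f' : Fl B x' φ') (hy : y ∈ NN Γ B x φ)
    (hy' : y ∉ F ∙ x) (hz : y' ∈ NN Γ B x' φ') (hz' : y' ∉ F ∙ x') :
    ∃ g : Γ, g • x ∈ F ∙ x' ∧ g • φ ∈ F ∙ φ' ∧ g • y = y' := by
  obtain ⟨g, a, b⟩ := h.ftr f f'
  obtain ⟨k, hk, e⟩ := h.N_tr f' (h.toPre.NN_smul f a b hy) hz
    (fun c => hy' ((span_smul_iff f.x0 a).1 c)) hz'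
  exact ⟨k * g, smul_mem_span_trans a (mem_SS_span_iff.1 hk.1),
    smul_mem_span_trans b (mem_SS_span_iff.1 hk.2), by rw [mul_smul, e]⟩

theorem Pre.fg_inf (h : Pre Γ B) (f : Fl B x φ) (f' : Fl B y φ) {g : Γ} (a : g • x ∈ F ∙ x')
    (b : g • φ ∈ F ∙ φ') (c : g • y = y') :
    finrank F ↥(NN Γ B x φ ⊓ NN Γ B y φ) ≤ finrank F ↥(NN Γ B x' φ' ⊓ NN Γ B y' φ') :=
  finrank_le_smul g fun _ hv => ⟨h.NN_smul f a b hv.1,
    h.NN_smul f' (c ▸ Submodule.mem_span_singleton_self _) b hv.2⟩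

theorem NT.codim (h : NT Γ B ν μ) (f : Fl B x φ) (hy : y ∈ NN Γ B x φ) (hy' : y ∉ F ∙ x)
    (hne : NN Γ B y φ ≠ NN Γ B x φ) : finrank F ↥(NN Γ B x φ ⊓ NN Γ B y φ) = ν ∧
      finrank F ↥(NN Γ B x φ ⊔ NN Γ B y φ) = ν + 2 := by
  have := Fintype.ofFinite V
  have q1 := Fintype.one_lt_card (α := F)
  have fy := h.toHyp.Fl_N f hy (ne_zero_of_not_mem hy')
  have dx := h.dN f
  have dy := h.dN fy
  suffices finrank F ↥(NN Γ B x φ ⊓ NN Γ B y φ) = ν by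
    have := Submodule.finrank_sup_add_finrank_inf_eq (NN Γ B x φ) (NN Γ B y φ)
    omega
  have lt : finrank F ↥(NN Γ B x φ ⊓ NN Γ B y φ) < ν + 1 :=
    dy ▸ Submodule.finrank_lt_finrank_of_lt (lt_of_le_of_ne inf_le_right fun e =>
      hne (Submodule.eq_of_le_of_finrank_eq (inf_eq_right.1 e) (by omega)))
  generalize hm : finrank F ↥(NN Γ B x φ ⊓ NN Γ B y φ) = m at lt ⊢
  have d := dvd_sum (NN Γ B x φ)
    (fun z => {y | z ∉ NN Γ B x φ ∧ y ∈ NN Γ B x φ ∧ y ∉ F ∙ x ∧ z ∈ NN Γ B y φ}.ncard) (by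
      have key : ∀ v, ∀ u ∈ NN Γ B x φ,
          {y | v ∉ NN Γ B x φ ∧ y ∈ NN Γ B x φ ∧ y ∉ F ∙ x ∧ v ∈ NN Γ B y φ}.ncard ≤
          {y | v + u ∉ NN Γ B x φ ∧ y ∈ NN Γ B x φ ∧ y ∉ F ∙ x ∧ v + u ∈ NN Γ B y φ}.ncard :=
        fun v u hu => by
          by_cases hv : v ∈ NN Γ B x φ
          · simp [hv]
          obtain ⟨g, hg, e⟩ := h.toHyp.N_cone f hv hu
          refine ncard_le_smul g fun w hw => ⟨fun c => hv ((Submodule.add_mem_iff_left _ hu).1 c),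
            h.pre.NN_inv f hg w hw.2.1, fun c => hw.2.2.1 ((SS_iff hg.1).1 c), e ▸ ?_⟩
          exact h.pre.NN_smul (h.toHyp.Fl_N f hw.2.1 (ne_zero_of_not_mem hw.2.2.1))
            (Submodule.mem_span_singleton_self _) (mem_SS_span_iff.1 hg.2) hw.2.2.2
      intro v u hu
      refine le_antisymm ?_ (key v u hu)
      simpa using key (v + u) (-u) (Submodule.neg_mem _ hu))
  rw [dc_sum, dx] at d
  have c1 := ncard_diff_pt f.x0 (h.toHyp.x_mem_N f)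
  have c2 : ∀ w ∈ {v | v ∈ NN Γ B x φ ∧ v ∉ F ∙ x},
      {z | z ∉ NN Γ B x φ ∧ w ∈ NN Γ B x φ ∧ w ∉ F ∙ x ∧ z ∈ NN Γ B w φ}.ncard =
        Fintype.card F ^ (ν + 1) - Fintype.card F ^ m := fun w hw => by
    have fw := h.toHyp.Fl_N f hw.1 (ne_zero_of_not_mem hw.2)
    have := ncard_diff (inf_le_right : NN Γ B x φ ⊓ NN Γ B w φ ≤ _)
    obtain ⟨g, a, b, c⟩ := h.toHyp.fg_tr f f hy hy' hw.1 hw.2
    obtain ⟨g', a', b', c'⟩ := h.toHyp.fg_tr f f hw.1 hw.2 hy hy'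
    rw [h.dN fw, le_antisymm (h.pre.fg_inf f fw a' b' c') (h.pre.fg_inf f fy a b c), hm] at this
    rw [← this, Nat.add_sub_cancel]
    congr 1
    ext z
    simp only [Set.mem_setOf_eq, Submodule.mem_inf, hw.1, hw.2]
    tauto
  rw [le_antisymm (sum_le _ _ _ (fun w hw => (c2 w hw).le) fun w hw => by
    have : ∀ z, ¬ (z ∉ NN Γ B x φ ∧ w ∈ NN Γ B x φ ∧ w ∉ F ∙ x ∧ z ∈ NN Γ B w φ) :=
      fun z c => hw ⟨c.2.1, c.2.2.1⟩
    simp only [this, Set.setOf_false, Set.ncard_empty]) (sum_ge _ _ _ fun w hw => (c2 w hw).ge)] at d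
  rw [dx] at c1
  have le : Fintype.card F ^ m ≤ Fintype.card F ^ (ν + 1) := Nat.pow_le_pow_right q1.le lt.le
  have : Fintype.card F ^ (ν + 1) ∣ Fintype.card F ^ (m + 1) := by
    rw [pow_succ _ m]
    zify [le] at d c1 ⊢
    rw [← eq_sub_iff_add_eq] at c1
    rw [c1] at d
    generalize (Fintype.card F : ℤ) ^ (ν + 1) = Q at *
    have := dvd_sub d (Dvd.intro (Q - Fintype.card F - Fintype.card F ^ m) rfl)
    rwa [show (Q - Fintype.card F) * (Q - Fintype.card F ^ m) -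
      Q * (Q - Fintype.card F - Fintype.card F ^ m) = Fintype.card F ^ m * Fintype.card F by ring]
      at this
  have := (Nat.pow_dvd_pow_iff_le_right q1).1 this
  omega

theorem exists_hyp {N D : Submodule F V} (hD : D ≤ N) (e : finrank F N = finrank F D + 1)
    (hz : z ∈ N) (hz' : z ∉ D) : N = D ⊔ F ∙ z := by
  refine (Submodule.eq_of_le_of_finrank_le (sup_le hD
    ((Submodule.span_singleton_le_iff_mem _ _).2 hz)) ?_).symm
  have : D < D ⊔ F ∙ z := left_lt_sup.2 fun c => hz' (c (Submodule.mem_span_singleton_self z))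
  have := Submodule.finrank_lt_finrank_of_lt this
  omega

/-- vectors of `N + <z>` outside `N` are conjugate to `z` -/
theorem Hyp.fg_cone (h : Hyp Γ B) (f : Fl B x φ) (hz : z ∉ NN Γ B x φ)
    (h1 : z' ∈ NN Γ B x φ ⊔ F ∙ z) (h2 : z' ∉ NN Γ B x φ) : ∃ g ∈ GG F Γ x φ, g • z = z' := by
  obtain ⟨u, hu, w, hw, rfl⟩ := Submodule.mem_sup.1 h1
  obtain ⟨c, rfl⟩ := Submodule.mem_span_singleton.1 hw
  have hc : c ≠ 0 := by rintro rfl; exact h2 (by simpa using hu)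
  obtain ⟨s, s1, s2, s3, -⟩ := h.scal_mem hc
  obtain ⟨g, hg, e⟩ := h.N_cone f (v := c • z) (by rwa [Submodule.smul_mem_iff _ hc]) hu
  exact ⟨g * s, Subgroup.mul_mem _ hg ⟨s1 _, s2 _⟩, by rw [mul_smul, s3, e, add_comm]⟩

section
variable (h : NT Γ B ν μ)
  (hα : ∀ {x φ y}, Fl B x φ → y ∈ NN Γ B x φ → y ∉ F ∙ x → NN Γ B y φ ≠ NN Γ B x φ)
include h hα

theorem NT.fg_sup (f : Fl B x φ) (hy : y ∈ NN Γ B x φ) (hy' : y ∉ F ∙ x) (hz : z ∈ NN Γ B y φ)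
    (hz' : z ∉ NN Γ B x φ) : NN Γ B x φ ⊔ NN Γ B y φ = NN Γ B x φ ⊔ F ∙ z :=
  exists_hyp le_sup_left (by rw [(h.codim f hy hy' (hα f hy hy')).2, h.dN f])
    (Submodule.mem_sup_right hz) hz'

/-- the second neighbourhood is one orbit -/
theorem NT.fg_two (f : Fl B x φ) (f' : Fl B x' φ') (hy : y ∈ NN Γ B x φ) (hy' : y ∉ F ∙ x)
    (hz : z ∈ NN Γ B y φ) (hz' : z ∉ NN Γ B x φ) (ky : y' ∈ NN Γ B x' φ') (ky' : y' ∉ F ∙ x')
    (kz : z' ∈ NN Γ B x' φ' ⊔ NN Γ B y' φ') (kz' : z' ∉ NN Γ B x' φ') :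
    ∃ g : Γ, g • x ∈ F ∙ x' ∧ g • φ ∈ F ∙ φ' ∧ g • z = z' := by
  obtain ⟨g, a, b, c⟩ := h.toHyp.fg_tr f f' hy hy' ky ky'
  have n : g • z ∉ NN Γ B x' φ' := fun e => hz' ((h.pre.NN_iff f a b).1 e)
  rw [h.fg_sup hα f' ky ky' (h.pre.NN_smul (h.toHyp.Fl_N f hy (ne_zero_of_not_mem hy'))
    (c ▸ Submodule.mem_span_singleton_self _) b hz) n] at kz
  obtain ⟨k, hk, e⟩ := h.toHyp.fg_cone f' n kz kz'
  exact ⟨k * g, smul_mem_span_trans a (mem_SS_span_iff.1 hk.1),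
    smul_mem_span_trans b (mem_SS_span_iff.1 hk.2), by rw [mul_smul, e]⟩

theorem NT.fg_closed (f' : Fl B x' φ') (f'' : Fl B z' φ') (hz' : z' ∉ NN Γ B x' φ')
    (hd : ν ≤ finrank F ↥(NN Γ B x' φ' ⊓ NN Γ B z' φ')) (f : Fl B x φ) (hy : y ∈ NN Γ B x φ)
    (hy' : y ∉ F ∙ x) (hr : r ∈ NN Γ B x φ) (hr' : r ∉ F ∙ x) :
    NN Γ B x φ ⊔ NN Γ B y φ = NN Γ B x φ ⊔ NN Γ B r φ := by
  have q1 := Fintype.one_lt_card (α := F)
  have ν1 := h.ν1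
  obtain ⟨y', ⟨a1, a2⟩, a3⟩ := H7.exists_mem_notMem_of_finrank_lt
    (U := NN Γ B x' φ' ⊓ NN Γ B z' φ') (W := ⊥) (by rw [finrank_bot]; omega)
  have a3 := ne_zero_of_not_mem a3
  have a4 := h.toHyp.N_symm f'' a2 a3
  have a5 : y' ∉ F ∙ x' := fun e => hz' (by
    rwa [h.pre.NN_congr (h.toHyp.Fl_N f' a1 a3) e (Submodule.mem_span_singleton_self _)] at a4)
  obtain ⟨a, ha⟩ : ∃ a, a + 1 = Fintype.card F ^ ν := ⟨_, Nat.sub_add_cancel (Nat.one_le_pow _ _ (by omega))⟩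
  obtain ⟨c, hc⟩ : ∃ c, c + Fintype.card F ^ ν = Fintype.card F ^ (ν + 1) :=
    ⟨_, Nat.sub_add_cancel (Nat.pow_le_pow_right q1.le (by omega))⟩
  have dc := dc_le {z | z ∈ NN Γ B x φ ⊔ NN Γ B y φ ∧ z ∉ NN Γ B x φ}
    {w | (w ∈ NN Γ B x φ ∧ w ∉ F ∙ x) ∧ NN Γ B w φ ≤ NN Γ B x φ ⊔ NN Γ B y φ}
    (fun z w => z ∈ NN Γ B w φ) a c (fun z hz => by
      obtain ⟨g, g1, g2, g3⟩ := h.fg_two hα f' f a1 a5 a4 hz' hy hy' hz.1 hz.2
      have fz : Fl B z φ := h.pre.Fl_of f'' (g3 ▸ Submodule.mem_span_singleton_self _) g2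
      have l := Nat.pow_le_pow_right q1.le (hd.trans (h.pre.fg_inf f' f'' g1 g2 g3))
      rw [← ncard_ne, ← ha, Nat.add_le_add_iff_right] at l
      refine l.trans (Set.ncard_le_ncard fun w hw => ?_)
      have b1 := h.toHyp.N_symm fz hw.1.2 hw.2
      have b2 : w ∉ F ∙ x := fun e => hz.2 (by
        rwa [h.pre.NN_congr (h.toHyp.Fl_N f hw.1.1 hw.2) e (Submodule.mem_span_singleton_self _)]
          at b1)
      refine ⟨⟨⟨hw.1.1, b2⟩, le_sup_right.trans ((h.fg_sup hα f hw.1.1 b2 b1 hz.2).le.trans ?_)⟩, b1⟩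
      exact sup_le le_sup_left ((Submodule.span_singleton_le_iff_mem _ _).2 hz.1))
    (fun w hw => by
      have := ncard_diff (inf_le_right : NN Γ B x φ ⊓ NN Γ B w φ ≤ _)
      rw [(h.codim f hw.1.1 hw.1.2 (hα f hw.1.1 hw.1.2)).1,
        h.dN (h.toHyp.Fl_N f hw.1.1 (ne_zero_of_not_mem hw.1.2)), ← hc,
        Nat.add_right_cancel_iff] at this
      rw [← this]
      exact Set.ncard_le_ncard fun z hz => ⟨hz.2, fun e => hz.1.2 e.1⟩)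
  have c1 := ncard_diff (le_sup_left : _ ≤ NN Γ B x φ ⊔ NN Γ B y φ)
  have c2 := ncard_diff_pt f.x0 (h.toHyp.x_mem_N f)
  have dy := (h.codim f hy hy' (hα f hy hy')).2
  rw [dy, h.dN f] at c1
  rw [h.dN f] at c2
  have e := Set.eq_of_subset_of_ncard_le (s := {w | (w ∈ NN Γ B x φ ∧ w ∉ F ∙ x) ∧
    NN Γ B w φ ≤ NN Γ B x φ ⊔ NN Γ B y φ}) (t := {w | w ∈ NN Γ B x φ ∧ w ∉ F ∙ x})
    (fun w hw => hw.1) (by
      have p : 0 < Fintype.card F ^ ν := by omega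
      rw [pow_succ] at hc c2
      rw [pow_succ _ (ν + 1), pow_succ] at c1
      generalize Fintype.card F ^ ν = Q at *
      generalize Fintype.card F = q at *
      refine Nat.le_of_mul_le_mul_right (c := c) (le_trans (le_of_eq ?_) dc) (by nlinarith)
      zify at *
      rw [← eq_sub_iff_add_eq] at ha hc c1 c2
      rw [ha, hc, c1, c2]
      ring)
  have : NN Γ B r φ ≤ NN Γ B x φ ⊔ NN Γ B y φ := (e.ge ⟨hr, hr'⟩).2
  exact (Submodule.eq_of_le_of_finrank_eq (sup_le le_sup_left this)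
    (by rw [dy, (h.codim f hr hr' (hα f hr hr')).2])).symm

theorem NT.fg' (h2 : ν ≠ 2) (f : Fl B x φ) (hy : y ∈ NN Γ B x φ) (hy' : y ∉ F ∙ x)
    (hr : r ∈ NN Γ B x φ) (hr' : r ∉ F ∙ x) :
    NN Γ B x φ ⊔ NN Γ B y φ = NN Γ B x φ ⊔ NN Γ B r φ := by
  by_contra hn
  have fy := h.toHyp.Fl_N f hy (ne_zero_of_not_mem hy')
  have dx := h.dN f
  have c := fun {w} a b => h.codim (y := w) f a b (hα f a b)
  have hx : ∀ {w}, w ∈ NN Γ B x φ → w ∉ F ∙ x → x ∈ NN Γ B x φ ⊓ NN Γ B w φ := fun a b =>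
    ⟨h.toHyp.x_mem_N f, h.toHyp.N_symm f a (ne_zero_of_not_mem b)⟩
  have h3 : 3 ≤ ν := by
    have : (F ∙ x) < NN Γ B x φ ⊓ NN Γ B y φ := lt_of_le_of_ne
      ((Submodule.span_singleton_le_iff_mem _ _).2 (hx hy hy'))
      fun e => hy' (e ▸ ⟨hy, h.toHyp.x_mem_N fy⟩)
    have := Submodule.finrank_lt_finrank_of_lt this
    rw [finrank_span_singleton f.x0, (c hy hy').1] at this
    omega
  obtain ⟨s, s1, s2⟩ := H7.exists_mem_notMem_of_finrank_lt (U := NN Γ B x φ)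
    (W := NN Γ B x φ ⊓ NN Γ B y φ) (by rw [(c hy hy').1]; omega)
  have s3 : s ∉ F ∙ x := fun e => s2 ((Submodule.span_singleton_le_iff_mem _ _).2 (hx hy hy') e)
  have s4 : s ∉ NN Γ B y φ := fun e => s2 ⟨s1, e⟩
  have fs := h.toHyp.Fl_N f s1 (ne_zero_of_not_mem s3)
  have ne : NN Γ B x φ ⊔ NN Γ B y φ ≠ NN Γ B x φ ⊔ NN Γ B s φ := fun e => by
    refine hn (h.fg_closed hα fy fs s4 ?_ f hy hy' hr hr')
    have e1 := Submodule.finrank_sup_add_finrank_inf_eq (NN Γ B y φ) (NN Γ B s φ)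
    have e2 := Submodule.finrank_mono (show NN Γ B y φ ⊔ NN Γ B s φ ≤ NN Γ B x φ ⊔ NN Γ B y φ from
      sup_le le_sup_right (e ▸ le_sup_right))
    rw [(c hy hy').2] at e2
    rw [h.dN fy, h.dN fs] at e1
    omega
  have key : ∀ {a b u}, a ∈ NN Γ B x φ → a ∉ F ∙ x → b ∈ NN Γ B x φ → b ∉ NN Γ B a φ →
      u ∈ NN Γ B x φ → u ∉ F ∙ x → u ∈ NN Γ B a φ → b ∈ NN Γ B u φ →
      NN Γ B x φ ⊔ NN Γ B a φ = NN Γ B x φ ⊔ NN Γ B u φ := fun {a b u} a1 a2 b1 b2 u1 u2 u3 u4 => by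
    by_contra e
    have fa := h.toHyp.Fl_N f a1 (ne_zero_of_not_mem a2)
    have fu := h.toHyp.Fl_N f u1 (ne_zero_of_not_mem u2)
    have u5 : u ∉ F ∙ a := fun k => b2 (by
      rwa [h.pre.NN_congr fu k (Submodule.mem_span_singleton_self _)] at u4)
    have l : NN Γ B a φ ⊓ NN Γ B u φ ≤ NN Γ B x φ := fun w hw => by
      by_contra k
      exact e ((h.fg_sup hα f a1 a2 hw.1 k).trans (h.fg_sup hα f u1 u2 hw.2 k).symm)
    have : NN Γ B a φ ⊓ NN Γ B u φ = NN Γ B x φ ⊓ NN Γ B u φ :=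
      Submodule.eq_of_le_of_finrank_eq (le_inf l inf_le_right)
        (by rw [(c u1 u2).1, (h.codim fa u3 u5 (hα fa u3 u5)).1])
    exact b2 (this.ge ⟨b1, u4⟩).1
  obtain ⟨u, ⟨⟨u1, u2⟩, -, u3⟩, u4⟩ := H7.exists_mem_notMem_of_finrank_lt
    (U := (NN Γ B x φ ⊓ NN Γ B y φ) ⊓ (NN Γ B x φ ⊓ NN Γ B s φ)) (W := F ∙ x) (by
      have e1 := Submodule.finrank_sup_add_finrank_inf_eq (NN Γ B x φ ⊓ NN Γ B y φ)
        (NN Γ B x φ ⊓ NN Γ B s φ)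
      have e2 := Submodule.finrank_mono (show (NN Γ B x φ ⊓ NN Γ B y φ) ⊔
        (NN Γ B x φ ⊓ NN Γ B s φ) ≤ NN Γ B x φ from sup_le inf_le_left inf_le_left)
      rw [(c hy hy').1, (c s1 s3).1] at e1
      rw [finrank_span_singleton f.x0]
      omega)
  have u0 := ne_zero_of_not_mem u4
  exact ne ((key hy hy' s1 s4 u1 u4 u2 (h.toHyp.N_symm fs u3 u0)).trans (key s1 s3 hy
    (fun e => s4 (h.toHyp.N_symm fs e fy.x0)) u1 u4 u3 (h.toHyp.N_symm fy u2 u0)).symm)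

end

theorem fg (h : NT Γ B ν μ) : Al Γ B ∨ ν = 2 ∨ Cl Γ B ν := by
  by_cases a : Al Γ B
  · exact .inl a
  have hα : ∀ {x φ y}, Fl B x φ → y ∈ NN Γ B x φ → y ∉ F ∙ x → NN Γ B y φ ≠ NN Γ B x φ :=
    fun f b c e => a (h.toHyp.al_of f b c e)
  exact .inr (or_iff_not_imp_left.2 fun h2 x φ y f b c =>
    ⟨(h.codim f b c (hα f b c)).1, fun _ b' c' => h.fg' hα h2 f b c b' c'⟩)

end Cfsg.Agent.H5.CK
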