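import Cfsg.Agent.H2.Frame

set_option autoImplicit false
set_option linter.unusedSectionVars false

/-! Tools for checking invariance of point sets in a computable model. -/

namespace Cfsg.Agent.H2.Cases

open Module Cfsg.Agent.Form Cfsg.Agent.H7 Mdl
open scoped Matrix MatrixGroups

section
variable {K : Type*} [CommRing K] {κ : Type} [Fintype κ] [DecidableEq κ]

/-- decoding a vector -/
def dv {K : Type*} (e : ℕ → K) (n k : ℕ) : Fin n → K := fun i => e (Nat.land (Nat.shiftRight k (Nat.mul 5 i.1)) 31)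

/-- decoding a matrix -/
def dm {K : Type*} (e : ℕ → K) (n k : ℕ) : Matrix (Fin n) (Fin n) K :=
  fun i j => e (Nat.land (Nat.shiftRight k (Nat.mul 5 (Nat.add (Nat.mul n i.1) j.1))) 31)

/-- checkable invariance of a list of points -/
def PL (L : List (κ → K)) (A : Matrix κ κ K) : Prop := ∀ p ∈ L, ∃ p' ∈ L, ∃ i, A *ᵥ p = (A *ᵥ p) i • p'

instance decPL [DecidableEq K] (L : List (κ → K)) (A : Matrix κ κ K) : Decidable (PL L A) :=
  inferInstanceAs (Decidable (∀ p ∈ L, ∃ p' ∈ L, ∃ i, A *ᵥ p = (A *ᵥ p) i • p'))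

theorem PL.pres {L : List (κ → K)} {A : Matrix κ κ K} (h : PL L A) : Pres (Pts L) A :=
  pres_pts fun p hp => by
    obtain ⟨p', a, i, b⟩ := h p hp
    exact ⟨p', a, _, b⟩

/-- checkable failure of invariance -/
def NPL (L : List (κ → K)) (A : Matrix κ κ K) : Prop := ∃ p ∈ L, ∀ p' ∈ L, ∀ c : K, A *ᵥ p ≠ c • p'

instance decNPL [DecidableEq K] [Fintype K] (L : List (κ → K)) (A : Matrix κ κ K) : Decidable (NPL L A) :=
  @List.decidableBEx _ _ (fun _ => @List.decidableBAll _ _ (fun _ => inferInstance) L) L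

theorem NPL.not_pres {L : List (κ → K)} {A : Matrix κ κ K} (h : NPL L A) : ¬ Pres (Pts L) A := fun h' => by
  obtain ⟨p, a, b⟩ := h
  obtain ⟨p', c, d, e⟩ := h' p 0 ⟨p, a, 1, (one_smul _ _).symm⟩
  exact b p' c d e

/-- every member of the list is a product of generators -/
def Gen (S : List (Matrix κ κ K)) : List (Matrix κ κ K) → Prop
  | [] => True
  | t :: T => (t = 1 ∨ ∃ s ∈ S, ∃ t' ∈ T, t = s * t') ∧ Gen S T

instance decGen [DecidableEq K] (S : List (Matrix κ κ K)) : ∀ T, Decidable (Gen S T)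
  | [] => isTrue trivial
  | _ :: T => @instDecidableAnd _ _ inferInstance (decGen S T)

theorem Gen.pres {R : (κ → K) → (κ → K) → Prop} {S : List (Matrix κ κ K)} (hS : ∀ s ∈ S, Pres R s) :
    ∀ {T}, Gen S T → ∀ t ∈ T, Pres R t
  | [], _, _, ht => absurd ht List.not_mem_nil
  | t :: T, h, u, hu => by
    rcases List.mem_cons.1 hu with rfl | hu
    · rcases h.1 with rfl | ⟨s, a, t', b, rfl⟩
      · exact fun u v h => by simpa using h
      · exact (hS s a).mul (Gen.pres hS h.2 t' b)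
    · exact Gen.pres hS h.2 u hu

/-- a scalar multiple of a member of a list -/
def MemT (T : List (Matrix κ κ K)) (Z : List K) (A : Matrix κ κ K) : Prop := ∃ t ∈ T, ∃ c ∈ Z, A = c • t

instance decMemT [DecidableEq K] (T : List (Matrix κ κ K)) (Z : List K) (A : Matrix κ κ K) :
    Decidable (MemT T Z A) := inferInstanceAs (Decidable (∃ t ∈ T, ∃ c ∈ Z, A = c • t))

/-- all the products of the generators preserve the points -/
def GenPL (L : List (κ → K)) (S T : List (Matrix κ κ K)) : Prop := (∀ s ∈ S, PL L s) ∧ Gen S T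

instance decGenPL [DecidableEq K] (L : List (κ → K)) (S T : List (Matrix κ κ K)) : Decidable (GenPL L S T) :=
  inferInstanceAs (Decidable ((∀ s ∈ S, PL L s) ∧ Gen S T))

theorem MemT.pres {L : List (κ → K)} {S T : List (Matrix κ κ K)} {Z : List K} {A : Matrix κ κ K}
    (h : MemT T Z A) (hT : GenPL L S T) : Pres (Pts L) A := by
  obtain ⟨t, a, c, -, rfl⟩ := h
  exact (hT.2.pres (fun s hs => (hT.1 s hs).pres) t a).smul_pts c

theorem fm_mulVec (G Y : Matrix κ κ K) {σ : K → K} (h1 : ∀ x y, σ (x + y) = σ x + σ y)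
    (h2 : ∀ x y, σ (x * y) = σ x * σ y) (u v : κ → K) : fm G σ u (Y *ᵥ v) = fm (G * Y.map σ) σ u v := by
  let τ : K →+ K := AddMonoidHom.mk' σ h1
  have : ∀ f : κ → K, σ (∑ i, f i) = ∑ i, σ (f i) := fun f => map_sum τ f _
  simp only [fm, Matrix.mulVec, dotProduct, this, h2, Matrix.mul_apply, Matrix.map_apply, Finset.mul_sum,
    Finset.sum_mul]
  refine Finset.sum_congr rfl fun i _ => Finset.sum_comm.trans ?_
  simp only [mul_assoc]

/-- Gram matrix of a new basis -/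
def GramM (G : Matrix κ κ K) (σ₀ : K → K) (A G' : Matrix κ κ K) : Prop :=
  ∀ i j, fm G σ₀ (fun k => A k i) (fun k => A k j) = G' i j

instance decGramM [DecidableEq K] (G : Matrix κ κ K) (σ₀ : K → K) (A G' : Matrix κ κ K) :
    Decidable (GramM G σ₀ A G') :=
  @Fintype.decidableForallFintype _ _ (fun _ => @Fintype.decidableForallFintype _ _
    (fun _ => ‹DecidableEq K› _ _) _) _

/-- special isometry with given inverse -/
def SUM (G : Matrix κ κ K) (σ₀ : K → K) (A A' : Matrix κ κ K) : Prop := (A * A' = 1 ∧ IsoM G σ₀ A) ∧ A.det = 1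

instance decSUM [DecidableEq K] (G : Matrix κ κ K) (σ₀ : K → K) (A A' : Matrix κ κ K) : Decidable (SUM G σ₀ A A') :=
  inferInstanceAs (Decidable ((A * A' = 1 ∧ IsoM G σ₀ A) ∧ A.det = 1))

variable {ι : Type} [Fintype ι] [DecidableEq ι] {F : Type*} [Field F] {P : FP F} {S : PQ P (ι → F)}
  {σ₀ : K → K} {G : Matrix κ κ K}

theorem not_max_pts [Finite F] {M : Mdl K κ ι F} (hG : M.Gram S σ₀ G) {H : Subgroup (GL ι F)}
    (hH : Geo.IsMaximalIn (Asch.IsoB S ⊓ Geo.specialLinear ι F) H) (L : List (κ → K))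
    (h : ∀ g ∈ H, Pres (Pts L) (M.mm g)) (T T' U U' : Matrix κ κ K) (h1 : SUM G σ₀ T T' ∧ PL L T)
    (h2 : ∀ g ∈ H, M.mm g ≠ T) (h3 : SUM G σ₀ U U' ∧ NPL L U) : False := by
  obtain ⟨g, hg, e⟩ := hG.exists_su T T' h1.1.1 h1.1.2
  obtain ⟨k, hk, e'⟩ := hG.exists_su U U' h3.1.1 h3.1.2
  exact M.not_max hH (Pts L) h ⟨g, hg, e ▸ h1.2.pres, fun h => h2 g h e⟩ ⟨k, hk, e' ▸ h3.2.not_pres⟩

/-- change of basis -/
noncomputable def Mdl.conj (M : Mdl K κ ι F) (k : GL ι F) : Mdl K κ ι F := ⟨M.φ, M.b.map (toLE k)⟩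

theorem Mdl.conj_X (M : Mdl K κ ι F) (k : GL ι F) (v : κ → K) : (M.conj k).X v = k.val *ᵥ M.X v := by
  simp [X_eq, Mdl.conj, Matrix.mulVec_sum, Matrix.mulVec_smul, toLE_apply]

theorem Mdl.conj_mm (M : Mdl K κ ι F) (k : GL ι F) {g h : Matrix ι ι F} (e : g * k = k * h) :
    (M.conj k).mm g = M.mm h := (M.conj k).mm_eq fun j => by
  rw [conj_X, ← mm_col, Matrix.mulVec_mulVec, ← e, ← Matrix.mulVec_mulVec]; rfl

theorem Mdl.mul_conj_mm (M : Mdl K κ ι F) (k : GL ι F) (g : Matrix ι ι F) :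
    M.mm k * (M.conj k).mm g = M.mm g * M.mm k := by
  rw [M.conj_mm k (h := (k⁻¹).val * g * k) (by simp [← mul_assoc]), ← mm_mul, ← mm_mul]
  simp [← mul_assoc]

theorem Mdl.Gram.conj {M : Mdl K κ ι F} (h : M.Gram S σ₀ G) (k : GL ι F) {G' : Matrix κ κ K}
    (h' : ∀ i j, fm G σ₀ (fun r => M.mm k r i) (fun r => M.mm k r j) = G' i j) : (M.conj k).Gram S σ₀ G' :=
  ⟨h.σ, fun i j => by
    change S.B (k.val *ᵥ M.b i) (k.val *ᵥ M.b j) = M.φ _
    rw [mm_col, mm_col, h.B_X, h']⟩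

end

section fast
variable {K : Type*}

/-- a form in three variables -/
def Q3 [Add K] [Mul K] (σ : K → K) (G : Matrix (Fin 3) (Fin 3) K) (a b c : K) : K :=
  (G 0 0 * (a * σ a) + G 1 1 * (b * σ b) + G 0 1 * (a * σ b) + G 1 0 * (b * σ a)) +
    (G 2 2 * (c * σ c) + G 0 2 * (a * σ c) + G 2 0 * (c * σ a)) + (G 1 2 * (b * σ c) + G 2 1 * (c * σ b))

theorem fm_three [CommRing K] (σ : K → K) (G : Matrix (Fin 3) (Fin 3) K) (v : Fin 3 → K) :
    fm G σ v v = Q3 σ G (v 0) (v 1) (v 2) := by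
  simp only [fm, Q3, Fin.sum_univ_three]; ring

/-- part of a form -/
def Q2 [Add K] [Mul K] (σ : K → K) (x y a b : K) : K := x * (a * σ b) + y * (b * σ a)

/-- a form in five variables -/
def Q5 [Add K] [Mul K] (σ : K → K) (G : Matrix (Fin 5) (Fin 5) K) (a b c d e : K) : K :=
  (Q3 σ (fun i j => G (i.castLE (by decide)) (j.castLE (by decide))) a b c +
    (G 3 3 * (d * σ d) + Q2 σ (G 0 3) (G 3 0) a d + Q2 σ (G 1 3) (G 3 1) b d + Q2 σ (G 2 3) (G 3 2) c d)) +
    ((G 4 4 * (e * σ e) + Q2 σ (G 0 4) (G 4 0) a e + Q2 σ (G 1 4) (G 4 1) b e) +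
      (Q2 σ (G 2 4) (G 4 2) c e + Q2 σ (G 3 4) (G 4 3) d e))

theorem fm_five [CommRing K] (σ : K → K) (G : Matrix (Fin 5) (Fin 5) K) (v : Fin 5 → K) :
    fm G σ v v = Q5 σ G (v 0) (v 1) (v 2) (v 3) (v 4) := by
  simp only [fm, Q5, Q3, Q2, Fin.sum_univ_five]
  change _ = G 0 0 * _ + G 1 1 * _ + G 0 1 * _ + G 1 0 * _ + (G 2 2 * _ + G 0 2 * _ + G 2 0 * _) +
    (G 1 2 * _ + G 2 1 * _) + _ + _
  ring

end fast

variable {F : Type*} [Field F] [Fintype F] {n q : ℕ}

theorem std_model (hq : Fintype.card F = q ^ 2) {K : Type*} [CommRing K] (φ : K ≃+* F) {σ₀ : K → K}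
    (hφ : ∀ x, φ (σ₀ x) = φ x ^ q) (n : ℕ) : (⟨φ, Pi.basisFun F (Fin n)⟩ : Mdl K _ _ F).Gram (US hq n) σ₀ 1 := by
  have hq2 := two_le_of_card_sq hq
  have : ∀ i j, hermForm n F q (Pi.single i 1) (Pi.single j 1) = if i = j then 1 else 0 := fun i j => by
    simp only [hermForm]
    rw [Finset.sum_eq_single i (fun b _ hb => by simp [hb]) (by simp)]
    by_cases h : i = j
    · simp [h]
    · simp [h, show q ≠ 0 by omega]
  exact gram_one hq _ hφ (fun i => by simpa using this i i) fun i j h => by simpa [h] using this i j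

theorem F4_equiv (hq : Fintype.card F = 2 ^ 2) : ∃ φ : Asch.F4 ≃+* F, ∀ x, φ (x * x) = φ x ^ 2 := by
  obtain ⟨φ⟩ := Asch.F4.exists_equiv (F := F) hq
  exact ⟨φ, fun x => by rw [map_mul, sq]⟩

/-- elements of the field of order four by code -/
def e4 (k : ℕ) : Asch.F4 := bif Nat.ble k 1 then (bif Nat.ble k 0 then .z else .o) else
  bif Nat.ble k 2 then .w else .v

end Cfsg.Agent.H2.Cases
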