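import Cfsg.Agent.H2.Chain

set_option autoImplicit false
set_option linter.unusedSectionVars false

/-! Faster decision procedures in dimension three. -/

namespace Cfsg.Agent.H2.Cases

open Mdl
open scoped Matrix

section
variable {K : Type*} [DecidableEq K]

instance decEqV3 : DecidableEq (Fin 3 → K) := fun u v =>
  decidable_of_iff (u 0 = v 0 ∧ u 1 = v 1 ∧ u 2 = v 2)
    ⟨fun h => funext fun i => by fin_cases i; exacts [h.1, h.2.1, h.2.2], fun h => h ▸ ⟨rfl, rfl, rfl⟩⟩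

instance decEqM3 : DecidableEq (Matrix (Fin 3) (Fin 3) K) := fun u v =>
  decidable_of_iff (u 0 0 = v 0 0 ∧ u 1 0 = v 1 0 ∧ u 0 1 = v 0 1 ∧ u 0 = v 0 ∧ u 1 = v 1 ∧ u 2 = v 2)
    ⟨fun h => funext fun i => by fin_cases i; exacts [h.2.2.2.1, h.2.2.2.2.1, h.2.2.2.2.2],
      fun h => h ▸ ⟨rfl, rfl, rfl, rfl, rfl, rfl⟩⟩

instance decExFin3 (p : Fin 3 → Prop) [DecidablePred p] : Decidable (∃ i, p i) :=
  decidable_of_iff (p 0 ∨ p 1 ∨ p 2) (by simp [Fin.exists_fin_succ])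

end

variable {K : Type*} [CommRing K] [DecidableEq K]

instance decPL3 (L : List (Fin 3 → K)) (A : Matrix (Fin 3) (Fin 3) K) : Decidable (PL L A) :=
  inferInstanceAs (Decidable (∀ p ∈ L, ∃ p' ∈ L, ∃ i, A *ᵥ p = (A *ᵥ p) i • p'))

instance decNPL3 [Fintype K] (L : List (Fin 3 → K)) (A : Matrix (Fin 3) (Fin 3) K) : Decidable (NPL L A) :=
  @List.decidableBEx _ _ (fun _ => @List.decidableBAll _ _ (fun _ => inferInstance) L) L

instance decGen3 (S : List (Matrix (Fin 3) (Fin 3) K)) : ∀ T, Decidable (Gen S T)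
  | [] => isTrue trivial
  | _ :: T => @instDecidableAnd _ _ inferInstance (decGen3 S T)

instance decMemT3 (T : List (Matrix (Fin 3) (Fin 3) K)) (Z : List K) (A : Matrix (Fin 3) (Fin 3) K) :
    Decidable (MemT T Z A) := inferInstanceAs (Decidable (∃ t ∈ T, ∃ c ∈ Z, A = c • t))

instance decGenPL3 (L : List (Fin 3 → K)) (S T : List (Matrix (Fin 3) (Fin 3) K)) : Decidable (GenPL L S T) :=
  inferInstanceAs (Decidable ((∀ s ∈ S, PL L s) ∧ Gen S T))

end Cfsg.Agent.H2.Cases
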