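import Cfsg.Agent.H2.ElB

/-! The normaliser of `3^{1+2}` in `GL₃`. -/

set_option autoImplicit false

namespace Cfsg.Agent.H2.El

open Module Polynomial Cfsg.Agent.Asch Cfsg.Agent.Form
open scoped MatrixGroups Matrix commutatorElement

variable {F : Type*} [Field F]

/-- cyclic shift -/
def B0 (F : Type*) [Field F] : Matrix (Fin 3) (Fin 3) F := !![0, 0, 1; 1, 0, 0; 0, 1, 0]

/-- normal form of the extraspecial group -/
structure NF3 (R : Subgroup (GL (Fin 3) F)) (w : F) (a b g : GL (Fin 3) F) : Prop where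
  ww : w * w + w + 1 = 0
  three : (3 : F) ≠ 0
  ha : a.val = cj g (Matrix.diagonal ![1, w, w * w])
  hb : b.val = cj g (B0 F)
  gen : R = Subgroup.closure {a, b}
  comm : commutator R ≤ Subgroup.center R
  pow : ∀ x ∈ R, x ^ 3 = 1
  card : Nat.card R = 27
  nc : ¬ IsMulCommutative R

theorem exists_nf3 {R : Subgroup (GL (Fin 3) F)} (hR : Nat.card R = 27) (hRe : Monoid.exponent R = 3)
    (hn : ¬ IsMulCommutative R) (c3 : (3 : F) ≠ 0) {ω : F} (hω : ω * ω + ω + 1 = 0) : ∃ w a b g, NF3 R w a b g := by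
  have : Finite R := Nat.finite_of_card_ne_zero (by omega)
  have := Fact.mk Nat.prime_three
  have hp : ∀ x ∈ R, x ^ 3 = 1 := fun x hx => congrArg Subtype.val (hRe ▸ Monoid.pow_exponent_eq_one (⟨x, hx⟩ : R))
  have small : ∀ (K : Type _) [Group K], Nat.card K ∣ 3 ^ 2 → IsMulCommutative K := fun K _ h => by
    obtain ⟨i, hi, e⟩ := (Nat.dvd_prime_pow Nat.prime_three).1 h
    by_cases h2 : i = 2
    · exact IsPGroup.isMulCommutative_of_card_eq_prime_sq (p := 3) (h2 ▸ e)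
    · have := isCyclic_of_card_dvd_prime (α := K) (p := 3) (by
        rw [e]; interval_cases i <;> simp at h2 ⊢)
      infer_instance
  have hc : IsMulCommutative (R ⧸ Subgroup.center R) := small _ (by
    have : Nontrivial R := Finite.one_lt_card_iff_nontrivial.1 (by omega)
    have := (IsPGroup.of_card (p := 3) (n := 3) hR).center_nontrivial
    have h1 := Finite.one_lt_card (α := Subgroup.center R)
    have h2 := Subgroup.card_eq_card_quotient_mul_card_subgroup (Subgroup.center R)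
    obtain ⟨i, hi, e⟩ := (Nat.dvd_prime_pow Nat.prime_three (m := 3)).1 (Dvd.intro _ (h2.symm.trans hR))
    rw [e]
    refine pow_dvd_pow 3 (Nat.le_of_lt_succ (lt_of_le_of_ne hi ?_))
    rintro rfl
    rw [e, hR] at h2
    omega)
  have hcomm : commutator R ≤ Subgroup.center R := Subgroup.Normal.quotient_commutative_iff_commutator_le.1 hc
  obtain ⟨x, y, h⟩ : ∃ x y : R, x * y ≠ y * x := by
    by_contra h
    push Not at h
    exact hn ⟨⟨h⟩⟩
  have hz : ∀ t : R, t * ⁅x, y⁆ = ⁅x, y⁆ * t :=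
    Subgroup.mem_center_iff.1 (hcomm (Subgroup.commutator_mem_commutator trivial trivial))
  have hxy : x * y = ⁅x, y⁆ * (y * x) := by rw [commutatorElement_def]; group
  have z1 : ⁅x, y⁆ ≠ 1 := fun e => h (by simpa [e] using hxy)
  generalize ⁅x, y⁆ = z at hz hxy z1
  have mv : ∀ {a b c d : R}, a * b = c * d → ∀ v, a.1.val *ᵥ (b.1.val *ᵥ v) = c.1.val *ᵥ (d.1.val *ᵥ v) :=
    fun e v => by simpa using congrArg (fun t : R => t.1.val *ᵥ v) e
  have cube : ∀ x : R, ∀ v, x.1.val *ᵥ (x.1.val *ᵥ (x.1.val *ᵥ v)) = v := fun x v => by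
    rw [Matrix.mulVec_mulVec, Matrix.mulVec_mulVec, ← Units.val_mul, ← Units.val_mul, ← pow_three', hp _ x.2]; simp
  obtain ⟨c, c2, v, v0, hv⟩ : ∃ c : F, c * c + c + 1 = 0 ∧ ∃ v, v ≠ 0 ∧ z.1.val *ᵥ v = c • v := by
    obtain ⟨t, ht⟩ : ∃ t, z.1.val *ᵥ t - t ≠ 0 := by
      by_contra e
      push Not at e
      exact z1 (Subtype.ext (Units.ext (mat_ext fun v => by simpa [sub_eq_zero] using e v)))
    by_cases e : z.1.val *ᵥ (z.1.val *ᵥ t - t) - (ω * ω) • (z.1.val *ᵥ t - t) = 0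
    · exact ⟨ω * ω, by linear_combination (ω * ω - ω + 1) * hω, _, ht, sub_eq_zero.1 e⟩
    · refine ⟨ω, hω, _, e, ?_⟩
      simp only [Matrix.mulVec_sub, Matrix.mulVec_smul, cube]
      match_scalars
      · linear_combination (1 - ω) * hω
      · linear_combination -hω
      · linear_combination ω * hω
  have c4 : c * c * c = 1 := by linear_combination (c - 1) * c2
  have c5 : c ≠ 1 := fun h => c3 (by rw [h] at c2; linear_combination c2)
  have c6 : c * c ≠ 1 := fun h => c5 (by linear_combination c4 - c * h)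
  have c7 : c * c ≠ c := fun h => c5 (by linear_combination c * c * h - (c - 1) * c4)
  have hP : ∀ t : R, ∀ v, z.1.val *ᵥ v = c • v → z.1.val *ᵥ (t.1.val *ᵥ v) = c • t.1.val *ᵥ v := fun t v h => by
    rw [← mv (hz t), h, Matrix.mulVec_smul]
  have hxy' : ∀ v, z.1.val *ᵥ v = c • v → x.1.val *ᵥ (y.1.val *ᵥ v) = c • y.1.val *ᵥ (x.1.val *ᵥ v) := fun v h => by
    rw [mv hxy, ← hP y _ (hP x v h)]; simp
  obtain ⟨u, hu, hu', hu0⟩ : ∃ u, x.1.val *ᵥ u = u ∧ z.1.val *ᵥ u = c • u ∧ u ≠ 0 := by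
    by_contra h
    push Not at h
    have h7 : ∀ v, z.1.val *ᵥ v = c • v → v + x.1.val *ᵥ v + x.1.val *ᵥ (x.1.val *ᵥ v) = 0 := fun v hv => h _ (by
      simp only [Matrix.mulVec_add, cube]; abel) (by simp only [Matrix.mulVec_add, hv, hP _ _ hv, hP _ _ (hP _ _ hv), smul_add])
    have e1 := h7 v hv
    have e2 := congrArg (fun v => y.1.val *ᵥ v) (h7 _ (hP y _ (hP y _ hv)))
    have e3 := congrArg (fun v => y.1.val *ᵥ (y.1.val *ᵥ v)) (h7 _ (hP y _ hv))
    simp only [hxy' _ hv, hxy' _ (hP _ _ hv), Matrix.mulVec_add, Matrix.mulVec_smul, cube, Matrix.mulVec_zero,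
      hxy' _ (hP _ _ (hP _ _ hv))] at e2 e3
    have : (3 : F) • v = 0 := by
      linear_combination (norm := skip) e1 + e2 + e3 - c2 • (x.1.val *ᵥ v) -
        ((c * c - c + 1) * c2) • (x.1.val *ᵥ (x.1.val *ᵥ v))
      module
    exact v0 ((smul_eq_zero.1 this).resolve_left c3)
  have hv : ∀ i : Fin 3, x.1.val *ᵥ ![u, y.1.val *ᵥ u, y.1.val *ᵥ (y.1.val *ᵥ u)] i =
      ![1, c, c * c] i • ![u, y.1.val *ᵥ u, y.1.val *ᵥ (y.1.val *ᵥ u)] i := fun i => by
    fin_cases i <;> simp [hxy' _ hu', hxy' _ (hP _ _ hu'), hu, Matrix.mulVec_smul, smul_smul, -Matrix.mulVec_mulVec]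
  have hli := Module.End.eigenvectors_linearIndependent' (Matrix.toLin' x.1.val) ![1, c, c * c] (fun i j h => by
    fin_cases i <;> fin_cases j <;> simp [c5, c6, c7, c5.symm, c6.symm, c7.symm] at h ⊢)
    ![u, y.1.val *ᵥ u, y.1.val *ᵥ (y.1.val *ᵥ u)] fun i => ⟨Module.End.mem_eigenspace_iff.2 (hv i), fun h => hu0 (by
      rw [← cube y u]
      fin_cases i
      · simp [show u = 0 from h]
      · simp [show y.1.val *ᵥ u = 0 from h, -Matrix.mulVec_mulVec]
      · simp [show y.1.val *ᵥ (y.1.val *ᵥ u) = 0 from h, -Matrix.mulVec_mulVec])⟩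
  obtain ⟨g, hg⟩ := (Matrix.linearIndependent_cols_iff_isUnit
    (A := (Matrix.of ![u, y.1.val *ᵥ u, y.1.val *ᵥ (y.1.val *ᵥ u)])ᵀ)).1 hli
  have col : ∀ j, g.val *ᵥ Pi.single j 1 = ![u, y.1.val *ᵥ u, y.1.val *ᵥ (y.1.val *ᵥ u)] j := fun j => by
    rw [hg, Matrix.mulVec_single_one]; rfl
  have ext : ∀ {X Y : Matrix (Fin 3) (Fin 3) F}, (∀ j, X *ᵥ Pi.single j 1 = Y *ᵥ Pi.single j 1) → X = Y :=
    fun h => Matrix.ext fun i j => by simpa using congrFun (h j) i
  refine ⟨c, x, y, g, c2, c3, ((cj_eq_iff ..).2 (ext fun j => ?_)).symm, ((cj_eq_iff ..).2 (ext fun j => ?_)).symm,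
    ?_, hcomm, hp, hR, hn⟩
  · rw [← Matrix.mulVec_mulVec, ← Matrix.mulVec_mulVec, col, hv, ← col, ← Matrix.mulVec_smul]
    congr 1; ext i; simp [Pi.single_apply]
  · rw [← Matrix.mulVec_mulVec, ← Matrix.mulVec_mulVec, col, show B0 F *ᵥ Pi.single j 1 = Pi.single (j + 1) 1 by
      ext i; fin_cases i <;> fin_cases j <;> simp [B0], col]
    fin_cases j <;> simp [cube, -Matrix.mulVec_mulVec]
  · have h1 : Subgroup.closure {x.1, y.1} ≤ R := by
      rw [Subgroup.closure_le]; rintro _ (rfl | rfl) <;> exact Subtype.prop _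
    obtain ⟨i, hi, e⟩ := (Nat.dvd_prime_pow Nat.prime_three (m := 3)).1 (hR ▸ Subgroup.card_dvd_of_le h1)
    refine (Subgroup.eq_of_le_of_card_ge h1 ?_).symm
    by_cases h2 : i = 3
    · rw [e, hR, h2]; rfl
    · have := (small (Subgroup.closure {x.1, y.1}) (by rw [e]; exact pow_dvd_pow 3 (by omega))).is_comm.comm
        ⟨x.1, Subgroup.subset_closure (by simp)⟩ ⟨y.1, Subgroup.subset_closure (by simp)⟩
      exact (h (Subtype.ext (congrArg Subtype.val this : x.1 * y.1 = y.1 * x.1))).elim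

namespace NF3
variable {R : Subgroup (GL (Fin 3) F)} {w : F} {a b g : GL (Fin 3) F} (h : NF3 R w a b g)
include h

theorem a_mem : a ∈ R := h.gen ▸ Subgroup.subset_closure (by simp)
theorem b_mem : b ∈ R := h.gen ▸ Subgroup.subset_closure (by simp)
theorem w3 : w * w * w = 1 := by linear_combination (w - 1) * h.ww

theorem full : Full (Geo.matrixSet R) := by
  rw [← alg_eq_top_iff, eq_top_iff]
  let A := (alg F R).comap (cj g).toAlgHom
  have h1 : Matrix.diagonal ![1, w, w * w] ∈ A := show cj g _ ∈ alg F R from h.ha ▸ mem_alg h.a_mem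
  have h2 : B0 F ∈ A := show cj g _ ∈ alg F R from h.hb ▸ mem_alg h.b_mem
  have h3 : Matrix.single 0 0 1 ∈ A := by
    convert A.smul_mem (A.add_mem (A.add_mem A.one_mem h1) (A.mul_mem h1 h1)) (3 : F)⁻¹
    have := h.three
    ext i j
    fin_cases i <;> fin_cases j <;> simp [this]
    · field_simp; ring
    · linear_combination h.ww
    · linear_combination (w * w - w + 1) * h.ww
  have h4 : ∀ i j : Fin 3, Matrix.single i j 1 ∈ A := fun i j => by
    convert A.mul_mem (A.mul_mem (A.pow_mem h2 i) h3) (A.pow_mem h2 (3 - j))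
    ext k l
    fin_cases i <;> fin_cases j <;> fin_cases k <;> fin_cases l <;>
      simp [B0, pow_succ, Matrix.mul_apply, Fin.sum_univ_three, Matrix.single, Matrix.vecHead, Matrix.vecTail]
  intro X _
  rw [← cj_cj_inv g X]
  change cj g⁻¹ X ∈ A
  rw [Matrix.matrix_eq_sum_single (cj g⁻¹ X)]
  exact A.sum_mem fun i _ => A.sum_mem fun j _ => by simpa using A.smul_mem (h4 i j) (cj g⁻¹ X i j)

theorem ncore [Finite F] : NCore R 3 :=
  ncore_of_comm Nat.prime_three h.full h.comm (fun x _ => Subtype.ext (h.pow _ x.2)) h.nc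

theorem le_sl : R ≤ Geo.specialLinear (Fin 3) F := by
  rw [h.gen, Subgroup.closure_le]
  rintro _ (rfl | rfl) <;> refine sl_of_det ?_
  · rw [h.ha, cj_apply, Matrix.det_units_conj]; simpa [Fin.prod_univ_three, mul_assoc] using h.w3
  · rw [h.hb, cj_apply, Matrix.det_units_conj]; simp [B0, Matrix.det_fin_three]

theorem root {u : F} (hu : u ^ 3 = 1) : ∃ k : ℕ, u = w ^ k := by
  have : (u - 1) * ((u - w) * (u - w * w)) = 0 := by linear_combination hu + (u - u * u) * h.ww + (u - 1) * h.w3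
  simp only [mul_eq_zero, sub_eq_zero] at this
  rcases this with e | e | e
  exacts [⟨0, by simp [e]⟩, ⟨1, by simp [e]⟩, ⟨2, by simp [e, sq]⟩]

theorem norm_of [Finite F] {y : GL (Fin 3) F} {Y : Matrix (Fin 3) (Fin 3) F} (hy : y.val = cj g Y) {i j k l : ℕ}
    (h1 : Y * Matrix.diagonal ![1, w, w * w] = Matrix.diagonal ![1, w, w * w] ^ i * Y)
    (h2 : Y * B0 F = w ^ k • (B0 F ^ j * Matrix.diagonal ![1, w, w * w] ^ l) * Y) : y ∈ Geo.subgroupNormalizer R := by
  have hz : (⁅a, b⁆).val = w • 1 := by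
    have : a.val * b.val = w • (b.val * a.val) := by
      rw [h.ha, h.hb, ← map_mul, ← map_mul, ← map_smul]
      congr 1; ext i j
      fin_cases i <;> fin_cases j <;> simp [B0, Matrix.diagonal_mul, Matrix.vecMul_diagonal]
      linear_combination -h.w3
    rw [commutatorElement_def, Units.val_mul, Units.val_mul, Units.val_mul, this]
    simp [mul_assoc, -Matrix.coe_units_inv]
  refine norm_of_gen h.gen ?_
  rintro _ (rfl | rfl)
  · convert R.pow_mem h.a_mem i using 1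
    refine mul_inv_eq_iff_eq_mul.2 (Units.ext ?_)
    simp only [Units.val_mul, Units.val_pow_eq_pow_val, hy, h.ha, ← map_mul, ← map_pow, h1]
  · convert R.mul_mem (R.pow_mem (R.mul_mem (R.mul_mem (R.mul_mem h.a_mem h.b_mem) (R.inv_mem h.a_mem))
      (R.inv_mem h.b_mem)) k) (R.mul_mem (R.pow_mem h.b_mem j) (R.pow_mem h.a_mem l)) using 1
    refine mul_inv_eq_iff_eq_mul.2 (Units.ext ?_)
    rw [← commutatorElement_def]
    simp only [Units.val_mul, Units.val_pow_eq_pow_val, hy, hz]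
    simp only [h.ha, h.hb, ← map_mul, ← map_pow, h2, _root_.smul_pow, one_pow, Matrix.smul_mul, one_mul, map_smul]

variable [Finite F] {G : Subgroup (GL (Fin 3) F)}
  (cp : ∀ x ∈ G, ∀ y ∈ G, ∀ s : Finset F, aeval x.val (∏ c ∈ s, (X - C c)) = 0 → aeval y.val (∏ c ∈ s, (X - C c)) = 0 →
    x.val.charpoly = y.val.charpoly → ∃ g ∈ G ⊓ Geo.specialLinear (Fin 3) F, g⁻¹ * x * g = y)
  (hN : ∀ y ∈ Geo.subgroupNormalizer R, y.val.det = 1 → y ∈ G)
include cp hN

theorem elu_two (h2 : (2 : F) ≠ 0) : Elu (G ⊓ Geo.specialLinear (Fin 3) F) R 2 := fun x hx h1 h3 => by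
  classical
  obtain ⟨z, h1⟩ := (mem_scalars_iff _).1 h1
  rw [sq, Units.val_mul] at h1
  have e1 : z ^ 3 = 1 := by simpa [det_of_sl hx.2] using (congrArg Matrix.det h1).symm
  have z0 : z ≠ 0 := by rintro rfl; simp at e1
  have e2 : z * z ≠ -(z * z) := fun e => mul_ne_zero h2 (mul_ne_zero z0 z0) (by linear_combination e)
  have key : ∀ x : GL (Fin 3) F, x.val * x.val = z • 1 → x.val.det = 1 → x ∉ Geo.scalars (Fin 3) F →
      aeval x.val (∏ c ∈ {z * z, -(z * z)}, (X - C c)) = 0 ∧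
      x.val.charpoly = (X - C (z * z)) * (X - C (-(z * z))) ^ 2 := fun x h1 h4 h3 => by
    have e3 : aeval x.val (∏ c ∈ {z * z, -(z * z)}, (X - C c)) = 0 := by
      rw [Finset.prod_pair e2]
      simp only [map_mul, map_sub, aeval_X, aeval_C, Algebra.algebraMap_eq_smul_one, sub_mul, mul_sub, h1,
        Matrix.smul_mul, Matrix.mul_smul, mul_one, one_mul, smul_smul]
      match_scalars
      · linear_combination -z * e1
      · ring
    obtain ⟨g, d, d1, d2⟩ := exists_diag e3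
    obtain ⟨d3, d4, -, d5⟩ := diag_data d2
    refine ⟨e3, ?_⟩
    have n1 : ¬ ∀ i, d i = z * z := fun e => h3 ((mem_scalars_iff _).2 ⟨_, d5 _ e⟩)
    have n2 : ¬ (z * z) * (z * z) * -(z * z) = 1 := fun e => h2 (by linear_combination -e - (z ^ 3 + 1) * e1)
    rw [h4, Fin.prod_univ_three] at d4
    simp only [Finset.mem_insert, Finset.mem_singleton, Fin.forall_fin_succ, Fin.succ_zero_eq_one,
      Fin.succ_one_eq_two, IsEmpty.forall_iff, and_true] at d1 n1
    rw [d3, Fin.prod_univ_three]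
    obtain ⟨e | e, e' | e', e'' | e''⟩ := d1 <;> rw [e, e', e''] at d4 ⊢
    · exact (n1 ⟨e, e', e''⟩).elim
    all_goals first | ring1 | (refine (n2 ?_).elim; linear_combination -d4)
  let Y : Matrix (Fin 3) (Fin 3) F := (-(z * z)) • !![1, 0, 0; 0, 0, 1; 0, 1, 0]
  have y1 : (cj g Y).det = 1 := by
    rw [cj_apply, Matrix.det_units_conj]
    simp [Y, Matrix.det_fin_three]
    linear_combination (z ^ 3 + 1) * e1
  let y := Matrix.GeneralLinearGroup.mkOfDetNeZero _ (y1.trans_ne one_ne_zero)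
  have y2 : y ∈ Geo.subgroupNormalizer R := h.norm_of (Y := Y) rfl (i := 2) (j := 2) (k := 0) (l := 0) (by
    ext i j
    fin_cases i <;> fin_cases j <;> simp [Y, sq, Matrix.mul_apply, Fin.sum_univ_three, Matrix.diagonal, z0] <;>
      first | ring1 | linear_combination (-(z * z * w)) * h.w3) (by
    ext i j
    fin_cases i <;> fin_cases j <;> simp [Y, B0, sq, Matrix.mul_apply, Fin.sum_univ_three])
  obtain ⟨k1, k2⟩ := key x h1 (det_of_sl hx.2) h3
  obtain ⟨k3, k4⟩ := key y (by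
    change cj g Y * cj g Y = _
    rw [← map_mul, ← map_one (cj g), ← map_smul]
    congr 1; ext i j
    fin_cases i <;> fin_cases j <;> simp [Y, Matrix.mul_apply, Fin.sum_univ_three] <;>
      linear_combination z * e1) y1 fun e => by
    obtain ⟨c, hc⟩ := (isSc_cj_iff g Y).1 ((mem_scalars_iff _).1 e)
    simpa [Y, z0] using congrFun (congrFun hc 1) 2
  obtain ⟨g, hg, e⟩ := cp x hx.1 y (hN y y2 y1) _ k1 k3 (k2.trans k4.symm)
  exact ⟨g, hg, e ▸ y2⟩

theorem elu_three {ζ : F} (hζ : ζ ^ 3 = w) : Elu (G ⊓ Geo.specialLinear (Fin 3) F) R 3 := fun x hx h1 _ => by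
  classical
  obtain ⟨z, h1⟩ := (mem_scalars_iff _).1 h1
  rw [Units.val_pow_eq_pow_val] at h1
  have e1 : z ^ 3 = 1 := by simpa [det_of_sl hx.2] using (congrArg Matrix.det h1).symm
  have z0 : z ≠ 0 := by rintro rfl; simp at e1
  obtain ⟨k, hk⟩ := h.root e1
  have hw : IsPrimitiveRoot w 3 := (IsPrimitiveRoot.iff_orderOf).2 (orderOf_eq_prime (by rw [pow_three', h.w3])
    fun e => h.three (by have := h.ww; rw [e] at this; linear_combination this))
  have e4 : (ζ ^ k) ^ 3 = z := by rw [hk, ← hζ]; ring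
  let s := (Finset.range 3).image fun i => w ^ i * ζ ^ k
  have e2 : X ^ 3 - C z = ∏ c ∈ s, (X - C c) := by
    rw [X_pow_sub_C_eq_prod hw (by omega) e4, Finset.prod_image fun i hi j hj e => hw.pow_inj (by simpa using hi)
      (by simpa using hj) (mul_right_cancel₀ (fun e => z0 (by rw [← e4, e]; simp)) e)]
  have e3 : ∀ x : Matrix (Fin 3) (Fin 3) F, x ^ 3 = z • 1 → aeval x (∏ c ∈ s, (X - C c)) = 0 :=
    fun x h => by rw [← e2]; simp [h, Algebra.algebraMap_eq_smul_one]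
  obtain ⟨g', d, d1, d2⟩ := exists_diag (e3 _ h1)
  obtain ⟨d3, d4, -⟩ := diag_data d2
  obtain ⟨d5, d6, -⟩ := diag_data (cj_mul_self g (Matrix.diagonal d))
  replace d1 : ∀ i, d i ^ 3 = z := fun i => by
    obtain ⟨j, -, e⟩ := Finset.mem_image.1 (d1 i)
    rw [← e, mul_pow, e4, ← pow_mul, mul_comm j, pow_mul, hw.pow_eq_one]; simp
  have y1 : (cj g (Matrix.diagonal d)).det = 1 := by rw [d6, ← d4, det_of_sl hx.2]
  have d0 : ∀ i, d i ≠ 0 := fun i e => z0 (by simpa [e] using (d1 i).symm)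
  obtain ⟨i, hi⟩ := h.root (u := d 1 / d 0) (by rw [div_pow, d1, d1, div_self z0])
  obtain ⟨j, hj⟩ := h.root (u := d 2 * d 0 / (d 1 * d 1)) (by rw [div_pow, mul_pow, mul_pow]; simp [d1, z0])
  let y := Matrix.GeneralLinearGroup.mkOfDetNeZero _ (y1.trans_ne one_ne_zero)
  have y2 : y ∈ Geo.subgroupNormalizer R := h.norm_of (Y := Matrix.diagonal d) rfl (i := 1) (j := 1) (k := i) (l := j)
    (by simp [mul_comm]) (by
      have := d0 0
      have := d0 1
      rw [Matrix.diagonal_pow]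
      ext i j
      fin_cases i <;> fin_cases j <;>
        simp [B0, mul_pow, ← hi, ← hj, Matrix.diagonal_mul, Matrix.mul_diagonal, Matrix.vecMul_diagonal] <;>
        field_simp
      linear_combination d1 1 - d1 2)
  obtain ⟨g, hg, e⟩ := cp x hx.1 y (hN y y2 y1) _ (e3 _ h1) (e3 _ (by
    change cj g _ ^ 3 = _
    rw [← map_pow, Matrix.diagonal_pow, ← map_one (cj g), ← map_smul, Matrix.smul_one_eq_diagonal]
    congr 2; ext i; exact d1 i)) (d3.trans d5.symm)
  exact ⟨g, hg, e ▸ y2⟩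

end NF3

theorem exists_root [Fintype F] {m : ℕ} (h : m ∣ Fintype.card F - 1) : ∃ ζ : F, IsPrimitiveRoot ζ m := by
  classical
  obtain ⟨g, hg⟩ := IsCyclic.exists_ofOrder_eq_natCard (α := Fˣ)
  rw [Nat.card_eq_fintype_card, Fintype.card_units] at hg
  have : orderOf g ≠ 0 := (orderOf_pos g).ne'
  exact ⟨(g ^ (orderOf g / m) : Fˣ), IsPrimitiveRoot.coe_units_iff.2
    (IsPrimitiveRoot.iff_orderOf.2 (orderOf_pow_orderOf_div this (hg ▸ h)))⟩

theorem sim_of_norm {ι : Type} [Fintype ι] [DecidableEq ι] {P : FP F} {S : PQ P (ι → F)} (hS : S.Nondeg)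
    {R : Subgroup (GL ι F)} (hR : R ≤ IsoB S) (hf : Full (Geo.matrixSet R)) {y : GL ι F}
    (hy : y ∈ Geo.subgroupNormalizer R) : ∃ c : F, adj S y.val * y.val = c • 1 := hf.isSc (by
  rintro _ ⟨a, ha, rfl⟩
  have h1 := adj_iso hS (hR ((hy a⁻¹).1 (R.inv_mem ha)))
  have h2 : y * a⁻¹ = y * a⁻¹ * y⁻¹ * y := by group
  have h3 := congrArg (fun t : GL ι F => adj S t.val) h2
  simp only [Units.val_mul (y * a⁻¹ * y⁻¹), adj_mul hS, h1, Units.val_mul y, adj_iso hS (hR (R.inv_mem ha)), inv_inv] at h3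
  change _ * a.val = a.val * _
  rw [← mul_assoc, h3]
  simp [mul_assoc, -Matrix.coe_units_inv])

theorem main3 [Fintype F] {R G : Subgroup (GL (Fin 3) F)} (hR : Nat.card R = 27) (hRe : Monoid.exponent R = 3)
    (hn : ¬ IsMulCommutative R) (hq : Fintype.card F % 3 = 1) (h2 : (2 : F) ≠ 0)
    (cp : ∀ x ∈ G, ∀ y ∈ G, ∀ s : Finset F, aeval x.val (∏ c ∈ s, (X - C c)) = 0 → aeval y.val (∏ c ∈ s, (X - C c)) = 0 →
      x.val.charpoly = y.val.charpoly → ∃ g ∈ G ⊓ Geo.specialLinear (Fin 3) F, g⁻¹ * x * g = y)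
    (hN : Full (Geo.matrixSet R) → ∀ y ∈ Geo.subgroupNormalizer R, y.val.det = 1 → y ∈ G) {r : ℕ} (hr : r.Prime)
    (hΩ : r ∣ (Geo.subgroupNormalizer R).relIndex (G ⊓ Geo.specialLinear (Fin 3) F)) :
    Elu (G ⊓ Geo.specialLinear (Fin 3) F) R r ↔ r = 2 ∨ r = 3 ∧ Fintype.card F % 9 = 1 := by
  have q1 := Fintype.one_lt_card (α := F)
  obtain ⟨ω, hω⟩ := exists_root (F := F) (m := 3) (by omega)
  have c3 : (3 : F) ≠ 0 := by exact_mod_cast (hω.neZero').out
  obtain ⟨w, a, b, g, h⟩ := exists_nf3 hR hRe hn c3 (ω := ω) (by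
    have := hω.geom_sum_eq_zero (by omega)
    simp only [Finset.sum_range_succ, Finset.sum_range_zero] at this
    linear_combination this)
  replace hN := hN h.full
  refine ⟨fun he => ?_, ?_⟩
  · by_cases r3 : r = 3
    · subst r3
      refine .inr ⟨rfl, ?_⟩
      have h1 : R ≤ Geo.subgroupNormalizer R ⊓ (G ⊓ Geo.specialLinear (Fin 3) F) := fun x hx =>
        ⟨Subgroup.le_normalizer hx, hN x (Subgroup.le_normalizer hx) (det_of_sl (h.le_sl hx)), h.le_sl hx⟩
      have h3 := Subgroup.card_dvd_of_le h1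
      have h4 := Subgroup.card_mul_index ((Geo.subgroupNormalizer R).subgroupOf (G ⊓ Geo.specialLinear (Fin 3) F))
      rw [← Subgroup.inf_subgroupOf_right, Nat.card_congr (Subgroup.subgroupOfEquivOfLe inf_le_right).toEquiv,
        Subgroup.inf_subgroupOf_right] at h4
      have h5 : 27 * 3 ∣ _ := (h4 ▸ mul_dvd_mul (hR ▸ h3) hΩ).trans (Subgroup.card_dvd_of_le inf_le_right)
      have h6 := card_sl (ι := Fin 3) (F := F)
      rw [Matrix.card_GL_field, Fin.prod_univ_three] at h6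
      obtain ⟨t, ht⟩ : ∃ t, Fintype.card F = 3 * t + 1 := ⟨Fintype.card F / 3, by omega⟩
      obtain ⟨c, hc⟩ := h5
      rw [hc, ht] at h6
      simp only [Fin.val_zero, Fin.val_one, Fin.val_two] at h6
      have t0 : 0 < t := by omega
      have h7 : 3 * c = t * t * ((3 * t * t + 3 * t + 1) * (3 * t + 1) ^ 3 * (3 * t + 2)) := by
        rw [show (3 * t + 1) ^ 3 - (3 * t + 1) ^ 0 = 9 * t * (3 * t * t + 3 * t + 1) from Nat.sub_eq_of_eq_add (by ring),
          show (3 * t + 1) ^ 3 - (3 * t + 1) ^ 1 = 3 * t * (3 * t + 1) * (3 * t + 2) from Nat.sub_eq_of_eq_add (by ring),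
          show (3 * t + 1) ^ 3 - (3 * t + 1) ^ 2 = 3 * t * (3 * t + 1) ^ 2 from Nat.sub_eq_of_eq_add (by ring),
          Nat.add_sub_cancel] at h6
        exact Nat.eq_of_mul_eq_mul_left (show 0 < 81 * t by omega) (by linear_combination h6)
      have h8 := congrArg (· % 3) h7
      have : t % 3 = 0 ∨ t % 3 = 1 ∨ t % 3 = 2 := by omega
      rcases this with e | e | e
      · omega
      all_goals simp [Nat.mul_mod, Nat.add_mod, Nat.pow_mod, e] at h8
    by_contra h'
    push Not at h'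
    refine not_elu_big h.ncore h.full inf_le_right hr hΩ
      (by simpa using (Nat.coprime_primes hr Nat.prime_three).2 r3) r3 (fun k k1 k2 k3 => ?_) he
    rw [Fintype.card_fin] at k1 k2 k3
    have k4 := (Nat.modEq_iff_dvd' k2.le).1 k3.symm
    interval_cases k <;> simp at k1 k4
    · exact absurd ((Nat.prime_dvd_prime_iff_eq hr Nat.prime_two).1 (hr.dvd_of_dvd_pow (n := 3) k4)) h'.1
    · exact (((Nat.Prime.dvd_mul hr (m := 2) (n := 3)).1 k4).elim
        (fun e => h'.1 ((Nat.prime_dvd_prime_iff_eq hr Nat.prime_two).1 e))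
        fun e => r3 ((Nat.prime_dvd_prime_iff_eq hr Nat.prime_three).1 e)).elim
  rintro (rfl | ⟨rfl, e⟩)
  · exact h.elu_two cp hN h2
  obtain ⟨ζ, hζ⟩ := exists_root (F := F) (m := 9) (by omega)
  obtain ⟨i, -, hi⟩ := (hζ.pow (by omega) (show 9 = 3 * 3 by rfl)).eq_pow_of_pow_eq_one (ξ := w) (by rw [pow_three', h.w3])
  exact h.elu_three cp hN (ζ := ζ ^ i) (by rw [← hi]; ring)

end Cfsg.Agent.H2.El
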