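import Cfsg.Agent.H2.ElC

/-! Elements of order 2, 3, 5 in dimension four: spectral data and transvection products. -/

set_option autoImplicit false

namespace Cfsg.Agent.H2.El

open Module Polynomial Cfsg.Agent.Asch Cfsg.Agent.Form
open scoped MatrixGroups Matrix commutatorElement

variable {ι : Type} [Fintype ι] [DecidableEq ι] {F : Type*} [Field F]

theorem split_pow {w α z : F} {m : ℕ} (hw : IsPrimitiveRoot w m) (hm : 0 < m) (e : α ^ m = z) (z0 : z ≠ 0) :
    ∃ s : Finset F, (∀ c ∈ s, ∃ j < m, c = w ^ j * α) ∧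
      ∀ x : Matrix ι ι F, x ^ m = z • 1 → aeval x (∏ c ∈ s, (X - C c)) = 0 := by
  classical
  refine ⟨(Finset.range m).image fun i => w ^ i * α, fun c hc => ?_, fun x h => ?_⟩
  · obtain ⟨j, hj, rfl⟩ := Finset.mem_image.1 hc
    exact ⟨j, by simpa using hj, rfl⟩
  · rw [Finset.prod_image fun i hi j hj e' => hw.pow_inj (by simpa using hi) (by simpa using hj)
      (mul_right_cancel₀ (fun e' => z0 (by rw [← e, e', zero_pow hm.ne'])) e'), ← X_pow_sub_C_eq_prod hw hm e]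
    simp [h, Algebra.algebraMap_eq_smul_one]

theorem ms3 {β : Type*} {u v w : β} (M : Multiset β) (h : ∀ c ∈ M, c = u ∨ c = v ∨ c = w) :
    ∃ a b c, M = Multiset.replicate a u + Multiset.replicate b v + Multiset.replicate c w := by
  induction M using Multiset.induction_on with
  | empty => exact ⟨0, 0, 0, rfl⟩
  | cons t M ih =>
    obtain ⟨a, b, c, rfl⟩ := ih fun c hc => h c (Multiset.mem_cons_of_mem hc)
    rcases h t (Multiset.mem_cons_self ..) with rfl | rfl | rfl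
    · exact ⟨a + 1, b, c, by simp [Multiset.replicate_succ]⟩
    · exact ⟨a, b + 1, c, by simp [Multiset.replicate_succ]⟩
    · exact ⟨a, b, c + 1, by simp [Multiset.replicate_succ]⟩

theorem bc [Nonempty ι] {K : Type*} [Field K] (φ : F →+* K) {x : Matrix ι ι F} {m : ℕ} {z : F} (hx : x ^ m = z • 1)
    {ζ α u v w : K} (hζ : IsPrimitiveRoot ζ m) (hm : 0 < m) (e : α ^ m = φ z) (z0 : z ≠ 0)
    (hs : ∀ j < m, ζ ^ j * α = u ∨ ζ ^ j * α = v ∨ ζ ^ j * α = w) :
    ∃ a b c, a + b + c = Fintype.card ι ∧ x.charpoly.map φ = (X - C u) ^ a * (X - C v) ^ b * (X - C w) ^ c ∧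
      φ x.det = u ^ a * v ^ b * w ^ c ∧ (∀ k, φ (x ^ k).trace = a * u ^ k + b * v ^ k + c * w ^ k) ∧
      ∀ t, (a = 0 ∨ u = t) → (b = 0 ∨ v = t) → (c = 0 ∨ w = t) → IsSc x := by
  obtain ⟨s, s1, s2⟩ := split_pow (ι := ι) hζ hm e ((map_ne_zero φ).2 z0)
  obtain ⟨g, d, d1, d2⟩ := exists_diag (s2 (x.map φ) (by
    rw [← Matrix.map_pow, hx]; ext i j; by_cases h : i = j <;> simp [h]))
  obtain ⟨d3, d4, d5, d6⟩ := diag_data d2
  obtain ⟨a, b, c, e⟩ := ms3 (Finset.univ.val.map d) (u := u) (v := v) (w := w) fun t ht => by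
    obtain ⟨i, -, rfl⟩ := Multiset.mem_map.1 ht
    obtain ⟨j, hj, e⟩ := s1 _ (d1 i)
    exact e ▸ hs j hj
  have pr : ∀ {M : Type _} [CommMonoid M] (f : K → M), ∏ i, f (d i) = f u ^ a * f v ^ b * f w ^ c := fun f => by
    have := congrArg (fun M => (M.map f).prod) e
    simp only [Multiset.map_map, Multiset.map_add, Multiset.map_replicate, Multiset.prod_add,
      Multiset.prod_replicate] at this
    exact this
  refine ⟨a, b, c, by simpa using (congrArg Multiset.card e).symm, ?_, ?_, fun k => ?_, fun t h1 h2 h3 => ?_⟩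
  · rw [← Matrix.charpoly_map, d3, pr fun c => X - C c]
  · rw [RingHom.map_det, RingHom.mapMatrix_apply, d4, pr fun c => c]
  · rw [AddMonoidHom.map_trace φ, Matrix.map_pow, d5]
    have := congrArg (fun M => (M.map (· ^ k)).sum) e
    simp only [Multiset.map_map, Multiset.map_add, Multiset.map_replicate, Multiset.sum_add,
      Multiset.sum_replicate, nsmul_eq_mul] at this
    exact this
  · have := d6 t fun i => by
      have : d i ∈ Finset.univ.val.map d := Multiset.mem_map_of_mem _ (Finset.mem_univ i)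
      simp only [e, Multiset.mem_add, Multiset.mem_replicate] at this
      grind
    obtain ⟨i⟩ := ‹Nonempty ι›
    refine ⟨x i i, Matrix.ext fun k l => φ.injective ?_⟩
    have e1 := congrFun (congrFun this k) l
    have e2 := congrFun (congrFun this i) i
    by_cases h : k = l <;> simp_all

theorem prim_two (h2 : (2 : F) ≠ 0) : IsPrimitiveRoot (-1 : F) 2 :=
  IsPrimitiveRoot.iff_orderOf.2 (orderOf_eq_prime (by simp) fun e => h2 (by linear_combination -e))

theorem sq_data (hι : Fintype.card ι = 4) (h2 : (2 : F) ≠ 0) {x : Matrix ι ι F} {z : F} (hx : x ^ 2 = z • 1) (z0 : z ≠ 0)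
    (hn : ¬ IsSc x) : (x.trace = 0 ∧ x.det = z * z ∧ x.charpoly = (X ^ 2 - C z) ^ 2) ∨
      ∃ t, t * t = z ∧ x.trace = 2 * t ∧ x.det = -(z * z) ∧ x.charpoly = (X - C t) ^ 3 * (X + C t) := by
  have : Nonempty ι := Fintype.card_pos_iff.1 (by omega)
  let φ := algebraMap F (AlgebraicClosure F)
  obtain ⟨α, e⟩ := IsAlgClosed.exists_pow_nat_eq (φ z) two_pos
  have h2' : (2 : AlgebraicClosure F) ≠ 0 := by rw [← map_ofNat φ 2]; exact (map_ne_zero φ).2 h2
  obtain ⟨a, b, c, h1, h3, h4, h5, h6⟩ := bc φ hx (u := α) (v := -α) (w := -α) (prim_two h2')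
    two_pos e z0 fun j hj => by interval_cases j <;> simp
  have h7 := h5 1
  rw [mul_assoc, ← pow_add] at h3 h4
  rw [add_assoc, ← add_mul, ← Nat.cast_add, pow_one, pow_one, pow_one] at h7
  replace h6 : ∀ t, (a = 0 ∨ α = t) → (b + c = 0 ∨ -α = t) → IsSc x := fun t h h' =>
    h6 t h (h'.imp_left (by omega)) (h'.imp_left (by omega))
  rw [add_assoc, hι] at h1
  generalize b + c = n at *
  have key : ∀ β, β * β = φ z → φ x.trace = 2 * β → φ x.det = -(β * β * (β * β)) →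
      x.charpoly.map φ = (X - C β) ^ 3 * (X + C β) → ∃ t, t * t = z ∧ x.trace = 2 * t ∧ x.det = -(z * z) ∧
        x.charpoly = (X - C t) ^ 3 * (X + C t) := fun β e1 e2 e3 e4 => by
    have : φ (x.trace / 2) = β := by rw [map_div₀, e2, map_ofNat]; field_simp
    refine ⟨x.trace / 2, φ.injective (by rw [map_mul, this, e1]), by field_simp, φ.injective (by simp [e3, e1]),
      map_injective φ φ.injective (by simp only [e4, Polynomial.map_mul, Polynomial.map_pow, Polynomial.map_sub,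
        Polynomial.map_add, map_X, map_C, this])⟩
  obtain rfl : n = 4 - a := by omega
  have : a ≤ 4 := by omega
  interval_cases a
  · exact (hn (h6 _ (.inl rfl) (.inr rfl))).elim
  · refine .inr (key (-α) (by rw [← e]; ring) (by rw [h7]; norm_num; ring) (by rw [h4]; ring) (by rw [h3]; simp; ring))
  · refine .inl ⟨φ.injective (by rw [h7]; norm_num), φ.injective (by rw [h4, map_mul, ← e]; ring),
      map_injective φ φ.injective ?_⟩
    simp only [h3, Polynomial.map_pow, Polynomial.map_sub, map_X, map_C, ← e, map_pow, map_neg]; ring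
  · refine .inr (key α (by rw [← e]; ring) (by rw [h7]; norm_num; ring) (by rw [h4]; ring) (by rw [h3]; simp))
  · exact (hn (h6 _ (.inr rfl) (.inl rfl))).elim

theorem cube_data (hι : Fintype.card ι = 4) (h3 : (3 : F) ≠ 0) {x : Matrix ι ι F} (hx : x ^ 3 = 1) (hd : x.det = 1)
    (hn : ¬ IsSc x) : (x.trace = 1 ∧ x.charpoly = (X - 1) ^ 2 * (X ^ 2 + X + 1)) ∨
      (x.trace = -2 ∧ x.charpoly = (X ^ 2 + X + 1) ^ 2) ∨
      ∃ ω, ω * ω + ω + 1 = 0 ∧ x.trace = 1 + 3 * ω ∧ (x ^ 2).trace = 1 + 3 * (ω * ω) := by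
  have : Nonempty ι := Fintype.card_pos_iff.1 (by omega)
  let φ := algebraMap F (AlgebraicClosure F)
  have h3' : (3 : AlgebraicClosure F) ≠ 0 := by rw [← map_ofNat φ 3]; exact (map_ne_zero φ).2 h3
  have : NeZero ((3 : ℕ) : AlgebraicClosure F) := ⟨by exact_mod_cast h3'⟩
  obtain ⟨ω, hω⟩ := HasEnoughRootsOfUnity.exists_primitiveRoot (AlgebraicClosure F) 3
  have e : ω * ω + ω + 1 = 0 := by
    have := hω.geom_sum_eq_zero (by omega)
    simp only [Finset.sum_range_succ, Finset.sum_range_zero] at this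
    linear_combination this
  have eC : (C ω * C ω + C ω + 1 : (AlgebraicClosure F)[X]) = 0 := by simpa using congrArg C e
  obtain ⟨a, b, c, h1, h2, h4, h5, h6⟩ := bc φ (z := 1) (hx.trans (one_smul ..).symm) (α := 1) (u := 1) (v := ω)
    (w := ω ^ 2) hω three_pos (by simp) one_ne_zero fun j hj => by interval_cases j <;> simp
  rw [hd, map_one, one_pow, one_mul, ← pow_mul, ← pow_add, eq_comm, hω.pow_eq_one_iff_dvd] at h4
  have h7 := h5 1
  have h8 := h5 2
  rw [pow_one] at h7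
  rw [hι] at h1
  have key : ∀ β, β * β + β + 1 = 0 → φ x.trace = 1 + 3 * β → φ (x ^ 2).trace = 1 + 3 * (β * β) →
      ∃ ω, ω * ω + ω + 1 = 0 ∧ x.trace = 1 + 3 * ω ∧ (x ^ 2).trace = 1 + 3 * (ω * ω) := fun β e1 e2 e3 => by
    have : φ ((x.trace - 1) / 3) = β := by rw [map_div₀, map_sub, e2, map_ofNat, map_one]; field_simp; ring
    exact ⟨(x.trace - 1) / 3, φ.injective (by simp only [map_add, map_mul, this, map_one, e1, map_zero]),
      by field_simp; ring, φ.injective (by simp only [map_add, map_mul, this, map_one, e3, map_ofNat])⟩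
  have : (a = 4 ∧ b = 0 ∧ c = 0) ∨ (a = 2 ∧ b = 1 ∧ c = 1) ∨ (a = 0 ∧ b = 2 ∧ c = 2) ∨ (a = 1 ∧ b = 3 ∧ c = 0) ∨
      (a = 1 ∧ b = 0 ∧ c = 3) := by
    have : b ≤ 4 := by omega
    interval_cases b <;> omega
  rcases this with ⟨rfl, rfl, rfl⟩ | ⟨rfl, rfl, rfl⟩ | ⟨rfl, rfl, rfl⟩ | ⟨rfl, rfl, rfl⟩ | ⟨rfl, rfl, rfl⟩ <;>
    push_cast at h7 h8
  · exact (hn (h6 _ (.inr rfl) (.inl rfl) (.inl rfl))).elim
  · refine .inl ⟨φ.injective (by rw [h7, map_one]; linear_combination e), map_injective φ φ.injective ?_⟩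
    simp only [h2, Polynomial.map_pow, Polynomial.map_sub, Polynomial.map_add, Polynomial.map_mul, map_X,
      Polynomial.map_one, map_pow, map_one]
    linear_combination (X - 1) ^ 2 * (C ω - 1 - X) * eC
  · refine .inr (.inl ⟨φ.injective (by rw [h7, map_neg, map_ofNat]; linear_combination 2 * e),
      map_injective φ φ.injective ?_⟩)
    simp only [h2, Polynomial.map_pow, Polynomial.map_add, map_X, Polynomial.map_one, map_pow, map_one]
    linear_combination ((X - C ω) * (X - C ω ^ 2) + X ^ 2 + X + 1) * (C ω - 1 - X) * eC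
  · exact .inr (.inr (key ω e (by rw [h7]; ring) (by rw [h8]; ring)))
  · exact .inr (.inr (key (ω ^ 2) (by linear_combination (ω * ω - ω + 1) * e) (by rw [h7]; ring) (by rw [h8]; ring)))

/-- two opposite transvections in `G` -/
def TV (G : Subgroup (GL ι F)) (κ : F) : Prop :=
  ∃ (u φ v ψ : ι → F) (s t : GL ι F), s ∈ G ∧ t ∈ G ∧ s.val = 1 + Matrix.vecMulVec u φ ∧ t.val = 1 + Matrix.vecMulVec v ψ ∧
    φ ⬝ᵥ u = 0 ∧ ψ ⬝ᵥ v = 0 ∧ (φ ⬝ᵥ v) * (ψ ⬝ᵥ u) = κ ∧ s ≠ 1

theorem vv_sq {u φ : ι → F} (h : φ ⬝ᵥ u = 0) : Matrix.vecMulVec u φ * Matrix.vecMulVec u φ = 0 := by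
  simp [Matrix.vecMulVec_mul_vecMulVec, h]

/-- a transvection -/
def tvu {u φ : ι → F} (h : φ ⬝ᵥ u = 0) : GL ι F :=
  ⟨1 + Matrix.vecMulVec u φ, 1 - Matrix.vecMulVec u φ, by simp [mul_sub, add_mul, vv_sq h],
    by simp [sub_mul, mul_add, vv_sq h]⟩

theorem det_tv {u φ : ι → F} (h : φ ⬝ᵥ u = 0) : (1 + Matrix.vecMulVec u φ).det = 1 := by
  rw [Matrix.vecMulVec_eq Unit, Matrix.det_one_add_replicateCol_mul_replicateRow, h, add_zero]

theorem TV.inf {G : Subgroup (GL ι F)} {κ : F} (h : TV G κ) : TV (G ⊓ Geo.specialLinear ι F) κ :=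
  let ⟨u, φ, v, ψ, s, t, hs, ht, h1, h2, h3, h4, h5⟩ := h
  ⟨u, φ, v, ψ, s, t, ⟨hs, sl_of_det (h1 ▸ det_tv h3)⟩, ⟨ht, sl_of_det (h2 ▸ det_tv h4)⟩, h1, h2, h3, h4, h5⟩

theorem tv_top [Nontrivial ι] (κ : F) : TV (⊤ : Subgroup (GL ι F)) κ := by
  obtain ⟨i, j, h⟩ := exists_pair_ne ι
  have h1 : (Pi.single j 1 : ι → F) ⬝ᵥ Pi.single i 1 = 0 := by simp [h]
  have h2 : (Pi.single i 1 : ι → F) ⬝ᵥ Pi.single j κ = 0 := by simp [h]
  exact ⟨_, _, _, _, tvu h1, tvu h2, trivial, trivial, rfl, rfl, h1, h2, by simp, fun e => by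
    simpa [tvu, h, Matrix.vecMulVec_apply] using congrArg (fun t : GL ι F => t.val i j) e⟩

theorem tv_form {P : FP F} {S : PQ P (ι → F)} (hS : S.Nondeg) {u : ι → F} (hu : S.Sing u) (u0 : u ≠ 0) {c κ : F}
    (c0 : c ≠ 0) (hc : c + P.ε * P.σ c = 0) (hκ : P.σ κ = κ) : TV (IsoB S) κ := by
  obtain ⟨v, hv, h⟩ := hS.exists_hyperbolic hu u0
  have h' : S.B v u = P.ε := by rw [S.B_swap, h]; simp
  have dot : ∀ (c : F) w x, (c • fun i => S.B (Pi.single i 1) w) ⬝ᵥ x = c * S.B x w := fun c w x => by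
    rw [smul_dotProduct, dot_B, smul_eq_mul]
  have mem : ∀ (c : F) w (hw : S.Sing w), c + P.ε * P.σ c = 0 → tvu ((dot c w w).trans (by rw [hw.B_self, mul_zero])) ∈
      IsoB S := fun c w hw hc x y => by
    change S.B ((1 + Matrix.vecMulVec _ _) *ᵥ x) ((1 + Matrix.vecMulVec _ _) *ᵥ y) = _
    simp only [Matrix.add_mulVec, Matrix.one_mulVec, Matrix.vecMulVec_mulVec, dot, op_smul_eq_smul, S.B_add_left,
      S.B_add_right, S.B_smul_left, S.B_smul_right, hw.B_self, map_mul, S.B_swap y w]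
    linear_combination S.B x w * P.ε * P.σ (S.B y w) * hc - P.σ c * S.B x w * P.σ (S.B y w) * P.εε
  refine ⟨_, _, _, _, _, _, mem c u hu hc, mem (P.ε * κ / c) v hv ?_, rfl, rfl, by simp [dot, hu.B_self],
    by simp [dot, hv.B_self], ?_, fun e => ?_⟩
  · have := P.σ_ne_zero c0
    rw [map_div₀, map_mul, hκ, P.σε]
    field_simp
    linear_combination κ * hc + κ * c * P.εε
  · rw [dot, dot, h, h']; field_simp; linear_combination κ * P.εε
  · have := congrArg (fun t : GL ι F => t.val *ᵥ v) e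
    simp [tvu, Matrix.add_mulVec, Matrix.vecMulVec_mulVec, dot, h', c0, u0, P.ε_ne_zero, -Matrix.vecMulVec_smul] at this

theorem TV.data {G : Subgroup (GL ι F)} {κ : F} (h : TV G κ) : ∃ x ∈ G, x.val.trace = Fintype.card ι + κ ∧
    (x⁻¹).val.trace = Fintype.card ι + κ ∧ aeval x.val ((X - 1) * (X ^ 2 - C (κ + 2) * X + 1)) = 0 := by
  obtain ⟨u, φ, v, ψ, s, t, hs, ht, h1, h2, h3, h4, h5, -⟩ := h
  have a1 := vv_sq h3
  have a2 := vv_sq h4
  have a3 : Matrix.vecMulVec u φ * (Matrix.vecMulVec v ψ * Matrix.vecMulVec u φ) = κ • Matrix.vecMulVec u φ := by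
    simp [Matrix.vecMulVec_mul_vecMulVec, ← h5, Matrix.vecMulVec_smul, smul_smul, mul_comm]
  have a4 : Matrix.vecMulVec v ψ * (Matrix.vecMulVec u φ * Matrix.vecMulVec v ψ) = κ • Matrix.vecMulVec v ψ := by
    simp [Matrix.vecMulVec_mul_vecMulVec, ← h5, Matrix.vecMulVec_smul, smul_smul, mul_comm]
  have t1 : (Matrix.vecMulVec u φ).trace = 0 := by rw [Matrix.trace_vecMulVec, dotProduct_comm, h3]
  have t2 : (Matrix.vecMulVec v ψ).trace = 0 := by rw [Matrix.trace_vecMulVec, dotProduct_comm, h4]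
  have t3 : (Matrix.vecMulVec u φ * Matrix.vecMulVec v ψ).trace = κ := by
    simp [Matrix.vecMulVec_mul_vecMulVec, Matrix.trace_vecMulVec, ← h5, dotProduct_comm u]
  generalize Matrix.vecMulVec u φ = M at *
  generalize Matrix.vecMulVec v ψ = N at *
  have i1 : (s⁻¹).val = 1 - M := Units.inv_eq_of_mul_eq_one_right (by simp [h1, mul_sub, add_mul, a1])
  have i2 : (t⁻¹).val = 1 - N := Units.inv_eq_of_mul_eq_one_right (by simp [h2, mul_sub, add_mul, a2])
  have b1 : ∀ X, M * (M * X) = 0 := fun X => by rw [← mul_assoc, a1, zero_mul]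
  have b2 : ∀ X, N * (N * X) = 0 := fun X => by rw [← mul_assoc, a2, zero_mul]
  have b3 : ∀ X, M * (N * (M * X)) = κ • (M * X) := fun X => by rw [← mul_assoc N, ← mul_assoc, a3, smul_mul_assoc]
  refine ⟨s * t, G.mul_mem hs ht, by simp [h1, h2, mul_add, add_mul, t1, t2, t3], by
    rw [mul_inv_rev, Units.val_mul, i1, i2, Matrix.trace_mul_comm]; simp [mul_sub, sub_mul, t1, t2, t3], ?_⟩
  simp only [Units.val_mul, h1, h2, map_mul, map_add, map_sub, aeval_X, aeval_C, map_one, sq,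
    Algebra.algebraMap_eq_smul_one, mul_add, add_mul, mul_sub, sub_mul, mul_one, one_mul, mul_assoc, a1, a2, a3, a4, b1,
    b2, b3, Matrix.smul_mul, Matrix.mul_smul, mul_zero, smul_zero]
  module

variable [Finite F] {G R : Subgroup (GL ι F)} (hι : Fintype.card ι = 4) (hc : NCore R 2) (hf : Full (Geo.matrixSet R))
include hι hc hf

theorem not_elu_rk {r : ℕ} (hr : r.Prime) (h2 : r ≠ 2) {x : GL ι F} (hx : x ∈ G) {c : F} {u φ : ι → F}
    (h : x.val = c • 1 + Matrix.vecMulVec u φ) (h1 : x ^ r ∈ Geo.scalars ι F) (h3 : x ∉ Geo.scalars ι F) :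
    ¬ Elu G R r := fun he => by
  have : Nonempty ι := Fintype.card_pos_iff.1 (by omega)
  obtain ⟨g, -, hg⟩ := he x hx h1 h3
  have h4 := nec_half hc hf hg h3 hr h2 h2 h1 c
  have h5 := LinearMap.finrank_range_add_finrank_ker (Matrix.toLin' (Matrix.vecMulVec u φ))
  have h6 : finrank F (LinearMap.range (Matrix.toLin' (Matrix.vecMulVec u φ))) ≤ 1 :=
    (Submodule.finrank_mono (t := F ∙ u) (by
      rintro _ ⟨v, rfl⟩
      simpa [Matrix.vecMulVec_mulVec] using Submodule.smul_mem _ _ (Submodule.mem_span_singleton_self u))).trans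
      (by simpa using finrank_span_le_card ({u} : Set (ι → F)))
  have h7 := Submodule.finrank_mono (s := LinearMap.ker (Matrix.toLin' (Matrix.vecMulVec u φ))) (t := eig x c)
    fun v hv => mem_eig.2 (by
      rw [h, Matrix.add_mulVec, show Matrix.vecMulVec u φ *ᵥ v = 0 from hv]; simp [Matrix.smul_mulVec])
  rw [finrank_fintype_fun_eq_card] at h5
  omega

theorem not_elu_char (hG : G ≤ Geo.specialLinear ι F) {r : ℕ} (hr : r.Prime) (h2 : r ≠ 2) (h0 : (r : F) = 0) {κ : F}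
    (h : TV G κ) : ¬ Elu G R r := by
  obtain ⟨u, φ, v, ψ, s, t, hs, ht, h1, -, h3, -, -, h4⟩ := h
  have e : ∀ k : ℕ, s.val ^ k = 1 + (k : F) • Matrix.vecMulVec u φ := fun k => by
    induction k with
    | zero => simp
    | succ k ih => rw [pow_succ, ih, h1]; simp [mul_add, add_mul, vv_sq h3, add_smul]; abel
  have e' : s ^ r = 1 := Units.ext (by simp [e, h0])
  exact not_elu_rk hι hc hf hr h2 hs (c := 1) (by simpa using h1) (e' ▸ one_mem _)
    (not_sc (hG hs) (hι ▸ (hr.odd_of_ne_two h2).coprime_two_right.pow_right 2) e' h4)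

theorem nec_tv (hG : G ≤ Geo.specialLinear ι F) {r : ℕ} (hr : r.Prime) (h2 : r ≠ 2) {κ : F} (k0 : κ ≠ 0)
    (h : TV G κ) (hd : (X - 1) * (X ^ 2 - C (κ + 2) * X + 1) ∣ X ^ r - 1) (he : Elu G R r) :
    ∃ y ∈ Geo.subgroupNormalizer R, y ^ r = 1 ∧ ∃ k : ℕ, k ∣ 16 ∧ k < 16 ∧ 16 ≡ k [MOD r] ∧ (k : F) = (4 + κ) ^ 2 ∧
      (k = 1 → ∀ a ∈ R, ⁅y, a⁆ ∈ Geo.scalars ι F → a ∈ Geo.scalars ι F) ∧ ∃ x ∈ G, ∃ g ∈ G, y = g⁻¹ * x * g := by
  have : Nonempty ι := Fintype.card_pos_iff.1 (by omega)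
  obtain ⟨x, hx, h1, h3, h4⟩ := h.data
  have e : x ^ r = 1 := Units.ext (by
    simpa [sub_eq_zero] using aeval_eq_zero_of_dvd_aeval_eq_zero hd h4)
  have n := not_sc (hG hx) (hι ▸ (hr.odd_of_ne_two h2).coprime_two_right.pow_right 2) e fun e => k0 (by
    simpa [e] using h1)
  obtain ⟨g, hg, hg'⟩ := he x hx (e ▸ one_mem _) n
  obtain ⟨k, k1, k2, k3, k4, -, k5⟩ := nec hc hf hg' n hr h2 (e ▸ one_mem _)
  rw [hι] at k1 k2 k3 h1 h3
  exact ⟨_, hg', by rw [inv_conj_pow, e]; simp, k, k1, k2, k3, by rw [k4, h1, h3]; push_cast; ring, k5, x, hx, g, hg, rfl⟩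

theorem not_elu_five (hG : G ≤ Geo.specialLinear ι F) {τ : F} (hτ : τ * τ + τ - 1 = 0) (h : TV G (τ - 2)) :
    ¬ Elu G R 5 := fun he => by
  by_cases h5 : ((5 : ℕ) : F) = 0
  · exact not_elu_char hι hc hf hG Nat.prime_five (by omega) h5 h he
  obtain ⟨y, -, -, k, k1, k2, k3, k4, -⟩ := nec_tv hι hc hf hG Nat.prime_five (by omega) (fun e => h5 (by
    push_cast; linear_combination hτ - (τ + 3) * e)) h ⟨X ^ 2 + C (τ + 1) * X + 1, by
      have : (C τ * C τ + C τ - 1 : F[X]) = 0 := by simpa using congrArg C hτ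
      simp only [sub_add_cancel, map_add, map_one]
      linear_combination (X - 1) * X ^ 2 * this⟩ he
  obtain rfl : k = 1 := by
    unfold Nat.ModEq at k3
    interval_cases k <;> omega
  exact h5 (by push_cast at k4 ⊢; linear_combination (3 * τ - 1) * (-hτ - k4) - 9 * hτ)

theorem not_elu_seven (hG : G ≤ Geo.specialLinear ι F) {r : ℕ} (hr : r.Prime) (h2 : r ≠ 2) (h3 : r ≠ 3) (h5 : r ≠ 5)
    (hΩ : r ∣ (Geo.subgroupNormalizer R).relIndex G) : ¬ Elu G R r := by
  have : Nonempty ι := Fintype.card_pos_iff.1 (by omega)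
  refine not_elu_big hc hf hG hr hΩ (hι ▸ (hr.odd_of_ne_two h2).coprime_two_right.pow_right 2) h2 fun k k1 k2 k3 => ?_
  rw [hι] at k1 k2 k3
  have k4 := (Nat.modEq_iff_dvd' k2.le).1 k3.symm
  have : ¬ r ∣ 2 * 2 * 2 * 3 * 5 := by
    simp [hr.dvd_mul, Nat.prime_dvd_prime_iff_eq hr Nat.prime_two, Nat.prime_dvd_prime_iff_eq hr Nat.prime_three,
      Nat.prime_dvd_prime_iff_eq hr Nat.prime_five, h2, h3, h5, -Nat.reduceMul]
  by_contra h
  interval_cases k <;> simp at k1 h <;> exact this (k4.trans (by decide))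

end Cfsg.Agent.H2.El
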