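import Cfsg.Agent.H2.ElD
import Cfsg.Agent.H4.E8
import Cfsg.Agent.H9.FInvol

/-! The normaliser of `2^{1+4}` in `GL₄`: Clifford generators. -/

set_option autoImplicit false

namespace Cfsg.Agent.H2.El

open Module Polynomial Cfsg.Agent.Asch Cfsg.Agent.Form Cfsg.Agent.H4.E
open scoped MatrixGroups Matrix commutatorElement

variable {ι : Type} [Fintype ι] [DecidableEq ι] {F : Type*} [Field F]

theorem tr_anti (h2 : (2 : F) ≠ 0) {X Y : Matrix ι ι F} (hY : IsUnit Y) (h : Y * X = -(X * Y)) : X.trace = 0 := by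
  obtain ⟨Y, rfl⟩ := hY
  have := congrArg (fun M => (M * (Y⁻¹).val).trace) h
  simp only [neg_mul, Units.mul_inv_cancel_right, Matrix.trace_neg, Matrix.trace_units_conj] at this
  exact (mul_eq_zero.1 (show 2 * X.trace = 0 by linear_combination this)).resolve_left h2

theorem nsc_anti [Nonempty ι] (h2 : (2 : F) ≠ 0) {x y : GL ι F} (h : y.val * x.val = -(x.val * y.val)) :
    x ∉ Geo.scalars ι F := fun e => by
  rw [((mem_scalars_iff _).1 e).comm, eq_neg_iff_add_eq_zero, ← two_smul F, smul_eq_zero] at h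
  exact h.elim h2 (y * x).ne_zero

/-- `-(1 + Y)(1 + Z) / 2` -/
def hf (h2 : (2 : F) ≠ 0) {Y Z : Matrix ι ι F} (hY : Y * Y = -1) (hZ : Z * Z = -1) : GL ι F :=
  ⟨(-2 : F)⁻¹ • ((1 + Y) * (1 + Z)), (-2 : F)⁻¹ • ((1 - Z) * (1 - Y)), by
    simp only [mul_add, add_mul, mul_sub, sub_mul, smul_mul_assoc, mul_smul_comm, mul_assoc, mul_one, one_mul,
      mul_neg, neg_mul, hY, hZ, rn hY, rn hZ]
    match_scalars <;> field_simp <;> ring, by
    simp only [mul_add, add_mul, mul_sub, sub_mul, smul_mul_assoc, mul_smul_comm, mul_assoc, mul_one, one_mul,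
      mul_neg, neg_mul, hY, hZ, rn hY, rn hZ]
    match_scalars <;> field_simp <;> ring⟩

section hf
variable {h2 : (2 : F) ≠ 0} {Y Z : Matrix ι ι F} {hY : Y * Y = -1} {hZ : Z * Z = -1}

theorem hf_val : (hf h2 hY hZ).val = (-2 : F)⁻¹ • ((1 + Y) * (1 + Z)) := rfl

theorem hf_inv : ((hf h2 hY hZ)⁻¹).val = (-2 : F)⁻¹ • ((1 - Z) * (1 - Y)) := rfl

theorem hf_det (hι : Fintype.card ι = 4) (h : Z * Y = -(Y * Z)) : (hf h2 hY hZ).val.det = 1 := by
  have := det_half (Y := Matrix.toLinAlgEquiv' Y) (Z := Matrix.toLinAlgEquiv' Z) h2 (by rw [← map_mul, hY]; simp)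
    (by rw [← map_mul, hZ]; simp) (by rw [← map_mul Matrix.toLinAlgEquiv' Z, h]; simp)
  rw [← map_one (Matrix.toLinAlgEquiv' (R := F) (n := ι)), ← map_add, ← map_add, ← map_mul, ← map_smul] at this
  replace this := (LinearMap.det_toLin' _).symm.trans this
  rw [Matrix.det_smul, hι] at this
  rw [hf_val, Matrix.det_smul, hι, ← this, inv_neg, Even.neg_pow (by decide)]

theorem hf_cube (h : Z * Y = -(Y * Z)) : hf h2 hY hZ ^ 3 = 1 := by
  have : (hf h2 hY hZ).val * (hf h2 hY hZ).val = -(hf h2 hY hZ).val - 1 := by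
    simp only [hf_val, mul_add, add_mul, smul_mul_assoc, mul_smul_comm, mul_assoc, mul_one, one_mul, mul_neg,
      hY, hZ, h, ra h, rn hY]
    match_scalars <;> field_simp <;> ring
  exact Units.ext (by rw [pow_three, Units.val_mul, Units.val_mul, this, mul_sub, mul_neg, this]; simp)

theorem hf_comm {w : Matrix ι ι F} (h1 : Commute w Y) (h3 : Commute w Z) : Commute w (hf h2 hY hZ).val :=
  (((Commute.one_right w).add_right h1).mul_right ((Commute.one_right w).add_right h3)).smul_right _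

theorem hf_tr (h : Z * Y = -(Y * Z)) {w : Matrix ι ι F} (h1 : Commute w Y) (h3 : Commute w Z) :
    ((hf h2 hY hZ).val * w).trace = (-2 : F)⁻¹ * w.trace := by
  have uY : IsUnit Y := .of_mul_eq_one (-Y) (by simp [hY])
  have uZ : IsUnit Z := .of_mul_eq_one (-Z) (by simp [hZ])
  have t1 : (Y * w).trace = 0 := tr_anti h2 uZ (by rw [ra h, mul_assoc, h3.eq])
  have t2 : (Z * w).trace = 0 := tr_anti h2 uY (by rw [mul_assoc, h1.eq, ra h, neg_neg])
  have t3 : (Y * (Z * w)).trace = 0 := tr_anti h2 uZ (by rw [ra h, mul_assoc, mul_assoc, h3.eq])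
  simp [hf_val, mul_add, add_mul, mul_assoc, t1, t2, t3]

end hf

/-- the ambient group is everything, or an isometry group -/
def GOK (G R : Subgroup (GL ι F)) : Prop :=
  G = ⊤ ∨ ∃ (P : FP F) (S : PQ P (ι → F)), S.Nondeg ∧ G = IsoB S ∧ R ≤ G

theorem GOK.le {G R : Subgroup (GL ι F)} (h : GOK G R) : R ≤ G := by
  rcases h with rfl | ⟨P, S, -, -, h⟩
  exacts [le_top, h]

theorem GOK.hf {G R : Subgroup (GL ι F)} (h : GOK G R) {h2 : (2 : F) ≠ 0} {y z : GL ι F} (hy : y ∈ R) (hz : z ∈ R)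
    {hY : y.val * y.val = -1} {hZ : z.val * z.val = -1} : hf h2 hY hZ ∈ G := by
  rcases h with rfl | ⟨P, S, hS, rfl, h⟩
  · trivial
  have e : ∀ {y : GL ι F}, y ∈ R → y.val * y.val = -1 → adj S y.val = -y.val := fun hy e =>
    (adj_iso hS (h hy)).trans (Units.inv_eq_of_mul_eq_one_right (by simp [e]))
  refine mem_IsoB_of_adj hS ?_
  rw [hf_val, hf_inv, adj_smul hS, adj_mul hS, adj_add hS, adj_add hS, adj_one hS, e hy hY, e hz hZ]
  simp [sub_eq_add_neg, map_ofNat]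

/-- Clifford generators -/
structure CL (R : Subgroup (GL ι F)) (a b c d : GL ι F) : Prop where
  card : Fintype.card ι = 4
  two : (2 : F) ≠ 0
  nc : NCore R 2
  full : Full (Geo.matrixSet R)
  ma : a ∈ R
  mb : b ∈ R
  mc : c ∈ R
  md : d ∈ R
  aa : a.val * a.val = -1
  bb : b.val * b.val = -1
  cc : c.val * c.val = -1
  dd : d.val * d.val = -1
  ba : b.val * a.val = -(a.val * b.val)
  ca : c.val * a.val = -(a.val * c.val)
  da : d.val * a.val = -(a.val * d.val)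
  cb : c.val * b.val = -(b.val * c.val)
  db : d.val * b.val = -(b.val * d.val)
  dc : d.val * c.val = -(c.val * d.val)

/-- normal form of Clifford words -/
local macro "cl_simp" h:term : tactic => `(tactic| simp only [Units.val_mul, hf_val, hf_inv, mul_add, add_mul, mul_sub, sub_mul,
  smul_mul_assoc, mul_smul_comm, mul_assoc, mul_one, one_mul, mul_neg, neg_mul, neg_neg, ($h).aa, ($h).bb, ($h).cc,
  ($h).dd, ($h).ba, ($h).ca, ($h).da, ($h).cb, ($h).db, ($h).dc, rn ($h).aa, rn ($h).bb, rn ($h).cc, rn ($h).dd,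
  ra ($h).ba, ra ($h).ca, ra ($h).da, ra ($h).cb, ra ($h).db, ra ($h).dc])

theorem red15 {G R : Subgroup (GL ι F)} [Nonempty ι] (hι : Fintype.card ι = 4) (hG : G ≤ Geo.specialLinear ι F) {r k : ℕ}
    (hk : r * k = 15) (h : ∀ x ∈ G, x ^ r = 1 → x ∉ Geo.scalars ι F → ∃ g ∈ G, g⁻¹ * x * g ∈ Geo.subgroupNormalizer R) :
    Elu G R r := fun x hx h1 h2 => by
  obtain ⟨z, hz⟩ := mem_scalars_iff'.1 h1
  have e := pow_card_of_sl (hz ▸ hG (G.pow_mem hx r))
  obtain ⟨g, hg, e⟩ := h (sc ι (z ^ k) * x) (by rw [map_pow, ← hz]; exact G.mul_mem (G.pow_mem (G.pow_mem hx r) k) hx)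
    (by rw [Commute.mul_pow (sc_comm _ _), hz, ← map_pow, ← map_mul, ← pow_mul, mul_comm k, hk, ← pow_succ,
      show 15 + 1 = 4 * 4 from rfl, pow_mul, ← hι, e, one_pow, map_one])
    fun h => h2 ((Subgroup.mul_mem_cancel_left _ (sc_mem _)).1 h)
  exact ⟨g, hg, of_sc e⟩

theorem cube_cp (hι : Fintype.card ι = 4) (h2 : (2 : F) ≠ 0) (h3 : (3 : F) ≠ 0) {x : GL ι F}
    (hx : x ∈ Geo.specialLinear ι F) (e : x ^ 3 = 1) :
    (x.val.trace = 1 → x.val.charpoly = (X - 1) ^ 2 * (X ^ 2 + X + 1)) ∧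
      (x.val.trace = -2 → x.val.charpoly = (X ^ 2 + X + 1) ^ 2) := by
  have := fun h => cube_data hι h3 (congrArg Units.val e) (det_of_sl hx) fun h' =>
    not_sc hx (r := 3) (by rw [hι]; decide) e h ((mem_scalars_iff _).2 h')
  refine ⟨fun h => ?_, fun h => ?_⟩
  · rcases this fun e => h3 (by simp [e, hι] at h; linear_combination h) with h' | h' | ⟨ω, e1, e2, -⟩
    · exact h'.2
    · exact (h3 (by linear_combination h'.1 - h)).elim
    · obtain rfl : ω = 0 := (mul_eq_zero.1 (show 3 * ω = 0 by linear_combination h - e2)).resolve_left h3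
      simp at e1
  · rcases this fun e => mul_ne_zero h2 h3 (by simp [e, hι] at h; linear_combination h) with h' | h' | ⟨ω, e1, e2, -⟩
    · exact (h3 (by linear_combination h - h'.1)).elim
    · exact h'.2
    · obtain rfl : ω = -1 := mul_left_cancel₀ h3 (by linear_combination h - e2)
      simp at e1

namespace CL
variable [Finite F] {R G : Subgroup (GL ι F)} {a b c d : GL ι F} (h : CL R a b c d)
include h

omit [Finite F] in
theorem ne : Nonempty ι := Fintype.card_pos_iff.1 (by rw [h.card]; omega)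

omit [Finite F] in
theorem pm {x y : GL ι F} (hx : x ∈ R) (hy : y ∈ R) :
    x.val * y.val = y.val * x.val ∨ x.val * y.val = -(y.val * x.val) := by
  have := h.ne
  have e := of_comm (h.nc.comm x hx y hy)
  have e' := congrArg Units.val (pow_eq_one_left e (h.nc.pow x hx))
  replace e := congrArg Units.val e
  rcases sq_eq_one_iff.1 e' with e' | e' <;> simp [e'] at e <;> simp [e]

theorem norm {y : GL ι F} (hy : ∀ x ∈ R, ∃ m ∈ R, y.val * x.val = m.val * y.val ∨ y.val * x.val = -(m.val * y.val)) :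
    y ∈ Geo.subgroupNormalizer R := Subgroup.mem_normalizer_fintype fun x hx => by
  obtain ⟨m, hm, e | e⟩ := hy x hx
  · rwa [show y * x = m * y from Units.ext e, mul_inv_cancel_right]
  · rw [show y * x = a * a * m * y from Units.ext (by simp [e, h.aa]), mul_inv_cancel_right]
    exact R.mul_mem (R.mul_mem h.ma h.ma) hm

theorem hf_norm {y z : GL ι F} (hy : y ∈ R) (hz : z ∈ R) {hY : y.val * y.val = -1} {hZ : z.val * z.val = -1} :
    hf h.two hY hZ ∈ Geo.subgroupNormalizer R := h.norm fun x hx => by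
  have key : ∀ {y : GL ι F}, y ∈ R → y.val * y.val = -1 → ∀ x ∈ R, ∃ m ∈ R, (1 + y.val) * x.val = m.val * (1 + y.val) :=
    fun {y} hy hY x hx => by
      rcases h.pm hy hx with e | e
      · exact ⟨x, hx, by simp [mul_add, add_mul, e]⟩
      · exact ⟨y * x, R.mul_mem hy hx, by simp [mul_add, add_mul, e, mul_assoc, hY, add_comm]⟩
  obtain ⟨m, hm, e⟩ := key hz hZ x hx
  obtain ⟨n, hn, e'⟩ := key hy hY m hm
  exact ⟨n, hn, .inl (by rw [hf_val, smul_mul_assoc, mul_assoc, e, ← mul_assoc, e', mul_smul_comm, mul_assoc])⟩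

theorem five (hG : GOK G R) (h5 : (5 : F) ≠ 0) :
    ∃ y ∈ G ⊓ Geo.specialLinear ι F, y ∈ Geo.subgroupNormalizer R ∧ orderOf y = 5 := by
  have := h.ne
  have h2 := h.two
  let y := a * a * (hf h.two h.aa h.bb * hf h.two h.cc h.dd)
  have e : y.val + (y⁻¹).val = (-2 : F)⁻¹ • (1 + (a.val * (b.val * c.val) + a.val * (b.val * d.val) +
      a.val * (c.val * d.val) + b.val * (c.val * d.val) + a.val * (b.val * (c.val * d.val)))) := by
    have : (a⁻¹).val = -a.val := Units.inv_eq_of_mul_eq_one_right (by simp [h.aa])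
    simp only [y, mul_inv_rev, Units.val_mul, this]
    cl_simp h
    match_scalars <;> field_simp <;> ring
  have e2 : (y.val + (y⁻¹).val) * (y.val + (y⁻¹).val) + (y.val + (y⁻¹).val) - 1 = 0 := by
    rw [e]
    cl_simp h
    match_scalars <;> field_simp <;> ring
  refine ⟨y, ⟨G.mul_mem (hG.le (R.mul_mem h.ma h.ma)) (G.mul_mem (hG.hf h.ma h.mb) (hG.hf h.mc h.md)), sl_of_det ?_⟩,
    Subgroup.mul_mem _ (Subgroup.le_normalizer (R.mul_mem h.ma h.ma))
      (Subgroup.mul_mem _ (h.hf_norm h.ma h.mb) (h.hf_norm h.mc h.md)),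
    have := Fact.mk Nat.prime_five; orderOf_eq_prime (Units.ext ?_) fun e => h5 ?_⟩
  · simp only [y, Units.val_mul, h.aa, Matrix.det_mul, hf_det h.card h.ba, hf_det h.card h.dc, Matrix.det_neg, h.card]
    norm_num
  · have := congrArg (fun M => (y.val - 1) * (y.val * (y.val * M))) e2
    simp only [mul_add, add_mul, mul_sub, sub_mul, mul_assoc, Units.mul_inv, Units.inv_mul, mul_one, one_mul,
      Units.mul_inv_cancel_left, Units.inv_mul_cancel_left, mul_zero] at this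
    simp only [Units.val_mul, pow_succ, pow_zero, one_mul, mul_assoc, Units.val_one]
    rw [← sub_eq_zero, ← this]
    abel
  · obtain ⟨i⟩ := h.ne
    have := congrFun (congrFun e2 i) i
    simp [e, mul_add, add_mul] at this
    linear_combination this

theorem elu_five (hG : GOK G R) (h5 : (5 : F) ≠ 0)
    (hf : ∀ x ∈ G ⊓ Geo.specialLinear ι F, x ^ 5 = 1 → x ≠ 1 → ∀ v, x.val *ᵥ v = v → v = 0) :
    Elu (G ⊓ Geo.specialLinear ι F) R 5 := by
  have := h.ne
  obtain ⟨y, h1, h2, h3⟩ := h.five hG h5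
  exact red15 h.card inf_le_right (k := 3) rfl fun x hx e _ =>
    conj_of_fpf Nat.prime_five (by omega) hf h1 h2 h3.symm.dvd hx e

theorem elu_three (hG : GOK G R) (h3 : (3 : F) ≠ 0) {z : GL ι F} (hz : z ∈ R) {i : F} (hi : i * i = -1)
    (hz' : z.val = i • 1)
    (cp : ∀ x ∈ G, ∀ y ∈ G, x ^ 3 = 1 → y ^ 3 = 1 → x.val.charpoly = y.val.charpoly →
      ∃ g ∈ G ⊓ Geo.specialLinear ι F, g⁻¹ * x * g = y)
    (hω : ∀ x ∈ G, ∀ ω : F, ω * ω + ω + 1 = 0 → x.val.trace = 1 + 3 * ω → (x⁻¹).val.trace ≠ 1 + 3 * (ω * ω)) :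
    Elu (G ⊓ Geo.specialLinear ι F) R 3 := by
  have := h.ne
  have h2 := h.two
  refine red15 h.card inf_le_right (k := 5) rfl fun x hx e n => ?_
  have t1 : ∀ {Y Z : Matrix ι ι F} {hY hZ}, Z * Y = -(Y * Z) → (hf h2 hY hZ : GL ι F).val.trace = -2 := fun e => by
    rw [← mul_one (hf ..).val, hf_tr e (Commute.one_left _) (Commute.one_left _), Matrix.trace_one, h.card]
    field_simp; norm_num
  have key : ∀ y ∈ G, y ∈ Geo.subgroupNormalizer R → y ^ 3 = 1 → x.val.charpoly = y.val.charpoly →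
      ∃ g ∈ G ⊓ Geo.specialLinear ι F, g⁻¹ * x * g ∈ Geo.subgroupNormalizer R := fun y h1 h2 h3 h4 =>
    let ⟨g, hg, e⟩ := cp x hx.1 y h1 e h3 h4
    ⟨g, hg, e ▸ h2⟩
  rcases cube_data h.card h3 (congrArg Units.val e) (det_of_sl hx.2) (fun h' => n ((mem_scalars_iff _).2 h')) with
    h' | h' | ⟨ω, e1, e2, e3⟩
  · have uu : (z * (a * (b * c))).val * (z * (a * (b * c))).val = -1 := by
      simp only [Units.val_mul, hz']; cl_simp h; simp [smul_smul, hi]
    have vv : (c * d).val * (c * d).val = -1 := by cl_simp h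
    have vu : (c * d).val * (z * (a * (b * c))).val = -((z * (a * (b * c))).val * (c * d).val) := by
      simp only [Units.val_mul, hz']; cl_simp h; simp
    have m1 := R.mul_mem hz (R.mul_mem h.ma (R.mul_mem h.mb h.mc))
    have m2 := R.mul_mem h.mc h.md
    have c1 : Commute (hf h2 uu vv).val a.val := (hf_comm (by
      simp only [Commute, SemiconjBy, Units.val_mul, hz']; cl_simp h) (by simp only [Commute, SemiconjBy]; cl_simp h)).symm
    have c2 : Commute (hf h2 uu vv).val b.val := (hf_comm (by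
      simp only [Commute, SemiconjBy, Units.val_mul, hz']; cl_simp h) (by simp only [Commute, SemiconjBy]; cl_simp h)).symm
    have e4 : (hf h2 h.aa h.bb * hf h2 uu vv) ^ 3 = 1 := by
      rw [Commute.mul_pow (Commute.units_val_iff.1 (hf_comm c1 c2).symm), hf_cube h.ba, hf_cube vu, one_mul]
    refine key _ (G.mul_mem (hG.hf h.ma h.mb) (hG.hf m1 m2)) (Subgroup.mul_mem _ (h.hf_norm h.ma h.mb) (h.hf_norm m1 m2))
      e4 (h'.2.trans ((cube_cp h.card h2 h3 (Subgroup.mul_mem _ (sl_of_det (hf_det h.card h.ba))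
        (sl_of_det (hf_det h.card vu))) e4).1 ?_).symm)
    rw [Units.val_mul, hf_tr h.ba c1 c2, t1 vu]; field_simp
  · exact key (hf h2 h.aa h.bb) (hG.hf h.ma h.mb) (h.hf_norm h.ma h.mb) (hf_cube h.ba)
      (h'.2.trans ((cube_cp h.card h2 h3 (sl_of_det (hf_det h.card h.ba)) (hf_cube h.ba)).2 (t1 h.ba)).symm)
  · refine (hω x hx.1 ω e1 e2 ?_).elim
    rw [← e3, inv_eq_of_mul_eq_one_right (show x * x ^ 2 = 1 by rw [← pow_succ', e]), Units.val_pow_eq_pow_val]

omit [Finite F] in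
theorem sq_one : (a * (b * c)).val ^ 2 = (1 : F) • 1 ∧ (a * (b * c)).val.charpoly = (X ^ 2 - C 1) ^ 2 ∧
    a * (b * c) ∉ Geo.scalars ι F := by
  have := h.ne
  have e1 : (a * (b * c)).val ^ 2 = (1 : F) • 1 := by rw [sq, one_smul]; cl_simp h
  have e2 : d.val * (a * (b * c)).val = -((a * (b * c)).val * d.val) := by cl_simp h
  have n := nsc_anti h.two e2
  refine ⟨e1, ?_, n⟩
  rcases sq_data h.card h.two e1 one_ne_zero (fun e => n ((mem_scalars_iff _).2 e)) with h' | ⟨t, h1, h2, -⟩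
  · exact h'.2.2
  · rw [tr_anti h.two d.isUnit e2, eq_comm, mul_eq_zero] at h2
    simp [h2.resolve_left h.two] at h1

omit [Finite F] in
theorem sq_neg : a.val ^ 2 = (-1 : F) • 1 ∧ a.val.charpoly = (X ^ 2 - C (-1)) ^ 2 := by
  have := h.ne
  have e1 : a.val ^ 2 = (-1 : F) • 1 := by simp [sq, h.aa]
  refine ⟨e1, ?_⟩
  rcases sq_data h.card h.two e1 (by simp) (fun e => nsc_anti h.two h.ba ((mem_scalars_iff _).2 e)) with h' | ⟨t, h1, h2, -⟩
  · exact h'.2.2
  · rw [tr_anti h.two b.isUnit h.ba, eq_comm, mul_eq_zero] at h2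
    simp [h2.resolve_left h.two] at h1

theorem cz (hG : GOK G R) {u v : GL ι F} (hu : u ∈ R) (hv : v ∈ R) (uu : u.val * u.val = 1) (vv : v.val * v.val = 1)
    (vu : v.val * u.val = u.val * v.val) : ∃ y ∈ G, y ∈ Geo.subgroupNormalizer R ∧ y.val * y.val = 1 ∧
      y.val = (2 : F)⁻¹ • (1 + u.val + v.val - u.val * v.val) := by
  have h2 := h.two
  have e : (2 : F)⁻¹ • (1 + u.val + v.val - u.val * v.val) * (2 : F)⁻¹ • (1 + u.val + v.val - u.val * v.val) = 1 := by
    simp only [mul_add, add_mul, mul_sub, sub_mul, smul_mul_assoc, mul_smul_comm, mul_assoc, mul_one, one_mul,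
      uu, vv, vu, r1 uu, rc vu]
    match_scalars <;> field_simp <;> ring
  refine ⟨⟨_, _, e, e⟩, ?_, h.norm fun x hx => ?_, e, rfl⟩
  · rcases hG with rfl | ⟨P, S, hS, rfl, hR⟩
    · trivial
    have e : ∀ {y : GL ι F}, y ∈ R → y.val * y.val = 1 → adj S y.val = y.val := fun hy e =>
      (adj_iso hS (hR hy)).trans (Units.inv_eq_of_mul_eq_one_right e)
    refine mem_IsoB_of_adj hS ?_
    simp only [Units.inv_mk, adj_smul hS, adj_sub hS, adj_mul hS, adj_add hS, adj_one hS, e hu uu, e hv vv, vu,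
      map_inv₀, map_ofNat]
  · rcases h.pm hu hx with e1 | e1 <;> rcases h.pm hv hx with e2 | e2
    · exact ⟨x, hx, .inl (by simp [mul_add, add_mul, mul_sub, sub_mul, mul_assoc, e1, e2, rc e1])⟩
    · exact ⟨x * u, R.mul_mem hx hu, .inl (by
        simp [mul_add, add_mul, mul_sub, sub_mul, mul_assoc, e1, e2, rc e1, uu, r1 uu]; module)⟩
    · exact ⟨x * v, R.mul_mem hx hv, .inl (by
        simp [mul_add, add_mul, mul_sub, sub_mul, mul_assoc, e1, e2, ra e1, vv, vu, rc vu]; module)⟩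
    · exact ⟨x * (u * v), R.mul_mem hx (R.mul_mem hu hv), .inr (by
        simp only [Units.val_mul, mul_add, add_mul, mul_sub, sub_mul, mul_assoc, e1, e2, ra e1, vv, vu, rc vu, r1 uu,
          uu, smul_mul_assoc, mul_smul_comm, mul_one, one_mul, mul_neg, neg_neg]
        module)⟩

theorem elu_two (hG : GOK G R) {z : GL ι F} (hz : z ∈ R) {i : F} (hi : i * i = -1) (hz' : z.val = i • 1)
    (cp : ∀ x ∈ G, ∀ y ∈ G, ∀ t : F, t ≠ 0 → x.val ^ 2 = (t * t) • 1 → y.val ^ 2 = (t * t) • 1 →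
      x.val.charpoly = y.val.charpoly → ∃ g ∈ G ⊓ Geo.specialLinear ι F, g⁻¹ * x * g = y)
    (hs : ∀ x ∈ G, ∀ t : Fˣ, x.val ^ 2 = (t * t : F) • 1 → x.val.trace = 2 * t → sc ι t ∈ G) :
    Elu (G ⊓ Geo.specialLinear ι F) R 2 := fun x hx h1 n => by
  have := h.ne
  have h2 := h.two
  obtain ⟨s, h1⟩ := mem_scalars_iff'.1 h1
  replace h1 : x.val ^ 2 = (s : F) • 1 := by simpa using congrArg Units.val h1
  have key : ∀ y ∈ G, y ∈ Geo.subgroupNormalizer R → ∀ t : F, t * t = s → y.val ^ 2 = (s : F) • 1 →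
      x.val.charpoly = y.val.charpoly →
      ∃ g ∈ G ⊓ Geo.specialLinear ι F, g⁻¹ * x * g ∈ Geo.subgroupNormalizer R := fun y h2 h3 t ht h4 h5 =>
    let ⟨g, hg, e⟩ := cp x hx.1 y h2 t (by rintro rfl; simp [eq_comm] at ht) (ht ▸ h1) (ht ▸ h4) h5
    ⟨g, hg, e ▸ h3⟩
  rcases sq_data h.card h2 h1 s.ne_zero (fun e => n ((mem_scalars_iff _).2 e)) with ⟨-, e1, e2⟩ | ⟨t, e1, e2, e3, e4⟩
  · rw [det_of_sl hx.2] at e1
    rcases mul_self_eq_one_iff.1 e1.symm with e | e <;> rw [e] at key e2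
    · have m := R.mul_mem h.ma (R.mul_mem h.mb h.mc)
      exact key _ (hG.le m) (Subgroup.le_normalizer m) 1 (by simp) h.sq_one.1 (e2.trans h.sq_one.2.1.symm)
    · exact key _ (hG.le h.ma) (Subgroup.le_normalizer h.ma) i hi h.sq_neg.1 (e2.trans h.sq_neg.2.symm)
  obtain ⟨y, y1, y2, y3, y4⟩ := h.cz hG (R.mul_mem hz h.ma) (R.mul_mem hz (R.mul_mem h.mb h.mc))
    (by simp only [Units.val_mul, hz']; cl_simp h; simp [smul_smul, hi])
    (by simp only [Units.val_mul, hz']; cl_simp h; simp [smul_smul, hi])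
    (by simp only [Units.val_mul, hz']; cl_simp h)
  have t0 : t ≠ 0 := by rintro rfl; simp [eq_comm] at e1
  have t1 := tr_anti h2 b.isUnit h.ba
  have t2 : (b.val * c.val).trace = 0 := tr_anti h2 b.isUnit (by cl_simp h)
  have t3 : (a.val * (b.val * c.val)).trace = 0 := tr_anti h2 d.isUnit (by cl_simp h)
  have y5 : y.val.trace = 2 := by
    simp [y4, hz', t1, t2, t3, h.card]
    field_simp; norm_num
  have y6 : (sc ι (Units.mk0 t t0) * y).val ^ 2 = (s : F) • 1 := by simp [sq, smul_smul, y3, e1]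
  refine key _ (G.mul_mem (hs x hx.1 (Units.mk0 t t0) (e1 ▸ h1) e2) y1) (Subgroup.mul_mem _ (sc_norm R _) y2) t e1 y6 ?_
  have y7 : ¬ IsSc (sc ι (Units.mk0 t t0) * y).val := fun e => by
    obtain ⟨k, hk⟩ := (mem_scalars_iff _).1 ((Subgroup.mul_mem_cancel_left _ (sc_mem _)).1 ((mem_scalars_iff _).2 e))
    replace hk := congrArg (fun M => (a.val * M).trace) (y4.symm.trans hk)
    simp [hz', mul_add, mul_sub, h.aa, rn h.aa, t1, t2, t3, h.card, h2, show (4 : F) ≠ 0 from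
      fun e => h2 (mul_self_eq_zero.1 (by linear_combination e))] at hk
    simp [hk] at hi
  rcases sq_data h.card h2 y6 s.ne_zero y7 with ⟨e, -⟩ | ⟨t', -, e, -, e'⟩
  · simp [y5, t0, h2] at e
  · rw [e4, e', show t' = t from mul_left_cancel₀ h2 (by simpa [y5, mul_comm] using e.symm)]

end CL

variable [Finite F] {R : Subgroup (GL ι F)}

theorem ncore_of_symp [Nonempty ι] (hR : Geo.IsSymplecticTypeGroup 2 R) (hf : Full (Geo.matrixSet R))
    (hn : ¬ R ≤ Geo.scalars ι F) : NCore R 2 := by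
  have h4 : ∀ x : R, x ^ 4 = 1 := fun x => by simpa [hR.exponent_eq] using Monoid.pow_exponent_eq_one x
  have sq' : ∀ x : R, (x * x).1 ∈ Geo.scalars ι F := fun x => sc_of_center hf
    (Subgroup.mem_center_iff.2 (class_two hR.pGroup hR.cyclic_of_characteristic h4 x))
  have sq : ∀ x ∈ R, x * x ∈ Geo.scalars ι F := fun x hx => sq' ⟨x, hx⟩
  refine ⟨Nat.prime_two, hn, fun x hx y hy => ?_, fun x hx => pow_two x ▸ sq x hx⟩
  rw [show ⁅x, y⁆ = x * x * (x⁻¹ * y * (x⁻¹ * y)) * (y⁻¹ * y⁻¹) by rw [commutatorElement_def]; group]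
  exact mul_mem (mul_mem (sq x hx) (sq _ (R.mul_mem (R.inv_mem hx) hy))) (sq _ (R.inv_mem hy))

omit [Finite F] in
theorem rep_val (r : R) : rep R r = Matrix.toLinAlgEquiv' r.1.val := H7.toLE_coe _

theorem exists_cl_cx (hι : Fintype.card ι = 4) (hR : Geo.IsSymplecticTypeGroup 2 R)
    (hirr : Geo.ActsAbsolutelyIrreducibly (Geo.matrixSet R)) (h2 : (2 : F) ≠ 0)
    (hZ : Nat.card (Subgroup.center R) = 4) :
    ∃ a b c d, CL R a b c d ∧ ∃ z ∈ R, ∃ i : F, i * i = -1 ∧ z.val = i • 1 := by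
  have : Nonempty ι := Fintype.card_pos_iff.1 (by omega)
  obtain ⟨W, _, _, _, D, hq, -, hη, -⟩ := geo_cx hR hirr h2 hZ hι.ge
  choose r hr using hη
  simp only [rep_val] at hr
  obtain ⟨a, b, c, d, h⟩ := H8.C6.exists_four D.toSp (by rw [← D.finrank_sq, finrank_fintype_fun_eq_card, hι]; rfl)
  have sq : ∀ u v, D.f u v = 1 → (r u).1.val * (r u).1.val = -1 := fun u v e => Matrix.toLinAlgEquiv'.injective (by
    rw [map_mul, ← hr, D.sq1 (hq u (by rintro rfl; simp at e))]; simp)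
  have an : ∀ u v, D.f u v = 1 → (r v).1.val * (r u).1.val = -((r u).1.val * (r v).1.val) := fun u v e =>
    Matrix.toLinAlgEquiv'.injective (by rw [map_neg, map_mul, map_mul, ← hr, ← hr, D.comm1 e, neg_neg])
  have hf := full_iff_absIrr.2 hirr
  have cl : CL R (r a) (r b) (r c) (r d) := ⟨hι, h2, ncore_of_symp hR hf fun e => nsc_anti h2 (an _ _ h.ab) (e (r a).2), hf,
    (r a).2, (r b).2, (r c).2, (r d).2, sq _ _ h.ab, sq _ _ h.bc, sq _ _ h.cd, sq _ _ ((D.symm _ _).trans h.cd),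
    an _ _ h.ab, an _ _ h.ac, an _ _ h.ad, an _ _ h.bc, an _ _ h.bd, an _ _ h.cd⟩
  obtain ⟨k, k0, hk⟩ := D.mul b c
  obtain ⟨l, l0, hl⟩ := D.mul a (b + c)
  have e : (r a).1.val * ((r b).1.val * (r c).1.val) = (k * l) • (r (a + (b + c))).1.val :=
    Matrix.toLinAlgEquiv'.injective (by
      rw [map_smul, map_mul, map_mul, ← hr, ← hr, ← hr, ← hr, hk, mul_smul_comm, hl, smul_smul])
  have e1 := sq (a + (b + c)) d (by simp [h.ad, h.bd, h.cd])
  have e2 := cl.sq_one.1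
  simp only [Units.val_mul, e, sq, smul_mul_assoc, mul_smul_comm, e1, smul_smul, pow_two] at e2
  refine ⟨_, _, _, _, cl, _, (r a * (r b * r c) * (r (a + (b + c)))⁻¹).2, k * l, ?_, by simp [e]⟩
  obtain ⟨i⟩ := this
  simpa [neg_eq_iff_eq_neg] using congrFun (congrFun e2 i) i

omit [Finite F] in
theorem exists_tau (F : Type*) [Field F] {p : ℕ} [Fact p.Prime] [CharP F p] (h2 : p ≠ 2) (h : orderOf (p : ZMod 5) ≠ 4) :
    ∃ τ : F, τ * τ + τ - 1 = 0 ∧ τ ^ p = τ := by
  have h5 : ∀ a : ZMod 5, IsSquare a ∨ a ^ 4 = 1 ∧ ∀ m < 4, 0 < m → a ^ m ≠ 1 := by decide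
  have := Fact.mk Nat.prime_five
  obtain ⟨s, hs⟩ := (ZMod.exists_sq_eq_prime_iff_of_mod_four_eq_one (p := 5) rfl h2).1
    ((h5 p).resolve_right fun e => h ((orderOf_eq_iff (by omega)).2 e))
  have : (2 : ZMod p) ≠ 0 := fun e => h2 ((Nat.prime_dvd_prime_iff_eq Fact.out Nat.prime_two).1
    ((ZMod.natCast_eq_zero_iff 2 p).1 (by exact_mod_cast e)))
  refine ⟨ZMod.castHom dvd_rfl F ((s - 1) / 2), ?_, by rw [← map_pow, ZMod.pow_card]⟩
  rw [← map_mul, ← map_add, ← map_one (ZMod.castHom dvd_rfl F), ← map_sub, map_eq_zero]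
  field_simp
  push_cast at hs
  linear_combination -hs

omit [Finite F] in
theorem fpf_of_dvd {p : ℕ} [Fact p.Prime] [CharP F p] (hp : 5 ≠ p) (hι : Fintype.card ι = 4) {x : GL ι F} (h : x ^ 5 = 1)
    (h1 : x ≠ 1) (h4 : (Matrix.toLinAlgEquiv' x.val) ^ 5 = 1 → 4 ∣ finrank F (H9.FSS.Dx 5 (Matrix.toLinAlgEquiv' x.val)))
    (v : ι → F) (hv : x.val *ᵥ v = v) : v = 0 := by
  have := Fact.mk Nat.prime_five
  have e : (Matrix.toLinAlgEquiv' x.val) ^ 5 = 1 := by rw [← map_pow, ← Units.val_pow_eq_pow_val, h]; simp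
  have h2 := Submodule.finrank_eq_zero.not.2 (H9.FSS.Dx_ne_bot hp e fun e => h1 (Units.ext
    (Matrix.toLinAlgEquiv'.injective (e.trans (map_one _).symm))))
  have h3 := Submodule.finrank_le (H9.FSS.Dx 5 (Matrix.toLinAlgEquiv' x.val))
  have h5 := h4 e
  refine H9.FSS.Dx_fixed hp (r := 5) (f := Matrix.toLinAlgEquiv' x.val) ?_ hv
  rw [Submodule.eq_top_of_finrank_eq (S := H9.FSS.Dx 5 (Matrix.toLinAlgEquiv' x.val)) (by rw [finrank_fintype_fun_eq_card] at h3 ⊢; omega)]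
  trivial

theorem not_elu_three {G R : Subgroup (GL (Fin 4) F)} (hc : NCore R 2) (hf : Full (Geo.matrixSet R)) {ω : F}
    (hω : IsPrimitiveRoot ω 3) (h : ∀ x : GL (Fin 4) F, x.val = Matrix.diagonal ![ω, ω, ω, 1] → x ∈ G) :
    ¬ Elu (G ⊓ Geo.specialLinear (Fin 4) F) R 3 := by
  have e : (Matrix.diagonal ![ω, ω, ω, 1]).det = 1 := by simpa [Fin.prod_univ_four, pow_three'] using hω.pow_eq_one
  obtain ⟨x, hx⟩ : ∃ x : GL (Fin 4) F, x.val = Matrix.diagonal ![ω, ω, ω, 1] :=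
    ⟨.mkOfDetNeZero _ (e.trans_ne one_ne_zero), rfl⟩
  have e1 : x ^ 3 = 1 := Units.ext (by
    rw [Units.val_pow_eq_pow_val, hx, Matrix.diagonal_pow, Units.val_one, ← Matrix.diagonal_one]
    congr 1; ext i; fin_cases i <;> simp [hω.pow_eq_one])
  rw [← hx] at e
  refine not_elu_rk (by simp) hc hf Nat.prime_three (by omega) ⟨h x hx, sl_of_det e⟩ (c := ω) (u := Pi.single 3 1)
    (φ := Pi.single 3 (1 - ω)) ?_ (e1 ▸ one_mem _) (not_sc (sl_of_det e) (by simp; decide) e1 fun e =>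
      hω.ne_one (by omega) (by simpa [e] using (congrFun (congrFun hx 0) 0).symm))
  ext i j
  fin_cases i <;> fin_cases j <;> simp [hx, Matrix.vecMulVec_apply]

end Cfsg.Agent.H2.El
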