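import Cfsg.Agent.H2.TL1

set_option autoImplicit false

/-! Transvection groups with a centre on two axes are special linear groups. -/

namespace Cfsg.Agent.H2.TL
open Module Cfsg.Agent.H7 Cfsg.Agent.H5.TA Cfsg.Agent.H1.Root Cfsg.Agent.H1.C5 Matrix

variable {K V : Type*} [Field K] [Finite K] [AddCommGroup V] [Module K V] {M : Subgroup (V ≃ₗ[K] V)} {v w w' : V}

theorem cnt (h : Hy M) (v0 : v ≠ 0) (hv : Big M v) (hw : Big M w) (e : w ∉ K ∙ v) : ∃ n : Dual K V,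
    {a | ∃ φ, Ph M v φ ∧ φ w = a}.ncard ≤ {φ | (Ph M v φ ∧ φ w = 0) ∧ φ ∈ K ∙ n}.ncard := by
  have : FiniteDimensional K V := .of_finrank_eq_succ h.dim
  have : Finite (Dual K V) := Module.finite_of_finite K
  have a1 : v ∉ Lk M w := fun a => e (by
    obtain ⟨c, rfl⟩ := Submodule.mem_span_singleton.1 (good h hw (fun e' => e (by simp [e'])) a)
    exact Submodule.mem_span_singleton.2 ⟨c⁻¹, by rw [smul_smul, inv_mul_cancel₀ (left_ne_zero_of_smul v0), one_smul]⟩)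
  obtain ⟨χ, c⟩ := not_forall.1 a1
  obtain ⟨c1, c2⟩ := _root_.not_imp.1 c
  obtain ⟨n, n1, n2, n3⟩ : ∃ n, Ph M v n ∧ n w = 0 ∧ n ≠ 0 := by
    by_contra! hN
    exact (dick h.dim hv c1 c2 hN).1 (good h hv v0)
  refine ⟨n, Set.ncard_le_ncard_of_injOn (fun a => a • χ v • n) ?_ fun a _ b _ e =>
    smul_left_injective K (smul_ne_zero c2 n3) e⟩
  rintro _ ⟨φ, p, rfl⟩
  exact ⟨⟨(n1.comm c1 n2).comm p (by simp [n1.1]), by simp [n2]⟩,
    Submodule.smul_mem _ _ (Submodule.smul_mem _ _ (Submodule.mem_span_singleton_self n))⟩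

theorem two_N (h : Hy M) (v0 : v ≠ 0) (hv : Big M v) (hw : Big M w) (hw' : Big M w') (e : w ∉ K ∙ v) (e' : w' ∉ K ∙ v) :
    ∃ η, η ≠ 0 ∧ Ph M v η ∧ η w = 0 ∧ η w' = 0 := by
  have : FiniteDimensional K V := .of_finrank_eq_succ h.dim
  have : Finite (Dual K V) := Module.finite_of_finite K
  by_contra hn
  have hN : ∀ η, Ph M v η → η w = 0 → η w' = 0 → η = 0 := fun η a b c => by_contra fun d => hn ⟨η, d, a, b, c⟩
  obtain ⟨n, c1⟩ := cnt h v0 hv hw e
  obtain ⟨n', c2⟩ := cnt h v0 hv hw' e'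
  have k : ∀ w w', (∀ η, Ph M v η → η w = 0 → η w' = 0 → η = 0) →
      ((fun φ : Dual K V => φ w') '' {φ | Ph M v φ ∧ φ w = 0}).ncard = {φ | Ph M v φ ∧ φ w = 0}.ncard :=
    fun w w' hN => Set.ncard_image_of_injOn fun φ a ψ b e =>
      sub_eq_zero.1 (hN _ (a.1.sub b.1) (by simp [a.2, b.2]) (sub_eq_zero.2 e))
  have s : ∀ w w', (fun φ : Dual K V => φ w') '' {φ | Ph M v φ ∧ φ w = 0} ⊆ {a | ∃ φ, Ph M v φ ∧ φ w' = a} := by
    rintro w w' _ ⟨φ, a, rfl⟩; exact ⟨φ, a.1, rfl⟩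
  have s' : ∀ w n, {φ | (Ph M v φ ∧ φ w = 0) ∧ φ ∈ K ∙ n} ⊆ {φ : Dual K V | Ph M v φ ∧ φ w = 0} := fun _ _ _ a => a.1
  have a1 := k w w' hN
  have a2 := k w' w fun η a b c => hN η a c b
  have a3 := Set.ncard_le_ncard (s w w')
  have a4 := Set.ncard_le_ncard (s w' w)
  have a5 := Set.ncard_le_ncard (s' w n)
  have a6 := Set.ncard_le_ncard (s' w' n')
  have b1 := Set.eq_of_subset_of_ncard_le (s' w n) (by omega)
  have b2 := Set.eq_of_subset_of_ncard_le (s' w' n') (by omega)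
  have b3 := Set.eq_of_subset_of_ncard_le (s w' w) (by omega)
  obtain ⟨z, z1, z2, z3⟩ := two_ker h.dim n n' v
  refine z1 (good h hv v0 fun φ p => ?_)
  obtain ⟨ψ, q, e⟩ := b3.ge ⟨φ, p, rfl⟩
  obtain ⟨c, hc⟩ := Submodule.mem_span_singleton.1 (b1.ge (show φ - ψ ∈ _ from ⟨p.sub q.1, sub_eq_zero.2 e.symm⟩)).2
  obtain ⟨d, rfl⟩ := Submodule.mem_span_singleton.1 (b2.ge q).2
  simpa [z2, z3] using (LinearMap.congr_fun hc z).symm

theorem roots (h : Hy M) (b : Basis (Fin 4) K V) (hb : ∀ i, Big M (b i)) {i j : Fin 4} (hij : i ≠ j) :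
    ∃ a : K, a ≠ 0 ∧ Has M (a • b.coord j) (b i) := by
  obtain ⟨k, l, h1, h2, h3⟩ : ∃ k l, k ≠ i ∧ l ≠ i ∧ ∀ m, m ≠ j → m = i ∨ m = k ∨ m = l := by revert i j; decide
  have n : ∀ k, k ≠ i → b k ∉ K ∙ b i := fun k hk e => by
    obtain ⟨c, hc⟩ := Submodule.mem_span_singleton.1 e
    simpa [hk.symm] using congrArg (b.coord k) hc
  obtain ⟨η, e0, e1, e2, e3⟩ := two_N h (b.ne_zero i) (hb i) (hb k) (hb l) (n k h1) (n l h2)
  have : η = η (b j) • b.coord j := b.ext fun m => by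
    by_cases e : m = j
    · simp [e]
    · rcases h3 m e with rfl | rfl | rfl <;> simp [e, e1.1, e2, e3]
  exact ⟨_, fun e => e0 (by rw [this, e, zero_smul]), this ▸ e1.2⟩

theorem rt_one {N : Subgroup ((Fin 4 → K) ≃ₗ[K] (Fin 4 → K))} (h0 : ∀ j, 0 ≠ j → Rt N 0 j 1)
    (h1 : ∀ i j, i ≠ j → ∃ a, a ≠ 0 ∧ Rt N i j a) : ∀ i j, i ≠ j → Rt N i j 1 := by
  have := Fintype.ofFinite K
  have c := Fintype.one_lt_card (α := K)
  have k : ∀ i j, 0 ≠ i → 0 ≠ j → i ≠ j → ∀ a, Rt N i 0 a → ∀ n, Rt N i j (a ^ (n + 1)) := fun i j hi hj hij a ha n => by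
    induction n with
    | zero => simpa using ha.comm (h0 j hj) hi.symm hj hij
    | succ n ih => simpa [pow_succ'] using ha.comm ((h0 i hi).comm ih hi hij hj) hi.symm hj hij
  have k1 : ∀ i j, 0 ≠ j → i ≠ j → Rt N i j 1 := fun i j hj hij => by
    by_cases hi : 0 = i
    · exact hi ▸ h0 j hj
    obtain ⟨a, a0, ha⟩ := h1 i 0 (Ne.symm hi)
    simpa [show Fintype.card K - 2 + 1 = Fintype.card K - 1 by omega, FiniteField.pow_card_sub_one_eq_one a a0] using
      k i j hi hj hij a ha (Fintype.card K - 2)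
  intro i j hij
  by_cases hj : 0 = j
  swap
  · exact k1 i j hj hij
  subst hj
  obtain ⟨a, a0, ha⟩ := h1 i 0 hij
  obtain ⟨j, j1, j2⟩ := (by decide : ∀ i : Fin 4, ∃ j, 0 ≠ j ∧ i ≠ j) i
  have := (k i j hij.symm j1 j2 a ha (2 * (Fintype.card K - 2))).comm ((k1 j i hij.symm j2.symm).comm ha j2.symm hij j1.symm)
    j2 j1.symm hij
  rwa [one_mul, ← pow_succ, show 2 * (Fintype.card K - 2) + 1 + 1 = (Fintype.card K - 1) * 2 by omega, pow_mul,
    FiniteField.pow_card_sub_one_eq_one a a0, one_pow] at this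

theorem fin {N : Subgroup ((Fin 4 → K) ≃ₗ[K] (Fin 4 → K))} (h1 : ∀ i j, i ≠ j → Rt N i j 1)
    (gen : ∀ N', (∀ φ v, φ v = 0 → Has N φ v → Has N' φ v) → N ≤ N') (hd : ∀ g ∈ N, LinearEquiv.det g = 1) :
    ∃ E : Subfield K, ∀ g : (Fin 4 → K) ≃ₗ[K] (Fin 4 → K), g ∈ N ↔
      (LinearMap.toMatrix' g.toLinearMap).det = 1 ∧ ∀ i j, LinearMap.toMatrix' g.toLinearMap i j ∈ E := by
  have := Fintype.ofFinite K
  let R : Subring K :=
    { carrier := {a | ∀ i j, i ≠ j → Rt N i j a}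
      mul_mem' := fun {a b} ha hb i j hij => by
        obtain ⟨k, h1, h2⟩ : ∃ k, i ≠ k ∧ k ≠ j := by revert i j; decide
        exact (ha i k h1).comm (hb k j h2) h1 h2 hij
      one_mem' := h1
      add_mem' := fun {a b} ha hb i j hij => (ha i j hij).add (hb i j hij) hij
      zero_mem' := fun i j _ => rt_zero i j
      neg_mem' := fun ha i j hij => (ha i j hij).neg hij }
  let E := R.toSubfield fun a ha => by
    by_cases a0 : a = 0
    · simp [a0]
    · have := Fintype.one_lt_card (α := K)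
      rw [inv_eq_of_mul_eq_one_right (show a * a ^ (Fintype.card K - 2) = 1 by
        rw [← pow_succ', show Fintype.card K - 2 + 1 = Fintype.card K - 1 by omega,
          FiniteField.pow_card_sub_one_eq_one a a0])]
      exact pow_mem ha _
  have dt : ∀ g : (Fin 4 → K) ≃ₗ[K] (Fin 4 → K), (LinearMap.toMatrix' g.toLinearMap).det = 1 ↔ LinearEquiv.det g = 1 :=
    fun g => by rw [LinearMap.det_toMatrix', ← LinearEquiv.coe_det, Units.val_eq_one]
  let β := toLE.toMonoidHom.comp (Matrix.GeneralLinearGroup.map (n := Fin 4) E.subtype)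
  have b0 : ∀ A, LinearMap.toMatrix' (β A).toLinearMap = A.val.map E.subtype := fun A =>
    (congrArg _ (toLE_coe _)).trans (LinearMap.toMatrix'_toLin' _)
  have ex : ∀ g : (Fin 4 → K) ≃ₗ[K] (Fin 4 → K), LinearEquiv.det g = 1 →
      (∀ i j, LinearMap.toMatrix' g.toLinearMap i j ∈ E) → ∃ A, A.val.det = 1 ∧ β A = g := fun g g1 g2 => by
    have : (of fun i j => (⟨_, g2 i j⟩ : E)).det = 1 := E.subtype.injective (by
      rw [RingHom.map_det, map_one, ← (dt g).2 g1]; rfl)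
    exact ⟨Matrix.GeneralLinearGroup.mkOfDetNeZero _ (this ▸ one_ne_zero), this,
      LinearEquiv.toLinearMap_injective (LinearMap.toMatrix'.injective (b0 _))⟩
  have rat : ∀ {g : (Fin 4 → K) ≃ₗ[K] (Fin 4 → K)} {φ : Dual K (Fin 4 → K)} {v}, (∀ z, g z = z + φ z • v) →
      (∀ i k, φ (ee K k) * v i ∈ E) → ∀ i j, LinearMap.toMatrix' g.toLinearMap i j ∈ E := fun e h i j => by
    rw [LinearMap.toMatrix'_apply, LinearEquiv.coe_coe, e]
    exact add_mem (ee_mem E j i) (h i j)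
  have S : ∀ g : (Fin 4 → K) ≃ₗ[K] (Fin 4 → K), LinearEquiv.det g = 1 →
      (∀ i j, LinearMap.toMatrix' g.toLinearMap i j ∈ E) → g ∈ N := fun g g1 g2 => by
    obtain ⟨A, a1, rfl⟩ := ex g g1 g2
    simpa using mem_of_rt_all (K := N.comap (β.comp toLE.symm.toMonoidHom)) (fun i j hij a => by
      obtain ⟨t, t1, t2⟩ := a.2 i j hij
      obtain ⟨B, -, rfl⟩ := ex t (hd t t1) (rat t2 fun i' k => mul_mem (mul_mem a.2 (ee_mem E _ _)) (ee_mem E _ _))
      refine ⟨toLE B, by simpa using t1, fun z => funext fun k => E.subtype.injective ?_⟩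
      have := congrFun (t2 (E.subtype ∘ z)) k
      rw [toLE_apply, RingHom.map_mulVec]
      refine this.trans ?_
      by_cases e : k = i <;> simp [e]) (toLE A) (by rw [det_toLE]; exact Units.ext a1)
  have hR : HasRat E N := fun ψ w h1 h2 h0 => has_of_forall h0 (· ∈ N) (fun _ h => h) fun g g1 g2 =>
    S g g1 (rat g2 fun i k => mul_mem (h1 k) (h2 i))
  refine ⟨E, fun g => ⟨fun hg => ⟨(dt g).2 (hd g hg), ?_⟩, fun h => S g ((dt g).1 h.1) h.2⟩⟩
  obtain ⟨A, rfl⟩ := gen β.range (fun φ v h0 h => by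
    obtain ⟨t, t1, t2⟩ := id h
    obtain ⟨B, -, rfl⟩ := ex t (hd t t1) (rat t2 fun i k => by_contra fun e =>
      (irr_of_has (by simp) hR h h0 e).elim fun _ a => a.1 a.2)
    exact ⟨_, ⟨B, rfl⟩, t2⟩) hg
  intro i j
  rw [b0]
  exact (A.val i j).2

/-- a centre on two axes forces the full special linear group -/
theorem large {φ ψ : Dual K V} (h : Hy M) (h1 : Tv M φ v) (h2 : Tv M ψ v) (hn : ¬ ∃ c : K, ψ = c • φ) : IsSL M := by
  have : FiniteDimensional K V := .of_finrank_eq_succ h.dim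
  have hb : Big M v := ⟨φ, ψ, ⟨h1.zero, h1.has⟩, ⟨h2.zero, h2.has⟩, h1.φ0, hn⟩
  obtain ⟨b, b1⟩ : ∃ b : Basis (Fin 4) K V, ∀ i, Big M (b i) := by
    have a := (h.irr (Submodule.span K {x | Big M x}) fun g hg x hx =>
      (Submodule.span_le (p := (Submodule.span K _).comap (g : V →ₗ[K] V))).2
        (fun y hy => Submodule.subset_span (Big.map hy hg)) hx).resolve_left fun e =>
      h1.v0 ((Submodule.mem_bot K).1 (e ▸ Submodule.subset_span hb))
    have := Submodule.exists_fun_fin_finrank_span_eq K {x | Big M x}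
    rw [a, finrank_top, h.dim] at this
    obtain ⟨f, f1, f2, f3⟩ := this
    exact ⟨Basis.mk f3 f2.ge, by simpa using f1⟩
  choose a a0 ha using fun i j (e : i ≠ j) => roots h b b1 e
  let u : Fin 4 → Kˣ := fun j => if e : 0 = j then 1 else (Units.mk0 _ (a0 0 j e))⁻¹
  let c := b.unitsSMul u
  let θ : ((Fin 4 → K) ≃ₗ[K] (Fin 4 → K)) →* (V ≃ₗ[K] V) :=
    MonoidHom.mk' (fun g => c.equivFun.trans (g.trans c.equivFun.symm)) fun _ _ => LinearEquiv.ext fun _ => by
      simp [-Basis.equivFun_apply, -Basis.equivFun_symm_apply]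
  have sj : ∀ g, ∃ g', θ g' = g := fun g =>
    ⟨c.equivFun.symm.trans (g.trans c.equivFun), LinearEquiv.ext fun _ => by simp [θ]⟩
  have hs : ∀ (N : Subgroup (V ≃ₗ[K] V)) φ v, Has (N.comap θ) φ v ↔
      Has N (φ ∘ₗ c.equivFun.toLinearMap) (c.equivFun.symm v) := fun N φ v =>
    ⟨fun ⟨g, g1, g2⟩ => ⟨_, g1, fun z => by simp [θ, g2, -Basis.equivFun_apply, -Basis.equivFun_symm_apply]⟩,
      fun ⟨g, g1, g2⟩ => by
        obtain ⟨g, rfl⟩ := sj g
        exact ⟨g, g1, fun z => c.equivFun.symm.injective (by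
          simpa [θ, -Basis.equivFun_apply, -Basis.equivFun_symm_apply] using g2 (c.equivFun.symm z))⟩⟩
  have rt : ∀ i j (e : i ≠ j), Rt (M.comap θ) i j (a i j e * u j * (u i)⁻¹) := fun i j e => (hs _ _ _).2 ((ha i j e).congr
    fun z => by
      simp [c, Pi.single_apply, Basis.unitsSMul_apply, Basis.repr_unitsSMul, Units.smul_def, smul_smul]
      congr 1; field_simp)
  have tm : ∀ g', LinearMap.toMatrix c c (θ g').toLinearMap = LinearMap.toMatrix' g'.toLinearMap := fun g' => by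
    ext i j
    simp [θ, LinearMap.toMatrix_apply, -Basis.equivFun_symm_apply, ← Basis.equivFun_apply, Basis.equivFun_self]
    exact congrArg (g' · i) (funext fun k => by simp [Pi.single_apply, eq_comm])
  have dt : ∀ g ∈ M, LinearEquiv.det g = 1 := fun g hg => (show ⁅M, M⁆ ≤ LinearEquiv.det.ker from
    Subgroup.commutator_le.2 fun a _ b _ => by
      rw [MonoidHom.mem_ker, map_commutatorElement, commutatorElement_eq_one_iff_mul_comm, mul_comm]) (h.perf.ge hg)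
  obtain ⟨E, hE⟩ := fin (N := M.comap θ) (rt_one (fun j e => by simpa [u, e, a0] using rt 0 j e)
    fun i j e => ⟨_, by simp [a0], rt i j e⟩) (fun N hN g hg => by
      obtain ⟨g', g1, g2⟩ := h.gen φ v h1 (N.map θ) (fun g hg => by
        have t := h1.map hg
        obtain ⟨x, x1, x2⟩ := hN ((φ ∘ₗ g.symm.toLinearMap) ∘ₗ c.equivFun.symm.toLinearMap) (c.equivFun (g v))
          (by simp [h1.zero]) ((hs _ _ _).2 (t.has.congr fun z => by simp))
        exact ⟨_, ⟨x, x1, rfl⟩, fun z => by simp [θ, x2, -Basis.equivFun_apply, -Basis.equivFun_symm_apply]⟩) hg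
      rwa [← show g' = g from LinearEquiv.ext fun z => c.equivFun.symm.injective (by
        simpa [θ, -Basis.equivFun_apply, -Basis.equivFun_symm_apply] using LinearEquiv.congr_fun g2 (c.equivFun.symm z))])
    fun g hg => by
      have := congrArg Units.val (dt _ hg)
      rwa [LinearEquiv.coe_det, ← LinearMap.det_toMatrix c, tm, LinearMap.det_toMatrix', ← LinearEquiv.coe_det,
        Units.val_inj] at this
  refine ⟨E, c, fun g => ?_⟩
  obtain ⟨g, rfl⟩ := sj g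
  rw [tm]
  exact hE g

end Cfsg.Agent.H2.TL
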