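import Cfsg.Agent.O6.D2

set_option autoImplicit false

/-! The rank four case: there are no roots of type `H₃`. -/

namespace Cfsg.Agent.H2.NH
open Matrix Equiv Cfsg.Agent.O6 Cfsg.Agent.O6.OG

/-- rearrangements of a triple -/
def Sm (i j k a b c : Fin 6) : Prop := (a = i ∧ b = j ∧ c = k) ∨ (a = i ∧ b = k ∧ c = j) ∨ (a = j ∧ b = i ∧ c = k) ∨
  (a = j ∧ b = k ∧ c = i) ∨ (a = k ∧ b = i ∧ c = j) ∨ (a = k ∧ b = j ∧ c = i)

instance (i j k a b c : Fin 6) : Decidable (Sm i j k a b c) := by unfold Sm; infer_instance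

/-- triples in the same half -/
def Sa (i j k : Fin 6) : Prop := (i < 3 ↔ j < 3) ∧ (i < 3 ↔ k < 3)

instance (i j k : Fin 6) : Decidable (Sa i j k) := by unfold Sa; infer_instance

theorem c_supp : ∀ i j k : Fin 6, i ≠ j → i ≠ k → j ≠ k → Sa i j k ∨ ∃ x y w, Sm 0 1 2 x y w ∧
    ∃ a, (Sm i j k y w a ∧ [x, y, w, a].Nodup) ∨ ∃ b, Sm i j k x a b ∧ [x, y, w, a, b].Nodup := by decide +kernel

theorem c_half : ∀ σ : P6, Sa (σ 0) (σ 1) (σ 2) → ((∀ i, σ i < 3 ↔ i < 3) ∨ ∀ i, σ i < 3 ↔ ¬ i < 3) ∧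
    (σ * σ = 1 → Perm.sign σ = 1 → σ = 1 ∨ ∃ i j k, Sm 0 1 2 i j k ∧ σ i = j ∧ σ j = i ∧ σ k = k) := by decide +kernel

theorem c_third : ∀ a b i j k : Fin 6, a ≠ b → i ≠ j → i ≠ k → j ≠ k → Sa i j k →
    ¬(i = a ∨ i = b ∨ j = a ∨ j = b ∨ k = a ∨ k = b) → ∃ c, a ≠ c ∧ b ≠ c ∧ Sa a b c ∧
      ∀ l, ¬(l = i ∨ l = j ∨ l = k) ↔ l = a ∨ l = b ∨ l = c := by decide +kernel

theorem c_in : ∀ a c i j k : Fin 6, (a < 3 ↔ c < 3) → i ≠ j → i ≠ k → j ≠ k → Sa i j k → c = i ∨ c = j ∨ c = k →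
    a = i ∨ a = j ∨ a = k := by decide +kernel

set_option synthInstance.maxSize 1000 in
theorem c_sg : ∀ a b c : Fin 6, a ≠ b → a ≠ c → b ≠ c → Sa a b c →
    (∀ i, i < 3 ↔ i = a ∨ i = b ∨ i = c) ∨ ∀ i, ¬ i < 3 ↔ i = a ∨ i = b ∨ i = c := by decide +kernel

variable {Γ K : Type*} [Group Γ] [Field K] {G : OG Γ K}

theorem sm (s : G.St) {i j k a b c : Fin 6} (h : G.Hs i j k) (m : Sm i j k a b c) : G.Hs a b c := by
  rcases m with ⟨rfl, rfl, rfl⟩ | ⟨rfl, rfl, rfl⟩ | ⟨rfl, rfl, rfl⟩ | ⟨rfl, rfl, rfl⟩ | ⟨rfl, rfl, rfl⟩ | ⟨rfl, rfl, rfl⟩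
  exacts [h, h.flip s, (h.flip s).rot s, (h.rot s).rot s, h.rot s, ((h.flip s).rot s).rot s]

theorem supp (s : G.St) (nY : ∀ a b, a ≠ b → ¬ G.Yr a b) (h0 : G.Hs 0 1 2) {i j k : Fin 6} (h : G.Hs i j k) : Sa i j k := by
  refine (c_supp i j k h.1 h.2.1 h.2.2.1).resolve_right ?_
  rintro ⟨x, y, w, m, a, ⟨m', n⟩ | ⟨b, m', n⟩⟩
  · obtain ⟨a, b, ab, h⟩ := (sm s h0 m).toY s n (sm s h m'); exact nY a b ab h
  · exact (sm s h0 m).star s n (sm s h m')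

theorem invE (s : G.St) (nY : ∀ a b, a ≠ b → ¬ G.Yr a b) (h0 : G.Hs 0 1 2) {x : Γ} (hx : x ∈ G.M) (x2 : x * x = 1) :
    x ∈ G.E := by
  obtain ⟨σ, h⟩ := hx
  rcases (c_half σ (supp s nY h0 (h0.act s ⟨x, h⟩))).2 (h.sq x2) (s.even ⟨x, h⟩ (h.sq x2)) with rfl | ⟨i, j, k, m, a, b, c⟩
  exacts [h, ((sm s h0 m).odd s ⟨x, h⟩ a b c).elim]

/-- the sign vector of the half -/
def sT : Fin 6 → K := fun i => if i < 3 then -1 else 1

variable (G) in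
/-- the stabiliser of the splitting -/
def Ms : Subgroup Γ where
  carrier := {g | G.φ g * sp 1 sT = sp 1 sT * G.φ g ∨ G.φ g * sp 1 sT = -(sp 1 sT * G.φ g)}
  one_mem' := .inl (by simp)
  mul_mem' := fun {a b} ha hb => by
    rcases ha with ha | ha <;> rcases hb with hb | hb <;>
      simp [Set.mem_setOf_eq, map_mul, mul_assoc, hb, ← mul_assoc (G.φ a), ha]
  inv_mem' := fun {a} ha => by
    have k : ∀ X : M6 K, G.φ a⁻¹ * X = G.φ a⁻¹ * (X * G.φ a) * G.φ a⁻¹ := fun X => by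
      rw [mul_assoc, mul_assoc, ← map_mul]; simp
    have k' : ∀ X : M6 K, G.φ a⁻¹ * (G.φ a * X) = X := fun X => by rw [← mul_assoc, ← map_mul]; simp
    rcases ha with ha | ha
    · exact .inl (by rw [k, ← ha, k'])
    · exact .inr (by rw [k, ← neg_eq_iff_eq_neg.2 ha, mul_neg, k', neg_mul])

theorem M_le (s : G.St) (nY : ∀ a b, a ≠ b → ¬ G.Yr a b) (h0 : G.Hs 0 1 2) : G.M ≤ Ms G := by
  rintro x ⟨σ, ε, hε, e⟩
  refine (c_half σ (supp s nY h0 (h0.act s ⟨x, ε, hε, e⟩))).1.imp (fun h => ?_) fun h => ?_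
  · rw [e, sp_mul, sp_mul, mul_one, one_mul]; congr 1; funext i; simp [sT, h, mul_comm]
  · rw [e, sp_mul, sp_mul, mul_one, one_mul, sp_neg]; congr 1; funext i
    by_cases c : i < 3 <;> simp [sT, h, c]

theorem Ms_ne : ∃ g, g ∉ Ms G := by
  obtain ⟨x, h⟩ := G.irr e fun i j => by rw [e_dot, e_apply]
  have : rf (e 0 : W K) * rf (e 1) * rf (e 2) = sp 1 sT := by
    simp only [rf_e, sp_mul, mul_one]; congr 1; funext i; fin_cases i <;> simp [sT]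
  rw [this] at h
  exact ⟨x, fun k => k.elim h.1 h.2⟩

variable (G) in
/-- roots -/
def Rt (r : W K) : Prop := r ⬝ᵥ r = 1 ∧ G.B (e 0) r

theorem rt_of {i j k : Fin 6} (h : G.Hs i j k) : ∃ r, Rt G r ∧ ∀ l, r l = 0 ↔ ¬(l = i ∨ l = j ∨ l = k) := by
  obtain ⟨a, b, c, t, h1, -, h⟩ := h
  obtain ⟨q, hq, q2⟩ := ex_half G.two
  have t0 : t ≠ 0 := by rintro rfl; simp at h1
  have t1 : t - 1 ≠ 0 := fun e => one_ne_zero (α := K) (by linear_combination -h1 + t * e)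
  refine ⟨_, ⟨?_, h⟩, fun l => ?_⟩
  · obtain ⟨τ, rfl, rfl, rfl⟩ := ex3 a b c
    rw [← sp_hv, (sg_one.ot τ).dot, hv012 hq]
    simp only [dot6]; simp; linear_combination (2 * q * q) * h1 + (2 * q + 1) * q2
  · have two := G.two
    clear hq q2
    unfold hv; split_ifs <;> simp [*]

variable (G) in
/-- `x` maps `e i` to `± e j` -/
def Pm (x : Γ) (i j : Fin 6) : Prop := G.φ x *ᵥ e i = e j ∨ G.φ x *ᵥ e i = -e j

theorem inv_mv (x : Γ) (u : W K) : G.φ x⁻¹ *ᵥ (G.φ x *ᵥ u) = u := by rw [mulVec_mulVec, ← map_mul]; simp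

theorem Pm.inv {x : Γ} {i j : Fin 6} (h : Pm G x i j) : Pm G x⁻¹ j i := by
  have := inv_mv (G := G) x (e i)
  refine h.imp (fun h => by rwa [h] at this) fun h => ?_
  rwa [h, mulVec_neg, neg_eq_iff_eq_neg] at this

theorem Pm.rt (s : G.St) {x : Γ} {i j : Fin 6} (h : Pm G x i j) {r : W K} (hr : Rt G r) : Rt G (G.φ x *ᵥ r) := by
  refine ⟨by rw [(G.ot x).dot, hr.1], ?_⟩
  have := (s.base (j := i) hr.2).conj x
  rcases h with h | h <;> rw [h] at this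
  exacts [s.base this, s.base (by simpa using this.neg_left)]

theorem dg_fix {a b : Fin 6} (two : (2 : K) ≠ 0) (ab : a ≠ b) {u : W K} : dg a b *ᵥ u = u ↔ u a = 0 ∧ u b = 0 := by
  refine ⟨fun h => ?_, fun h => funext fun i => ?_⟩
  · have h1 := congrFun h a
    have h2 := congrFun h b
    simp only [dg_mulVec, sg2, if_pos, if_neg ab, if_neg ab.symm] at h1 h2
    exact ⟨mul_left_cancel₀ two (by linear_combination -h1), mul_left_cancel₀ two (by linear_combination -h2)⟩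
  · rw [dg_mulVec, sg2]; split_ifs <;> simp [*]

theorem dg_neg {a b : Fin 6} (two : (2 : K) ≠ 0) {u : W K} (h : dg a b *ᵥ u = -u) {l : Fin 6} (h1 : l ≠ a) (h2 : l ≠ b) :
    u l = 0 := by
  have := congrFun h l
  rw [dg_mulVec, sg2, if_neg h1, if_neg h2, Pi.neg_apply] at this
  exact mul_left_cancel₀ two (by linear_combination this)

theorem comm_mv {x z : Γ} (h : x * z = z * x) (u : W K) : G.φ z *ᵥ (G.φ x *ᵥ u) = G.φ x *ᵥ (G.φ z *ᵥ u) := by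
  rw [mulVec_mulVec, mulVec_mulVec, ← map_mul, ← map_mul, h]

theorem comm_inv {x z : Γ} (h : x * z = z * x) : x⁻¹ * z = z * x⁻¹ := (show Commute x z from h).inv_left

section
variable (s : G.St) (nY : ∀ a b, a ≠ b → ¬ G.Yr a b) {a b c : Fin 6} (ab : a ≠ b) (ac : a ≠ c) (bc : b ≠ c)
  (hs : ∀ i j k, G.Hs i j k → c = i ∨ c = j ∨ c = k → a = i ∨ a = j ∨ a = k)
  {r0 : W K} (h0 : Rt G r0) (hr : ∀ l, r0 l = 0 ↔ l = a ∨ l = b ∨ l = c) {z : Γ} (hz : G.φ z = dg a b)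

include s nY hs in
theorem r5 {r : W K} (h : Rt G r) (ha : r a = 0) (hc : r c ≠ 0) : r = e c ∨ r = -e c := by
  rcases s.pat h.1 h.2 with ⟨i, k⟩ | ⟨x, y, xy, k, -⟩ | ⟨i, j, k, t, n1, n2, n3, k1, k2⟩
  · obtain rfl : c = i := by
      by_contra n
      rcases k with rfl | rfl <;> simp [e_ne n] at hc
    exact k
  · exact (nY x y xy k).elim
  · exact absurd ha ((k2 a).2 (hs i j k ⟨n1, n2, n3, t, k1⟩ ((k2 c).1 hc)))

include ab hz in
theorem pres {x : Γ} (h : x * z = z * x) {u : W K} (ha : u a = 0) (hb : u b = 0) :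
    (G.φ x *ᵥ u) a = 0 ∧ (G.φ x *ᵥ u) b = 0 := by
  rw [← dg_fix G.two ab, ← hz, comm_mv h, hz, (dg_fix G.two ab).2 ⟨ha, hb⟩]

include s nY ab ac bc hs h0 hr hz

theorem stepA {x : Γ} (h : x * z = z * x) {i j : Fin 6} (p : Pm G x i j) : Pm G x c c := by
  have hv : Rt G (G.φ x *ᵥ e c) := p.rt s ⟨ee c, s 0 c⟩
  obtain ⟨va, vb⟩ := pres ab hz h (e_ne ac) (e_ne bc)
  by_cases vc : (G.φ x *ᵥ e c) c = 0
  swap
  · exact r5 s nY hs hv va vc
  obtain ⟨r, h1, ra, rb, h2, h3⟩ : ∃ r, Rt G r ∧ r a = 0 ∧ r b = 0 ∧ (G.φ x *ᵥ e c) ⬝ᵥ r ≠ 0 ∧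
      ¬(G.φ x *ᵥ e c = r ∨ G.φ x *ᵥ e c = -r) := by
    generalize G.φ x *ᵥ e c = v at hv va vb vc
    rcases s.pat hv.1 hv.2 with ⟨i, k⟩ | ⟨x, y, xy, k, -⟩ | ⟨i, j, k, t, n1, n2, n3, k1, k2⟩
    · have vi : v i ≠ 0 := by rcases k with rfl | rfl <;> simp [e_self]
      have ri : r0 i ≠ 0 := fun e => by rcases (hr i).1 e with rfl | rfl | rfl <;> contradiction
      obtain ⟨l, l1, l2⟩ : ∃ l, l ≠ i ∧ ¬(l = a ∨ l = b ∨ l = c) := by clear * -; revert a b c i; decide +kernel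
      refine ⟨r0, h0, (hr a).2 (by simp), (hr b).2 (by simp), by rcases k with rfl | rfl <;> simpa using ri, fun k' => ?_⟩
      have : v l = 0 := by rcases k with rfl | rfl <;> simp [e_ne l1]
      exact l2 ((hr l).1 (by rcases k' with rfl | rfl <;> simpa using this))
    · exact (nY x y xy k).elim
    · have vi := (k2 i).2 (.inl rfl)
      have vj := (k2 j).2 (.inr (.inl rfl))
      refine ⟨e i, ⟨ee i, s 0 i⟩, e_ne fun e => vi (e ▸ va), e_ne fun e => vi (e ▸ vb), by simpa using vi, fun k' => vj ?_⟩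
      rcases k' with rfl | rfl <;> simp [e_ne n1.symm]
  have k := r5 s nY hs (p.inv.rt s h1) (pres ab hz (comm_inv h) ra rb).1 (by
    rwa [← e_dot c (G.φ x⁻¹ *ᵥ r), G.φ_inv, dotProduct_mulVec, vecMul_transpose])
  have k2 : G.φ x *ᵥ (G.φ x⁻¹ *ᵥ r) = r := by simpa using inv_mv (G := G) x⁻¹ r
  refine (h3 (k.imp (fun k => by rw [← k, k2]) fun k => ?_)).elim
  rw [k, mulVec_neg] at k2; rw [← k2, neg_neg]

theorem stepB {g : Γ} (h : g * z = z * g) : Pm G g c c := by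
  obtain ⟨va, vb⟩ := pres ab hz (comm_inv h) (e_ne ac) (e_ne bc)
  obtain ⟨k, -, hk⟩ := eig_e G.two (v := G.φ g⁻¹ *ᵥ e c) (by rw [(G.ot _).dot, ee]) (fun i => i ≠ a ∧ i ≠ b)
    (fun i hi => by by_cases h1 : i = a; · rwa [h1]
                    · rwa [show i = b by tauto])
    (fun x y => by simp only [and_assoc]; clear * -; revert a b x y; decide +kernel) fun k l sk sl kl => by
      obtain ⟨y, hy⟩ := s.dg k l
      have c1 : g * y * g⁻¹ * z = z * (g * y * g⁻¹) := by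
        rw [mul_assoc, comm_inv h, ← mul_assoc, mul_assoc g, E_comm (mo_dg hy) (mo_dg hz), ← mul_assoc, h]; group
      have c2 : dg a b *ᵥ (G.φ g⁻¹ *ᵥ e a) = -(G.φ g⁻¹ *ᵥ e a) := by
        rw [← hz, comm_mv (comm_inv h), ← mulVec_neg, hz]; congr 1; funext i
        rw [dg_mulVec, sg2, Pi.neg_apply, e_apply]; split_ifs <;> simp_all
      have c3 : ∀ u, G.φ g⁻¹ *ᵥ (G.φ (g * y * g⁻¹) *ᵥ u) = dg k l *ᵥ (G.φ g⁻¹ *ᵥ u) := fun u => by
        rw [← hy, mulVec_mulVec, mulVec_mulVec, ← map_mul, ← map_mul]; congr 2; group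
      have c4 : Pm G (g * y * g⁻¹) a a := .inl (by
        have := congrArg (G.φ g⁻¹⁻¹ *ᵥ ·) (c3 (e a))
        simpa only [inv_mv, (dg_fix G.two kl).2 ⟨dg_neg G.two c2 sk.1 sk.2, dg_neg G.two c2 sl.1 sl.2⟩] using this)
      rw [← c3]
      exact (stepA s nY ab ac bc hs h0 hr hz c1 c4).imp (fun e => by rw [e]) fun e => by rw [e, mulVec_neg]
  simpa using (stepA s nY ab ac bc hs h0 hr hz (comm_inv h) hk).inv

end

theorem hc (s : G.St) (di : G.DI) (nY : ∀ a b, a ≠ b → ¬ G.Yr a b) (h0 : G.Hs 0 1 2) {a b : Fin 6} (ab : a ≠ b) {z g : Γ}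
    (hz : G.φ z = dg a b) (h : g * z = z * g) : g ∈ Ms G := by
  by_cases k : ∀ i j k, G.Hs i j k → i = a ∨ i = b ∨ j = a ∨ j = b ∨ k = a ∨ k = b
  · exact M_le s nY h0 (di a b ab k z g hz h)
  simp only [not_forall] at k
  obtain ⟨i, j, k, h1, h2⟩ := k
  obtain ⟨c, ac, bc, sa, hl⟩ := c_third a b i j k ab h1.1 h1.2.1 h1.2.2.1 (supp s nY h0 h1) h2
  obtain ⟨r, r1, r2⟩ := rt_of h1
  have p := stepB s nY ab ac bc (fun i j k h => c_in a c i j k sa.2 h.1 h.2.1 h.2.2.1 (supp s nY h0 h)) r1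
    (fun l => (r2 l).trans (hl l)) hz h
  have c1 : G.φ g * rf (e c) = rf (e c) * G.φ g := by
    have : rf (e c) = G.φ g * rf (e c) * (G.φ g)ᵀ := by
      rw [← (G.ot g).rf]; rcases p with p | p <;> rw [p]; rw [rf_neg]
    conv_rhs => rw [this, mul_assoc, G.orth, mul_one]
  have c2 : G.φ g * (dg a b * rf (e c)) = dg a b * rf (e c) * G.φ g := by
    rw [← mul_assoc, ← hz, ← map_mul, h, map_mul, mul_assoc, c1, mul_assoc]
  have c3 : (dg a b * rf (e c) : M6 K) = sp 1 fun i => if i = a ∨ i = b ∨ i = c then -1 else 1 := by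
    rw [dg, rf_e, sp_mul, mul_one]; congr 1; funext i
    simp only [sg2, Perm.one_apply]
    by_cases h1 : i = a
    · simp [h1, ab, ac]
    by_cases h2 : i = b
    · simp [h2, ab.symm, bc]
    simp [h1, h2]
  rw [c3] at c2
  rcases c_sg a b c ab ac bc sa with h | h <;> simp only [← h] at c2
  · exact .inl c2
  · refine .inl (neg_injective ?_)
    rw [← mul_neg, ← neg_mul, sp_neg]
    convert c2 using 3 <;> funext i <;> simp only [sT] <;> split_ifs <;> simp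

theorem dihm [Finite Γ] {z y : Γ} (hz : G.Bi z) (hy : G.Bi y) :
    (∃ g, g * z * g⁻¹ = y) ∨ ∃ w, w * w = 1 ∧ w ≠ 1 ∧ w ≠ G.m ∧ w * z = z * w ∧ w * y = y * w := by
  have k : ∀ n : ℕ, (z * y) ^ n * z = z * ((z * y) ^ n)⁻¹ := fun n => by
    rw [← inv_pow, _root_.mul_inv_rev, inv_eq_of_mul_eq_one_right hz.1, inv_eq_of_mul_eq_one_right hy.1, mul_pow_mul]
  have k1 : ∀ n : ℕ, ((z * y) ^ n)⁻¹ * z * ((z * y) ^ n)⁻¹⁻¹ = z * (z * y) ^ (2 * n) := fun n => by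
    rw [inv_mul_eq_of_eq_mul (show z = (z * y) ^ n * (z * (z * y) ^ n) by rw [← mul_assoc, k]; simp), inv_inv, mul_assoc,
      ← pow_add, two_mul]
  have k2 : ∀ (n : ℕ) (c : Γ), (z * y) ^ (2 * n + 1) = c → c * z = z * c →
      ((z * y) ^ (n + 1))⁻¹ * z * ((z * y) ^ (n + 1))⁻¹⁻¹ = c * y := fun n c e hc => by
    rw [k1, show 2 * (n + 1) = 2 * n + 1 + 1 by ring, pow_succ, e, ← mul_assoc, ← hc, mul_assoc c, ← mul_assoc z, hz.1, one_mul]
  rcases Nat.even_or_odd' (orderOf (z * y)) with ⟨m, hm | hm⟩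
  · right
    have h1 : (z * y) ^ m * (z * y) ^ m = 1 := by rw [← pow_add, ← two_mul, ← hm, pow_orderOf_eq_one]
    have hpos := orderOf_pos (z * y)
    have h2 : (z * y) ^ m * z = z * (z * y) ^ m := by rw [k, inv_eq_of_mul_eq_one_right h1]
    refine ⟨_, h1, pow_ne_one_of_lt_orderOf (by omega) (by omega), fun e => ?_, h2, ?_⟩
    · rcases Nat.even_or_odd' m with ⟨j, rfl | rfl⟩
      · exact G.h2 ((z * y) ^ j) (by rw [← map_mul, ← pow_add, ← two_mul, e, G.hm])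
      · exact hy.not_m (k2 j _ e (G.m_comm z) ▸ hz.conj _)
    · have h3 : (z * y) ^ m * (z * y) = (z * y) * (z * y) ^ m := by rw [← pow_succ, ← pow_succ']
      rw [← mul_assoc, h2, mul_assoc, mul_assoc] at h3
      exact mul_left_cancel h3
  · exact .inl ⟨_, (k2 m 1 (by rw [← hm, pow_orderOf_eq_one]) (by simp)).trans (one_mul y)⟩

theorem into [Finite Γ] (ne : G.NE) {z w : Γ} (hz : z ∈ G.E) (h : w * z = z * w) (w2 : w * w = 1) :
    ∃ c, c * z = z * c ∧ c * w * c⁻¹ ∈ G.M := by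
  let L := Subgroup.centralizer {z}
  have mL : ∀ {x}, x ∈ L ↔ x * z = z * x := fun {x} => Subgroup.mem_centralizer_singleton_iff
  have EL : G.E ≤ L := fun x hx => mL.2 (E_comm hx hz)
  obtain ⟨S, hS⟩ := ((E_pgroup (G := G)).comap_subtype (K := L)).exists_le_sylow
  have hw : IsPGroup 2 (Subgroup.zpowers (⟨w, mL.2 h⟩ : L)) := by
    rintro ⟨_, n, rfl⟩
    refine ⟨1, Subtype.ext (Subtype.ext ?_)⟩
    simp only [SubmonoidClass.mk_pow, OneMemClass.coe_one, SubgroupClass.coe_zpow, SubmonoidClass.coe_pow]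
    rw [← zpow_natCast, ← _root_.zpow_mul, mul_comm, _root_.zpow_mul, zpow_natCast, pow_one, pow_two, w2, _root_.one_zpow]
  obtain ⟨Q, hQ⟩ := hw.exists_le_sylow
  obtain ⟨c, rfl⟩ := MulAction.exists_smul_eq L Q S
  refine ⟨c, mL.1 c.2, ne ((c • Q : Sylow 2 L).1.map L.subtype) ((c • Q).2.map _) (fun x hx => ⟨⟨x, EL hx⟩, hS hx, rfl⟩)
    ⟨c * ⟨w, mL.2 h⟩ * c⁻¹, ?_, rfl⟩⟩
  exact Subgroup.smul_mem_pointwise_smul _ (MulAut.conj c) _ (hQ (Subgroup.mem_zpowers _))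

theorem noh0 [Finite Γ] (s : G.St) (ne : G.NE) (fu : G.FUS) (di : G.DI) (nY : ∀ a b, a ≠ b → ¬ G.Yr a b)
    (h0 : G.Hs 0 1 2) : False := by
  obtain ⟨g, hg⟩ := Ms_ne (G := G)
  obtain ⟨z, hz⟩ := s.dg 0 1
  obtain ⟨y, hy⟩ := s.dg 0 3
  have bz := bi_dg (by decide) hz
  have by' := bi_dg (by decide) hy
  rcases dihm bz (by'.conj g) with ⟨d, e⟩ | ⟨w, w2, w1, wm, c1, c2⟩
  · have e' : g⁻¹ * d * z * (g⁻¹ * d)⁻¹ = y := by
      calc _ = g⁻¹ * (d * z * d⁻¹) * g := by group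
        _ = y := by rw [e]; group
    obtain ⟨n, ⟨σ, hn⟩, e2⟩ := fu z (mo_dg hz) bz _ (e' ▸ mo_dg hy)
    have k := (supp s nY h0 (h0.act s ⟨n, hn⟩)).1
    have := hn.dg hz
    rw [e2, e', hy] at this
    rcases dg_inj G.two (by decide) this with ⟨a, b⟩ | ⟨a, b⟩ <;> rw [← a, ← b] at k <;> revert k <;> decide
  · have w2' : g⁻¹ * w * g * (g⁻¹ * w * g) = 1 := by
      calc _ = g⁻¹ * (w * w) * g := by group
        _ = 1 := by rw [w2]; group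
    have sq : ∀ c x : Γ, x * x = 1 → c * x * c⁻¹ * (c * x * c⁻¹) = 1 := fun c x h => by rw [conj_mul, h]; simp
    obtain ⟨c, hc1, hc2⟩ := into ne (mo_dg hz) c1 w2
    obtain ⟨c', hc1', hc2'⟩ := into ne (mo_dg hy) (w := g⁻¹ * w * g) (by
      calc _ = g⁻¹ * (w * (g * y * g⁻¹)) * g := by group
        _ = _ := by rw [c2]; group) w2'
    replace hc2 := invE s nY h0 hc2 (sq _ _ w2)
    replace hc2' := invE s nY h0 hc2' (sq _ _ w2')
    have e : c' * (g⁻¹ * w * g) * c'⁻¹ = c' * g⁻¹ * c⁻¹ * (c * w * c⁻¹) * (c' * g⁻¹ * c⁻¹)⁻¹ := by group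
    rw [e] at hc2'
    obtain ⟨v, a, b, ab, hv, hv'⟩ : ∃ v a b, a ≠ b ∧ G.φ v = dg a b ∧ c' * g⁻¹ * c⁻¹ * v * (c' * g⁻¹ * c⁻¹)⁻¹ ∈ G.E := by
      rcases E_cases hc2 with h | h | ⟨a, b, ab, h | h⟩
      · exact (w1 (by simpa using h)).elim
      · exact (wm (by rw [mul_inv_eq_iff_eq_mul, G.m_comm] at h; exact mul_left_cancel h)).elim
      · exact ⟨_, a, b, ab, h, hc2'⟩
      · refine ⟨_, a, b, ab, h, ?_⟩
        rw [← mul_assoc, ← G.m_comm, mul_assoc G.m, mul_assoc G.m]; exact mul_mem m_mem_E hc2'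
    obtain ⟨n, hn, e2⟩ := fu v (mo_dg hv) (bi_dg ab hv) _ hv'
    have k := hc s di nY h0 ab hv (g := n⁻¹ * (c' * g⁻¹ * c⁻¹)) (by
      calc _ = n⁻¹ * (c' * g⁻¹ * c⁻¹ * v * (c' * g⁻¹ * c⁻¹)⁻¹) * (c' * g⁻¹ * c⁻¹) := by group
        _ = _ := by rw [← e2]; group)
    rw [(Ms G).mul_mem_cancel_left (inv_mem (M_le s nY h0 hn)),
      (Ms G).mul_mem_cancel_right (inv_mem (hc s di nY h0 (by decide) hz hc1)),
      (Ms G).mul_mem_cancel_left (hc s di nY h0 (by decide) hy hc1'), inv_mem_iff] at k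
    exact hg k

theorem noh [Finite Γ] : NOH Γ K := fun G s ne fu di nY i j k h => by
  obtain ⟨τ, rfl, rfl, rfl⟩ := ex3 h.1 h.2.1 h.2.2.1
  refine noh0 (G := G.rl τ) (rl_St.2 s) (by simpa only [NE, rl_E, rl_M] using ne)
    (by simpa only [FUS, rl_E, rl_M, rl_Bi] using fu) (fun a b ab k => rl_Good.2 (di _ _ (τ.injective.ne ab) fun i j l h => ?_))
    (fun a b ab k => nY _ _ (τ.injective.ne ab) ((rl_Yr s).1 k)) ((rl_Hs s).2 h)
  simpa only [Perm.inv_def, symm_apply_eq] using k (τ⁻¹ i) (τ⁻¹ j) (τ⁻¹ l) ((rl_Hs s).2 (by simpa using h))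

end Cfsg.Agent.H2.NH
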