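import Cfsg.Agent.O6.D2

set_option autoImplicit false

/-! The rank four case: two facts on subgroups of `S₆`. -/

namespace Cfsg.Agent.H2.PL
open Equiv Cfsg.Agent.O6 Cfsg.Agent.O6.OG

/-- all double transpositions through the pair `a b` -/
def D (X : Subgroup P6) (a b : Fin 6) : Prop := ∀ k l, [a, b, k, l].Nodup → swap a b * swap k l ∈ X

theorem D.act {X : Subgroup P6} {a b : Fin 6} (h : D X a b) {σ : P6} (hσ : σ ∈ X) : D X (σ a) (σ b) := fun k l n => by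
  have := X.mul_mem (X.mul_mem hσ (h (σ⁻¹ k) (σ⁻¹ l) (by
    refine List.Nodup.of_map σ ?_; simpa using n))) (X.inv_mem hσ)
  rwa [← conj_mul, ← swap_apply_apply, ← swap_apply_apply, Perm.inv_def, apply_symm_apply, apply_symm_apply] at this

theorem D.symm {X : Subgroup P6} {a b : Fin 6} (h : D X a b) : D X b a := fun k l n => by
  rw [swap_comm]; exact h k l (List.Perm.nodup (List.Perm.swap _ _ _) n)

theorem D.mv {X : Subgroup P6} {a b c d x y : Fin 6} (h : D X a b) (h' : D X c d)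
    (e : ∃ k l, [a, b, k, l].Nodup ∧ (swap a b * swap k l) c = x ∧ (swap a b * swap k l) d = y) : D X x y := by
  obtain ⟨k, l, n, rfl, rfl⟩ := e; exact h'.act (h k l n)

theorem a6gen : A6gen := fun X h1 h2 ρ hρ a b ha b0 b1 hp σ hσ => by
  have d01 : D X 0 1 := fun k l n => by
    have : (V4b (swap 0 1 * swap k l) ∨ (k = 2 ∨ k = 3) ∧ (l = 4 ∨ l = 5)) ∨ (l = 2 ∨ l = 3) ∧ (k = 4 ∨ k = 5) := by
      revert k l; decide +kernel
    rcases this with (h | h) | h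
    exacts [by simpa using h2 _ h, h1 k l h.1 h.2, swap_comm k l ▸ h1 l k h.1 h.2]
  have dab : D X a b := by
    rcases hp with ⟨rfl, rfl⟩ | ⟨rfl, rfl⟩
    exacts [d01.act hρ, (d01.act hρ).symm]
  have s1 : ∀ a b, (a = 0 ∨ a = 1) → b ≠ 0 → b ≠ 1 → D X a b → ∀ c, c ≠ 0 → c ≠ 1 → D X (swap 0 1 a) c :=
    fun a b h1 h2 h3 h c h4 h5 => d01.mv h (by clear * - h1 h2 h3 h4 h5; revert a b c; decide +kernel)
  have s2 : ∀ c, c ≠ 0 → c ≠ 1 → D X 0 c ∧ D X 1 c := fun c c0 c1 => by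
    have k1 := s1 a b ha b0 b1 dab c c0 c1
    have k2 := s1 _ c (by rcases ha with rfl | rfl <;> simp) c0 c1 k1 c c0 c1
    rcases ha with rfl | rfl <;> simp only [swap_apply_left, swap_apply_right] at k1 k2 <;> exact ⟨‹_›, ‹_›⟩
  have s3 : ∀ x y, x ≠ y → D X x y := fun x y xy => by
    have : (x = 0 ∧ y = 1 ∨ y = 0 ∧ x = 1) ∨ ((x = 0 ∨ x = 1) ∧ y ≠ 0 ∧ y ≠ 1) ∨ ((y = 0 ∨ y = 1) ∧ x ≠ 0 ∧ x ≠ 1) ∨
      (x ≠ 0 ∧ x ≠ 1) ∧ (y ≠ 0 ∧ y ≠ 1) ∧
        ∃ k l, [0, x, k, l].Nodup ∧ (swap 0 x * swap k l) 0 = x ∧ (swap 0 x * swap k l) y = y := by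
      clear * - xy; revert x y; decide +kernel
    rcases this with (⟨rfl, rfl⟩ | ⟨rfl, rfl⟩) | ⟨rfl | rfl, h, h'⟩ | ⟨rfl | rfl, h, h'⟩ | ⟨h, h', e⟩
    exacts [d01, d01.symm, (s2 _ h h').1, (s2 _ h h').2, (s2 _ h h').1.symm, (s2 _ h h').2.symm,
      (s2 _ h.1 h.2).1.mv (s2 _ h'.1 h'.2).1 e]
  refine (Subgroup.closure_le X).2 (fun g hg => ?_)
    ((Perm.closure_cycleType_eq_two_two_eq_alternatingGroup (by simp)).ge (Perm.mem_alternatingGroup.2 hσ))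
  have g2 : g * g = 1 := by
    rw [← pow_two, ← orderOf_dvd_iff_pow_eq_one, ← Perm.lcm_cycleType, show g.cycleType = {2, 2} from hg]; simp
  rcases inv_even g g2 (Perm.cycleType_eq_two_two_subset_alternatingGroup hg) with rfl | ⟨τ, rfl⟩
  · exact one_mem _
  · rw [← conj_mul, ← swap_apply_apply, ← swap_apply_apply]
    exact s3 _ _ (τ.injective.ne (by decide)) _ _ ((show ([0, 1, 2, 3] : List (Fin 6)).Nodup by decide).map τ.injective)

def u : P6 := swap 0 1 * swap 2 3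
def v : P6 := swap 0 1 * swap 4 5
def q : P6 := swap 2 4 * swap 3 5
def c3 : P6 := swap 0 2 * swap 0 4 * (swap 1 3 * swap 1 5)

/-- short words -/
def ws (p : P6) : List P6 := [1, p, u * p, v * p, u * v * p, p * u * p, p * v * p, u * p * u * p, u * p * v * p,
  v * p * u * p, v * p * v * p, u * v * p * u * p, u * v * p * v * p, p * u * p * v * p, p * v * p * u * p]

/-- the two involutions outside the four-group -/
def PP (p : P6) : Prop := p = swap 0 2 * swap 1 4 ∨ p = swap 1 2 * swap 0 4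

instance (p : P6) : Decidable (PP p) := by unfold PP; infer_instance

theorem f1 : ∀ τ : P6, ¬ Syn τ → ∃ x ∈ [u, v, u * v], ∃ y ∈ [τ * x * τ⁻¹],
    ((Pr y 0 1 0 1 ∨ Pr y (c3 0) (c3 1) (c3 0) (c3 1) ∨ Pr y (c3⁻¹ 0) (c3⁻¹ 1) (c3⁻¹ 0) (c3⁻¹ 1)) ∧ ¬ Syn y) ∨
      ∃ w ∈ [1, u, v, u * v], PP (w * y * w) := by decide +kernel

theorem f2 : ∀ σ : P6, Pr σ 0 1 0 1 → Syn σ → V4b σ ∨
    ∃ w ∈ [1, u, v, u * v], w * σ = q ∨ (w * σ * (w * σ) = 1 ∧ Perm.sign (w * σ) ≠ 1) := by decide +kernel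

theorem syn_cj {c σ : P6} (hc : Syn c) (h : Syn (c⁻¹ * σ * c)) : Syn σ := by
  have := ((show Commute c pi3 from hc).mul_left h).mul_left (show Commute c pi3 from hc).inv_left
  rwa [show c * (c⁻¹ * σ * c) * c⁻¹ = σ by group] at this

theorem pl : PL := fun X ev h1 τ hτ nτ cs => by
  have hV : ∀ σ, V4b σ → σ ∈ X := fun σ h => by simpa using h1 σ h
  have hu : u ∈ X := hV _ (by decide +kernel)
  have hv : v ∈ X := hV _ (by decide +kernel)
  have hw : ∀ w ∈ [1, u, v, u * v], w ∈ X := by simp [hu, hv, mul_mem]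
  have vx : ∀ c : P6, (∀ σ, V4b σ → V4b (c * σ * c⁻¹)) → VX X c := fun c h σ k => hV _ (h σ k)
  have c1 : ∀ σ ∈ X, Pr σ 0 1 0 1 → Syn σ := fun σ h k => by simpa using cs 1 h1 σ h k
  obtain ⟨p, hp, pp⟩ : ∃ p ∈ X, PP p := by
    obtain ⟨x, hx, y, hy, k⟩ := f1 τ nτ
    have yX : y ∈ X := by
      rw [List.mem_singleton.1 hy]; exact hτ x (by clear * - hx; revert x; decide +kernel)
    rcases k with ⟨k | k | k, n⟩ | ⟨w, k, k'⟩
    · exact (n (c1 y yX k)).elim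
    · exact (n (syn_cj (by decide +kernel) (cs c3 (vx _ (by
        rintro _ (rfl | rfl | rfl | rfl) <;> decide +kernel)) y yX k))).elim
    · exact (n (syn_cj (by decide +kernel) (cs c3⁻¹ (vx _ (by
        rintro _ (rfl | rfl | rfl | rfl) <;> decide +kernel)) y yX k))).elim
    · exact ⟨_, mul_mem (mul_mem (hw w k) yX) (hw w k), k'⟩
  refine ⟨fun a b ab => ?_, fun σ h k => (f2 σ k (c1 σ h k)).resolve_right ?_⟩
  · obtain ⟨σ, k, k'⟩ : ∃ σ ∈ ws p, Pr σ 0 1 a b := by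
      clear * - pp ab; revert a b; rcases pp with rfl | rfl <;> decide +kernel
    exact ⟨σ, (show ∀ σ ∈ ws p, σ ∈ X by
      simp only [ws, List.forall_mem_cons, X.mul_mem_cancel_right hu, X.mul_mem_cancel_right hv, X.mul_mem_cancel_right hp]
      simp [hu, hv, hp]) σ k, k'⟩
  · rintro ⟨w, k1, k2 | ⟨k2, k3⟩⟩
    · have hq : q ∈ X := k2 ▸ mul_mem (hw w k1) h
      refine absurd (c1 _ (mul_mem (mul_mem hp hq) hp) ?_) ?_ <;> rcases pp with rfl | rfl <;> decide +kernel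
    · exact k3 (ev _ (mul_mem (hw w k1) h) k2)

end Cfsg.Agent.H2.PL
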