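import Cfsg.Agent.H2.BG1
import Cfsg.Agent.H2.BR4
import Cfsg.Agent.H3.C2k
import Cfsg.Agent.H3.NF1
import Cfsg.Agent.H5.TA3
import Cfsg.Agent.H5.G2a
import Cfsg.Agent.H8.Ho6
import Cfsg.Agent.H8.Ng
import Cfsg.Agent.H8.G2e
import Cfsg.Agent.H4.L34f
import Cfsg.Agent.H4.NM2
import Cfsg.Agent.H4.ArA
import Cfsg.Agent.H4.G2h
import Cfsg.Agent.H6.W2
import Cfsg.Agent.H6.W8
import Cfsg.Agent.H6.Y4
import Cfsg.Agent.H6.Z1
import Cfsg.Agent.H9.QB4
import Cfsg.Agent.H7.LwN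
import Cfsg.Agent.H1.N3c
import Cfsg.Agent.O6.R10

set_option autoImplicit false

/-! The classification of the quasisimple absolutely irreducible subgroups of `SL₄`. -/

namespace Cfsg.Agent.H2.FG
open Cfsg Matrix Cfsg.Agent.H2.M4 Cfsg.Agent.H7.M4 Cfsg.Agent.H1.N1

universe u

theorem pk {T K : Type*} [Group T] [Field K] [Finite T] [Finite K] {ρ : PR T K} (h : ρ.Gm) : BG.Pk ρ where
  e4 _ := H8.G2.e4 h
  tri := H6.Z.tri h
  three := H5.G2.three h
  rc := H5.G2.rc h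
  nq := H5.G2.nq h
  ng := H8.Ng.ng h
  a7 n _ _ _ _ := H6.Y.a7 h n
  cs _ _ _ _ _ a b c d e _ := H4.G2.hcs h a b c d e
  ca _ _ _ _ _ a b c d e _ := H4.G2.hca h a b c d e

theorem main4 (aD : ArD.{u}) (aH : ArH.{u}) : Main4.{u} := fun K _ _ P hp hs hF spl z16 hω => by
  by_cases ntv : NoTv P
  swap
  · exact (H5.TA.main hp hs hF ntv).imp_right (Or.imp_right .inl)
  by_cases two : (2 : K) = 0
  · have : CharP K 2 := (CharP.charP_iff_prime_eq_zero Nat.prime_two).2 two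
    exact .inr (.inr ((H3.C2.main hp hs hF hω ntv).imp_right fun h => .inr (.inl h)))
  have det : ∀ x ∈ P, x.val.det = 1 := fun x => Asch.det_eq_one_of_perfect hp
  have sq := H9.QB.sq_of two hp hs hF spl ntv
  rcases H8.Ho.main two det hp hs hF spl ntv sq with per | g
  swap
  · exact .inr (.inr (.inr (.inr (.inr (.inl (H6.W.c6_of g hp))))))
  have h : Hy P := ⟨two, det, hp, hs, hF, spl, z16, per, sq, H6.W.rot two det hp hs per sq⟩
  refine .inr (.inr (or_iff_not_imp_left.2 fun nr => ?_))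
  by_cases hE : E16 P
  · exact .inr (.inr (.inr (BR.bridge h nr hE (fun _ _ _ => O6.rk4) fun _ _ _ G => H4.L34.main G)))
  rcases H7.Lw.low P h (BG.odd h) hE with ⟨a, b⟩ | a
  · exact ((BG.dih h (pk (BG.gm h)) (H3.NF.gnf aD) gnc (H4.NM.gnm H4.Ar.arN H4.Ar.arA) a b).resolve_left nr).imp_right .inl
  · exact (BG.hc h (pk (BG.gm h)) (H3.NF.ghc aH) a).elim

end Cfsg.Agent.H2.FG
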