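import Cfsg.Agent.H2.Pair
import Cfsg.Agent.H2.SmallF
import Cfsg.Agent.H7.SmallSL

set_option autoImplicit false
set_option linter.unusedSectionVars false

/-! Orthonormal frames in unitary spaces. -/

namespace Cfsg.Agent.H2.Cases

open Module Cfsg.Agent.Form Cfsg.Agent.H7 Mdl
open scoped Matrix MatrixGroups

variable {F : Type*} [Field F] [Fintype F] {n q : ℕ}

/-- the standard unitary space -/
noncomputable abbrev US (hq : Fintype.card F = q ^ 2) (n : ℕ) : PQ (Asch.UP hq) (Fin n → F) :=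
  unitPQ (isUnitaryForm_hermForm hq n)

theorem US_nondeg (hq : Fintype.card F = q ^ 2) (n : ℕ) : (US hq n).Nondeg := unitPQ_nondeg _

theorem fm_one {K : Type*} [CommRing K] (σ₀ : K → K) (u v : Fin n → K) :
    fm 1 σ₀ u v = ∑ i, u i * σ₀ (v i) := by
  simp [fm, Matrix.one_apply]

theorem gram_one (hq : Fintype.card F = q ^ 2) {K : Type*} [CommRing K] (M : Mdl K (Fin n) (Fin n) F) {σ₀ : K → K}
    (hφ : ∀ x, M.φ (σ₀ x) = M.φ x ^ q) (h1 : ∀ i, (US hq n).B (M.b i) (M.b i) = 1)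
    (h2 : ∀ i j, i ≠ j → (US hq n).B (M.b i) (M.b j) = 0) : M.Gram (US hq n) σ₀ 1 :=
  ⟨hφ, fun i j => by
    by_cases h : i = j
    · subst h; rw [h1, Matrix.one_apply_eq, map_one]
    · rw [h2 i j h, Matrix.one_apply_ne h, map_zero]⟩

theorem frame_model (hq : Fintype.card F = q ^ 2) {K : Type*} [CommRing K] (φ : K ≃+* F) {σ₀ : K → K}
    (hφ : ∀ x, φ (σ₀ x) = φ x ^ q) {D : Fin n → Submodule F (Fin n → F)}
    (hD : Geo.IsNondegenerateMDecomposition (hermForm n F q) 1 D) :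
    ∃ M : Mdl K (Fin n) (Fin n) F, M.Gram (US hq n) σ₀ 1 ∧ ∀ g ∈ Geo.decompositionStabilizer D ⊓ SUG n F q,
      ∃ (σ : Equiv.Perm (Fin n)) (c : Fin n → K), (∀ i, c i * σ₀ (c i) = 1) ∧
        (Equiv.Perm.sign σ : ℤ) * ∏ i, c i = 1 ∧ ∀ v i, (M.mm g *ᵥ v) (σ i) = c i * v i := by
  let S := US hq n
  obtain ⟨b₀, rfl⟩ := exists_basis_of_isMDecomposition hD.decomp
  have h0 : ∀ i, S.B (b₀ i) (b₀ i) ≠ 0 := fun i h => by
    obtain ⟨x, hx, hx'⟩ := (hD.nondegenerate i _ (Submodule.mem_span_singleton_self _) (b₀.ne_zero i)).1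
    obtain ⟨a, rfl⟩ := Submodule.mem_span_singleton.1 hx
    exact hx' ((S.B_smul_left a _ _).trans (by rw [h, mul_zero]))
  choose a ha using fun i => exists_norm_one_unit (unit_ne (isUnitaryForm_hermForm hq n)) S (h0 i) (map_one _)
  have ha0 : ∀ i, a i ≠ 0 := fun i h => by simpa [h] using ha i
  let b := b₀.unitsSMul fun i => Units.mk0 (a i) (ha0 i)
  have hb : ∀ i, b i = a i • b₀ i := fun i => b₀.unitsSMul_apply i
  have hD' : (fun i => F ∙ b₀ i) = fun i => F ∙ b i := funext fun i => by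
    rw [hb, Submodule.span_singleton_smul_eq (ha0 i).isUnit]
  let M : Mdl K (Fin n) (Fin n) F := ⟨φ, b⟩
  have hG := gram_one hq M hφ (fun i => (congrArg₂ _ (hb i) (hb i)).trans (ha i)) fun i j h =>
    hD.orthogonal i j h _ (hb i ▸ Submodule.smul_mem _ _ (Submodule.mem_span_singleton_self _)) _
      (hb j ▸ Submodule.smul_mem _ _ (Submodule.mem_span_singleton_self _))
  refine ⟨M, hG, fun g hg => ?_⟩
  rw [hD'] at hg
  obtain ⟨σ, c, -, h2, h3⟩ := monomial_of_mem b hg.1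
  have hd := det_monomial b h2
  rw [(mem_SL_iff g).1 hg.2.2] at hd
  refine ⟨σ, fun i => φ.symm (c i), fun i => φ.injective ?_, φ.injective ?_, fun v i => φ.injective ?_⟩
  · have := Asch.mem_IsoB.1 (show g ∈ Asch.IsoB S from hg.2.1) (b i) (b i)
    rw [← toLE_apply, h2, S.B_smul_left, S.B_smul_right, hG.gram, hG.gram] at this
    simpa [hφ, Asch.UP_σ] using this
  · simpa using hd.symm
  · rw [← M.repr_X, ← M.mm_X, ← toLE_apply, h3, M.repr_X]; simp [M]

omit [Fintype F] in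
theorem mono_col {K : Type*} [CommRing K] {A : Matrix (Fin n) (Fin n) K} {σ : Equiv.Perm (Fin n)} {c : Fin n → K}
    (h : ∀ v i, (A *ᵥ v) (σ i) = c i * v i) (j k l : Fin n) (hkl : k ≠ l) : A k j = 0 ∨ A l j = 0 := by
  obtain ⟨k, rfl⟩ := σ.surjective k
  obtain ⟨l, rfl⟩ := σ.surjective l
  have h1 := h (Pi.single j 1)
  simp only [Matrix.mulVec_single_one, Matrix.col_apply] at h1
  by_cases hk : k = j
  · right; rw [h1, Pi.single_eq_of_ne (fun e => hkl (by rw [hk, e])), mul_zero]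
  · left; rw [h1, Pi.single_eq_of_ne hk, mul_zero]

/-- the number of non-zero coordinates -/
def wt {K : Type*} [Zero K] [DecidableEq K] (v : Fin n → K) : ℕ := ∑ i, if v i = 0 then 0 else 1

theorem wt_mono {K : Type*} [CommRing K] [DecidableEq K] {σ₀ : K → K} {u v : Fin n → K} {σ : Equiv.Perm (Fin n)}
    {c : Fin n → K} (hc : ∀ i, c i * σ₀ (c i) = 1) (h : ∀ i, u (σ i) = c i * v i) : wt u = wt v := by
  rw [wt, ← Equiv.sum_comp σ]
  refine Finset.sum_congr rfl fun i _ => ?_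
  simp only [h, (IsUnit.of_mul_eq_one _ (hc i)).mul_right_eq_zero]

theorem prod_mono {K : Type*} [CommRing K] {u v : Fin n → K} {σ : Equiv.Perm (Fin n)}
    {c : Fin n → K} (h : ∀ i, u (σ i) = c i * v i) : ∏ i, u i = (∏ i, c i) * ∏ i, v i := by
  rw [← Equiv.prod_comp σ, ← Finset.prod_mul_distrib]
  exact Finset.prod_congr rfl fun i _ => h i

theorem sq_of_sign {K : Type*} [CommRing K] {s : ℤˣ} {c : K} (h : (s : ℤ) * c = 1) : c * c = 1 := by
  rcases Int.units_eq_one_or s with rfl | rfl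
  · simp at h; simp [h]
  · simp at h; rw [← neg_mul_neg, h, mul_one]

end Cfsg.Agent.H2.Cases
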