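import Cfsg.Agent.H5.MH11

set_option autoImplicit false

/-! Projective images of subgroups of `GL₄(K)`, traces, invariant forms. -/

namespace Cfsg.Agent.H2.M4
open Cfsg Matrix Cfsg.Agent.Asch Cfsg.Agent.Form commutatorElement
open Cfsg.Agent.H5.MH (cjh cjh_apply cjh_mem)

variable {K : Type*} [Field K] {F : Type*} [Field F]

abbrev G4 (K : Type*) [Field K] := GL (Fin 4) K
abbrev M4 (K : Type*) := Matrix (Fin 4) (Fin 4) K
abbrev Sc (K : Type*) [Field K] : Subgroup (G4 K) := Geo.scalars (Fin 4) K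
abbrev PQ (L : Subgroup (G4 K)) := L ⧸ (Geo.scalars (Fin 4) K).subgroupOf L
abbrev PG4 (K : Type*) [Field K] := G4 K ⧸ Sc K

/-- the projection to the projective group -/
def pr : G4 K →* PG4 K := QuotientGroup.mk' (Sc K)

theorem pr_eq_one {g : G4 K} : pr g = 1 ↔ g ∈ Sc K := QuotientGroup.eq_one_iff g

theorem pr_surj : Function.Surjective (pr : G4 K → PG4 K) := QuotientGroup.mk'_surjective _

theorem mem_Sc {g : G4 K} : g ∈ Sc K ↔ ∃ c : K, g.val = c • (1 : M4 K) := by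
  rw [Geo.mem_scalars_iff]
  constructor
  · rintro ⟨c, h⟩; exact ⟨c, h⟩
  · rintro ⟨c, h⟩
    have hc : c ≠ 0 := by
      rintro rfl
      have := g.det_ne_zero
      rw [h] at this; simp at this
    exact ⟨Units.mk0 c hc, h⟩

theorem pr_eq_one' {g : G4 K} : pr g = 1 ↔ ∃ c : K, g.val = c • (1 : M4 K) := pr_eq_one.trans mem_Sc

theorem pr_eq_iff {g h : G4 K} : pr g = pr h ↔ ∃ c : K, g.val = c • h.val := by
  rw [← mul_inv_eq_one, ← map_inv, ← map_mul, pr_eq_one']
  refine exists_congr fun c => ?_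
  constructor
  · intro e
    have : g.val = (g * h⁻¹).val * h.val := by simp [mul_assoc]
    rw [this, e]; simp
  · intro e
    rw [Units.val_mul, e]; simp

theorem ne_zero_of_eq_smul {g : G4 K} {c : K} {M : M4 K} (h : g.val = c • M) : c ≠ 0 := by
  rintro rfl
  have := g.det_ne_zero
  rw [h] at this; simp at this

/-- the scalar matrix as an element of `GL₄` -/
def sc (c : K) (hc : c ≠ 0) : G4 K := ⟨c • 1, c⁻¹ • 1, by simp [smul_smul, hc], by simp [smul_smul, hc]⟩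

@[simp] theorem sc_val (c : K) (hc : c ≠ 0) : (sc c hc).val = c • (1 : M4 K) := rfl

theorem sc_mem (c : K) (hc : c ≠ 0) : sc c hc ∈ Sc K := mem_Sc.2 ⟨c, rfl⟩

/-- the image in the projective group -/
def bar (L : Subgroup (G4 K)) : Subgroup (PG4 K) := L.map pr

theorem mem_bar {L : Subgroup (G4 K)} {g : G4 K} (h : g ∈ L) : pr g ∈ bar L := ⟨g, h, rfl⟩

theorem mem_bar_sup {L : Subgroup (G4 K)} {g : G4 K} (h : g ∈ L ⊔ Sc K) : pr g ∈ bar L := by
  have : (L ⊔ Sc K).map pr = bar L := by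
    rw [Subgroup.map_sup, bar, sup_eq_left]
    rintro _ ⟨x, hx, rfl⟩
    rw [pr_eq_one.2 hx]; exact one_mem _
  rw [← this]; exact ⟨g, h, rfl⟩

/-- `PQ L` is the projective image of `L` -/
noncomputable def pqEquiv (L : Subgroup (G4 K)) : PQ L ≃* bar L :=
  ((QuotientGroup.quotientMulEquivOfEq (by
      ext x; rw [MonoidHom.mem_ker, MonoidHom.comp_apply, pr_eq_one]; rfl)).trans
    (QuotientGroup.quotientKerEquivRange (pr.comp L.subtype))).trans
    (MulEquiv.subgroupCongr (by rw [MonoidHom.range_comp, Subgroup.range_subtype]; rfl))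

theorem card_bar (L : Subgroup (G4 K)) : Nat.card (bar L) = Nat.card (PQ L) :=
  (Nat.card_congr (pqEquiv L).toEquiv).symm

/-- trace of an element of `GL₄` -/
def T (g : G4 K) : K := g.val.trace

theorem T_one : T (1 : G4 K) = 4 := by simp [T]

theorem T_conj (h g : G4 K) : T (h * g * h⁻¹) = T g := by
  unfold T; rw [← cj_coe, trace_cj]

theorem T_of_smul {g h : G4 K} {c : K} (e : g.val = c • h.val) : T g = c * T h := by
  simp [T, e]

theorem inv_of_smul {g h : G4 K} {c : K} (e : g.val = c • h.val) : (g⁻¹).val = c⁻¹ • (h⁻¹).val := by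
  have hc := ne_zero_of_eq_smul e
  have : g.val * (c⁻¹ • (h⁻¹).val) = 1 := by
    rw [e, Matrix.smul_mul, Matrix.mul_smul, smul_smul, mul_inv_cancel₀ hc, one_smul, Units.mul_inv]
  rw [← Matrix.mul_one (g⁻¹).val, ← this, ← Matrix.mul_assoc, Units.inv_mul, Matrix.one_mul]

/-- the second elementary symmetric function of the eigenvalues -/
def e2 (X : M4 K) : K := X 0 0 * X 1 1 - X 0 1 * X 1 0 + (X 0 0 * X 2 2 - X 0 2 * X 2 0) + (X 0 0 * X 3 3 - X 0 3 * X 3 0) +
  (X 1 1 * X 2 2 - X 1 2 * X 2 1) + (X 1 1 * X 3 3 - X 1 3 * X 3 1) + (X 2 2 * X 3 3 - X 2 3 * X 3 2)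

theorem tr_sq_mat (X : M4 K) : (X * X).trace = X.trace ^ 2 - 2 * e2 X := by
  simp only [Matrix.trace, Matrix.diag, Matrix.mul_apply, Fin.sum_univ_four, e2]; ring

theorem adj_mat (X : M4 K) : X.adjugate = X.adjugate.trace • (1 : M4 K) - e2 X • X + X.trace • (X * X) - X * X * X := by
  ext i j
  simp only [Matrix.trace, Matrix.diag, Matrix.mul_apply, Fin.sum_univ_four, e2, Matrix.add_apply, Matrix.sub_apply,
    Matrix.smul_apply, smul_eq_mul, adjugate_fin_succ_eq_det_submatrix, det_fin_three, submatrix_apply]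
  fin_cases i <;> fin_cases j <;> simp [Fin.succAbove] <;> ring

theorem adj_eq {g : G4 K} (hd : g.val.det = 1) : g.val.adjugate = (g⁻¹).val := by
  have : g.val * g.val.adjugate = 1 := by rw [Matrix.mul_adjugate, hd, one_smul]
  rw [← Matrix.one_mul g.val.adjugate, ← Units.inv_mul g, Matrix.mul_assoc, this, Matrix.mul_one]

theorem ch {g : G4 K} (hd : g.val.det = 1) :
    (g⁻¹).val = T g⁻¹ • (1 : M4 K) - e2 g.val • g.val + T g • (g ^ 2).val - (g ^ 3).val := by
  have := adj_mat g.val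
  rw [adj_eq hd] at this
  simpa [pow_succ, T] using this

theorem T_sq (g : G4 K) : T (g ^ 2) = T g ^ 2 - 2 * e2 g.val := by
  rw [T, pow_two, Units.val_mul, tr_sq_mat]; rfl

theorem det_inv {g : G4 K} (hd : g.val.det = 1) : (g⁻¹).val.det = 1 := by
  have : (g⁻¹).val.det * g.val.det = 1 := by rw [← Matrix.det_mul, Units.inv_mul, Matrix.det_one]
  rwa [hd, mul_one] at this

theorem det_pow' {g : G4 K} (hd : g.val.det = 1) (n : ℕ) : (g ^ n).val.det = 1 := by
  rw [Units.val_pow_eq_pow_val, Matrix.det_pow, hd, one_pow]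

theorem four_of_smul {g h : G4 K} (hd : g.val.det = 1) (hd' : h.val.det = 1) {c : K} (e : g.val = c • h.val) :
    c ^ 4 = 1 := by
  rw [e] at hd; simpa [hd'] using hd

theorem T_pow_char_pow (p : ℕ) [Fact p.Prime] [CharP K p] (g : G4 K) (k : ℕ) : T (g ^ p ^ k) = T g ^ p ^ k := by
  rw [T, T, Units.val_pow_eq_pow_val]
  generalize g.val = M
  have h : (M ^ p ^ k).charpoly = M.charpoly.map (iterateFrobenius K p k) := by
    apply Polynomial.expand_injective (pow_pos (Fact.out : p.Prime).pos k)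
    rw [← Polynomial.map_expand, Polynomial.map_iterateFrobenius_expand]
    unfold Matrix.charpoly
    rw [AlgHom.map_det, ← Matrix.det_pow]
    apply congr_arg Matrix.det
    refine matPolyEquiv.injective ?_
    rw [map_pow, Matrix.matPolyEquiv_charmatrix, sub_pow_char_pow_of_commute, ← Polynomial.C_pow]
    · exact (id (matPolyEquiv_eq_X_pow_sub_C (p ^ k) M) :)
    · exact (Polynomial.C M).commute_X
  rw [Matrix.trace_eq_neg_charpoly_coeff, Matrix.trace_eq_neg_charpoly_coeff, h, Polynomial.coeff_map, ← map_neg,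
    iterateFrobenius_def]

theorem T_pow_char (p : ℕ) [Fact p.Prime] [CharP K p] (g : G4 K) : T (g ^ p) = T g ^ p := by
  simpa using T_pow_char_pow p g 1

theorem mul_cancel_g (g : G4 K) {X Y : M4 K} (h : g.val * X = g.val * Y) : X = Y := by
  have := congrArg ((g⁻¹).val * ·) h
  simpa [← Matrix.mul_assoc] using this

theorem det_conj (h : G4 K) {g : G4 K} (hd : g.val.det = 1) : (h * g * h⁻¹).val.det = 1 := by
  rw [Units.val_mul, Units.val_mul, Matrix.det_mul, Matrix.det_mul, hd, mul_one, ← Matrix.det_mul,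
    Units.mul_inv, Matrix.det_one]

theorem conj_of_trace {G : Type*} [Group G] (θ ρ : G →* G4 K) (hF : Full (Geo.matrixSet θ.range))
    (ht : ∀ g, T (θ g) = T (ρ g)) : ∃ Q : G4 K, ∀ g, (θ g).val = cj Q (ρ g).val := by
  let Θ : MonoidAlgebra K G →ₐ[K] M4 K := MonoidAlgebra.lift K (M4 K) G ((Units.coeHom _).comp θ)
  let R : MonoidAlgebra K G →ₐ[K] M4 K := MonoidAlgebra.lift K (M4 K) G ((Units.coeHom _).comp ρ)
  have hΘ : ∀ g, Θ (MonoidAlgebra.of K G g) = (θ g).val := fun g => by simp [Θ]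
  have hR : ∀ g, R (MonoidAlgebra.of K G g) = (ρ g).val := fun g => by simp [R]
  have htr : ∀ a, (Θ a).trace = (R a).trace := fun a => by
    induction a using MonoidAlgebra.induction_on with
    | of g => rw [hΘ, hR]; exact ht g
    | add a b ha hb => simp [ha, hb]
    | smul c a ha => simp [ha]
  have hs : Function.Surjective Θ := fun X => by
    refine hF.induction (p := fun X => ∃ a, Θ a = X) ?_ ⟨0, map_zero _⟩ ?_ ?_ X
    · rintro _ ⟨_, ⟨g, rfl⟩, rfl⟩; exact ⟨_, hΘ g⟩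
    · rintro _ _ ⟨a, rfl⟩ ⟨b, rfl⟩; exact ⟨a + b, map_add _ _ _⟩
    · rintro c _ ⟨a, rfl⟩; exact ⟨c • a, map_smul _ _ _⟩
  have hk : ∀ a, R a = 0 → Θ a = 0 := fun a ha => by
    ext i j
    obtain ⟨b, hb⟩ := hs (Matrix.single j i 1)
    have := htr (a * b)
    rw [map_mul, map_mul, ha, hb, zero_mul, Matrix.trace_zero, Matrix.trace_mul_single] at this
    simpa using this
  have hs' : Function.Surjective R := by
    have h1 : LinearMap.range R.toLinearMap = ⊤ := by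
      apply Submodule.eq_top_of_finrank_eq
      refine le_antisymm (Submodule.finrank_le _) ?_
      let f : LinearMap.range R.toLinearMap →ₗ[K] M4 K :=
        ((LinearMap.ker R.toLinearMap).liftQ Θ.toLinearMap fun a ha => hk a ha).comp
          R.toLinearMap.quotKerEquivRange.symm.toLinearMap
      refine LinearMap.finrank_le_finrank_of_surjective (f := f) fun X => ?_
      obtain ⟨a, rfl⟩ := hs X
      exact ⟨R.toLinearMap.quotKerEquivRange (Submodule.Quotient.mk a), by simp [f]; rfl⟩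
    exact LinearMap.range_eq_top.1 h1
  let α : M4 K →ₐ[K] M4 K :=
    (Ideal.Quotient.liftₐ (RingHom.ker R) Θ fun a ha => hk a ha).comp
      (Ideal.quotientKerAlgEquivOfSurjective hs').symm.toAlgHom
  have hα : ∀ a, α (R a) = Θ a := fun a => by
    have : (Ideal.quotientKerAlgEquivOfSurjective hs').symm (R a) = Ideal.Quotient.mk _ a := by
      rw [AlgEquiv.symm_apply_eq]; rfl
    simp [α, this]; rfl
  obtain ⟨Q, hQ⟩ := exists_cj_of_algHom α
  exact ⟨Q, fun g => by rw [← hΘ, ← hα, hR, hQ]⟩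

/-- the twisted dual -/
def dualG (σ : K →+* K) : G4 K →* G4 K where
  toFun x := ⟨((x⁻¹).valᵀ).map σ, (x.valᵀ).map σ,
    by rw [← Matrix.map_mul, ← Matrix.transpose_mul, Units.mul_inv]; simp,
    by rw [← Matrix.map_mul, ← Matrix.transpose_mul, Units.inv_mul]; simp⟩
  map_one' := Units.ext (by simp)
  map_mul' x y := Units.ext (by
    simp only [_root_.mul_inv_rev, Units.val_mul, Matrix.transpose_mul, Matrix.map_mul])

theorem form_of_trace {P : Subgroup (G4 K)} (hP : Full (Geo.matrixSet P)) {σ : K →+* K} (hσ : ∀ a, σ (σ a) = a)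
    (ht : ∀ x ∈ P, σ (T x) = T x⁻¹) : ∃ G : M4 K, G.det ≠ 0 ∧ ∀ x ∈ P, x.valᵀ * G * x.val.map σ = G := by
  obtain ⟨Q, hQ⟩ := conj_of_trace P.subtype ((dualG σ).comp P.subtype) (by rwa [Subgroup.range_subtype])
    fun x => by
      change T x.1 = (((x.1⁻¹).valᵀ).map σ).trace
      rw [← AddMonoidHom.map_trace, Matrix.trace_transpose]
      change _ = σ (T _)
      rw [← ht _ x.2, hσ]
  refine ⟨(Q⁻¹).val.map σ, ?_, fun x hx => ?_⟩
  · rw [← RingHom.mapMatrix_apply, ← RingHom.map_det, _root_.map_ne_zero]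
    exact (Q⁻¹).det_ne_zero
  · have h : x.val = cj Q (((x⁻¹).valᵀ).map σ) := hQ ⟨x, hx⟩
    have h2 : (Q⁻¹).val * x.val = ((x⁻¹).valᵀ).map σ * (Q⁻¹).val := by
      conv_lhs => rw [h, cj_apply]
      simp [Matrix.mul_assoc]
    rw [Matrix.mul_assoc, ← Matrix.map_mul, h2, Matrix.map_mul, map_map_invol hσ, ← Matrix.mul_assoc,
      ← Matrix.transpose_mul, Units.inv_mul, Matrix.transpose_one, Matrix.one_mul]

theorem herm_of_trace {P : Subgroup (G4 K)} (hP : Full (Geo.matrixSet P)) {σ : K →+* K} (hσ : ∀ a, σ (σ a) = a)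
    (hne : ∃ a, σ a ≠ a) (ht : ∀ x ∈ P, σ (T x) = T x⁻¹) :
    ∃ G : M4 K, G.det ≠ 0 ∧ (G.map σ)ᵀ = G ∧ ∀ x ∈ P, x.valᵀ * G * x.val.map σ = G := by
  obtain ⟨G, hG, h⟩ := form_of_trace hP hσ ht
  obtain ⟨ε, hε⟩ := exists_eps_of_fix hP hσ hG h
  obtain ⟨ν, hν, h2⟩ := exists_herm_smul hσ hne (fun h0 => hG (by rw [h0]; simp)) hε
  refine ⟨ν • G, by simp [hν, hG], h2, fun x hx => ?_⟩
  rw [Matrix.mul_smul, Matrix.smul_mul, h x hx]

theorem T_inv_of_symm {B : M4 K} (hB : B.det ≠ 0) {x : G4 K} (h : x.valᵀ * B * x.val = B) : T x⁻¹ = T x :=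
  (trace_of_fix (σ := RingHom.id K) (fun _ => rfl) (sesq_ofG _ B) ((nondeg_ofG_iff (fun _ => rfl) B).2 hB)
    ((fix_iff _ B x.val).2 (by simpa using h))).symm

theorem T_inv_of_herm {σ : K →+* K} (hσ : ∀ a, σ (σ a) = a) {B : M4 K} (hB : B.det ≠ 0) {x : G4 K}
    (h : x.valᵀ * B * x.val.map σ = B) : σ (T x) = T x⁻¹ :=
  trace_of_fix hσ (sesq_ofG _ B) ((nondeg_ofG_iff hσ B).2 hB) ((fix_iff _ B x.val).2 h)

/-- an invariant quadratic or symplectic form -/
theorem bil_of_trace [Finite K] {P : Subgroup (G4 K)} (hP : Full (Geo.matrixSet P)) (ht : ∀ x ∈ P, T x⁻¹ = T x) :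
    (∃ Q : (Fin 4 → K) → K, Geo.IsNondegenerateQuadraticForm Q ∧ Geo.FixesQuadForm (Geo.matrixSet P) Q) ∨
    ∃ f : (Fin 4 → K) → (Fin 4 → K) → K, Geo.IsSymplecticForm f ∧ Geo.FixesForm (Geo.matrixSet P) f := by
  obtain ⟨G, hG, h⟩ := form_of_trace hP (σ := RingHom.id K) (fun _ => rfl) fun x hx => (ht x hx).symm
  obtain ⟨ε, hε⟩ := exists_eps_of_fix hP (σ := RingHom.id K) (fun _ => rfl) hG h
  have h0 := herm_scalar (σ := RingHom.id K) (fun _ => rfl) (fun h0 => hG (by rw [h0]; simp)) hε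
  have hf : Geo.FixesForm (Geo.matrixSet P) (ofG (RingHom.id K) G) := by
    rintro _ ⟨x, hx, rfl⟩
    exact (fix_iff _ G x.val).2 (h x hx)
  simp only [RingHom.coe_id, Matrix.map_id, id_eq] at h hε h0
  by_cases h2 : (2 : K) = 0
  · obtain rfl : ε = 1 := sub_eq_zero.1 (pow_eq_zero_iff two_ne_zero |>.1 (by linear_combination h0 + (1 - ε) * h2))
    rw [one_smul] at hε
    refine .inr ⟨_, isSymplecticForm_ofG (by
      rw [hε]; ext i j; simp only [Matrix.neg_apply]; linear_combination G i j * h2)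
      (SimIrr.diag h2 (by simp) hε fun W hW => hP.irred W (by
        rintro _ ⟨x, hx, rfl⟩
        exact hW x 1 (by simpa using h x hx))) hG, hf⟩
  rcases mul_self_eq_one_iff.1 h0 with rfl | rfl
  · rw [one_smul] at hε
    exact .inl ⟨_, (isNondegQuad_of_symm h2 (isSymmetricForm_ofG hε hG)).1, fun s hs v => hf s hs v v⟩
  · refine .inr ⟨_, isSymplecticForm_ofG (by simpa using hε) (fun i => ?_) hG, hf⟩
    have := congrFun (congrFun hε i) i
    simp only [Matrix.transpose_apply, Matrix.smul_apply, smul_eq_mul] at this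
    exact (mul_eq_zero.1 (by linear_combination this : 2 * G i i = 0)).resolve_left h2

/-- an invariant unitary form -/
theorem uni_of_trace {P : Subgroup (G4 K)} (hP : Full (Geo.matrixSet P)) {σ : K →+* K}
    (hσ : ∀ a, σ (σ a) = a) (hne : ∃ a, σ a ≠ a) (ht : ∀ x ∈ P, σ (T x) = T x⁻¹) :
    ∃ (σ : K ≃+* K) (f : (Fin 4 → K) → (Fin 4 → K) → K), Geo.IsUnitaryForm σ f ∧
      Geo.FixesForm (Geo.matrixSet P) f := by
  obtain ⟨G, h1, h2, h3⟩ := herm_of_trace hP hσ hne ht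
  let s : K ≃+* K := { σ with invFun := σ, left_inv := hσ, right_inv := hσ }
  refine ⟨s, ofG (s : K →+* K) G, isUnitaryForm_ofG hσ hne h2 h1, ?_⟩
  rintro _ ⟨x, hx, rfl⟩
  exact (fix_iff _ G x.val).2 (h3 x hx)

theorem cj_form (σ : K →+* K) {a : G4 K} {G G' : M4 K} (h : a.valᵀ * G * a.val.map σ = G') (X : M4 K) (c : K) :
    (cj a X)ᵀ * G * (cj a X).map σ = c • G ↔ Xᵀ * G' * X.map σ = c • G' := by
  have e : Xᵀ * G' * X.map σ = a.valᵀ * ((cj a X)ᵀ * G * (cj a X).map σ) * a.val.map σ := by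
    rw [← h]
    simp only [Matrix.mul_assoc]
    rw [← Matrix.map_mul, ← Matrix.map_mul, cj_mul_self]
    simp only [← Matrix.mul_assoc]
    rw [← Matrix.transpose_mul, ← Matrix.transpose_mul, cj_mul_self]
  rw [e]
  constructor
  · intro h1; rw [h1, ← h]; simp
  · intro h1
    have h2 := congrArg (fun Y => (a⁻¹).valᵀ * Y * (a⁻¹).val.map σ) h1
    have k : ∀ Y : M4 K, (a⁻¹).valᵀ * (a.valᵀ * Y * a.val.map σ) * (a⁻¹).val.map σ = Y := fun Y => by
      simp only [Matrix.mul_assoc]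
      rw [← Matrix.map_mul, Units.mul_inv, ← Matrix.mul_assoc, ← Matrix.transpose_mul, Units.mul_inv]
      simp
    rw [k, ← h, Matrix.mul_smul, Matrix.smul_mul, k] at h2
    exact h2

theorem cj_form' (σ : K →+* K) {a : G4 K} {G G' : M4 K} (h : a.valᵀ * G * a.val.map σ = G') (X : M4 K) :
    (cj a X)ᵀ * G * (cj a X).map σ = G ↔ Xᵀ * G' * X.map σ = G' := by
  simpa using cj_form σ h X 1

theorem det_cj (a : G4 K) (X : M4 K) : (cj a X).det = X.det := by
  rw [cj_apply, Matrix.det_mul, Matrix.det_mul, mul_right_comm, ← Matrix.det_mul, Units.mul_inv]; simp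

theorem cj_cj_inv (a : G4 K) (X : M4 K) : cj a (cj a⁻¹ X) = X := by rw [← cj_mul]; simp [cj_apply]
theorem cj_inv_cj (a : G4 K) (X : M4 K) : cj a⁻¹ (cj a X) = X := by rw [← cj_mul]; simp [cj_apply]

/-- an element of `GL₄` from a matrix of determinant one -/
noncomputable def mk1 (X : M4 K) (h : X.det = 1) : G4 K :=
  Matrix.GeneralLinearGroup.mkOfDetNeZero X (by rw [h]; exact one_ne_zero)

@[simp] theorem mk1_val (X : M4 K) (h : X.det = 1) : (mk1 X h).val = X := rfl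

abbrev gm (φ : F →+* K) : G4 F →* G4 K := Matrix.GeneralLinearGroup.map φ

theorem gm_val (φ : F →+* K) (g : G4 F) : (gm φ g).val = g.val.map φ := rfl

theorem gm_inj (φ : F →+* K) : Function.Injective (gm φ) := fun _ _ h =>
  Units.ext (Matrix.map_injective φ.injective (congrArg Units.val h))

theorem T_gm (φ : F →+* K) (g : G4 F) : T (gm φ g) = φ (T g) := (AddMonoidHom.map_trace φ g.val).symm

theorem det_gm (φ : F →+* K) (g : G4 F) : (gm φ g).val.det = φ g.val.det := (RingHom.map_det φ g.val).symm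

theorem pr_gm (φ : F →+* K) (g : G4 F) : pr (gm φ g) = 1 ↔ pr g = 1 := by
  rw [pr_eq_one', pr_eq_one']
  constructor
  · rintro ⟨c, hc⟩
    refine ⟨g.val 0 0, Matrix.map_injective φ.injective ?_⟩
    have : c = φ (g.val 0 0) := by simpa [gm_val] using (congrFun (congrFun hc 0) 0).symm
    change (gm φ g).val = _
    rw [hc, this]
    ext i j; by_cases h : i = j <;> simp [h]
  · rintro ⟨c, hc⟩
    refine ⟨φ c, ?_⟩
    rw [gm_val, hc]
    ext i j; by_cases h : i = j <;> simp [h]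

noncomputable def pqMap (φ : F →+* K) (P : Subgroup (G4 F)) : PQ P ≃* PQ (P.map (gm φ)) :=
  QuotientGroup.congr _ _ (P.equivMapOfInjective _ (gm_inj φ)) (by
    ext ⟨_, x, hx, rfl⟩
    simp only [Subgroup.mem_map, Subgroup.mem_subgroupOf]
    constructor
    · rintro ⟨y, hy, e⟩
      have : gm φ y.1 = gm φ x := congrArg Subtype.val e
      rw [← this, ← pr_eq_one, pr_gm, pr_eq_one]; exact hy
    · intro h
      exact ⟨⟨x, hx⟩, by rwa [← pr_eq_one, pr_gm, pr_eq_one] at h, rfl⟩)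

theorem full_map (φ : F →+* K) {P : Subgroup (G4 F)} (hP : Full (Geo.matrixSet P)) :
    Full (Geo.matrixSet (P.map (gm φ))) := by
  refine full_of_single fun a b => ?_
  have := hP.induction (p := fun X => X.map φ ∈ Submodule.span K (Geo.matrixSet (P.map (gm φ))))
    (by rintro _ ⟨x, hx, rfl⟩; exact Submodule.subset_span ⟨gm φ x, ⟨x, hx, rfl⟩, rfl⟩) (by simp)
    (fun x y hx hy => by rw [Matrix.map_add _ (map_add φ)]; exact add_mem hx hy)
    (fun c x hx => by
      have : (c • x).map φ = φ c • x.map φ := by ext; simp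
      rw [this]; exact Submodule.smul_mem _ _ hx) (Matrix.single a b 1)
  simpa using this

theorem eq_of_inj [Finite F] (φ : F →+* K) {P : Subgroup (G4 F)} {S : G4 F → Prop} (h1 : ∀ g ∈ P, S g)
    (A : G4 K) (B : G4 F) (h2 : ∀ g, S g → A * gm φ (B * g * B⁻¹) * A⁻¹ ∈ P.map (gm φ)) (g : G4 F) :
    g ∈ P ↔ S g := by
  have hc : Nat.card {g // S g} ≤ Nat.card P := by
    rw [Nat.card_congr (P.equivMapOfInjective _ (gm_inj φ)).toEquiv]
    have : Finite (P.map (gm φ)) := Finite.of_equiv _ (P.equivMapOfInjective _ (gm_inj φ)).toEquiv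
    refine Nat.card_le_card_of_injective (fun g => ⟨_, h2 g.1 g.2⟩) fun x y e => Subtype.ext ?_
    have := gm_inj φ (mul_left_cancel (mul_right_cancel (congrArg Subtype.val e)))
    exact mul_left_cancel (mul_right_cancel this)
  have : (P : Set (G4 F)) = {g | S g} := Set.eq_of_subset_of_ncard_le h1 hc
  exact Set.ext_iff.1 this g

variable {G : Type*} [Group G] {P H : Subgroup (G4 K)} {A : Subgroup G}

/-- `x` represents `a` -/
def Rp (π : bar P ≃* A) (a : G) (x : G4 K) : Prop := ∃ hx : x ∈ P, (π ⟨pr x, mem_bar hx⟩ : G) = a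

namespace Rp
variable {π : bar P ≃* A} {a b c : G} {x y z : G4 K}

theorem mem (h : Rp π a x) : x ∈ P := h.1

theorem memA (h : Rp π a x) : a ∈ A := h.2 ▸ (π _).2

theorem ex (π : bar P ≃* A) (ha : a ∈ A) : ∃ x, Rp π a x := by
  obtain ⟨x, hx, e⟩ := (π.symm ⟨a, ha⟩).2
  refine ⟨x, hx, ?_⟩
  rw [show (⟨pr x, mem_bar hx⟩ : bar P) = π.symm ⟨a, ha⟩ from Subtype.ext e, π.apply_symm_apply]

theorem ex' (π : bar P ≃* A) (hx : x ∈ P) : ∃ a, Rp π a x := ⟨_, hx, rfl⟩

theorem mul (h : Rp π a x) (h' : Rp π b y) : Rp π (a * b) (x * y) :=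
  ⟨mul_mem h.1 h'.1, by
    rw [← h.2, ← h'.2, ← Subgroup.coe_mul, ← map_mul]; rfl⟩

theorem inv (h : Rp π a x) : Rp π a⁻¹ x⁻¹ :=
  ⟨inv_mem h.1, by rw [← h.2, ← Subgroup.coe_inv, ← map_inv]; rfl⟩

theorem one (π : bar P ≃* A) : Rp π 1 1 :=
  ⟨one_mem _, congrArg Subtype.val (map_one π)⟩

theorem pow (h : Rp π a x) (n : ℕ) : Rp π (a ^ n) (x ^ n) := by
  induction n with
  | zero => simpa using one π
  | succ n ih => rw [pow_succ, pow_succ]; exact ih.mul h

theorem eq_iff (h : Rp π a x) (h' : Rp π b y) : a = b ↔ pr x = pr y := by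
  rw [← h.2, ← h'.2, Subtype.val_inj, π.apply_eq_iff_eq, Subtype.mk_eq_mk]

theorem eq_one_iff (h : Rp π a x) : a = 1 ↔ pr x = 1 := by simpa using h.eq_iff (one π)

theorem of_pr (h : Rp π a x) (hy : y ∈ P) (e : pr y = pr x) : Rp π a y := ⟨hy, by rw [← h.2]; simp only [e]⟩

theorem pow_eq (h : Rp π a x) {n : ℕ} (e : a ^ n = 1) : pr x ^ n = 1 := by
  rw [← map_pow]; exact (h.pow n).eq_one_iff.1 e

theorem conj (hx : Rp π a x) (hy : Rp π b y) (hz : Rp π c z) (e : c * a = b * c) : pr z * pr x * (pr z)⁻¹ = pr y := by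
  rw [mul_inv_eq_iff_eq_mul, ← map_mul, ← map_mul]
  exact ((hz.mul hx).eq_iff (hy.mul hz)).1 e

end Rp

/-- `n` normalises `P` modulo scalars -/
def Nm (P : Subgroup (G4 K)) (n : PG4 K) : Prop := ∀ b ∈ bar P, n * b * n⁻¹ ∈ bar P

theorem nm_of {h : G4 K} (hh : ∀ x ∈ P, h * x * h⁻¹ ∈ P) : Nm P (pr h) := by
  rintro _ ⟨x, hx, rfl⟩
  exact ⟨_, hh x hx, by simp⟩

/-- the automorphism induced by an element of the normaliser -/
def aut (π : bar P ≃* A) {n : PG4 K} (hn : Nm P n) : A →* G :=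
  A.subtype.comp (π.toMonoidHom.comp ((((MulAut.conj n).toMonoidHom.comp (bar P).subtype).codRestrict (bar P)
    fun b => hn b.1 b.2).comp π.symm.toMonoidHom))

theorem aut_mem (π : bar P ≃* A) {n : PG4 K} (hn : Nm P n) (a : A) : aut π hn a ∈ A := (π _).2

theorem aut_inj (π : bar P ≃* A) {n : PG4 K} (hn : Nm P n) : Function.Injective (aut π hn) := fun _ _ e =>
  π.symm.injective (Subtype.ext ((MulAut.conj n).injective (congrArg Subtype.val (π.injective (Subtype.ext e)))))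

theorem Rp.aut {π : bar P ≃* A} {n : PG4 K} (hn : Nm P n) {a g : G} (ha : a ∈ A) {x y z : G4 K} (hx : Rp π a x)
    (hz : Rp π g z) (hy : Rp π (cjh g (aut π hn) ⟨a, ha⟩) y) : pr y = pr z * n * pr x * (pr z * n)⁻¹ := by
  obtain ⟨w, hw, e⟩ := hn _ (mem_bar hx.1)
  have h1 : Rp π (M4.aut π hn ⟨a, ha⟩) w := ⟨hw, by
    change _ = ((π _ : A) : G)
    congr 2
    apply Subtype.ext
    change pr w = n * (π.symm ⟨a, ha⟩ : bar P) * n⁻¹
    rw [e, show (⟨a, ha⟩ : A) = π ⟨pr x, mem_bar hx.1⟩ from Subtype.ext hx.2.symm, π.symm_apply_apply]⟩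
  rw [(hy.eq_iff ((hz.mul h1).mul hz.inv)).1 rfl, map_mul, map_mul, map_inv, e]; group

theorem cent_eq_one (hp : ⁅P, P⁆ = P) (hF : Full (Geo.matrixSet P)) {n : PG4 K} (h : ∀ x ∈ P, n * pr x = pr x * n) :
    n = 1 := by
  obtain ⟨y, rfl⟩ := pr_surj n
  have := comm_of_commutator (T := P) (y := y) fun x hx w => by
    obtain ⟨c, hc⟩ := pr_eq_one'.1 (show pr ⁅x, y⁆ = 1 by
      rw [map_commutatorElement, commutatorElement_eq_one_iff_mul_comm, h x hx])
    exact Units.ext (by simp [hc])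
  rw [hp] at this
  exact pr_eq_one'.2 (hF.isSc (by
    rintro _ ⟨x, hx, rfl⟩
    exact congrArg Units.val (this x hx).symm))

theorem mem_of_aut (hp : ⁅P, P⁆ = P) (hF : Full (Geo.matrixSet P)) (π : bar P ≃* A) {n n' : PG4 K} (hn : Nm P n)
    (hn' : Nm P n') {g g' : G} (hg : g ∈ A) (hg' : g' ∈ A) (h : ∀ a, cjh g (aut π hn) a = cjh g' (aut π hn') a) :
    n' * n⁻¹ ∈ bar P := by
  obtain ⟨z, hz⟩ := Rp.ex π hg
  obtain ⟨z', hz'⟩ := Rp.ex π hg'
  have := cent_eq_one hp hF (n := (pr z * n)⁻¹ * (pr z' * n')) fun x hx => by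
    obtain ⟨a, ha⟩ := Rp.ex' π hx
    obtain ⟨y, hy⟩ := Rp.ex π (cjh_mem hg (aut_mem π hn) ⟨a, ha.memA⟩)
    have e1 := ha.aut hn _ hz hy
    rw [h] at hy
    have e2 := ha.aut hn' _ hz' hy
    calc _ = (pr z * n)⁻¹ * (pr z' * n' * pr x * (pr z' * n')⁻¹) * (pr z' * n') := by group
      _ = _ := by rw [← e2, e1]; group
  rw [inv_mul_eq_one] at this
  rw [show n' * n⁻¹ = (pr z')⁻¹ * pr z by rw [← mul_inv_cancel_right (pr z) n, this]; group]
  exact mul_mem (inv_mem (mem_bar hz'.1)) (mem_bar hz.1)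

theorem nm_one : Nm P 1 := fun b hb => by simpa using hb

theorem mem_of_inner (hp : ⁅P, P⁆ = P) (hF : Full (Geo.matrixSet P)) (π : bar P ≃* A) {n : PG4 K} (hn : Nm P n)
    (h : ∃ g ∈ A, ∀ a, aut π hn a = g * a * g⁻¹) : n ∈ bar P := by
  obtain ⟨g, hg, h⟩ := h
  simpa using mem_of_aut hp hF π nm_one hn hg (one_mem _) fun a => by
    rw [cjh_apply, cjh_apply, h]
    have : aut π nm_one a = a := by simp [aut]
    simp [this]

theorem perfect_bar (hp : ⁅P, P⁆ = P) : Group.IsPerfect (bar P) :=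
  have := Subgroup.isPerfect_iff.2 hp
  Group.IsPerfect.map _

theorem exists_pi8 (hp : ⁅P, P⁆ = P) (hc : Nat.card (PQ P) = 168) : Nonempty (bar P ≃* H5.MH.X8) :=
  have := perfect_bar hp
  have : Finite (bar P) := Nat.finite_of_card_ne_zero (by rw [card_bar]; omega)
  H5.MH.iso_X8 (by rwa [card_bar])

theorem sc_central {z : G4 K} (h : pr z = 1) (g : G4 K) : g * z = z * g := by
  obtain ⟨c, hc⟩ := pr_eq_one'.1 h
  exact Units.ext (by simp [hc])

abbrev SL4 (K : Type*) [Field K] : Subgroup (G4 K) := Geo.specialLinear (Fin 4) K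
abbrev SU4 (K : Type*) [Field K] (q : ℕ) : Subgroup (G4 K) := GU 4 K q ⊓ Geo.specialLinear (Fin 4) K

theorem mem_SL4 {g : G4 K} : g ∈ SL4 K ↔ g.val.det = 1 := by
  rw [SL4, Geo.specialLinear, MonoidHom.mem_ker, Units.ext_iff]; rfl

theorem herm_eq [Fintype K] {q : ℕ} (hq : Fintype.card K = q ^ 2) : hermForm 4 K q = ofG (UP hq).σ 1 := by
  funext u v; simp [hermForm, ofG, dotProduct, UP_σ]

theorem mem_GU4 [Fintype K] {q : ℕ} (hq : Fintype.card K = q ^ 2) {g : G4 K} :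
    g ∈ GU 4 K q ↔ g.valᵀ * 1 * g.val.map (UP hq).σ = 1 := by
  rw [← fix_iff, ← herm_eq hq]; rfl

section frob
variable (p : ℕ) [Fact p.Prime] [CharP K p] (k : ℕ)

theorem core_fix [Finite K] (hc : Geo.IsResidualCore H P) (h : ∀ x ∈ P, T x ^ p ^ k = T x) (a : K) : a ^ p ^ k = a := by
  by_contra ha
  obtain ⟨Q, hQ⟩ := exists_over_of_trace (fixSub (iterateFrobenius K p k)) (one_mem_matrixSet P) (mul_mem_matrixSet P)
    (full_iff_absIrr.2 hc.absIrred) (by rintro _ ⟨x, hx, rfl⟩; exact h x hx)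
  exact hc.no_subfield _ (fixSub_ne_top _ ⟨a, ha⟩) ⟨Q⁻¹, fun s hs => (hQ s).1 (Submodule.subset_span hs)⟩

omit [Fact (Nat.Prime p)] [CharP K p] in
theorem two_step (h : ∀ x ∈ P, T x ^ p ^ 1 = T x⁻¹) : ∀ x ∈ P, T x ^ p ^ 2 = T x := fun x hx => by
  have := h _ (inv_mem hx)
  rw [← h x hx, inv_inv] at this
  rwa [← pow_mul, ← pow_add] at this

end frob

theorem core_top (hc : Geo.IsResidualCore H P) {E : Subfield K} {Q : G4 K} (h : ∀ g ∈ P, Over E (cj Q⁻¹ g.val)) :
    E = ⊤ := by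
  by_contra hE
  exact hc.no_subfield E hE ⟨Q⁻¹, by rintro _ ⟨g, hg, rfl⟩; exact h g hg⟩

theorem pi_of {G : Type*} [Group G] (e : PQ P ≃* G) : Nonempty (bar P ≃* G) := ⟨(pqEquiv P).symm.trans e⟩

theorem perfect_PQ (hp : ⁅P, P⁆ = P) : Group.IsPerfect (PQ P) :=
  have := Subgroup.isPerfect_iff.2 hp
  inferInstance

theorem le_sup_of_bar {S : Subgroup (G4 K)} (h1 : P ≤ S) (h2 : Sc K ≤ S) {h : G4 K} (hh : pr h ∈ bar P) : h ∈ S := by
  obtain ⟨x, hx, e⟩ := hh
  have := mul_mem (h1 hx) (h2 (pr_eq_one.1 (show pr (x⁻¹ * h) = 1 by rw [map_mul, map_inv, e, inv_mul_cancel])))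
  rwa [mul_inv_cancel_left] at this

end Cfsg.Agent.H2.M4
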