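import Cfsg.Agent.H2.M4a

set_option autoImplicit false

/-! Lifts, transfer, quadratic elements and traces in `SL₄`. -/

namespace Cfsg.Agent.H2.M4
open Cfsg Matrix Cfsg.Agent.Asch Cfsg.Agent.Form commutatorElement Subgroup

section group
variable {Γ Q : Type*} [Group Γ] [Group Q]

theorem pow_index_mem [Finite Γ] (hp : commutator Γ = ⊤) (M : Subgroup Γ) {z : Γ} (hz : ∀ g, g * z = z * g) :
    z ^ M.index ∈ ⁅M, M⁆ := by
  have key : ∀ (k : ℕ) (g₀ : Γ), g₀⁻¹ * z ^ k * g₀ ∈ M → g₀⁻¹ * z ^ k * g₀ = z ^ k := fun k g _ => by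
    rw [mul_assoc, ← ((show Commute g z from hz g).pow_right k).eq, inv_mul_cancel_left]
  have h := MonoidHom.transfer_eq_pow (Abelianization.of (G := M)) z key
  rw [show MonoidHom.transfer (Abelianization.of (G := M)) z = 1 from
    Abelianization.commutator_subset_ker _ (hp ▸ mem_top z)] at h
  rw [← map_subtype_commutator]
  exact ⟨_, (QuotientGroup.eq_one_iff _).1 h.symm, rfl⟩

theorem cent_pow [Finite Γ] (hp : commutator Γ = ⊤) (f : Γ →* Q) (hf : Function.Surjective f)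
    (hk : ∀ z, f z = 1 → ∀ g, g * z = z * g) (D : Subgroup Q) {X S : Γ} (hS : S * X * S⁻¹ = X⁻¹)
    (hD : ∀ q ∈ D, ∃ j i : ℕ, q = f S ^ j * f X ^ i) {z : Γ} (hz : f z = 1) : z ^ D.index ∈ zpowers X := by
  rw [← index_comap_of_surjective D hf]
  refine (commutator_le.2 fun m hm m' hm' => ?_ : _ ≤ zpowers X) (pow_index_mem hp _ (hk z hz))
  have c1 : ∀ j : ℕ, ∀ n ∈ zpowers X, S ^ j * n * (S ^ j)⁻¹ ∈ zpowers X := fun j => by
    induction j with
    | zero => simp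
    | succ j ih =>
      intro n hn
      obtain ⟨k, hk⟩ := ih n hn
      rw [show S ^ (j + 1) * n * (S ^ (j + 1))⁻¹ = S * (S ^ j * n * (S ^ j)⁻¹) * S⁻¹ by group, ← hk, ← conj_zpow, hS]
      exact zpow_mem (inv_mem (mem_zpowers X)) k
  have c2 : ∀ m ∈ D.comap f, ∃ (z : Γ) (j : ℕ), (∀ g, g * z = z * g) ∧ ∃ n ∈ zpowers X, m = S ^ j * n * z := fun m hm => by
    obtain ⟨j, i, e⟩ := hD _ hm
    exact ⟨(S ^ j * X ^ i)⁻¹ * m, j, hk _ (by simp [e]), _, npow_mem_zpowers X i, by group⟩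
  obtain ⟨a, j, ha, n, hn, rfl⟩ := c2 m hm
  obtain ⟨b, k, hb, n', hn', rfl⟩ := c2 m' hm'
  have := mul_mem (mul_mem (c1 j n hn) (c1 (j + k) _ (mul_mem hn' (inv_mem hn)))) (c1 k _ (inv_mem hn'))
  convert this using 1
  calc _ = S ^ j * n * (a * (S ^ k * n' * b) * a⁻¹) * n⁻¹ * (S ^ j)⁻¹ * b⁻¹ * n'⁻¹ * (S ^ k)⁻¹ := by
        rw [commutatorElement_def]; group
    _ = S ^ j * n * S ^ k * n' * (b * (n⁻¹ * (S ^ j)⁻¹) * b⁻¹) * n'⁻¹ * (S ^ k)⁻¹ := by rw [← ha]; group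
    _ = _ := by rw [← hb]; group

end group

variable {K : Type*} [Field K] {G : Type*} [Group G] {P : Subgroup (G4 K)} {A : Subgroup G}

theorem eq_of_pr_eq {y z : G4 K} (hy : y.val.det = 1) (hz : z.val.det = 1) {n : ℕ} (ho : Odd n)
    (hyn : y ^ n = 1) (hzn : z ^ n = 1) (h : pr y = pr z) : y = z := by
  obtain ⟨c, hc⟩ := pr_eq_iff.1 h
  have h1 := four_of_smul hy hz hc
  have h2 : c ^ n = 1 := by
    have := congrArg (· ^ n) hc
    simp only [smul_pow, ← Units.val_pow_eq_pow_val, hyn, hzn, Units.val_one] at this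
    simpa using (congrFun (congrFun this 0) 0).symm
  have h4 := (pow_gcd_eq_one (a := c)).2 ⟨h2, h1⟩
  rw [show n.gcd 4 = 1 from (Nat.coprime_two_right.2 ho).pow_right 2, pow_one] at h4
  exact Units.ext (by rw [hc, h4, one_smul])

theorem sc_four {z : G4 K} (hd : z.val.det = 1) (h : pr z = 1) : z ^ 4 = 1 := by
  obtain ⟨c, hc⟩ := pr_eq_one'.1 h
  exact Units.ext (by rw [Units.val_pow_eq_pow_val, hc, smul_pow, four_of_smul (h := 1) hd (by simp) hc]; simp)

theorem Rp.lift {π : bar P ≃* A} {a : G} {x : G4 K} (hd : ∀ x ∈ P, x.val.det = 1) (h : Rp π a x) {n : ℕ}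
    (e : a ^ n = 1) (ho : Odd n) : ∃ y, Rp π a y ∧ y ^ n = 1 := by
  have h1 : pr (x ^ n) = 1 := by rw [map_pow]; exact h.pow_eq e
  obtain ⟨k, hk⟩ := ho
  refine ⟨x * (x ^ n) ^ (3 * n), h.of_pr (mul_mem h.1 (pow_mem (pow_mem h.1 _) _)) (by simp [map_mul, map_pow, h1]), ?_⟩
  rw [← pow_mul, ← pow_succ', ← pow_mul, mul_comm _ n, pow_mul,
    show n * (3 * n) + 1 = 4 * (3 * k ^ 2 + 3 * k + 1) by rw [hk]; ring, pow_mul, sc_four (hd _ (pow_mem h.1 n)) h1, one_pow]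

/-- the homomorphism onto the abstract group -/
def fP (π : bar P ≃* A) : P →* A := π.toMonoidHom.comp ((pr.comp P.subtype).codRestrict (bar P) fun x => mem_bar x.2)

theorem fP_surj (π : bar P ≃* A) : Function.Surjective (fP π) := fun a => by
  obtain ⟨x, hx, e⟩ := Rp.ex π a.2
  exact ⟨⟨x, hx⟩, Subtype.ext e⟩

theorem rp_fP (π : bar P ≃* A) (x : P) : Rp π (fP π x) x := ⟨x.2, rfl⟩

theorem comm_top (hp : ⁅P, P⁆ = P) : commutator P = ⊤ := (Subgroup.isPerfect_iff.2 hp).commutator_eq_top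

theorem sc_sq [Finite K] (hp : ⁅P, P⁆ = P) (π : bar P ≃* A) {a : G} (ha : a ∈ A) {n k : ℕ} (ho : orderOf a = n)
    (hc : Nat.card A = n * (2 * (2 * k + 1))) {z : G4 K} (hz : z ∈ P) (h : pr z = 1) : z * z = 1 := by
  obtain ⟨x, hx, e⟩ := Rp.ex π ha
  have : Finite A := Finite.of_surjective _ (fP_surj π)
  have h1 := cent_pow (comm_top hp) (fP π) (fP_surj π) (fun z hz g => Subtype.ext (sc_central
    ((rp_fP π z).eq_one_iff.1 (by rw [hz]; rfl)) _)) (zpowers ⟨a, ha⟩) (X := 1) (S := ⟨x, hx⟩) (by simp)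
    (fun q hq => by
      obtain ⟨j, rfl⟩ := mem_powers_iff_mem_zpowers.2 hq
      exact ⟨j, 0, by rw [show fP π ⟨x, hx⟩ = ⟨a, ha⟩ from Subtype.ext e]; simp⟩) (z := ⟨z, hz⟩)
    (Subtype.ext ((rp_fP π ⟨z, hz⟩).eq_one_iff.2 h))
  have h2 := (zpowers (⟨a, ha⟩ : A)).card_mul_index
  rw [Nat.card_zpowers, ← orderOf_coe, ho, hc] at h2
  have h3 : n ≠ 0 := by rintro rfl; exact Nat.card_pos.ne' (by simpa using hc)
  rw [mul_left_cancel₀ h3 h2, zpowers_one_eq_bot, mem_bot] at h1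
  have h4 : z ^ (2 * (2 * k + 1)) = 1 := congrArg Subtype.val h1
  rwa [show 2 * (2 * k + 1) = 4 * k + 2 by ring, pow_add, pow_mul, sc_four (det_eq_one_of_perfect hp hz) h, one_pow,
    one_mul, pow_two] at h4

/-- the element `-1` -/
def ng : G4 K := sc (-1) (by simp)

theorem ng_val : (ng : G4 K).val = -1 := by simp [ng]

theorem ng_mul_val (x : G4 K) : (ng * x).val = -x.val := by simp [ng]

theorem ng_ng : (ng * ng : G4 K) = 1 := Units.ext (by simp [ng])

theorem pr_ng : pr (ng : G4 K) = 1 := pr_eq_one.2 (sc_mem _ _)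

theorem ng_comm (x : G4 K) : Commute x ng := sc_central pr_ng x

theorem T_ng (x : G4 K) : T (ng * x) = -T x := by simp [T, ng]

theorem ng_inv (x : G4 K) : (ng * x)⁻¹ = ng * x⁻¹ := by
  rw [_root_.mul_inv_rev, inv_eq_of_mul_eq_one_right ng_ng, (ng_comm _).eq]

/-- the only scalars are `±1` -/
def Z2 (P : Subgroup (G4 K)) : Prop := ∀ z ∈ P, pr z = 1 → z * z = 1

theorem Z2.or (h : Z2 P) {x y : G4 K} (hx : x ∈ P) (hy : y ∈ P) (e : pr x = pr y) : x = y ∨ x = ng * y := by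
  have h1 : pr (x * y⁻¹) = 1 := by simp [e]
  have h2 := h _ (mul_mem hx (inv_mem hy)) h1
  obtain ⟨c, hc⟩ := pr_eq_one'.1 h1
  have h3 : c * c = 1 := by
    have := congrArg Units.val h2
    rw [Units.val_mul, hc] at this
    simpa using congrFun (congrFun this 0) 0
  rcases mul_self_eq_one_iff.1 h3 with rfl | rfl
  · exact .inl (mul_inv_eq_one.1 (Units.ext (by simpa using hc)))
  · exact .inr (mul_inv_eq_iff_eq_mul.1 (Units.ext hc))

theorem Rp.conj_or {π : bar P ≃* A} (h : Z2 P) {a b c : G} {x y z : G4 K} (hx : Rp π a x) (hy : Rp π b y)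
    (hz : Rp π c z) (e : c * a = b * c) : z * x * z⁻¹ = y ∨ z * x * z⁻¹ = ng * y :=
  h.or (mul_mem (mul_mem hz.1 hx.1) (inv_mem hz.1)) hy.1 (by simpa using hx.conj hy hz e)

theorem Rp.conj_odd {π : bar P ≃* A} (hd : ∀ x ∈ P, x.val.det = 1) {a b c : G} {x y z : G4 K} (hx : Rp π a x)
    (hy : Rp π b y) (hz : Rp π c z) (e : c * a = b * c) {n : ℕ} (ho : Odd n) (h1 : x ^ n = 1) (h2 : y ^ n = 1) :
    z * x * z⁻¹ = y :=
  eq_of_pr_eq (det_conj _ (hd x hx.1)) (hd y hy.1) ho (by rw [conj_pow, h1]; simp) h2 (by simpa using hx.conj hy hz e)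

/-- conjugate involutions have lifts with the same square -/
theorem Rp.sq_eq {π : bar P ≃* A} (h : Z2 P) {a b c : G} {x y : G4 K} (hx : Rp π a x) (hy : Rp π b y)
    (hc : c ∈ A) (e : c * a = b * c) (h2 : a * a = 1) : y * y = x * x := by
  obtain ⟨z, hz⟩ := Rp.ex π hc
  have h3 := sc_central ((hx.mul hx).eq_one_iff.1 h2) z
  have h4 : z * x * z⁻¹ * (z * x * z⁻¹) = x * x := by
    rw [show z * x * z⁻¹ * (z * x * z⁻¹) = z * (x * x) * z⁻¹ by group, h3, mul_inv_cancel_right]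
  rcases hx.conj_or h hy hz e with e | e <;> rw [← h4, e]
  exact Units.ext (by simp [ng])

theorem Rp.ind [Finite G] {π : bar P ≃* A} {a b : G} {x y : G4 K} (hA : A ≤ closure {a, b}) (hx : Rp π a x)
    (hy : Rp π b y) {p : M4 K → Prop} (h1 : ∀ c : K, p (c • 1)) (h2 : ∀ X, p X → p (x.val * X))
    (h3 : ∀ X, p X → p (y.val * X)) {w : G4 K} (hw : w ∈ P) : p w.val := by
  obtain ⟨g, hg⟩ := Rp.ex' π hw
  refine H5.MH.closure_ind_fin (p := fun g => ∀ w, Rp π g w → p w.val) (fun w hw => ?_) ?_ (hA hg.memA) w hg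
  · obtain ⟨c, hc⟩ := pr_eq_one'.1 (hw.eq_one_iff.1 rfl)
    exact hc ▸ h1 c
  · rintro _ (rfl | rfl) g ih w hw
    · have := h2 _ (ih _ (by simpa using hx.inv.mul hw))
      rwa [← Units.val_mul, mul_inv_cancel_left] at this
    · have := h3 _ (ih _ (by simpa using hy.inv.mul hw))
      rwa [← Units.val_mul, mul_inv_cancel_left] at this

/-- quadratic elements -/
def Qd (x : G4 K) : Prop := ∃ a b : K, x.val * x.val = a • x.val + b • (1 : M4 K)

theorem qd_of {x : G4 K} {s a b : K} (hs : s ≠ 0) (h : s • (x.val * x.val) = a • x.val + b • (1 : M4 K)) : Qd x :=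
  ⟨s⁻¹ * a, s⁻¹ * b, by rw [← smul_smul, ← smul_smul, ← smul_add, ← h, smul_smul, inv_mul_cancel₀ hs, one_smul]⟩

theorem Qd.of_pr {x y g : G4 K} (h : Qd x) (e : pr g * pr x * (pr g)⁻¹ = pr y) : Qd y := by
  obtain ⟨a, b, h⟩ := h
  obtain ⟨c, hc⟩ := pr_eq_iff.1 (show pr y = pr (g * x * g⁻¹) by simp [e])
  refine ⟨c * a, c * c * b, ?_⟩
  rw [hc, ← cj_coe, smul_mul_smul_comm, ← map_mul, h, map_add, map_smul, map_smul, map_one]
  module

theorem Rp.not_qd [Finite G] {π : bar P ≃* A} (hF : Full (Geo.matrixSet P)) {a b g : G} {x : G4 K}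
    (hA : A ≤ closure {a, b}) (hx : Rp π a x) (hg : g ∈ A) (e : g * a = b * g) : ¬ Qd x := fun hq => by
  obtain ⟨z, hz⟩ := Rp.ex π hg
  obtain ⟨y, hy⟩ := Rp.ex π (show b ∈ A by
    rw [show b = g * a * g⁻¹ by rw [e, mul_inv_cancel_right]]; exact mul_mem (mul_mem hg hx.memA) (inv_mem hg))
  obtain ⟨c, d, h2⟩ := hq.of_pr (hx.conj hy hz e)
  obtain ⟨s, t, h1⟩ := hq
  have k1 : ∀ X, x.val * (x.val * X) = s • (x.val * X) + t • X := fun X => by
    rw [← Matrix.mul_assoc, h1]; simp [Matrix.add_mul]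
  have k2 : ∀ X, y.val * (y.val * X) = c • (y.val * X) + d • X := fun X => by
    rw [← Matrix.mul_assoc, h2]; simp [Matrix.add_mul]
  obtain ⟨l, hl⟩ := hF.isSc (Z := x.val * y.val + y.val * x.val - c • x.val - s • y.val) (by
    rintro _ ⟨w, hw, rfl⟩
    refine Rp.ind (p := fun X => _ * X = X * _) hA hx hy (by simp) (fun X h => ?_) (fun X h => ?_) hw <;>
      rw [Matrix.mul_assoc _ X, ← h, ← Matrix.mul_assoc, ← Matrix.mul_assoc] <;> congr 1 <;>
      simp only [Matrix.add_mul, Matrix.sub_mul, Matrix.mul_add, Matrix.mul_sub, Matrix.mul_assoc, k1, k2, h1, h2,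
        Matrix.smul_mul, Matrix.mul_smul, Matrix.mul_one] <;> module)
  have k3 : y.val * x.val = l • 1 - x.val * y.val + c • x.val + s • y.val := by rw [← hl]; abel
  let v : Fin 4 → M4 K := ![1, x.val, y.val, x.val * y.val]
  have m : ∀ c0 c1 c2 c3 : K, c0 • (1 : M4 K) + c1 • x.val + c2 • y.val + c3 • (x.val * y.val) ∈
      Submodule.span K (Set.range v) := fun c0 c1 c2 c3 =>
    (Submodule.mem_span_range_iff_exists_fun K).2 ⟨![c0, c1, c2, c3], by simp [Fin.sum_univ_four, v]⟩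
  have h4 : Submodule.span K (Set.range v) = ⊤ := eq_top_iff.2 (hF.ge.trans (Submodule.span_le.2 (by
    rintro _ ⟨w, hw, rfl⟩
    refine Rp.ind (p := fun X => X ∈ Submodule.span K (Set.range v)) hA hx hy (fun c => by simpa using m c 0 0 0)
      (fun X h => ?_) (fun X h => ?_) hw <;> obtain ⟨u, rfl⟩ := (Submodule.mem_span_range_iff_exists_fun K).1 h
    · convert m (u 1 * t) (u 0 + u 1 * s) (u 3 * t) (u 2 + u 3 * s) using 1
      simp [Fin.sum_univ_four, v, Matrix.mul_add, k1, h1]; module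
    · convert m (u 1 * l + u 2 * d + u 3 * s * d) (u 1 * c - u 3 * d) (u 0 + u 1 * s + u 2 * c + u 3 * (l + s * c))
        (-u 1) using 1
      simp only [Fin.sum_univ_four, v, Matrix.mul_add, Matrix.mul_smul, Matrix.cons_val_zero, Matrix.cons_val_one,
        Matrix.cons_val, ← Matrix.mul_assoc y.val, k3, Matrix.add_mul, Matrix.sub_mul, Matrix.smul_mul,
        Matrix.mul_assoc x.val, h2, Matrix.mul_one, Matrix.one_mul]
      module)))
  have := finrank_range_le_card (R := K) v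
  rw [Set.finrank, h4] at this
  simp [Module.finrank_matrix] at this

theorem sc_of {x : G4 K} {e s : K} (h : e • x.val = s • (1 : M4 K)) (hx : pr x ≠ 1) : s = 0 := by
  by_cases he : e = 0
  · simpa [he] using (congrFun (congrFun h 0) 0).symm
  · exact (hx (pr_eq_one'.2 ⟨e⁻¹ * s, by rw [← smul_smul, ← h, smul_smul, inv_mul_cancel₀ he, one_smul]⟩)).elim

theorem T_two (h2 : (2 : K) ≠ 0) {x : G4 K} (hd : x.val.det = 1) (h : x * x = 1 ∨ x * x = ng) (hx : pr x ≠ 1) :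
    T x = 0 ∧ T x⁻¹ = 0 := by
  have h1 := ch hd
  rcases h with h | h
  · rw [inv_eq_of_mul_eq_one_right h, pow_succ x 2, pow_two, h, one_mul, Units.val_one] at h1
    rw [inv_eq_of_mul_eq_one_right h, and_self]
    exact (mul_eq_zero.1 (sc_of (e := e2 x.val + 2) (s := 2 * T x) (by linear_combination (norm := module) h1) hx)).resolve_left h2
  · have e : x⁻¹ = ng * x := inv_eq_of_mul_eq_one_right (by rw [← mul_assoc, (ng_comm x).eq, mul_assoc, h, ng_ng])
    rw [e, pow_succ x 2, pow_two, h, T_ng, ng_mul_val, ng_val] at h1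
    rw [e, T_ng, neg_eq_zero, and_self]
    exact (mul_eq_zero.1 (sc_of (e := 2 - e2 x.val) (s := 2 * T x) (by linear_combination (norm := module) -h1) hx)).resolve_left h2

theorem T_eight {x : G4 K} (hd : x.val.det = 1) (h : x ^ 4 = ng) (hx : pr x ≠ 1) (hq : ¬ Qd x) :
    T x = 0 ∧ T x⁻¹ = 0 := by
  have h1 := ch hd
  have e : (x⁻¹).val = -(x ^ 3).val := by
    rw [← ng_mul_val, inv_eq_of_mul_eq_one_right (a := x) (b := ng * x ^ 3)]
    rw [← mul_assoc, (ng_comm x).eq, mul_assoc, ← pow_succ', h, ng_ng]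
  rw [e, pow_two, Units.val_mul] at h1
  have h3 : T x = 0 := by_contra fun h3 =>
    hq (qd_of h3 (a := e2 x.val) (b := -T x⁻¹) (by linear_combination (norm := module) -h1))
  rw [h3] at h1
  exact ⟨h3, sc_of (e := e2 x.val) (by linear_combination (norm := module) h1) hx⟩

theorem T_three {x : G4 K} (hd : x.val.det = 1) (h : x ^ 3 = 1) (hr : T x⁻¹ = T x) (hq : ¬ Qd x) : T x = 1 := by
  have h1 := ch hd
  rw [hr, inv_eq_of_mul_eq_one_right (show x * x ^ 2 = 1 by rw [← pow_succ', h]), h, pow_two, Units.val_mul,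
    Units.val_one] at h1
  exact by_contra fun h3 => hq (qd_of (sub_ne_zero.2 h3) (a := e2 x.val) (b := 1 - T x)
    (by linear_combination (norm := module) -h1))

theorem T_ch {x : G4 K} (hd : x.val.det = 1) : T (x ^ 3) = 3 * T x⁻¹ - e2 x.val * T x + T x * T (x ^ 2) ∧
    T (x⁻¹ ^ 2) = T x⁻¹ ^ 2 - 2 * e2 x.val := by
  have h1 := ch hd
  have h2 := congrArg Matrix.trace h1
  have h3 := congrArg (fun X => Matrix.trace (X * (x⁻¹).val)) h1
  have h4 := T_sq x
  simp only [Matrix.add_mul, Matrix.sub_mul, Matrix.smul_mul, ← Units.val_mul, pow_succ x, mul_inv_cancel_right,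
    mul_inv_cancel, Matrix.one_mul, pow_zero, one_mul] at h3
  simp only [trace_add, trace_sub, trace_smul, trace_one, smul_eq_mul, Units.val_one, Fintype.card_fin,
    Nat.cast_ofNat] at h2 h3
  simp only [T, pow_two] at *
  exact ⟨by linear_combination h2, by linear_combination h3 - h4⟩

section frob
variable (p : ℕ) [Fact p.Prime] [CharP K p]

/-- the trace is real and lies in the prime field -/
def Good (x : G4 K) : Prop := T x ^ p = T x ∧ T x⁻¹ = T x

variable {p}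

theorem Good.ng {x : G4 K} (h : Good p x) : Good p (ng * x) :=
  ⟨by rw [T_ng, neg_pow, neg_one_pow_char, h.1, neg_one_mul], by rw [ng_inv, T_ng, T_ng, h.2]⟩

omit [Fact p.Prime] [CharP K p] in
theorem Good.cj {x : G4 K} (h : Good p x) (g : G4 K) : Good p (g * x * g⁻¹) :=
  ⟨by rw [T_conj, h.1], by rw [show (g * x * g⁻¹)⁻¹ = g * x⁻¹ * g⁻¹ by group, T_conj, T_conj, h.2]⟩

omit [CharP K p] in
theorem good_zero {x : G4 K} (h : T x = 0 ∧ T x⁻¹ = 0) : Good p x :=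
  ⟨by rw [h.1, zero_pow (Fact.out : p.Prime).ne_zero], h.2.trans h.1.symm⟩

theorem good_of {x : G4 K} {N : ℕ} (hx : x ^ (N + 1) = 1)
    (h : ∀ k < N + 1, k.Coprime (N + 1) → ∃ g : G4 K, g * x * g⁻¹ = x ^ k) : Good p x := by
  have h1 : ∀ k j, k.Coprime (N + 1) → T (x ^ (k * j)) = T (x ^ j) := fun k j hk => by
    obtain ⟨g, hg⟩ := h _ (Nat.mod_lt k N.succ_pos) ((ZMod.coprime_mod_iff_coprime _ _).2 hk)
    rw [pow_mul, pow_eq_pow_mod k hx, ← hg, conj_pow, T_conj]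
  refine ⟨?_, by simpa [inv_eq_of_mul_eq_one_right (show x * x ^ N = 1 by rw [← pow_succ', hx])] using h1 N 1 (by simp)⟩
  obtain ⟨a, m, hm, e⟩ := Nat.exists_eq_pow_mul_and_not_dvd N.succ_ne_zero p (Fact.out : p.Prime).ne_one
  have c := (Nat.Prime.coprime_iff_not_dvd Fact.out).2 hm
  have := h1 (p + m) (p ^ a) (by
    rw [show N + 1 = _ from e]
    exact Nat.Coprime.mul_right (Nat.Coprime.pow_right _ (by simpa using c.symm)) (by simpa using c))
  rw [add_mul, pow_add, mul_comm m, ← e, hx, mul_one, pow_mul, T_pow_char_pow, T_pow_char_pow, T_pow_char] at this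
  exact (iterateFrobenius K p a).injective this

theorem Rp.good {π : bar P ≃* A} (hz : Z2 P) {a b c : G} {x y : G4 K} (hx : Rp π a x) (hy : Rp π b y) (hc : c ∈ A)
    (e : a * c = c * b) (h : Good p y) : Good p x := by
  obtain ⟨z, hz'⟩ := Rp.ex π hc
  rcases hy.conj_or hz hx hz' e.symm with e | e
  · exact e ▸ h.cj z
  · have := (h.cj z).ng
    rwa [e, ← mul_assoc, ng_ng, one_mul] at this

end frob

/-- elements of order seven conjugate to their squares -/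
structure Sev (s : G4 K) : Prop where
  det : s.val.det = 1
  pow : s ^ 7 = 1
  cj : ∃ g : G4 K, g * s * g⁻¹ = s ^ 2

theorem Sev.two {s : G4 K} (h : Sev s) (k : ℕ) : T (s ^ (2 * k)) = T (s ^ k) := by
  obtain ⟨g, hg⟩ := h.cj
  rw [pow_mul, ← hg, conj_pow, T_conj]

theorem Sev.inv_eq {s : G4 K} (h : Sev s) : s⁻¹ = s ^ 6 := by rw [inv_eq_iff_mul_eq_one, ← pow_succ', h.pow]

theorem Sev.res {s : G4 K} (h : Sev s) {k : ℕ} (hk : k % 7 = 1 ∨ k % 7 = 2 ∨ k % 7 = 4) : T (s ^ k) = T s := by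
  have h1 := h.two 1
  have h2 := h.two 2
  rw [pow_eq_pow_mod k h.pow]
  rcases hk with e | e | e <;> simp_all

theorem Sev.nres {s : G4 K} (h : Sev s) {k : ℕ} (hk : k % 7 = 3 ∨ k % 7 = 5 ∨ k % 7 = 6) : T (s ^ k) = T s⁻¹ := by
  have h1 := h.two 3
  have h2 := h.two 6
  rw [pow_eq_pow_mod 12 h.pow] at h2
  rw [pow_eq_pow_mod k h.pow, h.inv_eq]
  rcases hk with e | e | e <;> simp_all

theorem Sev.inv {s : G4 K} (h : Sev s) : Sev s⁻¹ :=
  ⟨det_inv h.det, by rw [inv_pow, h.pow, inv_one], h.cj.imp fun g hg => by rw [inv_pow, ← hg]; group⟩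

theorem Sev.eq {s : G4 K} (h : Sev s) (h2 : (2 : K) ≠ 0) (hr : T s⁻¹ ≠ T s) :
    T s⁻¹ = 1 - T s ∧ T s * T s = T s - 2 := by
  obtain ⟨h3, h4⟩ := T_ch h.det
  obtain ⟨h5, -⟩ := T_ch h.inv.det
  have h6 := T_sq s
  have h7 := T_sq s⁻¹
  rw [h.inv.nres (by norm_num), inv_inv, h.inv.res (by norm_num)] at h5
  rw [h.nres (by norm_num), h.res (by norm_num)] at h3
  rw [h.res (by norm_num)] at h6
  rw [h.inv.res (by norm_num)] at h4 h7
  have e1 : T s⁻¹ = 1 - T s := mul_left_cancel₀ (sub_ne_zero.2 hr) (by linear_combination h6 - h4)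
  have e2' : e2 (s⁻¹).val = e2 s.val := mul_left_cancel₀ h2 (by linear_combination h7 - h4)
  refine ⟨e1, by_contra fun hn => hr ?_⟩
  have hn' : T s * T s - T s + 2 ≠ 0 := fun e => hn (by linear_combination e)
  rw [e2'] at h5
  have a1 : T s = 2 := mul_left_cancel₀ hn' (by linear_combination 2 * h3 - T s * h6 + 4 * e1)
  have a2 : T s⁻¹ = 2 := mul_left_cancel₀ hn' (by
    have e3 : T s = 1 - T s⁻¹ := by linear_combination e1
    rw [e3] at h5 ⊢; linear_combination 2 * h5 - T s⁻¹ * h4)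
  rw [a1, a2]

theorem Rp.sev {π : bar P ≃* A} (hd : ∀ x ∈ P, x.val.det = 1) {t h : G} (ht : t ∈ A) (hh : h ∈ A) (e1 : t ^ 7 = 1)
    (e2 : h * t = t ^ 2 * h) : ∃ s, Rp π t s ∧ Sev s := by
  obtain ⟨x, hx⟩ := Rp.ex π ht
  obtain ⟨s, hs, h7⟩ := hx.lift hd e1 (by decide)
  obtain ⟨z, hz⟩ := Rp.ex π hh
  exact ⟨s, hs, hd s hs.1, h7, z, hs.conj_odd hd (hs.pow 2) hz e2 (n := 7) (by decide) h7
    (by rw [← pow_mul, mul_comm, pow_mul, h7, one_pow])⟩

/-- the traces of a group whose only irrationalities come from elements of order seven -/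
def Tr7 (p : ℕ) (P : Subgroup (G4 K)) : Prop := ∀ x ∈ P, Good p x ∨ ∃ s, Sev s ∧ (x = s ∨ x = ng * s)

section frob
variable {p : ℕ} [Fact p.Prime] [CharP K p]

theorem Tr7.res (h : Tr7 p P) (hp : p % 7 = 1 ∨ p % 7 = 2 ∨ p % 7 = 4) : ∀ x ∈ P, T x ^ p ^ 1 = T x := fun x hx => by
  rw [pow_one]
  rcases h x hx with h | ⟨s, hs, rfl | rfl⟩
  · exact h.1
  · rw [← T_pow_char, hs.res hp]
  · rw [T_ng, neg_pow, neg_one_pow_char, ← T_pow_char, hs.res hp, neg_one_mul]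

theorem Tr7.nres (h : Tr7 p P) (hp : p % 7 = 3 ∨ p % 7 = 5 ∨ p % 7 = 6) : ∀ x ∈ P, T x ^ p ^ 1 = T x⁻¹ := fun x hx => by
  rw [pow_one]
  rcases h x hx with h | ⟨s, hs, rfl | rfl⟩
  · exact h.1.trans h.2.symm
  · rw [← T_pow_char, hs.nres hp]
  · rw [ng_inv, T_ng, T_ng, neg_pow, neg_one_pow_char, ← T_pow_char, hs.nres hp, neg_one_mul]

theorem Tr7.real (h : Tr7 p P) (hp : p = 7) : ∀ x ∈ P, T x⁻¹ = T x := fun x hx => by
  have k : ∀ s : G4 K, Sev s → T s⁻¹ = T s := fun s hs => frobenius_inj K p (by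
    rw [frobenius_def, frobenius_def, ← T_pow_char, ← T_pow_char, hp, hs.pow, hs.inv.pow])
  rcases h x hx with h | ⟨s, hs, rfl | rfl⟩
  · exact h.2
  · exact k _ hs
  · rw [ng_inv, T_ng, T_ng, k _ hs]

end frob

end Cfsg.Agent.H2.M4
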