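import Cfsg.Agent.H2.M4c

set_option autoImplicit false
set_option maxRecDepth 100000

/-! A model of `2.L₂(7) < 2.A₇` in dimension four: the lattice `E₈` over `ℤ[(1 + √-7)/2]`. -/

namespace Cfsg.Agent.H2.M4
open Cfsg Matrix Cfsg.Agent.Asch Subgroup Equiv
open Cfsg.Agent.H5.MH (t8 w8)

abbrev R := QuadraticAlgebra ℤ (-2) 1

def tR : GL (Fin 4) R := ⟨!![⟨-1, 0⟩, ⟨-1, 0⟩, ⟨-1, 0⟩, ⟨0, 0⟩; ⟨0, 0⟩, ⟨1, 0⟩, ⟨0, 0⟩, ⟨-1, 0⟩; ⟨0, 0⟩, ⟨1, 0⟩, ⟨0, 1⟩, ⟨0, 0⟩; ⟨1, -1⟩, ⟨0, 0⟩, ⟨0, -1⟩, ⟨0, 0⟩],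
  !![⟨0, 1⟩, ⟨0, 0⟩, ⟨0, 1⟩, ⟨-1, 1⟩; ⟨-2, 0⟩, ⟨0, 0⟩, ⟨-1, 0⟩, ⟨0, -1⟩; ⟨1, -1⟩, ⟨0, 0⟩, ⟨1, -1⟩, ⟨1, 0⟩; ⟨-2, 0⟩, ⟨-1, 0⟩, ⟨-1, 0⟩, ⟨0, -1⟩], by decide +kernel, by decide +kernel⟩
def wR : GL (Fin 4) R := ⟨!![⟨0, 1⟩, ⟨0, 0⟩, ⟨1, 0⟩, ⟨0, 0⟩; ⟨-1, -1⟩, ⟨0, -1⟩, ⟨0, 0⟩, ⟨1, 0⟩; ⟨1, -1⟩, ⟨0, 0⟩, ⟨0, -1⟩, ⟨0, 0⟩; ⟨0, 0⟩, ⟨1, -1⟩, ⟨1, 1⟩, ⟨0, 1⟩],
  !![⟨0, -1⟩, ⟨0, 0⟩, ⟨-1, 0⟩, ⟨0, 0⟩; ⟨1, 1⟩, ⟨0, 1⟩, ⟨0, 0⟩, ⟨-1, 0⟩; ⟨-1, 1⟩, ⟨0, 0⟩, ⟨0, 1⟩, ⟨0, 0⟩; ⟨0, 0⟩, ⟨-1, 1⟩, ⟨-1, -1⟩, ⟨0, -1⟩], by decide +kernel, by decide +kernel⟩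
def zR : GL (Fin 4) R := ⟨!![⟨0, 1⟩, ⟨0, 0⟩, ⟨1, 0⟩, ⟨0, 0⟩; ⟨-1, 0⟩, ⟨0, 0⟩, ⟨-1, 1⟩, ⟨0, 0⟩; ⟨1, -1⟩, ⟨-1, 0⟩, ⟨0, -1⟩, ⟨1, 0⟩; ⟨-2, 1⟩, ⟨0, 0⟩, ⟨-1, 1⟩, ⟨-1, 0⟩],
  !![⟨1, -1⟩, ⟨1, 0⟩, ⟨0, 0⟩, ⟨0, 0⟩; ⟨0, 1⟩, ⟨-1, 1⟩, ⟨-1, 0⟩, ⟨-1, 0⟩; ⟨-1, 0⟩, ⟨0, -1⟩, ⟨0, 0⟩, ⟨0, 0⟩; ⟨1, 1⟩, ⟨0, 1⟩, ⟨0, 0⟩, ⟨-1, 0⟩], by decide +kernel, by decide +kernel⟩
def GR : M4 R := !![⟨7, 0⟩, ⟨3, 1⟩, ⟨4, -1⟩, ⟨2, -4⟩; ⟨4, -1⟩, ⟨7, 0⟩, ⟨2, -4⟩, ⟨-2, -3⟩; ⟨3, 1⟩, ⟨-2, 4⟩, ⟨7, 0⟩, ⟨5, -3⟩; ⟨-2, 4⟩, ⟨-5, 3⟩, ⟨2, 3⟩, ⟨7, 0⟩]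
def UR : M4 R := !![⟨1, 6⟩, ⟨0, 0⟩, ⟨0, 2⟩, ⟨-8, 0⟩; ⟨0, 0⟩, ⟨7, 0⟩, ⟨0, 0⟩, ⟨0, 0⟩; ⟨-2, -2⟩, ⟨0, 0⟩, ⟨1, 0⟩, ⟨-2, 2⟩; ⟨-2, 0⟩, ⟨0, 0⟩, ⟨4, -2⟩, ⟨7, -6⟩]
def vR : Fin 8 → Fin 4 → R := ![![⟨1, 0⟩, ⟨0, 0⟩, ⟨0, 0⟩, ⟨0, 0⟩],
  ![⟨-1, 0⟩, ⟨0, 0⟩, ⟨0, 0⟩, ⟨1, -1⟩],
  ![⟨1, 0⟩, ⟨-1, 1⟩, ⟨0, 0⟩, ⟨-1, 1⟩],
  ![⟨0, -1⟩, ⟨0, 0⟩, ⟨-1, 1⟩, ⟨1, -1⟩],
  ![⟨1, 0⟩, ⟨-1, 1⟩, ⟨-2, 0⟩, ⟨0, 0⟩],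
  ![⟨2, -1⟩, ⟨-1, 1⟩, ⟨-1, -1⟩, ⟨1, 1⟩],
  ![⟨0, 1⟩, ⟨-2, 0⟩, ⟨1, -1⟩, ⟨-2, 0⟩],
  ![⟨0, 1⟩, ⟨-1, -1⟩, ⟨1, -1⟩, ⟨0, 0⟩]]
def aR : Fin 7 → M4 R := ![!![⟨0, 0⟩, ⟨0, -1⟩, ⟨1, -1⟩, ⟨0, 1⟩; ⟨0, 1⟩, ⟨0, 0⟩, ⟨1, -1⟩, ⟨-1, 0⟩; ⟨-1, 1⟩, ⟨-1, 1⟩, ⟨0, 0⟩, ⟨-1, 0⟩; ⟨0, -1⟩, ⟨1, 0⟩, ⟨1, 0⟩, ⟨0, 0⟩],
  !![⟨0, 0⟩, ⟨-1, 1⟩, ⟨-3, 0⟩, ⟨1, -1⟩; ⟨1, -1⟩, ⟨0, 0⟩, ⟨1, -1⟩, ⟨2, 1⟩; ⟨3, 0⟩, ⟨-1, 1⟩, ⟨0, 0⟩, ⟨-2, 2⟩; ⟨-1, 1⟩, ⟨-2, -1⟩, ⟨2, -2⟩, ⟨0, 0⟩],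
  !![⟨0, 0⟩, ⟨3, 0⟩, ⟨0, 1⟩, ⟨0, 1⟩; ⟨-3, 0⟩, ⟨0, 0⟩, ⟨0, 1⟩, ⟨0, -2⟩; ⟨0, -1⟩, ⟨0, -1⟩, ⟨0, 0⟩, ⟨3, -1⟩; ⟨0, -1⟩, ⟨0, 2⟩, ⟨-3, 1⟩, ⟨0, 0⟩],
  !![⟨0, 0⟩, ⟨0, -1⟩, ⟨1, -1⟩, ⟨1, -1⟩; ⟨0, 1⟩, ⟨0, 0⟩, ⟨0, 1⟩, ⟨-1, 0⟩; ⟨-1, 1⟩, ⟨0, -1⟩, ⟨0, 0⟩, ⟨-1, 0⟩; ⟨-1, 1⟩, ⟨1, 0⟩, ⟨1, 0⟩, ⟨0, 0⟩],
  !![⟨0, 0⟩, ⟨-1, 1⟩, ⟨0, 1⟩, ⟨-3, 0⟩; ⟨1, -1⟩, ⟨0, 0⟩, ⟨-3, 0⟩, ⟨3, -1⟩; ⟨0, -1⟩, ⟨3, 0⟩, ⟨0, 0⟩, ⟨2, 1⟩; ⟨3, 0⟩, ⟨-3, 1⟩, ⟨-2, -1⟩, ⟨0, 0⟩],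
  !![⟨0, 0⟩, ⟨0, -1⟩, ⟨0, 1⟩, ⟨1, -1⟩; ⟨0, 1⟩, ⟨0, 0⟩, ⟨1, -1⟩, ⟨-2, 2⟩; ⟨0, -1⟩, ⟨-1, 1⟩, ⟨0, 0⟩, ⟨-1, 0⟩; ⟨-1, 1⟩, ⟨2, -2⟩, ⟨1, 0⟩, ⟨0, 0⟩],
  !![⟨0, 0⟩, ⟨-1, 1⟩, ⟨1, -1⟩, ⟨0, 1⟩; ⟨1, -1⟩, ⟨0, 0⟩, ⟨0, 1⟩, ⟨-1, 0⟩; ⟨-1, 1⟩, ⟨0, -1⟩, ⟨0, 0⟩, ⟨0, -2⟩; ⟨0, -1⟩, ⟨1, 0⟩, ⟨0, 2⟩, ⟨0, 0⟩]]
def VR : M4 R := !![⟨-3, 1⟩, ⟨0, 0⟩, ⟨-3, 1⟩, ⟨-1, -1⟩; ⟨0, 0⟩, ⟨1, 1⟩, ⟨-1, -1⟩, ⟨-1, -1⟩; ⟨0, 0⟩, ⟨1, 1⟩, ⟨0, 0⟩, ⟨0, 0⟩; ⟨0, 0⟩, ⟨0, 0⟩, ⟨1, 1⟩, ⟨0, 0⟩]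
def V0 : M4 R := Matrix.of fun i j => vR (Fin.castLE (by decide) j) i
def pt7 : Perm (Fin 7) := ⟨![1, 2, 3, 4, 5, 6, 0], ![6, 0, 1, 2, 3, 4, 5], by decide, by decide⟩
def pw7 : Perm (Fin 7) := ⟨![3, 1, 2, 0, 5, 4, 6], ![3, 1, 2, 0, 5, 4, 6], by decide, by decide⟩
def pz7 : Perm (Fin 7) := ⟨![1, 2, 3, 4, 0, 5, 6], ![4, 0, 1, 2, 3, 5, 6], by decide, by decide⟩

variable {K : Type*} [Field K] {α : K} (hα : α * α = α - 2)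

/-- evaluation -/
def φ : R →+* K := (QuadraticAlgebra.lift ⟨α, by rw [hα]; simp [sub_eq_neg_add]⟩ : R →ₐ[ℤ] K)

theorem φ_ap (z : R) : φ hα z = z.re + z.im * α := by simp [φ]

theorem φ_star {σ : K →+* K} (h : σ α = 1 - α) (z : R) : σ (φ hα z) = φ hα (star z) := by
  simp [φ_ap, h]; ring

theorem φ_ne (h2 : (2 : K) ≠ 0) (h7 : (7 : K) ≠ 0) {z : R} (h : z.re ^ 2 + z.re * z.im + 2 * z.im ^ 2 ∣ 14 ^ 20) :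
    φ hα z ≠ 0 := fun e => by
  obtain ⟨k, hk⟩ := h
  have := congrArg (Int.cast : ℤ → K) hk
  rw [φ_ap] at e
  simp only [Int.cast_pow, Int.cast_mul, Int.cast_add, Int.cast_ofNat] at this
  exact pow_ne_zero 20 (mul_ne_zero h2 h7) (by
    linear_combination this + k * (z.re + z.im - z.im * α) * e + k * z.im ^ 2 * hα)

/-- evaluation of invertible matrices -/
def gφ : GL (Fin 4) R →* G4 K := Matrix.GeneralLinearGroup.map (φ hα)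

theorem gφ_val (g : GL (Fin 4) R) : (gφ hα g).val = g.val.map (φ hα) := rfl

theorem T_gφ (g : GL (Fin 4) R) : T (gφ hα g) = φ hα g.val.trace := (AddMonoidHom.map_trace (φ hα) g.val).symm

theorem det_gφ {g : GL (Fin 4) R} (h : g.val.det = 1) : (gφ hα g).val.det = 1 := by
  rw [gφ_val, ← RingHom.mapMatrix_apply, ← RingHom.map_det, h, map_one]

theorem gφ_neg : gφ hα (-1) = ng := Units.ext (by rw [gφ_val, ng_val]; simp [Matrix.map_neg])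

/-- the action on eight lines -/
def Rel (a : Perm (Fin 8)) (m : G4 K) : Prop := ∀ i, ∃ c : K, m.val *ᵥ (φ hα ∘ vR i) = c • (φ hα ∘ vR (a i))

theorem Rel.mul {a b : Perm (Fin 8)} {m n : G4 K} (h : Rel hα a m) (h' : Rel hα b n) : Rel hα (a * b) (m * n) := fun i => by
  obtain ⟨c, hc⟩ := h' i
  obtain ⟨d, hd⟩ := h (b i)
  exact ⟨c * d, by rw [Units.val_mul, ← mulVec_mulVec, hc, mulVec_smul, hd, smul_smul]; rfl⟩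

theorem rel_of {a : Perm (Fin 8)} {g : GL (Fin 4) R} (h : ∀ i, g.val *ᵥ vR i = vR (a i) ∨ g.val *ᵥ vR i = -vR (a i)) :
    Rel hα a (gφ hα g) := fun i => by
  have : (gφ hα g).val *ᵥ (φ hα ∘ vR i) = φ hα ∘ (g.val *ᵥ vR i) := funext fun j => (RingHom.map_mulVec _ _ _ j).symm
  rcases h i with e | e
  · exact ⟨1, by rw [this, e, one_smul]⟩
  · exact ⟨-1, by rw [this, e]; ext; simp⟩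

theorem rel_t : Rel hα t8 (gφ hα tR) := rel_of hα (by decide +kernel)
theorem rel_w : Rel hα w8 (gφ hα wR) := rel_of hα (by decide +kernel)

theorem Rel.sc (h2 : (2 : K) ≠ 0) (h7 : (7 : K) ≠ 0) {m : G4 K} (h : Rel hα 1 m) : pr m = 1 := by
  choose c hc using h
  have k : ∀ {A B : M4 R}, A * B = (⟨-3, 1⟩ : R) • 1 → A.map (φ hα) * B.map (φ hα) = φ hα ⟨-3, 1⟩ • 1 := fun e => by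
    rw [← Matrix.map_mul, e]; ext i j; by_cases h : i = j <;> simp [h]
  have a1 := k (show VR * V0 = _ by decide +kernel)
  have a2 := k (show V0 * VR = _ by decide +kernel)
  have d0 := φ_ne hα h2 h7 (z := ⟨-3, 1⟩) (by decide +kernel)
  have a3 : m.val * V0.map (φ hα) = V0.map (φ hα) * diagonal fun j => c (Fin.castLE (by decide) j) := by
    ext i j
    rw [mul_diagonal, mul_comm]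
    exact congrFun (hc (Fin.castLE (by decide) j)) i
  have a4 := congrArg (fun X => VR.map (φ hα) *ᵥ (X *ᵥ (VR.map (φ hα) *ᵥ (φ hα ∘ vR 4)))) a3
  simp only [← mulVec_mulVec] at a4
  rw [mulVec_mulVec _ (V0.map _), a2, mulVec_mulVec _ _ (V0.map _), a1, smul_mulVec, smul_mulVec, one_mulVec,
    one_mulVec, mulVec_smul, hc, mulVec_smul, mulVec_smul] at a4
  have a5 : (diagonal fun j : Fin 4 => c (Fin.castLE (by decide) j)) = c 4 • (1 : M4 K) := by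
    rw [smul_one_eq_diagonal]
    congr 1
    ext j
    have := congrFun (smul_right_injective _ d0 a4) j
    rw [mulVec_diagonal, Pi.smul_apply, smul_eq_mul, Perm.one_apply, ← RingHom.map_mulVec] at this
    exact (mul_right_cancel₀ (φ_ne hα h2 h7 (by clear this; revert j; decide +kernel)) this).symm
  refine pr_eq_one'.2 ⟨c 4, smul_right_injective _ d0 ?_⟩
  have := congrArg (· * VR.map (φ hα)) a3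
  simp only [a5, Matrix.mul_assoc, a2, Matrix.mul_smul, Matrix.smul_mul, Matrix.mul_one, Matrix.one_mul] at this
  simp only [this, smul_comm (c 4)]

/-- the stabiliser of seven points of the exterior square -/
def S0 : Subgroup (G4 K) where
  carrier := {g | ∃ σ : Perm (Fin 7), ∀ i, ∃ c : Kˣ,
    g.val * (aR i).map (φ hα) * g.valᵀ = (c : K) • (aR (σ i)).map (φ hα)}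
  one_mem' := ⟨1, fun i => ⟨1, by simp⟩⟩
  mul_mem' := by
    rintro g h ⟨σ, hg⟩ ⟨τ, hh⟩
    refine ⟨σ * τ, fun i => ?_⟩
    obtain ⟨c, hc⟩ := hh i
    obtain ⟨d, hd⟩ := hg (τ i)
    refine ⟨c * d, ?_⟩
    rw [Units.val_mul, transpose_mul, Units.val_mul, ← smul_smul, Perm.mul_apply, ← hd, ← Matrix.smul_mul,
      ← Matrix.mul_smul, ← hc]
    simp only [Matrix.mul_assoc]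
  inv_mem' := by
    rintro g ⟨σ, hg⟩
    refine ⟨σ⁻¹, fun i => ?_⟩
    obtain ⟨c, hc⟩ := hg (σ⁻¹ i)
    refine ⟨c⁻¹, ?_⟩
    have := congrArg (fun X => ((c⁻¹ : Kˣ) : K) • ((g⁻¹).val * X * (g⁻¹).valᵀ)) hc
    simp only [Matrix.mul_smul, Matrix.smul_mul, smul_smul, Units.inv_mul, one_smul, ← Matrix.mul_assoc,
      Matrix.one_mul, Perm.coe_inv, apply_symm_apply] at this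
    rw [← this, Matrix.mul_assoc, ← transpose_mul, Units.inv_mul, transpose_one, Matrix.mul_one]
    rfl

theorem mem_S0 {g : GL (Fin 4) R} (σ : Perm (Fin 7)) (h : ∀ i, g.val * aR i * g.valᵀ = aR (σ i)) : gφ hα g ∈ S0 hα :=
  ⟨σ, fun i => ⟨1, by rw [← h, gφ_val, Matrix.map_mul, Matrix.map_mul, transpose_map]; simp⟩⟩

theorem sc_le_S0 : Sc K ≤ S0 hα := fun z hz => by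
  obtain ⟨c, hc⟩ := mem_Sc.1 hz
  exact ⟨1, fun i => ⟨Units.mk0 c (ne_zero_of_eq_smul hc) ^ 2, by simp [hc, smul_smul, pow_two]⟩⟩

/-- the invariant hermitian form -/
def Un (g : G4 K) : Prop := ∀ σ : K →+* K, σ α = 1 - α → g.valᵀ * GR.map (φ hα) * g.val.map σ = GR.map (φ hα)

theorem map_star {σ : K →+* K} (h : σ α = 1 - α) (X : M4 R) : (X.map (φ hα)).map σ = (X.map star).map (φ hα) := by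
  ext; simp [φ_star hα h]

theorem un_of {g : GL (Fin 4) R} (h : g.valᵀ * GR * g.val.map star = GR) : Un hα (gφ hα g) := fun σ hσ => by
  rw [gφ_val, map_star hα hσ, ← transpose_map, ← Matrix.map_mul, ← Matrix.map_mul, h]

theorem Un.mul {g h : G4 K} (hg : Un hα g) (hh : Un hα h) : Un hα (g * h) := fun σ hσ => by
  rw [Units.val_mul, Matrix.transpose_mul, Matrix.map_mul]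
  calc _ = h.valᵀ * (g.valᵀ * GR.map (φ hα) * g.val.map σ) * h.val.map σ := by simp only [Matrix.mul_assoc]
    _ = _ := by rw [hg σ hσ, hh σ hσ]

theorem det_GR (h7 : (7 : K) ≠ 0) : (GR.map (φ hα)).det ≠ 0 := by
  rw [← RingHom.mapMatrix_apply, ← RingHom.map_det, show GR.det = 7 ^ 2 by decide +kernel, map_pow, map_ofNat]
  exact pow_ne_zero _ h7

theorem exists_bad (h2 : (2 : K) ≠ 0) (h7 : (7 : K) ≠ 0) : ∃ u : G4 K, u.val.det = 1 ∧ Un hα u ∧ u ∉ S0 hα := by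
  refine ⟨mk1 ((7 : K)⁻¹ • UR.map (φ hα)) (by
    rw [det_smul, ← RingHom.mapMatrix_apply, ← RingHom.map_det, show UR.det = 7 ^ 4 by decide +kernel, map_pow,
      map_ofNat, Fintype.card_fin, ← mul_pow, inv_mul_cancel₀ h7, one_pow]), by
    rw [mk1_val, det_smul, ← RingHom.mapMatrix_apply, ← RingHom.map_det, show UR.det = 7 ^ 4 by decide +kernel,
      map_pow, map_ofNat, Fintype.card_fin, ← mul_pow, inv_mul_cancel₀ h7, one_pow], fun σ hσ => ?_, ?_⟩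
  · have : ((7 : K)⁻¹ • UR.map (φ hα)).map σ = (7 : K)⁻¹ • (UR.map star).map (φ hα) := by
      rw [← map_star hα hσ]; ext; simp [map_ofNat]
    rw [mk1_val, this, transpose_smul, Matrix.smul_mul, Matrix.smul_mul, Matrix.mul_smul, ← transpose_map,
      ← Matrix.map_mul, ← Matrix.map_mul, show URᵀ * GR * UR.map star = (7 * 7 : R) • GR by decide +kernel]
    ext i j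
    simp only [Matrix.smul_apply, map_apply, smul_eq_mul, map_mul, map_ofNat]
    field_simp
  · rintro ⟨σ, h⟩
    obtain ⟨c, hc⟩ := h 1
    rw [mk1_val, transpose_smul, Matrix.smul_mul, Matrix.smul_mul, Matrix.mul_smul, ← transpose_map,
      ← Matrix.map_mul, ← Matrix.map_mul] at hc
    obtain ⟨i, j, hij⟩ := (show ∀ k, ∃ i j, (fun z : R => z.re ^ 2 + z.re * z.im + 2 * z.im ^ 2 ∣ 14 ^ 20)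
      ((UR * aR 1 * URᵀ) 0 1 * aR k i j - (UR * aR 1 * URᵀ) i j * aR k 0 1) by decide +kernel) (σ 1)
    refine φ_ne hα h2 h7 hij ?_
    have a1 := congrFun (congrFun hc 0) 1
    have a2 := congrFun (congrFun hc i) j
    simp only [Matrix.smul_apply, map_apply, smul_eq_mul] at a1 a2
    rw [map_sub, map_mul, map_mul]
    field_simp at a1 a2
    rw [a1, a2]; ring

end Cfsg.Agent.H2.M4
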