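import Cfsg.Agent.H2.M4d

set_option autoImplicit false
set_option maxRecDepth 100000

/-! The four-dimensional projective representations of `L₂(7)`. -/

namespace Cfsg.Agent.H2.M4
open Cfsg Matrix Cfsg.Agent.Asch Subgroup Equiv Cfsg.Agent.H5.CT2 Module
open Cfsg.Agent.H5.MH (X8 t8 h8 w8 t8_mem h8_mem w8_mem T8 x8_all x8_of_tab cd pm pw h8' cd_mul cd_pow cd_inj cd_one
  e8_1 e8_2 card_X8' perfect_X8 aut8 closure_ind_fin tbn)
open scoped Cfsg.Agent.H5.MH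

theorem x8_cls {a : Perm (Fin 8)} (ha : a ∈ X8) : a = 1 ∨ ∃ g ∈ X8, a * g = g * w8 ∨ a * g = g * (t8 * w8) ∨
    a * g = g * (t8 ^ 3 * w8) ∨ a * g = g * t8 ∨ a * g = g * t8 ^ 6 := by
  have h := x8_all (f := fun c => Nat.beq c (cd (1 : Perm (Fin 8))) ||
    anyLt 168 fun j => force (tbn 24 T8 j) fun g => force (pm 8 c g) fun cg => Nat.beq cg (pm 8 g (cd w8)) ||
      Nat.beq cg (pm 8 g (cd (t8 * w8))) || Nat.beq cg (pm 8 g (cd (t8 ^ 3 * w8))) || Nat.beq cg (pm 8 g (cd t8)) ||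
      Nat.beq cg (pm 8 g (cd (t8 ^ 6)))) (by decide +kernel) ha
  simp only [Bool.or_eq_true, Nat.beq_eq, anyLt_iff, force_eq, cd_inj h8', or_assoc] at h
  refine h.imp_right fun ⟨j, hj, h2⟩ => ?_
  obtain ⟨g, g1, g2⟩ := x8_of_tab hj
  simp only [← g2, ← cd_mul h8', cd_inj h8'] at h2
  exact ⟨g, g1, h2⟩

theorem x8_inv {a : Perm (Fin 8)} (ha : a ∈ X8) (h2 : a * a = 1) (h1 : a ≠ 1) : ∃ g ∈ X8, a * g = g * w8 := by
  obtain ⟨g, hg, h⟩ := (x8_cls ha).resolve_left h1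
  have k : ∀ b, a * g = g * b → b * b = 1 := fun b e => by
    rw [show b = g⁻¹ * a * g by rw [mul_assoc, e, inv_mul_cancel_left]]
    calc _ = g⁻¹ * (a * a) * g := by group
      _ = 1 := by rw [h2]; group
  rcases h with h | h | h | h | h
  exacts [⟨g, hg, h⟩, absurd (k _ h) (by decide), absurd (k _ h) (by decide), absurd (k _ h) (by decide),
    absurd (k _ h) (by decide)]

theorem x8_le {Q : Subgroup (Perm (Fin 8))} (h1 : t8 ∈ Q) (h2 : w8 ∈ Q) : X8 ≤ Q := (closure_le _).2 (by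
  rintro _ (rfl | rfl | rfl)
  · exact h1
  · rw [show h8 = w8 * t8 ^ 2 * w8 * t8 ^ 4 * w8 * t8 ^ 2 by decide]
    exact mul_mem (mul_mem (mul_mem (mul_mem (mul_mem h2 (pow_mem h1 _)) h2) (pow_mem h1 _)) h2) (pow_mem h1 _)
  · exact h2)

theorem le_cl {a b : Perm (Fin 8)} (h : ∀ Q : Subgroup (Perm (Fin 8)), a ∈ Q → b ∈ Q → t8 ∈ Q ∧ w8 ∈ Q) :
    X8 ≤ closure {a, b} :=
  have := h (closure {a, b}) (subset_closure (by simp)) (subset_closure (by simp))
  x8_le this.1 this.2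

theorem gen8a : X8 ≤ closure {t8 ^ 3 * w8, w8} := le_cl fun Q a b =>
  ⟨by simpa only [show (t8 ^ 3 * w8 * w8) ^ 5 = t8 by decide] using pow_mem (mul_mem a b) 5, b⟩

theorem gen8b : X8 ≤ closure {t8 ^ 3 * w8, w8 * t8 ^ 3} := le_cl fun Q a b =>
  ⟨by simpa only [show (w8 * t8 ^ 3) ^ 3 * (t8 ^ 3 * w8) ^ 3 = t8 by decide] using mul_mem (pow_mem b 3) (pow_mem a 3),
    by simpa only [show (t8 ^ 3 * w8) ^ 2 * (w8 * t8 ^ 3) ^ 2 * (t8 ^ 3 * w8) ^ 2 = w8 by decide] using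
      mul_mem (mul_mem (pow_mem a 2) (pow_mem b 2)) (pow_mem a 2)⟩

theorem gen8c : X8 ≤ closure {t8 * w8, t8 * w8 * t8 * (t8 * w8) * (t8 * w8 * t8)⁻¹} := le_cl fun Q a b => by
  have h1 : t8 ∈ Q := by
    simpa only [show (t8 * w8 * t8 * (t8 * w8) * (t8 * w8 * t8)⁻¹ * (t8 * w8)) ^ 2 *
      (t8 * w8 * t8 * (t8 * w8) * (t8 * w8 * t8)⁻¹) = t8 by decide] using mul_mem (pow_mem (mul_mem b a) 2) b
  exact ⟨h1, by simpa using mul_mem (inv_mem h1) a⟩

variable {K : Type*} [Field K] {P H : Subgroup (G4 K)}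

theorem rk_two (h2 : (2 : K) ≠ 0) {B : M4 K} (h4 : B ^ 4 = 1) (ht : (1 + B + B ^ 2 + B ^ 3).trace = 8) :
    finrank K (LinearMap.range (toLin' (B - 1))) ≤ 2 := by
  have h4' : (4 : K) ≠ 0 := fun e => mul_ne_zero h2 h2 (by linear_combination e)
  obtain ⟨N, hN⟩ : ∃ N, N = 1 + B + B ^ 2 + B ^ 3 := ⟨_, rfl⟩
  have a1 : N * B = N := by rw [hN]; simp only [Matrix.add_mul, ← pow_succ, ← pow_two, h4, Matrix.one_mul]; abel
  have a2 : N * N = (4 : K) • N := by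
    conv_lhs => rw [hN, ← hN]; rhs; rw [hN]
    simp only [Matrix.mul_add, pow_succ, ← Matrix.mul_assoc, a1, pow_zero, Matrix.mul_one]; module
  have a3 : IsIdempotentElem (toLin' (1 - (4 : K)⁻¹ • N)) := by
    rw [IsIdempotentElem, End.mul_eq_comp, ← toLin'_mul]
    simp only [Matrix.mul_sub, Matrix.sub_mul, Matrix.mul_one, Matrix.one_mul, Matrix.mul_smul, Matrix.smul_mul, a2,
      smul_smul, inv_mul_cancel₀ h4', one_smul, mul_one, sub_self, sub_zero, smul_zero]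
  have a4 := (LinearMap.isProj_range_iff_isIdempotentElem _ |>.2 a3).trace
  rw [trace_toLin'_eq, trace_sub, trace_smul, hN, ht, trace_one, Fintype.card_fin] at a4
  have a5 : finrank K (LinearMap.range (toLin' (B - 1))) ≤ finrank K (LinearMap.range (toLin' (1 - (4 : K)⁻¹ • N))) :=
    Submodule.finrank_mono (by
      rw [show B - 1 = (1 - (4 : K)⁻¹ • N) * (B - 1) by simp [Matrix.mul_sub, Matrix.sub_mul, a1], toLin'_mul]
      exact LinearMap.range_comp_le_range _ _)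
  have a6 := (LinearMap.range (toLin' (1 - (4 : K)⁻¹ • N))).finrank_le
  rw [← hN] at a4
  generalize finrank K (LinearMap.range (toLin' (1 - (4 : K)⁻¹ • N))) = r at *
  have a7 : (r : K) = 2 := by rw [← a4]; simp only [smul_eq_mul]; field_simp; norm_num
  simp only [finrank_fin_fun] at a6
  refine a5.trans (by_contra fun h => ?_)
  obtain rfl | rfl : r = 3 ∨ r = 4 := by omega
  · exact one_ne_zero (by linear_combination a7 : (1 : K) = 0)
  · exact h2 (by linear_combination a7)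

theorem scott4 {A B : M4 K} (irr : ∀ W : Submodule K (Fin 4 → K), (∀ v ∈ W, A *ᵥ v ∈ W) → (∀ v ∈ W, B *ᵥ v ∈ W) →
    W = ⊥ ∨ W = ⊤) (hA : finrank K (LinearMap.range (toLin' (A - 1))) ≤ 2)
    (hB : finrank K (LinearMap.range (toLin' (B - 1))) ≤ 2) {v : Fin 4 → K} (v0 : v ≠ 0) (hv : A *ᵥ (B *ᵥ v) = v) :
    False := by
  have k : ∀ (C : M4 K) u, C *ᵥ u - u ∈ LinearMap.range (toLin' (C - 1)) := fun C u => ⟨u, by simp [sub_mulVec]⟩
  have a1 : LinearMap.range (toLin' (A - 1)) ⊓ LinearMap.range (toLin' (B - 1)) = ⊥ := by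
    rcases irr (LinearMap.range (toLin' (A - 1)) ⊔ LinearMap.range (toLin' (B - 1)))
      (fun u hu => by simpa using add_mem (Submodule.mem_sup_left (k A u)) hu)
      (fun u hu => by simpa using add_mem (Submodule.mem_sup_right (k B u)) hu) with e | e
    · exact eq_bot_iff.2 (inf_le_sup.trans e.le)
    · have := Submodule.finrank_sup_add_finrank_inf_eq (LinearMap.range (toLin' (A - 1))) (LinearMap.range (toLin' (B - 1)))
      rw [e, finrank_top, finrank_fin_fun] at this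
      exact Submodule.finrank_eq_zero.1 (by omega)
  have a2 : B *ᵥ v = v := sub_eq_zero.1 ((Submodule.mem_bot K).1 (a1 ▸ ⟨by simpa [hv] using neg_mem (k A (B *ᵥ v)), k B v⟩))
  rw [a2] at hv
  have k2 : ∀ C : M4 K, C *ᵥ v = v → ∀ u ∈ K ∙ v, C *ᵥ u ∈ K ∙ v := fun C h u hu => by
    obtain ⟨c, rfl⟩ := Submodule.mem_span_singleton.1 hu
    rwa [mulVec_smul, h]
  rcases irr _ (k2 A hv) (k2 B a2) with e | e
  · exact v0 (Submodule.span_singleton_eq_bot.1 e)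
  · have := finrank_span_singleton (K := K) v0
    rw [e, finrank_top, finrank_fin_fun] at this
    omega

/-- lifts of the generators -/
structure L8 (π : bar P ≃* X8) (t w : G4 K) : Prop where
  det : ∀ x ∈ P, x.val.det = 1
  full : Full (Geo.matrixSet P)
  z2 : Z2 P
  rt : Rp π t8 t
  rw : Rp π w8 w
  sev : Sev t
  y3 : (t * w) ^ 3 = 1

theorem exists_L8 [Finite K] (hp : ⁅P, P⁆ = P) (hF : Full (Geo.matrixSet P)) (π : bar P ≃* X8) : ∃ t w, L8 π t w := by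
  have hd : ∀ x ∈ P, x.val.det = 1 := fun x => det_eq_one_of_perfect hp
  obtain ⟨t, ht, hS⟩ := Rp.sev (π := π) hd t8_mem h8_mem e8_1 e8_2
  obtain ⟨y, hy⟩ := Rp.ex π (mul_mem t8_mem w8_mem)
  obtain ⟨y, hy, e⟩ := hy.lift hd (n := 3) (by decide) (by decide)
  exact ⟨t, t⁻¹ * y, hd, hF, fun z => sc_sq hp π (mul_mem (pow_mem t8_mem 3) w8_mem) (n := 4) (k := 10)
    (orderOf_eq_prime_pow (p := 2) (n := 1) (by decide) (by decide)) card_X8', ht, by simpa using ht.inv.mul hy, hS,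
    by simpa using e⟩

namespace L8
variable {π : bar P ≃* X8} {t w : G4 K} (h : L8 π t w)
include h

theorem sq {a : Perm (Fin 8)} {x : G4 K} (hx : Rp π a x) (e1 : a * a = 1) (e2 : a ≠ 1) : x * x = w * w := by
  obtain ⟨g, hg, e⟩ := x8_inv hx.memA e1 e2
  exact h.rw.sq_eq h.z2 hx hg e.symm (by decide)

theorem rx : Rp π (t8 ^ 3 * w8) (t ^ 3 * w) := (h.rt.pow 3).mul h.rw

theorem rs : Rp π (t8 ^ 2 * w8 * t8 * w8) (t ^ 2 * w * t * w) := (((h.rt.pow 2).mul h.rw).mul h.rt).mul h.rw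

theorem x4 : (t ^ 3 * w) ^ 4 = w * w := by
  rw [← h.sq (h.rx.mul h.rx) (by decide) (by decide), ← pow_two, ← pow_two, ← pow_mul]

theorem inv4 : t ^ 2 * w * t * w * (t ^ 3 * w) * (t ^ 2 * w * t * w)⁻¹ = (t ^ 3 * w)⁻¹ := by
  have e1 := h.sq h.rs (by decide) (by decide)
  have e2 := h.sq (h.rs.mul h.rx) (by decide) (by decide)
  have e3 := sc_central ((h.rw.mul h.rw).eq_one_iff.1 (by decide))
  generalize t ^ 2 * w * t * w = s at *
  generalize t ^ 3 * w = x at *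
  calc _ = s * x * (s * x) * x⁻¹ * (s * s)⁻¹ := by group
    _ = _ := by rw [e1, e2, ← e3, mul_inv_cancel_right]

theorem inv3 : ∃ z, z * (t * w) * z⁻¹ = (t * w) ^ 2 := by
  have hy := h.rt.mul h.rw
  exact ⟨_, hy.conj_odd h.det (hy.pow 2) (((h.rt.pow 4).mul h.rw).mul (h.rt.pow 3)) (by decide) (n := 3) (by decide) h.y3
    (by rw [← pow_mul, mul_comm, pow_mul, h.y3, one_pow])⟩

theorem T8 (e : w * w = ng) : T (t ^ 3 * w) = 0 ∧ T (t ^ 3 * w)⁻¹ = 0 :=
  T_eight (h.det _ h.rx.1) (h.x4.trans e) (fun e => absurd (h.rx.eq_one_iff.2 e) (by decide))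
    (h.rx.not_qd h.full gen8b w8_mem (by decide))

theorem T2 (h2 : (2 : K) ≠ 0) {a : Perm (Fin 8)} {x : G4 K} (hx : Rp π a x) (e1 : a * a = 1) (e2 : a ≠ 1) :
    T x = 0 ∧ T x⁻¹ = 0 :=
  T_two h2 (h.det _ hx.1) ((h.z2.sq hx e1).imp_right And.right) fun e => e2 (hx.eq_one_iff.2 e)

theorem T3 : T (t * w) = 1 := by
  obtain ⟨z, hz⟩ := h.inv3
  refine T_three (h.det _ (h.rt.mul h.rw).1) h.y3 ?_ ((h.rt.mul h.rw).not_qd h.full gen8c
    (mul_mem (mul_mem t8_mem w8_mem) t8_mem) (by group))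
  rw [inv_eq_of_mul_eq_one_right (show t * w * (t * w) ^ 2 = 1 by rw [← pow_succ', h.y3]), ← hz, T_conj]

theorem cls {p : ℕ} [Fact p.Prime] [CharP K p] (h2 : (2 : K) ≠ 0) {x : G4 K} (hx : x ∈ P) : Good p x ∨
    ∃ z s, (s = t ∨ s = t⁻¹) ∧ (x = z * s * z⁻¹ ∨ x = ng * (z * s * z⁻¹)) := by
  obtain ⟨a, ha⟩ := Rp.ex' π hx
  have k : ∀ {b s}, Rp π b s → ∀ g ∈ X8, a * g = g * b → ∃ z, x = z * s * z⁻¹ ∨ x = ng * (z * s * z⁻¹) := by
    intro b s hs g hg e
    obtain ⟨z, hz'⟩ := Rp.ex π hg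
    exact ⟨z, h.z2.or hx (mul_mem (mul_mem hz'.1 hs.1) (inv_mem hz'.1)) (by simpa using (hs.conj ha hz' e.symm).symm)⟩
  rcases x8_cls ha.memA with e | ⟨g, hg, e | e | e | e | e⟩
  · exact .inl (ha.good h.z2 (Rp.one π) (one_mem _) (by simp [e]) good_one)
  · exact .inl (ha.good h.z2 h.rw hg e (good_zero (h.T2 h2 h.rw (by decide) (by decide))))
  · refine .inl (ha.good h.z2 (h.rt.mul h.rw) hg e (good_of (N := 2) h.y3 fun k hk hc => ?_))
    interval_cases k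
    exacts [by simp at hc, ⟨1, by simp⟩, h.inv3]
  · refine .inl (ha.good h.z2 h.rx hg e ?_)
    rcases h.z2.sq h.rw (by decide) with e | e
    · refine good_of (N := 3) (h.x4.trans e) fun k hk hc => ?_
      interval_cases k
      exacts [by simp at hc, ⟨1, by simp⟩, by norm_num at hc, ⟨_, h.inv4.trans (inv_eq_of_mul_eq_one_right (by
        rw [← pow_succ', h.x4, e]))⟩]
    · exact good_zero (h.T8 e.2)
  · exact .inr ((k h.rt g hg e).imp fun z e => ⟨t, .inl rfl, e⟩)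
  · exact .inr ((k (h.rt.pow 6) g hg e).imp fun z e => ⟨t⁻¹, .inr rfl, h.sev.inv_eq ▸ e⟩)

theorem tr {p : ℕ} [Fact p.Prime] [CharP K p] (h2 : (2 : K) ≠ 0) : Tr7 p P := fun x hx => (h.cls h2 hx).imp_right (by
  rintro ⟨z, s, hs, e⟩
  have : Sev s := by rcases hs with rfl | rfl; exacts [h.sev, h.sev.inv]
  exact ⟨_, ⟨det_conj _ this.det, by rw [conj_pow, this.pow]; simp,
    this.cj.imp' (z * · * z⁻¹) fun c hc => by rw [conj_pow, ← hc]; group⟩, e⟩)

theorem ne [Finite K] (h2 : (2 : K) ≠ 0) (hr : ¬ ∀ x ∈ P, T x⁻¹ = T x) : T t⁻¹ ≠ T t := fun e => hr fun x hx => by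
  obtain ⟨p, _⟩ := CharP.exists K
  have : Fact p.Prime := ⟨CharP.char_is_prime K p⟩
  have k : ∀ z s, (s = t ∨ s = t⁻¹) → T (z * s * z⁻¹)⁻¹ = T (z * s * z⁻¹) := fun z s hs => by
    rw [show (z * s * z⁻¹)⁻¹ = z * s⁻¹ * z⁻¹ by group, T_conj, T_conj]
    rcases hs with rfl | rfl
    exacts [e, by rw [inv_inv, e]]
  rcases h.cls (p := p) h2 hx with h | ⟨z, s, hs, rfl | rfl⟩
  exacts [h.2, k z s hs, by rw [ng_inv, T_ng, T_ng, k z s hs]]

theorem sq_ng (h2 : (2 : K) ≠ 0) (h7 : (7 : K) ≠ 0) (h1 : T t⁻¹ = 1 - T t) : w * w = ng := by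
  refine ((h.z2.sq h.rw (by decide)).resolve_left fun e => ?_).2
  obtain ⟨x, hx⟩ : ∃ x, x = t ^ 3 * w := ⟨_, rfl⟩
  have x4 := h.x4
  have rx := h.rx
  have a1 := congrArg T h.inv4
  rw [T_conj, ← hx] at a1
  rw [← hx] at rx
  rw [← hx, e] at x4
  have a2 := (h.T2 h2 (rx.pow 2) (by decide) (by decide)).1
  have xi : x⁻¹ = x ^ 3 := inv_eq_of_mul_eq_one_right (by rw [← pow_succ', x4])
  have a3 := ch (h.det _ rx.1)
  have a4 := congrArg (· * (x ^ 2).val) a3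
  simp only [Matrix.add_mul, Matrix.sub_mul, Matrix.smul_mul, ← Units.val_mul, xi, ← pow_add, ← pow_succ',
    Matrix.one_mul, pow_eq_pow_mod 5 x4, x4] at a4
  rw [← a1, xi] at a3
  rw [← xi, ← a1, xi] at a4
  have a5 : e2 x.val = 2 := by
    by_contra hn
    have := sc_of (x := x ^ 2) (e := e2 x.val - 2) (s := e2 x.val - 2) (mul_cancel_g x (by
      rw [Matrix.mul_smul, Matrix.mul_smul, ← Units.val_mul, ← pow_succ', Matrix.mul_one]
      simp only [Nat.reduceMod, pow_one, Units.val_one] at a4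
      linear_combination (norm := module) a4 - a3)) fun e => absurd ((rx.pow 2).eq_one_iff.2 e) (by decide)
    exact hn (sub_eq_zero.1 this)
  have a6 := T_sq x
  rw [a2, a5] at a6
  obtain ⟨c, c1, c2⟩ : ∃ c : K, c * c = 1 ∧ T x = 2 * c :=
    ⟨T x / 2, by field_simp; linear_combination -a6, by field_simp⟩
  have c4 : c ^ 4 = 1 := by linear_combination (c * c + 1) * c1
  obtain ⟨v, hv⟩ : ∃ v, (∑ k ∈ Finset.range 7, t.val ^ k) *ᵥ v ≠ 0 := by
    by_contra hn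
    push Not at hn
    have := congrArg trace (Matrix.ext_iff_mulVec.2 fun v => (hn v).trans (zero_mulVec v).symm)
    have k1 := fun k (hk : k % 7 = 1 ∨ k % 7 = 2 ∨ k % 7 = 4) => h.sev.res hk
    have k2 := fun k (hk : k % 7 = 3 ∨ k % 7 = 5 ∨ k % 7 = 6) => h.sev.nres hk
    simp only [T, Units.val_pow_eq_pow_val] at k1 k2 h1
    simp only [Finset.sum_range_succ, Finset.range_zero, Finset.sum_empty, trace_add, k1 2 (by simp), k1 4 (by simp),
      k2 3 (by simp), k2 5 (by simp), k2 6 (by simp), h1, pow_zero, pow_one, trace_one, trace_zero, Fintype.card_fin] at this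
    exact h7 (by linear_combination this)
  have b1 : t.val *ᵥ ((∑ k ∈ Finset.range 7, t.val ^ k) *ᵥ v) = (∑ k ∈ Finset.range 7, t.val ^ k) *ᵥ v := by
    rw [mulVec_mulVec, ← sub_eq_zero, ← sub_mulVec, ← sub_one_mul, mul_geom_sum, ← Units.val_pow_eq_pow_val,
      h.sev.pow, Units.val_one, sub_self, zero_mulVec]
  have w0 := h.T2 h2 h.rw (by decide) (by decide)
  refine scott4 (A := c • x.val) (B := c • w.val) (fun W h1 h3 => h.full.irred W ?_) (rk_two h2 ?_ ?_) (rk_two h2 ?_ ?_)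
    hv ?_
  · rintro _ ⟨g, hg, rfl⟩
    have k : ∀ y : M4 K, (∀ v ∈ W, (c • y) *ᵥ v ∈ W) → ∀ X, (∀ v ∈ W, X *ᵥ v ∈ W) → ∀ v ∈ W, (y * X) *ᵥ v ∈ W :=
      fun y hy X hX v hv => by
        simpa [smul_mulVec, smul_smul, c1] using W.smul_mem c (hy _ (hX v hv))
    exact Rp.ind (p := fun X => ∀ v ∈ W, X *ᵥ v ∈ W) gen8a rx h.rw
      (fun c v hv => by simpa [smul_mulVec] using W.smul_mem c hv) (k _ h1) (k _ h3) hg
  · rw [smul_pow, c4, one_smul, ← Units.val_pow_eq_pow_val, x4, Units.val_one]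
  · simp only [T, xi, Units.val_pow_eq_pow_val] at a1 a2 c2
    simp only [smul_pow, trace_add, trace_smul, ← a1, a2, c2, trace_one, Fintype.card_fin, smul_eq_mul]
    linear_combination 2 * c1 + 2 * c4
  · rw [smul_pow, c4, one_smul, ← Units.val_pow_eq_pow_val, show w ^ 4 = w * w * (w * w) by rw [← pow_two, ← pow_two, ← pow_mul], e, mul_one,
      Units.val_one]
  · have e' : w.val ^ 2 = 1 := by rw [← Units.val_pow_eq_pow_val, pow_two, e, Units.val_one]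
    simp only [smul_pow, trace_add, trace_smul, pow_succ w.val 2, e', Matrix.one_mul, show w.val.trace = 0 from w0.1,
      trace_one, Fintype.card_fin, smul_eq_mul]
    linear_combination 4 * c1
  · rw [mulVec_mulVec, smul_mul_smul_comm, c1, one_smul, ← Units.val_mul, hx, mul_assoc, e, mul_one, pow_succ,
      pow_two, Units.val_mul, Units.val_mul, ← mulVec_mulVec, ← mulVec_mulVec, b1, b1, b1]

end L8

end Cfsg.Agent.H2.M4
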