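import Cfsg.Agent.H2.M4e

set_option autoImplicit false
set_option maxRecDepth 100000

/-! A residual subgroup with socle `L₂(7)` is not maximal in `SL₄` or `SU₄`. -/

namespace Cfsg.Agent.H2.M4
open Cfsg Matrix Cfsg.Agent.Asch Cfsg.Agent.Form Subgroup Equiv
open Cfsg.Agent.H5.MH (X8 t8 w8 t8_mem w8_mem card_X8' perfect_X8 aut8 closure_ind_fin eq_one_of_cop cjh_apply)

variable {K : Type*} [Field K] {P H : Subgroup (G4 K)}

def s8 : X8 := ⟨t8 ^ 2 * w8 * t8 * w8, mul_mem (mul_mem (mul_mem (pow_mem t8_mem _) w8_mem) t8_mem) w8_mem⟩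
def x8 : X8 := ⟨t8 ^ 3 * w8, mul_mem (pow_mem t8_mem _) w8_mem⟩

/-- a Sylow `2`-subgroup -/
def D8 : Subgroup X8 where
  carrier := {q | ∃ p : Fin 2 × Fin 4, q = s8 ^ p.1.1 * x8 ^ p.2.1}
  one_mem' := ⟨0, by simp⟩
  mul_mem' := by
    rintro _ _ ⟨p, rfl⟩ ⟨q, rfl⟩
    revert p q
    simp only [Set.mem_setOf_eq, Subtype.ext_iff]
    decide +kernel
  inv_mem' := by
    rintro _ ⟨p, rfl⟩
    revert p
    simp only [Set.mem_setOf_eq, Subtype.ext_iff]
    decide +kernel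

theorem index_D8 : D8.index = 21 := by
  have h1 : Nat.card (Fin 2 × Fin 4) = Nat.card D8 := Nat.card_congr (Equiv.ofBijective (fun p => ⟨_, p, rfl⟩)
    ⟨fun p q => by revert p q; simp only [Subtype.ext_iff]; decide +kernel, fun ⟨_, p, e⟩ => ⟨p, Subtype.ext e.symm⟩⟩)
  have := D8.card_mul_index
  rw [← h1, card_X8'] at this
  simp only [Nat.card_eq_fintype_card, Fintype.card_prod, Fintype.card_fin] at this
  omega

theorem L8.model [Finite K] {π : bar P ≃* X8} {t w : G4 K} (h : L8 π t w) (h2 : (2 : K) ≠ 0) (h7 : (7 : K) ≠ 0)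
    (h1 : T t⁻¹ = 1 - T t) (hα : T t * T t = T t - 2) :
    ∃ Q : G4 K, ∀ x ∈ P, Q⁻¹ * x * Q⁻¹⁻¹ ∈ closure {gφ hα tR, gφ hα wR} := by
  let Γ : Subgroup (G4 K × G4 K) := closure {(t, gφ hα tR), (w, gφ hα wR)}
  have key : ∀ e ∈ Γ, ∃ a, Rp π a e.1 ∧ e.2.val.det = 1 ∧ Rel hα a e.2 ∧ e.2 ∈ closure {gφ hα tR, gφ hα wR} :=
    fun e he => by
    refine closure_ind_fin (p := fun e : G4 K × G4 K => ∃ a, Rp π a e.1 ∧ e.2.val.det = 1 ∧ Rel hα a e.2 ∧
      e.2 ∈ closure {gφ hα tR, gφ hα wR}) ⟨1, Rp.one π, by simp, fun i => ⟨1, by simp⟩, one_mem _⟩ ?_ he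
    rintro _ (rfl | rfl) y ⟨a, a1, a2, a3, a4⟩
    · exact ⟨_, h.rt.mul a1, by simp [a2, det_gφ hα (show tR.val.det = 1 by decide +kernel)], (rel_t hα).mul hα a3,
        mul_mem (subset_closure (by simp)) a4⟩
    · exact ⟨_, h.rw.mul a1, by simp [a2, det_gφ hα (show wR.val.det = 1 by decide +kernel)], (rel_w hα).mul hα a3,
        mul_mem (subset_closure (by simp)) a4⟩
  let θ : Γ →* G4 K := (MonoidHom.fst _ _).comp Γ.subtype
  let ρ : Γ →* G4 K := (MonoidHom.snd _ _).comp Γ.subtype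
  have hθ : ∀ e, θ e ∈ P := fun e => (key e.1 e.2).elim fun _ h => h.1.1
  let f : Γ →* X8 := (fP π).comp (θ.codRestrict P hθ)
  have rf : ∀ e, Rp π (f e) (θ e) := fun e => rp_fP π ⟨_, hθ e⟩
  obtain ⟨A, hA⟩ : ∃ A : Γ, A = ⟨(t, gφ hα tR), subset_closure (by simp)⟩ := ⟨_, rfl⟩
  obtain ⟨B, hB⟩ : ∃ B : Γ, B = ⟨(w, gφ hα wR), subset_closure (by simp)⟩ := ⟨_, rfl⟩
  have a1 : θ A = t := by rw [hA]; rfl
  have a2 : ρ A = gφ hα tR := by rw [hA]; rfl
  have b1 : θ B = w := by rw [hB]; rfl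
  have b2 : ρ B = gφ hα wR := by rw [hB]; rfl
  have a3 : (f A).1 = t8 := ((rf A).eq_iff h.rt).2 (by rw [a1])
  have b3 : (f B).1 = w8 := ((rf B).eq_iff h.rw).2 (by rw [b1])
  have ext : ∀ {x y : Γ}, θ x = θ y → ρ x = ρ y → x = y := fun e e' => Subtype.ext (Prod.ext e e')
  have hk : ∀ z, f z = 1 → pr (θ z) = 1 ∧ pr (ρ z) = 1 ∧ z ^ 4 = 1 := fun z hz => by
    obtain ⟨a, c1, c2, c3, -⟩ := key z.1 z.2
    have c4 := (rf z).eq_one_iff.1 (by rw [hz]; rfl)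
    obtain rfl := c1.eq_one_iff.2 c4
    have c5 := c3.sc hα h2 h7
    exact ⟨c4, c5, ext (by rw [map_pow, map_one]; exact sc_four (h.det _ (hθ z)) c4)
      (by rw [map_pow, map_one]; exact sc_four c2 c5)⟩
  have hf : Function.Surjective f := fun a => by
    obtain ⟨_, ⟨b, rfl⟩, e⟩ := x8_le (Q := f.range.map X8.subtype) ⟨_, ⟨A, rfl⟩, a3⟩ ⟨_, ⟨B, rfl⟩, b3⟩ a.2
    exact ⟨b, Subtype.ext e⟩
  have hp : commutator Γ = ⊤ := by
    have c1 : ∀ e : Γ, Abelianization.of e ^ 4 = 1 := fun e => by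
      have : f e ∈ (commutator Γ).map f := by
        rw [commutator_def, map_commutator, map_top_of_surjective _ hf, ← commutator_def, perfect_X8.commutator_eq_top]
        trivial
      obtain ⟨c, hc, e'⟩ := this
      have c2 := congrArg Abelianization.of (hk (c⁻¹ * e) (by simp [e'])).2.2
      rwa [map_pow, map_mul, map_inv, show Abelianization.of c = 1 from (QuotientGroup.eq_one_iff c).2 hc, inv_one,
        one_mul] at c2
    have c2 : ∀ (e : Γ) n, e ^ n = 1 → Nat.gcd 4 n = 1 → e ∈ commutator Γ := fun e n e1 e2 =>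
      (QuotientGroup.eq_one_iff e).1 (eq_one_of_cop (a := Abelianization.of e) (c1 e) (by rw [← map_pow, e1, map_one]) e2)
    have c3 := c2 A 7 (ext (by rw [map_pow, a1, h.sev.pow, map_one])
      (by rw [map_pow, a2, ← map_pow, show tR ^ 7 = 1 by decide +kernel, map_one, map_one])) rfl
    have c4 := c2 (A * B) 3 (ext (by rw [map_pow, map_mul, a1, b1, h.y3, map_one])
      (by rw [map_pow, map_mul, a2, b2, ← map_mul, ← map_pow, show (tR * wR) ^ 3 = 1 by decide +kernel, map_one,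
        map_one])) rfl
    rw [eq_top_iff, ← closure_closure_coe_preimage, closure_le]
    rintro ⟨_, hx⟩ (rfl | rfl)
    · exact hA ▸ c3
    · simpa [← hB] using mul_mem (inv_mem c3) c4
  have e0 := h.sq_ng h2 h7 h1
  have hz : ∀ z, f z = 1 → θ z = ρ z := fun z hz => by
    obtain ⟨k, e⟩ := cent_pow hp f hf (fun z hz g => ext (by simpa using sc_central (hk z hz).1 _)
      (by simpa using sc_central (hk z hz).2.1 _)) D8 (X := A ^ 3 * B) (S := A ^ 2 * B * A * B)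
      (ext (by simpa only [map_mul, map_pow, map_inv, a1, b1] using h.inv4) (by
        simp only [map_mul, map_pow, map_inv, a2, b2]
        simpa only [map_mul, map_pow, map_inv] using congrArg (gφ hα) (show tR ^ 2 * wR * tR * wR * (tR ^ 3 * wR) *
          (tR ^ 2 * wR * tR * wR)⁻¹ = (tR ^ 3 * wR)⁻¹ by decide +kernel)))
      (by rintro _ ⟨p, rfl⟩; exact ⟨p.1, p.2, Subtype.ext (by simp [a3, b3, s8, x8])⟩) hz
    rw [index_D8, pow_eq_pow_mod 21 (hk z hz).2.2, pow_one] at e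
    have c1 : (t8 ^ 3 * w8) ^ k = 1 := by simpa [a3, b3, hz] using congrArg (fun x => (f x).1) e
    rw [← orderOf_dvd_iff_zpow_eq_one, orderOf_eq_prime_pow (p := 2) (n := 1) (by decide) (by decide)] at c1
    obtain ⟨m, rfl⟩ := c1
    rw [← e]
    simp only [_root_.zpow_mul, zpow_natCast, map_zpow, map_pow, map_mul, a1, a2, b1, b2]
    rw [show 2 ^ (1 + 1) = 4 from rfl, h.x4, e0, ← map_pow, ← map_mul, ← map_pow,
      show (tR ^ 3 * wR) ^ 4 = -1 by decide +kernel, gφ_neg]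
  have ht : ∀ e r g : Γ, T (θ r) = T (ρ r) → (f e).1 * (f g).1 = (f g).1 * (f r).1 → T (θ e) = T (ρ e) :=
    fun e r g e1 e2 => by
    have c1 : f ((g * r * g⁻¹)⁻¹ * e) = 1 := Subtype.ext (by
      simp only [map_mul, map_inv, coe_mul, coe_inv, ← e2]; simp)
    obtain ⟨c, hc⟩ := pr_eq_one'.1 (hk _ c1).1
    have c2 := hz _ c1
    rw [show e = g * r * g⁻¹ * ((g * r * g⁻¹)⁻¹ * e) by group]
    generalize (g * r * g⁻¹)⁻¹ * e = z at *
    have c3 := e1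
    rw [← T_conj (θ g), ← T_conj (ρ g) (ρ r)] at c3
    simp only [T, map_mul, map_inv, Units.val_mul, ← c2, hc, Matrix.mul_smul, Matrix.mul_one, trace_smul] at c3 ⊢
    rw [c3]
  obtain ⟨Q, hQ⟩ := conj_of_trace θ ρ (h.full.mono (by
      rintro _ ⟨x, hx, rfl⟩
      obtain ⟨e, he⟩ := hf (fP π ⟨x, hx⟩)
      rcases h.z2.or hx (hθ e) (((rp_fP π ⟨x, hx⟩).eq_iff (rf e)).1 (by rw [he])) with c | c
      exacts [⟨_, ⟨e, rfl⟩, by rw [c]⟩, ⟨_, ⟨B * B * e, rfl⟩, by rw [c, map_mul, map_mul, b1, e0]⟩])) fun e => by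
    rcases x8_cls (f e).2 with c | ⟨g, hg, c⟩
    · exact ht e 1 1 (by simp) (by simp [c])
    obtain ⟨g, c'⟩ := hf ⟨g, hg⟩
    obtain rfl : (f g).1 = _ := congrArg Subtype.val c'
    rcases c with c | c | c | c | c
    · exact ht e B g (by rw [b1, b2, (h.T2 h2 h.rw (by decide) (by decide)).1, T_gφ,
        show wR.val.trace = 0 by decide +kernel, map_zero]) (by rw [c, b3])
    · exact ht e (A * B) g (by rw [map_mul, map_mul, a1, a2, b1, b2, h.T3, ← map_mul, T_gφ,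
        show (tR * wR).val.trace = 1 by decide +kernel, map_one]) (by simp [c, a3, b3])
    · exact ht e (A ^ 3 * B) g (by rw [map_mul, map_mul, map_pow, map_pow, a1, a2, b1, b2, (h.T8 e0).1, ← map_pow,
        ← map_mul, T_gφ, show (tR ^ 3 * wR).val.trace = 0 by decide +kernel, map_zero]) (by simp [c, a3, b3])
    · exact ht e A g (by rw [a1, a2, T_gφ, show tR.val.trace = ⟨0, 1⟩ by decide +kernel, φ_ap]; simp) (by rw [c, a3])
    · exact ht e (A ^ 6) g (by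
        rw [map_pow, map_pow, a1, a2, ← h.sev.inv_eq, h1, ← map_pow, T_gφ,
          show (tR ^ 6).val.trace = ⟨1, -1⟩ by decide +kernel, φ_ap]; simp; ring) (by simp [c, a3])
  refine ⟨Q, fun x hx => ?_⟩
  obtain ⟨e, he⟩ := hf (fP π ⟨x, hx⟩)
  have k : ∀ e : Γ, Q⁻¹ * θ e * Q⁻¹⁻¹ ∈ closure {gφ hα tR, gφ hα wR} := fun e => by
    rw [show θ e = Q * ρ e * Q⁻¹ from Units.ext ((hQ e).trans (cj_coe _ _))]
    simpa [mul_assoc] using (show ρ e ∈ _ from (key e.1 e.2).elim fun _ h => h.2.2.2)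
  rcases h.z2.or hx (hθ e) (((rp_fP π ⟨x, hx⟩).eq_iff (rf e)).1 (by rw [he])) with c | c
  exacts [c ▸ k e, by simpa only [c, map_mul, b1, e0] using k (B * B * e)]

theorem L8.norm {π : bar P ≃* X8} {t w : G4 K} (h : L8 π t w) (hp : ⁅P, P⁆ = P) (h1 : T t⁻¹ ≠ T t) {n : PG4 K}
    (hn : Nm P n) : n ∈ bar P := by
  refine mem_of_inner hp h.full π hn ((aut8 _ (aut_mem π hn) (aut_inj π hn)).resolve_right ?_)
  rintro ⟨g, hg, e⟩
  obtain ⟨z, hz⟩ := Rp.ex π (inv_mem hg)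
  obtain ⟨y, rfl⟩ := pr_surj n
  have := h.rt.aut hn t8_mem hz (y := t ^ 6) (by
    rw [cjh_apply, inv_inv, mul_assoc, e, inv_mul_cancel_left]; exact h.rt.pow 6)
  rw [← h.sev.inv_eq] at this
  exact h1 (by rw [eq_of_pr_eq h.sev.inv.det (det_conj (z * y) h.sev.det) (n := 7) (by decide) h.sev.inv.pow
    (by rw [conj_pow, h.sev.pow]; simp) (by simpa using this), T_conj])

theorem not_max8 [Finite K] {Ω : Subgroup (G4 K)} (hH : Geo.IsMaximalIn Ω H) (hc : Geo.IsResidualCore H P)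
    (h168 : Nat.card (PQ P) = 168) (h2 : (2 : K) ≠ 0) (hr : ¬ ∀ x ∈ P, T x⁻¹ = T x)
    (hΩ : ∀ t ∈ P, T t⁻¹ = 1 - T t → (7 : K) ≠ 0 → ∀ (hα : T t * T t = T t - 2) (Q : G4 K),
      (∀ x ∈ P, Un hα (Q⁻¹ * x * Q⁻¹⁻¹)) → ∀ g, g.val.det = 1 → Un hα g → Q * g * Q⁻¹ ∈ Ω) : False := by
  have hp := hc.perfect
  obtain ⟨π⟩ := exists_pi8 hp h168
  obtain ⟨t, w, h⟩ := exists_L8 hp (full_iff_absIrr.2 hc.absIrred) π
  have h0 := h.ne h2 hr
  obtain ⟨h1, hα⟩ := h.sev.eq h2 h0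
  have h7 : (7 : K) ≠ 0 := fun e => h0 (by
    rw [h1]; exact sub_eq_zero.1 (pow_eq_zero_iff two_ne_zero |>.1 (by linear_combination 4 * hα - e)))
  obtain ⟨Q, hQ⟩ := h.model h2 h7 h1 hα
  have hU := hΩ t h.rt.1 h1 h7 hα Q fun x hx => closure_ind_fin (p := Un hα) (fun σ _ => by simp) (by
    rintro _ (rfl | rfl) y hy
    exacts [(un_of hα (by decide +kernel)).mul hα hy, (un_of hα (by decide +kernel)).mul hα hy]) (hQ x hx)
  let S := (S0 hα).comap (MulAut.conj Q⁻¹).toMonoidHom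
  have hS1 : P ≤ S := fun x hx => (closure_le (S0 hα)).2 (by
    rintro _ (rfl | rfl)
    exacts [mem_S0 hα pt7 (by decide +kernel), mem_S0 hα pw7 (by decide +kernel)]) (hQ x hx)
  have hS2 : Sc K ≤ S := fun z hz => sc_le_S0 hα ((inferInstance : (Sc K).Normal).conj_mem z hz Q⁻¹)
  have hn : ∀ x ∈ H, pr x ∈ bar P := fun x hx => h.norm hp h0 (nm_of (hc.normal x hx))
  have k : ∀ g, Q * g * Q⁻¹ ∈ S ↔ g ∈ S0 hα := fun g => by simp [S, mul_assoc]
  rcases hH.2 (S ⊓ Ω) (le_inf (fun x hx => le_sup_of_bar hS1 hS2 (hn x hx)) hH.1.le) inf_le_right with e | e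
  · have a1 := hn _ (e.le ⟨(k _).2 (mem_S0 hα pz7 (by decide +kernel)), hU (gφ hα zR) (det_gφ hα (by decide +kernel))
      (un_of hα (by decide +kernel))⟩)
    have a2 : (⟨_, a1⟩ : bar P) ^ 168 = 1 := by rw [← h168, ← card_bar]; exact pow_card_eq_one'
    have a3 : pr (Q * gφ hα zR * Q⁻¹) = 1 := eq_one_of_cop (n := 5) (congrArg Subtype.val a2)
      (by rw [← map_pow, conj_pow, ← map_pow, show zR ^ 5 = 1 by decide +kernel]; simp) rfl
    obtain ⟨c, hc⟩ := pr_eq_one'.1 (show pr (gφ hα zR) = 1 by simpa [mul_inv_eq_one] using a3)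
    have := congrFun (congrFun hc 0) 2
    rw [gφ_val, map_apply, show zR.val 0 2 = 1 by decide +kernel] at this
    simp at this
  · obtain ⟨u, u1, u2, u3⟩ := exists_bad hα h2 h7
    exact u3 ((k u).1 (e.ge (hU u u1 u2)).1)

theorem not_max_SL [Finite K] (hH : Geo.IsMaximalIn (SL4 K) H) (hc : Geo.IsResidualCore H P)
    (h168 : Nat.card (PQ P) = 168) (h2 : (2 : K) ≠ 0) (hr : ¬ ∀ x ∈ P, T x⁻¹ = T x) : False :=
  not_max8 hH hc h168 h2 hr fun _ _ _ _ _ _ _ _ h _ => mem_SL4.2 (det_conj _ h)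

theorem not_max_SU [Fintype K] {q : ℕ} (hq : Fintype.card K = q ^ 2) (hH : Geo.IsMaximalIn (SU4 K q) H)
    (hc : Geo.IsResidualCore H P) (h168 : Nat.card (PQ P) = 168) (h2 : (2 : K) ≠ 0) (hr : ¬ ∀ x ∈ P, T x⁻¹ = T x) :
    False := by
  refine not_max8 hH hc h168 h2 hr fun t ht h1 h7 hα Q hQ g g1 g2 => ⟨(mem_GU4 hq).2 ?_, mem_SL4.2 (det_conj _ g1)⟩
  have hu := fun x hx => (mem_GU4 hq (g := x)).1 (hH.1.le (hc.le hx)).1
  have hσ := (T_inv_of_herm (UP hq).σσ (B := 1) (by simp) (hu t ht)).trans h1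
  obtain ⟨c, hc'⟩ := schur_gram (S := cj Q⁻¹ '' Geo.matrixSet P) ((full_iff_absIrr.2 hc.absIrred).map _) (UP hq).σ
    (det_GR hα h7) (G' := Q.valᵀ * 1 * Q.val.map (UP hq).σ) (by
      rintro _ ⟨_, ⟨x, hx, rfl⟩, rfl⟩
      exact ⟨by rw [cj_coe]; exact Matrix.GeneralLinearGroup.det_ne_zero _, 1, by rw [one_smul, cj_coe, hQ x hx _ hσ],
        by rw [one_smul, ← cj_form' _ rfl, cj_cj_inv, hu x hx]⟩)
  rw [← cj_coe, cj_form' _ hc', Matrix.mul_smul, Matrix.smul_mul, g2 _ hσ]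

end Cfsg.Agent.H2.M4
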