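import Cfsg.Agent.O6.R2

set_option autoImplicit false

/-! A weakly closed frame group with monomial centralisers has a conjugate involution outside. -/

namespace Cfsg.Agent.H2.MN
open Matrix Cfsg.Agent.O6 Cfsg.Agent.O6.OG

variable {Γ K : Type*} [Group Γ] [Field K]

theorem par : ∀ x : Fin 3 → Fin 6, x 0 ≠ x 1 → x 0 ≠ x 2 → x 1 ≠ x 2 →
    Even (Finset.univ.filter fun p : Fin 3 × Fin 5 =>
      x p.1 = 0 ∧ x (p.1 + 1) = p.2.succ ∨ x p.1 = p.2.succ ∧ x (p.1 + 1) = 0).card := by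
  decide +kernel

theorem dih {z y : Γ} (hz : z * z = 1) (hy : y * y = 1) (n : ℕ) : (z * y) ^ n * z * (z * y) ^ n = z := by
  induction n with
  | zero => simp
  | succ n ih =>
    calc _ = z * y * ((z * y) ^ n * z * (z * y) ^ n) * (z * y) := by
          conv_lhs => rw [pow_succ, ← mul_assoc, ← pow_succ, pow_succ']
          simp only [mul_assoc]
      _ = z * (y * (z * z) * y) := by rw [ih]; simp only [mul_assoc]
      _ = z := by simp [hz, hy]

theorem mn [Finite Γ] {G : OG Γ K} (s : G.St) (wc : ∀ g, (G.cg g).E ≤ G.M → g ∈ G.M)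
    (good : ∀ a b, a ≠ b → G.Good a b) : ∃ t, G.Zc t ∧ t ∈ G.M ∧ t ∉ G.E := by
  classical
  by_contra hn
  have H0 : ∀ t, G.Zc t → t ∈ G.M → t ∈ G.E := fun t a b => by_contra fun c => hn ⟨t, a, b, c⟩
  have dE : ∀ {z a b}, G.φ z = dg a b → z ∈ G.E := mo_dg
  have cc : ∀ g x z : Γ, g⁻¹ * x * g * (g⁻¹ * z * g) = g⁻¹ * z * g * (g⁻¹ * x * g) ↔ x * z = z * x := fun g x z => by
    rw [show ∀ x z : Γ, g⁻¹ * x * g * (g⁻¹ * z * g) = g⁻¹ * (x * z) * g from fun x z => by group,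
      show ∀ x z : Γ, g⁻¹ * x * g * (g⁻¹ * z * g) = g⁻¹ * (x * z) * g from fun x z => by group, mul_left_inj,
      mul_right_inj]
  have zc : ∀ {z a b}, a ≠ b → G.φ z = dg a b → G.Zc z := fun ab h => ⟨1, _, _, _, ab, h, by simp⟩
  have cm : ∀ {z}, G.Zc z → z ∈ G.E → ∀ x, x * z = z * x → x ∈ G.M := fun hz h x e =>
    let ⟨a, b, ab, h⟩ := hz.bi.dg h; good a b ab _ x h e
  have F1 : ∀ {z} g, G.Zc z → z ∈ G.E → g⁻¹ * z * g ∈ G.E → g ∈ G.M := fun {z} g hz h h' => wc g fun x hx =>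
    cm hz h x ((cc g _ _).1 (E_comm (cg_E.1 hx) h'))
  have F0 : ∀ {z y} g, G.Zc z → g⁻¹ * z * g ∈ G.E → G.Zc y → y * z = z * y → g⁻¹ * y * g ∈ G.E :=
    fun {z y} g hz h hy e => H0 _ (by simpa using hy.conj g⁻¹) (cm (by simpa using hz.conj g⁻¹) h _ ((cc g _ _).2 e))
  have ex : ∀ {z}, G.Zc z → ∃ g, g⁻¹ * z * g ∈ G.E := by
    rintro _ ⟨g, z, a, b, -, h, rfl⟩
    exact ⟨g, by simpa [mul_assoc] using dE h⟩
  have cs : ∀ {c} g, g⁻¹ * c * g ∈ G.E → c = 1 ∨ c = G.m ∨ G.Zc c ∨ G.Zc (G.m * c) := fun {c} g h => by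
    rcases E_cases h with e | e | ⟨a, b, ab, e | e⟩
    · exact .inl (by simpa [mul_assoc, inv_mul_eq_one, eq_comm] using e)
    · exact .inr (.inl (by rw [← mul_inv_cancel_right G.m g, m_comm, ← e]; group))
    · exact .inr (.inr (.inl (by simpa [mul_assoc] using (zc ab e).conj g)))
    · exact .inr (.inr (.inr (by simpa [← mul_assoc, ← m_comm] using (zc ab e).conj g)))
  have mE : ∀ {c} g, g⁻¹ * c * g ∈ G.E → g⁻¹ * (G.m * c) * g ∈ G.E := fun {c} g h => by
    simpa only [← mul_assoc, m_comm G g⁻¹] using mul_mem m_mem_E h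
  have F3 : ∀ {z c} g, G.Zc z → z ∈ G.E → g⁻¹ * c * g ∈ G.E → c * z = z * c → g ∉ G.M → c = 1 ∨ c = G.m :=
    fun {z c} g hz h hc e hg => by
    rcases cs g hc with a | a | a | a
    exacts [.inl a, .inr a, (hg (F1 g a (by simpa using F0 1 hz (by simpa) a e) hc)).elim,
      (hg (F1 g a (by simpa using F0 1 hz (by simpa) a (by rw [mul_assoc, e, ← mul_assoc, m_comm, mul_assoc]))
        (mE g hc))).elim]
  have dz : ∀ {z y}, G.Zc z → G.Zc y → ∀ n : ℕ, G.Zc (z * (z * y) ^ n) := fun {z y} hz hy n => by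
    induction n using Nat.twoStepInduction with
    | zero => simpa
    | one => simpa [← mul_assoc, hz.bi.1]
    | more n ih _ =>
      have := ih.conj (z * y)⁻¹
      have d := dih hz.bi.1 hy.bi.1 1
      generalize z * y = r at *
      rwa [inv_inv, ← mul_assoc, inv_mul_eq_of_eq_mul (show z = r * (z * r) by simpa [mul_assoc] using d.symm), mul_assoc,
        mul_assoc, ← pow_succ, ← pow_succ'] at this
  have nM : ∀ {y} g, y ∉ G.E → g⁻¹ * y * g ∈ G.E → g ∉ G.M := fun g h h' e => h (by simpa [mul_assoc] using conj_E e h')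
  have F2 : ∀ {z y}, G.Zc z → z ∈ G.E → G.Zc y → y ∉ G.E → Odd (orderOf (z * y)) := fun {z y} hz h hy h' => by
    by_contra! e
    obtain ⟨k, e⟩ := Nat.not_odd_iff_even.1 e
    have a0 := orderOf_pos (z * y)
    have a1 : (z * y) ^ k * (z * y) ^ k = 1 := by rw [← pow_add, ← e, pow_orderOf_eq_one]
    have a2 : (z * y) ^ k * z = z * (z * y) ^ k := by
      have d := congrArg (· * (z * y) ^ k) (dih hz.bi.1 hy.bi.1 k)
      rwa [mul_assoc, a1, mul_one] at d
    have a3 : (z * y) ^ k * y = y * (z * y) ^ k := by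
      have : y = z * (z * y) := by rw [← mul_assoc, hz.bi.1, one_mul]
      generalize z * y = r at *
      rw [this, ← mul_assoc, a2, mul_assoc, ← pow_succ, pow_succ', mul_assoc]
    obtain ⟨g, hg⟩ := ex hy
    have a4 : G.Zc (y * (z * y) ^ k) := by
      have := dz hz hy (k + 1)
      rwa [pow_succ', ← mul_assoc, ← mul_assoc, hz.bi.1, one_mul] at this
    have a5 := mul_mem hg (F0 g hy hg a4 (by rw [mul_assoc, a3]))
    rcases F3 g hz h (by simpa [mul_assoc, ← mul_assoc y y, hy.bi.1] using a5) a2 (nM g h' hg) with c | c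
    · exact absurd (Nat.le_of_dvd (by omega) (orderOf_dvd_of_pow_eq_one c)) (by omega)
    · exact hy.bi.not_m (by simpa [c, m_comm] using a4.bi)
  obtain ⟨w, w1, w2⟩ : ∃ w, G.Zc w ∧ w ∉ G.E := by
    by_contra! e
    obtain ⟨x, x1, -⟩ := G.irr O6.e fun i j => by simp [e_apply, eq_comm]
    obtain ⟨z, hz⟩ := s.dg 0 1
    rcases G.simp G.E ⟨fun x hx g => by
      rcases cs 1 (by simpa using hx) with rfl | rfl | a | a
      exacts [by simp, by simp [← m_comm, m_mem_E], e _ (a.conj g), by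
        simpa [← mul_assoc, ← m_comm, m_sq] using mul_mem m_mem_E (e _ (a.conj g))]⟩ with c | c
    · exact (c z (mo_dg hz)).elim (bi_dg (by decide) hz).ne_one (bi_dg (by decide) hz).ne_m
    · obtain ⟨ε, -, a⟩ : x ∈ G.E := (c x).elim id fun a => by simpa [← mul_assoc, m_sq] using mul_mem m_mem_E a
      exact x1 (by simp only [a, rf_e, sp_mul, mul_one, Equiv.Perm.one_apply, mul_comm]; rfl)
  have ww := w1.bi.1
  have wi : w⁻¹ = w := inv_eq_of_mul_eq_one_right ww
  have key : ∀ a b c d : Fin 6, a ≠ b → c ≠ d → ∃! j, G.Zc j ∧ ∃ σ, G.Mo (w * j) σ ∧ Pr σ a b c d := fun a b c d ab cd => by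
    obtain ⟨z, hz⟩ := s.dg a b
    obtain ⟨z', hz'⟩ := s.dg c d
    have z1 := zc ab hz
    have y1 := (zc cd hz').conj w
    have y2 : w * z' * w⁻¹ ∉ G.E := fun e => w2 (H0 w w1 (F1 w y1 e (by simpa [mul_assoc] using dE hz')))
    have tr : ∀ {j σ}, G.Zc j → G.Mo (w * j) σ → (Pr σ a b c d ↔ j * z * j = w * z' * w⁻¹) := fun {j σ} hj h => by
      have := h.dg hz
      rw [_root_.mul_inv_rev, inv_eq_of_mul_eq_one_right hj.bi.1] at this
      refine ⟨fun p => ?_, fun e => dg_inj G.two (σ.injective.ne ab) (by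
        rw [← this, ← hz', show w * j * z * (j * w⁻¹) = w * (j * z * j) * w⁻¹ by group, e, wi, ← mul_assoc, ← mul_assoc, ww,
          one_mul, mul_assoc, ww, mul_one])⟩
      rw [← G.inj (this.trans ((by rcases p with ⟨p, q⟩ | ⟨p, q⟩ <;> simp [p, q, dg_comm] : dg (σ a) (σ b) = dg c d).trans
        hz'.symm)), wi]
      simp [mul_assoc, ← mul_assoc w w, ww]
    generalize hy : w * z' * w⁻¹ = y at *
    obtain ⟨k, hk⟩ := F2 z1 (mo_dg hz) y1 y2
    have j1 := dz z1 y1 (k + 1)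
    have j2 : z * (z * y) ^ (k + 1) * z * (z * (z * y) ^ (k + 1)) = y := by
      rw [mul_assoc _ z, ← mul_assoc z z, z1.bi.1, one_mul, mul_assoc, ← pow_add, show k + 1 + (k + 1) = 2 * k + 1 + 1 by ring,
        ← hk, pow_succ, pow_orderOf_eq_one, one_mul, ← mul_assoc, z1.bi.1, one_mul]
    have j3 : ∀ x, Commute x z → Commute x y → Commute x (z * (z * y) ^ (k + 1)) := fun x a b =>
      a.mul_right ((a.mul_right b).pow_right _)
    generalize z * (z * y) ^ (k + 1) = j at *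
    have jj := j1.bi.1
    have ji : j⁻¹ = j := inv_eq_of_mul_eq_one_right jj
    obtain ⟨σ, hσ⟩ := F1 (w * j) (zc cd hz') (mo_dg hz') (by
      rw [show (w * j)⁻¹ * z' * (w * j) = j * y * j by rw [← hy, _root_.mul_inv_rev, ji, wi]; group, ← j2]
      simpa [mul_assoc, ← mul_assoc j j, jj] using dE hz)
    refine ⟨j, ⟨j1, σ, hσ, (tr j1 hσ).2 j2⟩, fun i ⟨i1, τ, hτ, p⟩ => ?_⟩
    have i2 := (tr i1 hτ).1 p
    have ii := i1.bi.1
    have c1 : Commute (i * j) z := by
      change i * j * z = z * (i * j)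
      calc _ = i * (j * z * j) * j := by simp [mul_assoc, jj]
        _ = _ := by rw [j2, ← i2]; simp [mul_assoc, ← mul_assoc i i, ii]
    have c2 : Commute (i * j) y := by
      change i * j * y = y * (i * j)
      calc _ = i * z * i * (i * j) := by rw [← j2]; simp [mul_assoc, ← mul_assoc j j, ← mul_assoc i i, jj, ii]
        _ = _ := by rw [i2]
    have c3 : i * j = j * i := by
      have : i * j * j = j * (i * j) := j3 _ c1 c2
      rw [mul_assoc, jj, mul_one] at this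
      conv_rhs => rw [this, ← mul_assoc, jj, one_mul]
    obtain ⟨g, hg⟩ := ex j1
    rcases F3 g z1 (mo_dg hz) (by simpa [mul_assoc] using mul_mem (F0 g j1 hg i1 c3) hg) c1 (nM g (fun e => y2 (by
      rw [← j2]; exact mul_mem (mul_mem e (mo_dg hz)) e)) hg) with e | e
    · rw [← ji, eq_inv_of_mul_eq_one_left e]
    · exact (j1.bi.not_m (by rw [← e, mul_assoc, jj, mul_one]; exact i1.bi)).elim
  choose F F1 F2 using fun p : Fin 3 × Fin 5 => key (p.1.castLE (by decide)) ((p.1 + 1).castLE (by decide)) 0 p.2.succ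
    (by revert p; decide) (Fin.succ_ne_zero _).symm
  have := Finset.card_eq_sum_card_image F Finset.univ
  refine absurd (this ▸ Finset.even_sum _ fun j hj => ?_ : Even (Finset.univ : Finset (Fin 3 × Fin 5)).card) (by decide)
  obtain ⟨p, -, rfl⟩ := Finset.mem_image.1 hj
  obtain ⟨j1, σ, hσ, -⟩ := F1 p
  refine (congrArg Finset.card (Finset.ext fun q => ?_)).symm ▸ par (fun i => σ (i.castLE (by decide)))
    (σ.injective.ne (by decide)) (σ.injective.ne (by decide)) (σ.injective.ne (by decide))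
  simp only [Finset.mem_filter, Finset.mem_univ, true_and]
  refine ⟨fun e => ?_, fun e => (F2 q _ ⟨j1, σ, hσ, e⟩).symm⟩
  obtain ⟨-, τ, hτ, h⟩ := F1 q
  rw [e] at hτ
  exact hτ.uniq hσ ▸ h

end Cfsg.Agent.H2.MN
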