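import Cfsg.Agent.H2.MiS

/-!
Root systems of rank five containing a frame.
-/

set_option autoImplicit false

namespace Cfsg.Agent.H2.Mi

open Matrix

variable {K : Type*} [Field K]

/-- allowed squares of inner products of non-proportional roots -/
def Al' (s : K) : Prop := Al s ∧ (s = 4 → (3 : K) = 0)

/-- root systems in coordinates -/
structure RS5 (R : Set (Fin 5 → K)) : Prop where
  nrm : ∀ x ∈ R, x ⬝ᵥ x = 4
  fr : ∀ i, Pi.single i 2 ∈ R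
  neg : ∀ x ∈ R, -x ∈ R
  refl : ∀ x ∈ R, ∀ y ∈ R, y - (x ⬝ᵥ y / 2) • x ∈ R
  gram : ∀ x ∈ R, ∀ y ∈ R, y = x ∨ y = -x ∨ Al' (x ⬝ᵥ y / 2 * (x ⬝ᵥ y / 2))
  nine : (3 : K) = 0 → ∀ a c z (l : K), a ∈ R → a + z ∈ R → c ∈ R → c + l • z ∈ R → z ≠ 0 → l ≠ 0 → z ⬝ᵥ z = 0 →
    a ⬝ᵥ z = 0 → c ⬝ᵥ z = 0 → ∃ α μ : K, c = α • a + μ • z
  cov : ∀ j, ∃ x ∈ R, x j ≠ 0 ∧ ∃ i, i ≠ j ∧ x i ≠ 0

/-- no inner product `√2` -/
def No2 (R : Set (Fin 5 → K)) : Prop := ∀ x ∈ R, ∀ y ∈ R, x ⬝ᵥ y / 2 * (x ⬝ᵥ y / 2) ≠ 2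

set_option synthInstance.maxSize 4096 in
set_option synthInstance.maxHeartbeats 200000 in
theorem codes : ∀ a b c d e : Fin 5, (∀ i j : Fin 5, i ≠ j → (![a, b, c, d, e] i = 2 → ![a, b, c, d, e] j ≤ 1) ∧
    (3 ≤ ![a, b, c, d, e] i → ![a, b, c, d, e] j ≠ ![a, b, c, d, e] i)) →
    (∃ i j : Fin 5, i ≠ j ∧ ![a, b, c, d, e] i ≠ 0 ∧ ![a, b, c, d, e] j ≠ 0) →
    (∑ i, ![(0 : ℤ), 1, 2, 0, 3] (![a, b, c, d, e] i), ∑ i, ![(0 : ℤ), 0, 0, 1, -1] (![a, b, c, d, e] i)) ∈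
      [(2, 0), (3, 0), (5, 0), (6, 0), (1, 1), (2, 1), (3, 1), (4, 1), (4, -1), (5, -1), (6, -1), (7, -1)] ∨
    ∃ σ : Equiv.Perm (Fin 5), ![a, b, c, d, e] ∘ σ = ![1, 1, 1, 1, 0] ∨ ![a, b, c, d, e] ∘ σ = ![1, 3, 4, 0, 0] ∨
      ![a, b, c, d, e] ∘ σ = ![2, 1, 1, 0, 0] := by decide +kernel

variable [NeZero (2 : K)]

theorem al_pair {s t : K} (h : Al' (s * t)) (h3 : (3 : K) ≠ 0 ∨ (s ≠ 2 ∧ s * t ≠ 2)) :
    (s = 2 → t ≠ 2 ∧ t * t - 3 * t + 1 ≠ 0) ∧ (s * s - 3 * s + 1 = 0 → (s = 4 → (3 : K) = 0) → t ≠ s) := by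
  have h2 : (2 : K) ≠ 0 := two_ne_zero
  have h2' : (4 : K) ≠ 0 := four_ne
  obtain ⟨h, h4⟩ := h
  unfold Al at h
  refine ⟨fun a => ⟨fun b => ?_, fun b => ?_⟩, fun a a' b => ?_⟩ <;> grind

theorem types [IsAlgClosed K] {s : Fin 5 → K} (h1 : ∀ i, Al' (s i)) (h2 : ∀ i j, i ≠ j → Al' (s i * s j))
    (h3 : (3 : K) ≠ 0 ∨ ∀ i j, i ≠ j → s i ≠ 2 ∧ s i * s j ≠ 2) (h4 : ∑ i, s i = 4)
    (h5 : ∃ i j, i ≠ j ∧ s i ≠ 0 ∧ s j ≠ 0) :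
    ∃ σ : Equiv.Perm (Fin 5), s ∘ σ = ![1, 1, 1, 1, 0] ∨ (∃ y, y * y - 3 * y + 1 = 0 ∧ s ∘ σ = ![1, y, 3 - y, 0, 0]) ∨
      s ∘ σ = ![2, 1, 1, 0, 0] := by
  have two : (2 : K) ≠ 0 := two_ne_zero
  obtain ⟨y, hy⟩ : ∃ y : K, y * y - 3 * y + 1 = 0 := by
    obtain ⟨r, hr⟩ := IsAlgClosed.exists_eq_mul_self (5 : K)
    exact ⟨(3 + r) / 2, by field_simp; linear_combination -hr⟩
  have : ∀ i, ∃ c : Fin 5, s i = ![0, 1, 2, y, 3 - y] c := fun i => by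
    rcases (h1 i).1 with h | h | h | h
    exacts [⟨0, h⟩, ⟨1, h⟩, ⟨2, h⟩, (mul_eq_zero.1 (by linear_combination h - hy : (s i - y) * (s i - (3 - y)) = 0)).elim
      (fun k => ⟨3, sub_eq_zero.1 k⟩) fun k => ⟨4, sub_eq_zero.1 k⟩]
  choose c hc using this
  have ec : ![c 0, c 1, c 2, c 3, c 4] = c := by ext i; fin_cases i <;> rfl
  have := codes (c 0) (c 1) (c 2) (c 3) (c 4)
  rw [ec] at this
  have hs : s = ![0, 1, 2, y, 3 - y] ∘ c := funext hc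
  have hr : ∀ i, 3 ≤ c i → s i * s i - 3 * s i + 1 = 0 := fun i hi => by
    rw [hc]; generalize c i = a at hi; fin_cases a <;> simp at hi ⊢ <;> linear_combination hy
  rcases this (fun i j hij => by
      have := al_pair (h2 i j hij) (h3.imp_right fun k => k i j hij)
      refine ⟨fun a => ?_, fun a b => this.2 (hr i a) (h1 i).2 (by rw [hc, hc, b])⟩
      obtain ⟨k1, k2⟩ := this.1 (by rw [hc, a]; rfl)
      have := mt (hr j) k2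
      have : c j ≠ 2 := fun e => k1 (by rw [hc, e]; rfl)
      omega) (h5.imp fun i => Exists.imp fun j k => ⟨k.1, fun e => k.2.1 (by rw [hc, e]; rfl),
      fun e => k.2.2 (by rw [hc, e]; rfl)⟩) with k | ⟨σ, k | k | k⟩
  · exfalso
    have e : ∑ i, s i = ((∑ i, ![(0 : ℤ), 1, 2, 0, 3] (c i) : ℤ) : K) + (∑ i, ![(0 : ℤ), 0, 0, 1, -1] (c i) : ℤ) * y := by
      push_cast
      rw [Finset.sum_mul, ← Finset.sum_add_distrib]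
      refine Finset.sum_congr rfl fun i _ => ?_
      rw [hc]; generalize c i = a; fin_cases a <;> simp; ring
    rw [h4] at e
    simp only [List.mem_cons, Prod.mk.injEq, List.not_mem_nil, or_false] at k
    rcases k with k | k | k | k | k | k | k | k | k | k | k | k <;> rw [k.1, k.2] at e <;> push_cast at e <;> grind
  · exact ⟨σ, Or.inl (by rw [hs, Function.comp_assoc, k]; ext i; fin_cases i <;> rfl)⟩
  · exact ⟨σ, Or.inr (Or.inl ⟨y, hy, by rw [hs, Function.comp_assoc, k]; ext i; fin_cases i <;> rfl⟩)⟩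
  · exact ⟨σ, Or.inr (Or.inr (by rw [hs, Function.comp_assoc, k]; ext i; fin_cases i <;> rfl))⟩

end Cfsg.Agent.H2.Mi
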