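import Cfsg.Agent.H2.MiC

/-!
Root systems of rank five containing a frame do not occur.
-/

set_option autoImplicit false

namespace Cfsg.Agent.H2.Mi

open Matrix

variable {K : Type*} [Field K] {R : Set (Fin 5 → K)}

/-- a root of type `(1,1,1,1,0)` -/
def TD (R : Set (Fin 5 → K)) (j : Fin 5) : Prop := ∃ x ∈ R, x j = 0 ∧ ∀ i, i ≠ j → x i * x i = 1

/-- roots of type `(1,φ,φ',0,0)` with support `S` -/
def TH (R : Set (Fin 5 → K)) (S : Finset (Fin 5)) : Prop := S.card = 3 ∧ ∀ k ∈ S, ∃ x ∈ R, (∀ i, x i ≠ 0 ↔ i ∈ S) ∧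
  x k * x k = 1 ∧ ∀ i ∈ S, i ≠ k → x i * x i * (x i * x i) - 3 * (x i * x i) + 1 = 0

theorem dot5 (x y : Fin 5 → K) : x ⬝ᵥ y = x 0 * y 0 + x 1 * y 1 + x 2 * y 2 + x 3 * y 3 + x 4 * y 4 := by
  simp [dotProduct, Fin.sum_univ_five]

theorem vec5 (x : Fin 5 → K) : x = ![x 0, x 1, x 2, x 3, x 4] := by ext i; fin_cases i <;> rfl

theorem dot_perm (σ : Equiv.Perm (Fin 5)) (x y : Fin 5 → K) : (x ∘ σ.symm) ⬝ᵥ (y ∘ σ.symm) = x ⬝ᵥ y :=
  comp_equiv_dotProduct_comp_equiv _ _ _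

theorem perm_mem {x : Fin 5 → K} (hx : x ∈ R) (σ : Equiv.Perm (Fin 5)) : x ∘ σ ∈ {x | x ∘ σ.symm ∈ R} := by
  simpa [Function.comp_assoc] using hx

theorem No2.perm (h : No2 R) (σ : Equiv.Perm (Fin 5)) : No2 {x | x ∘ σ.symm ∈ R} := fun x hx y hy => by
  rw [← dot_perm σ]; exact h _ hx _ hy

theorem half_al [NeZero (2 : K)] (h3 : (3 : K) ≠ 0) {s t : K} (h1 : Al t) (h2 : Al' s) (h0 : s ≠ 0) (e : t * 2 = s) :
    s = 2 := by
  have two : (2 : K) ≠ 0 := two_ne_zero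
  have four : (4 : K) ≠ 0 := four_ne
  have := mt h2.2 h3
  rcases h1 with k | k | k | k <;> rcases h2.1 with k' | k' | k' | k' <;> grind

namespace RS5

theorem perm (h : RS5 R) (σ : Equiv.Perm (Fin 5)) : RS5 {x | x ∘ σ.symm ∈ R} := by
  have inj : ∀ {x y : Fin 5 → K}, x ∘ σ.symm = y ∘ σ.symm → x = y := fun e => σ.symm.surjective.injective_comp_right e
  refine ⟨fun x hx => by rw [← dot_perm σ]; exact h.nrm _ hx, fun i => ?_, fun x hx => h.neg _ hx,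
    fun x hx y hy => ?_, fun x hx y hy => ?_, fun h3 a c z l h1 h2 h4 h5 h6 h7 h8 h9 h10 => ?_, fun j => ?_⟩
  · have : Pi.single i 2 ∘ σ.symm = (Pi.single (σ i) 2 : Fin 5 → K) := by
      ext k; simp [Pi.single_apply, Equiv.symm_apply_eq]
    exact show _ ∈ R from this ▸ h.fr _
  · rw [← dot_perm σ]; exact h.refl _ hx _ hy
  · rw [← dot_perm σ]; exact (h.gram _ hx _ hy).imp inj (Or.imp_left fun e => inj e)
  · rw [← dot_perm σ] at h8 h9 h10
    exact (h.nine h3 _ _ _ l h1 h2 h4 h5 (fun e => h6 (inj e)) h7 h8 h9 h10).imp fun α => Exists.imp fun μ e => inj e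
  · obtain ⟨x, hx, h1, i, h2, h3⟩ := h.cov (σ j)
    exact ⟨_, perm_mem hx σ, h1, σ.symm i, fun e => h2 (by simp [← e]), by simpa using h3⟩

variable [NeZero (2 : K)]

theorem refl_fr (h : RS5 R) {x : Fin 5 → K} (hx : x ∈ R) (i : Fin 5) : Pi.single i 2 - x i • x ∈ R := by
  simpa [two_ne_zero] using h.refl _ hx _ (h.fr i)

theorem flip (h : RS5 R) {x : Fin 5 → K} (hx : x ∈ R) (i : Fin 5) : x - Pi.single i (2 * x i) ∈ R := by
  convert h.refl _ (h.fr i) _ hx using 2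
  ext k; simp [Pi.single_apply, mul_comm, two_ne_zero]

theorem sgn (h : RS5 R) {x y : Fin 5 → K} (hx : x ∈ R) (e : ∀ i, y i * y i = x i * x i) : y ∈ R := by
  have : ∀ s : Finset (Fin 5), (fun i => if i ∈ s then y i else x i) ∈ R := fun s => by
    induction s using Finset.induction_on with
    | empty => simpa using hx
    | insert a s ha ih =>
      rcases mul_self_eq_mul_self_iff.1 (e a) with k | k
      · convert ih using 2 with i
        by_cases hi : i = a <;> simp [hi, k]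
      · convert h.flip ih a using 2 with i
        by_cases hi : i = a <;> simp [hi, k, ha]; ring
  simpa using this Finset.univ

theorem al1 (h : RS5 R) {x : Fin 5 → K} (hx : x ∈ R) (hn : ∃ i j, i ≠ j ∧ x i ≠ 0 ∧ x j ≠ 0) (k : Fin 5) :
    Al' (x k * x k) := by
  obtain ⟨i, j, hij, hi, hj⟩ := hn
  rcases h.gram _ (h.fr k) _ hx with rfl | rfl | e
  · simp_all [Pi.single_apply]
  · simp_all [Pi.single_apply]
  · simpa [two_ne_zero] using e

theorem al2 (h : RS5 R) {x : Fin 5 → K} (hx : x ∈ R) {i j : Fin 5} (hij : i ≠ j) :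
    Al' (x i * x i * (x j * x j)) ∨ (x i * x i = 2 ∧ ∀ k, k ≠ i → k ≠ j → x k = 0) := by
  have k : ∀ c : K, Pi.single i 2 - x i • x = Pi.single j c → x i * x i = 2 ∧ ∀ k, k ≠ i → k ≠ j → x k = 0 := fun c e => by
    have e1 : x i * x i = 2 := by have := congrFun e i; simp [hij] at this; linear_combination -this
    refine ⟨e1, fun k h1 h2 => ?_⟩
    have := congrFun e k
    simp [h1, h2] at this
    exact this.resolve_left fun e => by simp [e] at e1; exact two_ne_zero e1.symm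
  rcases h.gram _ (h.fr j) _ (h.refl_fr hx i) with e | e | e
  · exact Or.inr (k _ e)
  · exact Or.inr (k (-2) (by rw [e, Pi.single_neg]))
  · left; convert e using 1; simp [hij.symm]; field_simp

theorem quarter (h : RS5 R) (h2 : No2 R) {x y : Fin 5 → K} (hx : x ∈ R) (hy : y ∈ R) (e : x ⬝ᵥ y * (x ⬝ᵥ y) = 1)
    {i : Fin 5} (h1 : x i = 0) (h3 : y i ≠ 0) : (3 : K) = 0 := by
  have two : (2 : K) ≠ 0 := two_ne_zero
  have four : (4 : K) ≠ 0 := four_ne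
  rcases h.gram _ hx _ hy with rfl | rfl | ⟨k, k'⟩
  · exact (h3 h1).elim
  · simp [h1] at h3
  have := h2 _ hx _ hy
  unfold Al at k
  generalize x ⬝ᵥ y = s at *
  grind

theorem dd (h : RS5 R) (h2 : No2 R) (h1 : TD R 4) (h3 : TD R 0) : False := by
  obtain ⟨x, hx, x0, x1⟩ := h1
  obtain ⟨y, hy, y0, y1⟩ := h3
  have a : ![1, 1, 1, 1, 0] ∈ R := h.sgn hx fun i => by fin_cases i <;> simp [x0, x1]
  have b : ∀ ε : K, ε * ε = 1 → ![0, ε, 1, 1, 1] ∈ R := fun ε e => h.sgn hy fun i => by fin_cases i <;> simp [y0, y1, e]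
  have h3 := h.quarter h2 a (b (-1) (by simp)) (by simp [dot5]) (i := 4) rfl (by simp)
  obtain ⟨α, μ, e⟩ := h.nine h3 (-Pi.single 0 2) (-Pi.single 4 2) ![0, 1, 1, 1, 0] 1 (h.neg _ (h.fr _))
    (by convert a using 1; ext i; fin_cases i <;> simp; linear_combination -h3) (h.neg _ (h.fr _))
    (by convert b 1 (by simp) using 1; ext i; fin_cases i <;> simp; linear_combination -h3)
    (fun e => by simpa using congrFun e 1) one_ne_zero (by simp [dot5]; linear_combination h3) (by simp) (by simp)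
  simpa [two_ne_zero] using congrFun e 4

theorem hh (h : RS5 R) (h2 : No2 R) {x y : Fin 5 → K} (hx : x ∈ R) (hy : y ∈ R) (x0 : x 0 * x 0 = 1) (x1 : x 1 ≠ 0)
    (x3 : x 3 = 0) (x4 : x 4 = 0) (y0 : y 0 = x 0) (y1 : y 1 = 0) (y2 : y 2 = 0) (y3 : y 3 ≠ 0) : False := by
  have e : x ⬝ᵥ y = 1 := by simp [dot5, *]
  have h3 := h.quarter h2 hx hy (by simp [e]) x3 y3
  have nx := h.nrm _ hx
  have ny := h.nrm _ hy
  obtain ⟨α, μ, e⟩ := h.nine h3 x _ (y - x) 1 hx (by simpa using hy) (h.flip hx 0)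
    (by convert h.flip hy 0 using 1; rw [y0, one_smul]; abel) (fun e => y3 (by simpa [x3] using congrFun e 3)) one_ne_zero
    (by simp [nx, ny, e, dotProduct_comm y x]; linear_combination 2 * h3) (by simp [nx, e]; linear_combination -h3)
    (by simp [nx, e, y0]; linear_combination -h3)
  have e3 := congrFun e 3
  have e1 := congrFun e 1
  have e0 := congrFun e 0
  simp [x3, y3] at e3
  simp [e3, x1] at e1
  subst e1
  simp [e3] at e0
  simp [e0.resolve_left two_ne_zero] at x0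

theorem dh (h : RS5 R) (h2 : No2 R) (h1 : TD R 4) (h3 : TH R {0, 1, 4}) : False := by
  obtain ⟨x, hx, x0, x1⟩ := h1
  have a : ∀ ε η : K, ε * ε = 1 → η * η = 1 → ![ε, η, 1, 1, 0] ∈ R := fun ε η e e' =>
    h.sgn hx fun i => by fin_cases i <;> simp [x0, x1, e, e']
  have h4 : (3 : K) = 0 := by
    obtain ⟨y, hy, s, y4, r⟩ := h3.2 4 (by simp)
    have y2 : y 2 = 0 := by simpa using (s 2).not
    have y3 : y 3 = 0 := by simpa using (s 3).not
    have n := h.nrm _ hy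
    have r0 := r 0 (by simp) (by simp)
    rw [dot5, y2, y3] at n
    have e : y 0 * y 1 * (y 0 * y 1) = 1 := by linear_combination y 0 * y 0 * (n - y4) - r0
    refine h.quarter h2 (a 1 (-(y 0 * y 1)) (by simp) (by simpa using e)) hy ?_ (i := 4) rfl ((s 4).2 (by simp))
    rw [dot5]; simp [y2, y3]
    linear_combination (y 1 * y 1 - 2) * e + n - y4
  obtain ⟨y, hy, s, y0, r⟩ := h3.2 0 (by simp)
  have y2 : y 2 = 0 := by simpa using (s 2).not
  have y3 : y 3 = 0 := by simpa using (s 3).not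
  have r1 := r 1 (by simp) (by simp)
  have two : (2 : K) ≠ 0 := two_ne_zero
  have k : ∀ ε : K, ε * ε = 1 → ε * y 1 = y 1 * y 1 - 1 → False := fun ε e e' => h2 _ (a (y 0) ε y0 e) _ hy (by
    rw [dot5]; simp [y2, y3, y0, e']; grind)
  rcases mul_eq_zero.1 (by linear_combination r1 : (y 1 * y 1 - y 1 - 1) * (y 1 * y 1 + y 1 - 1) = 0) with e | e
  exacts [k 1 (by simp) (by linear_combination -e), k (-1) (by simp) (by linear_combination -e)]

omit [NeZero (2 : K)] in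
theorem _root_.Cfsg.Agent.H2.Mi.TD.perm {j : Fin 5} (σ : Equiv.Perm (Fin 5)) (h : TD R (σ j)) :
    TD {x | x ∘ σ.symm ∈ R} j :=
  h.elim fun _ ⟨hx, h1, h2⟩ => ⟨_, perm_mem hx σ, h1, fun i hi => h2 _ (σ.injective.ne hi)⟩

omit [NeZero (2 : K)] in
theorem _root_.Cfsg.Agent.H2.Mi.TH.perm {S S' : Finset (Fin 5)} (σ : Equiv.Perm (Fin 5)) (h : TH R S)
    (e : ∀ i, i ∈ S' ↔ σ i ∈ S) (hc : S'.card = 3) : TH {x | x ∘ σ.symm ∈ R} S' :=
  ⟨hc, fun k hk => (h.2 _ ((e k).1 hk)).elim fun _ ⟨hx, h1, h2, h3⟩ => ⟨_, perm_mem hx σ,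
    fun i => (h1 _).trans (e i).symm, h2, fun i hi hk => h3 _ ((e i).1 hi) (σ.injective.ne hk)⟩⟩

theorem th_std (h : RS5 R) {x : Fin 5 → K} (hx : x ∈ R) {y : K} (hy : y * y - 3 * y + 1 = 0) (x0 : x 0 * x 0 = 1)
    (x1 : x 1 * x 1 = y) (x2 : x 2 * x 2 = 3 - y) (x3 : x 3 = 0) (x4 : x 4 = 0) : TH R {0, 1, 2} := by
  have n : ∀ a b : K, a * a = b → (b = 1 ∨ b * b - 3 * b + 1 = 0) → a ≠ 0 := by rintro a b rfl e rfl; simp at e
  have key : ∀ z ∈ R, ∀ k ∈ ({0, 1, 2} : Finset (Fin 5)), z 3 = 0 → z 4 = 0 → z k * z k = 1 →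
      (∀ i ∈ ({0, 1, 2} : Finset (Fin 5)), i ≠ k → z i * z i * (z i * z i) - 3 * (z i * z i) + 1 = 0) →
      ∃ x ∈ R, (∀ i, x i ≠ 0 ↔ i ∈ ({0, 1, 2} : Finset (Fin 5))) ∧ x k * x k = 1 ∧
        ∀ i ∈ ({0, 1, 2} : Finset (Fin 5)), i ≠ k → x i * x i * (x i * x i) - 3 * (x i * x i) + 1 = 0 :=
    fun z hz k hk z3 z4 h1 h2 => ⟨z, hz, fun i => ⟨fun e => by fin_cases i <;> simp_all, fun e => n _ _ rfl
      (by by_cases hi : i = k; exacts [Or.inl (hi ▸ h1), Or.inr (h2 i e hi)])⟩, h1, h2⟩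
  refine ⟨rfl, fun k hk => ?_⟩
  simp only [Finset.mem_insert, Finset.mem_singleton] at hk
  rcases hk with rfl | rfl | rfl
  · exact key x hx _ (by simp) x3 x4 x0 (by simp; grind)
  · exact key _ (h.refl_fr hx 2) _ (by simp) (by simp [x3]) (by simp [x4]) (by simp; grind) (by simp; grind)
  · exact key _ (h.refl_fr hx 1) _ (by simp) (by simp [x3]) (by simp [x4]) (by simp; grind) (by simp; grind)

variable [IsAlgClosed K]

theorem typ (h : RS5 R) (h2 : No2 R) {x : Fin 5 → K} (hx : x ∈ R) (hn : ∃ i j, i ≠ j ∧ x i ≠ 0 ∧ x j ≠ 0) :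
    (∃ j, x j = 0 ∧ (∀ i, i ≠ j → x i ≠ 0) ∧ TD R j) ∨ ∃ S, (∀ i, x i ≠ 0 ↔ i ∈ S) ∧ TH R S := by
  have n1 : ∀ i, x i * x i ≠ 2 := fun i => by simpa [two_ne_zero] using h2 _ (h.fr i) _ hx
  obtain ⟨σ, k | ⟨y, hy, k⟩ | k⟩ := types (s := fun i => x i * x i) (h.al1 hx hn)
    (fun i j hij => (h.al2 hx hij).resolve_right fun k => n1 i k.1) (Or.inr fun i j hij => ⟨n1 i, fun e =>
      h2 _ (h.fr j) _ (h.refl_fr hx i) (by simp [hij.symm]; field_simp; linear_combination e)⟩) (h.nrm x hx)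
    (hn.imp fun i => Exists.imp fun j k => ⟨k.1, mul_self_ne_zero.2 k.2.1, mul_self_ne_zero.2 k.2.2⟩)
  · have k1 : ∀ i, i ≠ σ 4 → x i * x i = 1 := fun i hi => by
      obtain ⟨i, rfl⟩ := σ.surjective i
      have := congrFun k i
      fin_cases i <;> simp_all
    have k2 : x (σ 4) = 0 := mul_self_eq_zero.1 (congrFun k 4)
    exact Or.inl ⟨σ 4, k2, fun i hi e => by simpa [e] using k1 i hi, x, hx, k2, k1⟩
  · have x3 : x (σ 3) = 0 := mul_self_eq_zero.1 (congrFun k 3)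
    have x4 : x (σ 4) = 0 := mul_self_eq_zero.1 (congrFun k 4)
    have t := ((h.perm σ).th_std (perm_mem hx σ) hy (congrFun k 0) (congrFun k 1) (congrFun k 2) x3 x4).perm σ.symm
      (S' := Finset.map σ.toEmbedding {0, 1, 2}) (by simp [Equiv.symm_apply_eq]) (by simp)
    refine Or.inr ⟨_, fun i => ?_, by simpa [Function.comp_assoc] using t⟩
    obtain ⟨i, rfl⟩ := σ.surjective i
    have := congrFun k i
    have : y ≠ 0 := by rintro rfl; simp at hy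
    have : 3 - y ≠ 0 := fun e => by grind
    fin_cases i <;> simp [x3, x4] <;> intro e <;> simp_all
  · exact (n1 _ (congrFun k 0)).elim

set_option synthInstance.maxSize 4096 in
theorem no2 (h : RS5 R) (h2 : No2 R) : False := by
  have ty : ∀ j, (∃ k, k ≠ j ∧ TD R k) ∨ ∃ S, j ∈ S ∧ TH R S := fun j => by
    obtain ⟨x, hx, h1, i, h3, h4⟩ := h.cov j
    exact (h.typ h2 hx ⟨i, j, h3, h4, h1⟩).imp (fun ⟨k, a, _, b⟩ => ⟨k, fun e => h1 (e ▸ a), b⟩)
      fun ⟨S, a, b⟩ => ⟨S, (a j).1 h1, b⟩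
  have nD : ∀ j, ¬ TD R j := fun j hj => by
    rcases ty j with ⟨k, hk, t⟩ | ⟨S, hS, t⟩
    · obtain ⟨σ, rfl, rfl⟩ := (by decide +kernel : ∀ j k : Fin 5, k ≠ j → ∃ σ : Equiv.Perm (Fin 5), σ 4 = j ∧ σ 0 = k)
        j k hk
      exact (h.perm σ).dd (h2.perm σ) (hj.perm σ) (t.perm σ)
    · obtain ⟨σ, rfl, e⟩ := (by decide +kernel : ∀ (j : Fin 5) (S : Finset (Fin 5)), S.card = 3 → j ∈ S →
        ∃ σ : Equiv.Perm (Fin 5), σ 4 = j ∧ ∀ i, i ∈ ({0, 1, 4} : Finset (Fin 5)) ↔ σ i ∈ S) j S t.1 hS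
      exact (h.perm σ).dh (h2.perm σ) (hj.perm σ) (t.perm σ e rfl)
  have nH : ∀ S S', TH R S → TH R S' → (S ∩ S').card ≠ 1 := fun S S' t t' hc => by
    obtain ⟨σ, e, e'⟩ := (by decide +kernel : ∀ S : Finset (Fin 5), S.card = 3 → ∀ S' : Finset (Fin 5), S'.card = 3 →
      (S ∩ S').card = 1 → ∃ σ : Equiv.Perm (Fin 5), (∀ i, i ∈ ({0, 1, 2} : Finset (Fin 5)) ↔ σ i ∈ S) ∧
      ∀ i, i ∈ ({0, 3, 4} : Finset (Fin 5)) ↔ σ i ∈ S') S t.1 S' t'.1 hc
    obtain ⟨x, hx, s, x0, -⟩ := (t.perm σ e rfl).2 0 (by simp)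
    obtain ⟨y, hy, s', y0, -⟩ := (t'.perm σ e' rfl).2 0 (by simp)
    have k := fun y hy => (h.perm σ).hh (h2.perm σ) hx (y := y) hy x0 ((s 1).2 (by simp)) (by simpa using (s 3).not)
      (by simpa using (s 4).not)
    have y1 : y 1 = 0 := by simpa using (s' 1).not
    have y2 : y 2 = 0 := by simpa using (s' 2).not
    have y3 : y 3 ≠ 0 := (s' 3).2 (by simp)
    rcases mul_self_eq_mul_self_iff.1 (y0.trans x0.symm) with e | e
    exacts [k y hy e y1 y2 y3, k _ ((h.perm σ).neg _ hy) (by simp [e]) (by simp [y1]) (by simp [y2]) (by simpa using y3)]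
  choose f hf using fun j => (ty j).resolve_left fun ⟨k, _, t⟩ => nD k t
  obtain ⟨l, m, hlm⟩ := (by decide +kernel : ∀ S : Finset (Fin 5), S.card = 3 → ∃ l m, ∀ i, i ∈ S ∨ i = l ∨ i = m) _
    (hf 0).2.1
  obtain ⟨a, b, c, d, e1, e2, e3, e4⟩ := (by decide +kernel : ∀ S : Finset (Fin 5), S.card = 3 →
      ∀ S' : Finset (Fin 5), S'.card = 3 → (S ∩ S').card ≠ 1 → ∀ S'' : Finset (Fin 5), S''.card = 3 →
      (S ∩ S'').card ≠ 1 → (S' ∩ S'').card ≠ 1 → (∀ i, i ∈ S ∨ i ∈ S' ∨ i ∈ S'') → ∃ a b c d, a ≠ b ∧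
      (∀ i, i ∈ S ∧ i ∈ S' ↔ i = a ∨ i = b) ∧ (c ∈ S ∧ c ∉ S' ∧ d ∉ S ∧ d ∈ S' ∧ c ≠ a ∧ d ≠ a) ∧
      ∀ U : Finset (Fin 5), U.card = 3 → c ∈ U → d ∈ U → (∀ i ∈ U, i ∈ S ∨ i ∈ S') → (U ∩ S'').card = 1)
    _ (hf 0).2.1 _ (hf l).2.1 (nH _ _ (hf 0).2 (hf l).2) _ (hf m).2.1 (nH _ _ (hf 0).2 (hf m).2)
    (nH _ _ (hf l).2 (hf m).2) fun i => (hlm i).imp_right (Or.imp (fun e => by rw [e]; exact (hf l).1) fun e => by rw [e]; exact (hf m).1)
  obtain ⟨x, hx, s, -⟩ := (hf 0).2.2 0 (hf 0).1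
  obtain ⟨y, hy, s', -⟩ := (hf l).2.2 l (hf l).1
  have key : ∀ y ∈ R, (∀ i, y i ≠ 0 ↔ i ∈ f l) → x ⬝ᵥ y = 0 := fun y hy s' => by
    by_contra k
    have hc : (y - (x ⬝ᵥ y / 2) • x) c ≠ 0 := by
      simp [of_not_not (mt (s' c).1 e3.2.1), k, (s c).2 e3.1, two_ne_zero]
    have hd : (y - (x ⬝ᵥ y / 2) • x) d ≠ 0 := by simp [of_not_not (mt (s d).1 e3.2.2.1), (s' d).2 e3.2.2.2.1]
    rcases h.typ h2 (h.refl _ hx _ hy) ⟨c, d, fun e => e3.2.1 (e ▸ e3.2.2.2.1), hc, hd⟩ with ⟨j, -, -, t⟩ | ⟨U, u, t⟩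
    · exact nD j t
    refine nH _ _ t (hf m).2 (e4 U t.1 ((u c).1 hc) ((u d).1 hd) fun i hi => ?_)
    by_contra! k
    exact (u i).2 hi (by simp [of_not_not (mt (s i).1 k.1), of_not_not (mt (s' i).1 k.2)])
  have ha := (e2 a).2 (Or.inl rfl)
  have := key _ (h.flip hy a) fun i => by
    rw [← s']
    by_cases hi : i = a
    · simp [hi, show y a - 2 * y a = -y a by ring]
    · simp [hi]
  simp [key y hy s', (s a).2 ha.1, (s' a).2 ha.2, two_ne_zero] at this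

theorem f4 (h : RS5 R) {c : K} (hc : c * c = 2) (h1 : ![c, c, 0, 0, 0] ∈ R) (h2 : ![c, 0, c, 0, 0] ∈ R)
    (h3 : ![0, 0, c, c, 0] ∈ R) (h4 : ![1, 1, 1, 1, 0] ∈ R) : False := by
  have two : (2 : K) ≠ 0 := two_ne_zero
  have four : (4 : K) ≠ 0 := four_ne
  have c0 : c ≠ 0 := by rintro rfl; simp at hc; exact two hc.symm
  have h5 : ![0, c, c, 0, 0] ∈ R := h.sgn (h.refl _ h1 _ h2) fun i => by fin_cases i <;> simp [dot5, hc, two]
  have h6 : ![c, 0, 0, c, 0] ∈ R := h.sgn (h.refl _ h3 _ h2) fun i => by fin_cases i <;> simp [dot5, hc, two]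
  have h7 : ![0, c, 0, c, 0] ∈ R := h.sgn (h.refl _ h3 _ h5) fun i => by fin_cases i <;> simp [dot5, hc, two]
  by_cases h8 : (3 : K) = 0
  · obtain ⟨α, μ, e⟩ := h.nine h8 ![c, -c, 0, 0, 0] (-Pi.single 3 2) ![-c, -c, -c, 0, 0] (-c⁻¹)
      (h.sgn h1 fun i => by fin_cases i <;> simp)
      (h.sgn h5 fun i => by fin_cases i <;> simp; linear_combination c * c * h8) (h.neg _ (h.fr _))
      (by convert h4 using 1; ext i; fin_cases i <;> simp [c0]; linear_combination -h8)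
      (fun e => by simpa [c0] using congrFun e 0) (by simpa using c0) (by simp [dot5]; linear_combination c * c * h8)
      (by simp [dot5]) (by simp)
    simpa [two] using congrFun e 3
  obtain ⟨x, hx, x4, i0, hi0, xi0⟩ := h.cov 4
  have a1 := h.al1 hx ⟨i0, 4, hi0, xi0, x4⟩
  have ne : ∀ y ∈ R, y 4 = 0 → Al' (y ⬝ᵥ x / 2 * (y ⬝ᵥ x / 2)) := fun y hy e =>
    ((h.gram _ hy _ hx).resolve_left fun k => x4 (k ▸ e)).resolve_left fun k => x4 (by simp [k, e])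
  have a2 : ∀ i j, i ≠ j → i ≠ 4 → j ≠ 4 → Al' (x i * x i * (x j * x j)) := fun i j hij hi hj =>
    (h.al2 hx hij).resolve_right fun k => x4 (k.2 4 hi.symm hj.symm)
  obtain ⟨j, xj⟩ : ∃ j, x j = 0 := by
    by_contra! k
    obtain ⟨σ, e | ⟨y, -, e⟩ | e⟩ := types (s := fun i => x i * x i) a1 (fun i j hij => (h.al2 hx hij).resolve_right
      fun e => by
        obtain ⟨l, h1, h2⟩ := (by decide : ∀ i j : Fin 5, ∃ l, l ≠ i ∧ l ≠ j) i j
        exact k l (e.2 l h1 h2)) (Or.inl h8) (h.nrm x hx) ⟨i0, 4, hi0, mul_self_ne_zero.2 xi0, mul_self_ne_zero.2 x4⟩ <;>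
      exact k _ (mul_self_eq_zero.1 (congrFun e 4))
  have hj : j ≠ 4 := fun e => x4 (e ▸ xj)
  have s2 : ∀ i, i ≠ 4 → x i ≠ 0 → x i * x i = 2 := fun i hi xi => by
    have : Al' (c * x i / 2 * (c * x i / 2)) := by
      have := ne _ h1 rfl; have := ne _ h2 rfl; have := ne _ h3 rfl; have := ne _ h5 rfl; have := ne _ h6 rfl
      have := ne _ h7 rfl
      simp only [dot5] at *
      fin_cases i <;> fin_cases j <;> simp_all
    exact half_al h8 this.1 (a1 i) (mul_self_ne_zero.2 xi) (by field_simp; linear_combination hc)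
  have s3 : ∀ i, i ≠ 4 → i ≠ i0 → x i = 0 := fun i hi hi' => by_contra fun e =>
    h8 ((a2 i i0 hi' hi hi0).2 (by rw [s2 i hi e, s2 i0 hi0 xi0]; norm_num))
  have : Al' (x i0 / 2 * (x i0 / 2)) := by
    have := ne _ h4 rfl
    rw [dot5] at this
    have := s3 0; have := s3 1; have := s3 2; have := s3 3
    fin_cases i0 <;> simp_all
  obtain ⟨k1, -⟩ := this
  have := s2 i0 hi0 xi0
  unfold Al at k1
  generalize x i0 = s at *
  grind

end RS5

end Cfsg.Agent.H2.Mi
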