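import Cfsg.Agent.H2.MiQ
import Cfsg.Agent.MH.Grp

/-!
Root systems of type `A` inside `V` and overgroups.
-/

set_option autoImplicit false

namespace Cfsg.Agent.H2.Mi

open Matrix Cfsg.Agent.H1.Mit

variable {T K : Type*} [Group T] [Field K] {ρ : SRep T K} {ι : Type*} [DecidableEq ι]

/-- the inner product of `e a - e b` and `e c - e d` -/
def dl (K : Type*) [Field K] (a b c d : ι) : K :=
  (if a = c then 1 else 0) - (if a = d then 1 else 0) - (if b = c then 1 else 0) + (if b = d then 1 else 0)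

/-- the differences form a root system of type `A` -/
structure DS (e : ι → M4 K) (κ : K) : Prop where
  ne : κ ≠ 0
  ad : ∀ i j, ad (e i - e j) = e i - e j
  cl : ∀ a b c d, (e a - e b) * (e c - e d) + (e c - e d) * (e a - e b) = (κ * dl K a b c d) • 1

/-- symplectic matrices permuting the roots -/
def InA (e : ι → M4 K) (g : M4 K) : Prop :=
  Sp g ∧ ∃ (σ : Equiv.Perm ι) (ε : K), ε * ε = 1 ∧ ∀ a b, g * (e a - e b) = ε • ((e (σ a) - e (σ b)) * g)

theorem ad_swap {Z d d' : M4 K} (hZ : Sp Z) (h : Z * d = d' * Z) : ad Z * d' = d * ad Z := by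
  rw [← one_mul d, ← hZ.left, mul_assoc (ad Z), h, mul_assoc, mul_assoc, hZ.right, mul_one]

variable [NeZero (2 : K)] {e : ι → M4 K} {κ : K}

namespace DS

theorem sq (h : DS e κ) {i j : ι} (hij : i ≠ j) : (e i - e j) * (e i - e j) = κ • 1 :=
  half (by rw [h.cl, ← add_smul]; simp [dl, hij, hij.symm, mul_add])

theorem refl (h : DS e κ) {i j : ι} (hij : i ≠ j) (a b : ι) :
    (e i - e j) * (e a - e b) = -((e (Equiv.swap i j a) - e (Equiv.swap i j b)) * (e i - e j)) := by
  have k : ∀ a, e (Equiv.swap i j a) = e a - ((if i = a then 1 else 0) - (if j = a then 1 else 0) : K) • (e i - e j) :=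
    fun a => by
      by_cases h1 : i = a
      · simp [← h1, hij.symm]
      by_cases h2 : j = a
      · simp [← h2, hij]
      · simp [h1, h2, Equiv.swap_apply_of_ne_of_ne (Ne.symm h1) (Ne.symm h2)]
  have hs := h.sq hij
  rw [eq_sub_of_add_eq (h.cl i j a b), k, k]
  generalize e i - e j = d at hs
  simp only [sub_mul _ _ d, Matrix.smul_mul, hs, smul_smul, dl]
  module

theorem tr_even (h : DS e κ) (m : ℕ) : ∀ l : List (M4 K), l.length = 2 * m → (∀ d ∈ l, ∃ i j, d = e i - e j) →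
    l.prod.trace / κ ^ m ∈ (⊥ : Subfield K) := by
  induction m with
  | zero =>
    intro l hl _
    rw [List.length_eq_zero_iff.1 hl]
    simpa using natCast_mem (⊥ : Subfield K) 4
  | succ m ih =>
    have aux : ∀ (a b : ι) (l2 l1 : List (M4 K)), l1.length + l2.length = 2 * m + 1 → (∀ d ∈ l1, ∃ i j, d = e i - e j) →
        (∀ d ∈ l2, ∃ i j, d = e i - e j) → ((l1.prod * (e a - e b) * l2.prod).trace -
        (-1) ^ l2.length * (l1.prod * l2.prod * (e a - e b)).trace) / κ ^ (m + 1) ∈ (⊥ : Subfield K) := fun a b l2 => by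
      induction l2 with
      | nil => intro l1 _ _ _; simp
      | cons v l2 ih2 =>
        intro l1 hl h1 h2
        obtain ⟨c, d, rfl⟩ := h2 v (by simp)
        have k1 := ih2 (l1 ++ [e c - e d]) (by simp at hl ⊢; omega) (fun x hx => by
          rcases List.mem_append.1 hx with hx | hx
          exacts [h1 x hx, ⟨c, d, by simpa using hx⟩]) fun x hx => h2 x (by simp [hx])
        have k2 := ih (l1 ++ l2) (by simp at hl ⊢; omega) fun x hx => by
          rcases List.mem_append.1 hx with hx | hx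
          exacts [h1 x hx, h2 x (by simp [hx])]
        have k3 : dl K a b c d ∈ (⊥ : Subfield K) := by
          unfold dl; split_ifs <;> simp [add_mem, sub_mem, one_mem]
        convert sub_mem (mul_mem k3 k2) k1 using 1
        have := h.ne
        simp only [List.prod_cons, List.prod_append, List.prod_nil, mul_one, List.length_cons, mul_assoc]
        rw [← mul_assoc (e a - e b), eq_sub_of_add_eq (h.cl a b c d), sub_mul, mul_sub, trace_sub]
        simp only [Matrix.smul_mul, Matrix.mul_smul, one_mul, trace_smul, smul_eq_mul, mul_assoc]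
        field_simp
        ring
    rintro (_ | ⟨w, l⟩) hl h1
    · simp at hl
    obtain ⟨a, b, rfl⟩ := h1 w (by simp)
    have hl' : l.length = 2 * m + 1 := by simp at hl; omega
    have := aux a b l [] (by simp [hl']) (by simp) fun x hx => h1 x (by simp [hx])
    convert div_mem this (natCast_mem (⊥ : Subfield K) 2) using 1
    simp only [List.prod_cons, List.prod_nil, one_mul, hl', pow_succ (-1 : K), pow_mul, trace_mul_comm l.prod]
    field_simp
    push_cast
    ring

theorem exists_even [Fintype ι] (h : DS e κ) {σ : Equiv.Perm ι} (hσ : σ ∈ alternatingGroup ι) :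
    ∃ Z, Sp Z ∧ (∀ a b, Z * (e a - e b) = (e (σ a) - e (σ b)) * Z) ∧ Z.trace ∈ (⊥ : Subfield K) := by
  have key : ∀ l : List (Equiv.Perm ι), (∀ s ∈ l, s.IsSwap) → ∃ u : List (M4 K), u.length = l.length ∧
      (∀ d ∈ u, ∃ i j, d = e i - e j) ∧ H1.Mit.ad u.prod * u.prod = κ ^ l.length • 1 ∧
      ∀ a b, u.prod * (e a - e b) = (-1 : K) ^ l.length • ((e (l.prod a) - e (l.prod b)) * u.prod) := fun l => by
    induction l with
    | nil => exact fun _ => ⟨[], by simp⟩
    | cons s l ih =>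
      intro hl
      obtain ⟨i, j, hij, rfl⟩ := hl s (by simp)
      obtain ⟨u, h1, h2, h3, h4⟩ := ih fun s hs => hl s (by simp [hs])
      refine ⟨(e i - e j) :: u, by simp [h1], fun d hd => (List.mem_cons.1 hd).elim (fun k => ⟨i, j, k⟩) (h2 d), ?_,
        fun a b => ?_⟩
      · rw [List.prod_cons, ad_mul, h.ad, mul_assoc, ← mul_assoc (e i - e j), h.sq hij, Matrix.smul_mul, one_mul,
          Matrix.mul_smul, h3, smul_smul, List.length_cons, pow_succ']
      · rw [List.prod_cons, mul_assoc, h4, Matrix.mul_smul, ← mul_assoc, h.refl hij]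
        simp [pow_succ, mul_assoc]
  obtain ⟨l, rfl, hl⟩ := (Equiv.Perm.truncSwapFactors σ).out
  obtain ⟨m, hm⟩ := (Equiv.Perm.prod_list_swap_mem_alternatingGroup_iff_even_length hl).1 hσ
  obtain ⟨u, h1, h2, h3, h4⟩ := key l hl
  have := h.ne
  refine ⟨(κ ^ m)⁻¹ • u.prod, ?_, fun a b => ?_, ?_⟩
  · rw [Sp, ad_smul, Matrix.smul_mul, Matrix.mul_smul, h3, smul_smul, smul_smul, hm, pow_add]
    field_simp; simp
  · rw [Matrix.smul_mul, h4, hm, ← two_mul, pow_mul]; simp
  · simpa [div_eq_inv_mul] using h.tr_even m u (by omega) h2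

theorem bt_eq (h : DS e κ) (a b c d : ι) : bt (e a - e b) (e c - e d) = κ * dl K a b c d := bt_of (h.cl a b c d)

theorem eq_of (h : DS e κ) (h3 : (3 : K) ≠ 0) {a b c d : ι} (hab : a ≠ b) {ε : K} (hε : ε * ε = 1)
    (k : bt (ε • (e c - e d)) (e a - e b) = bt (e a - e b) (e a - e b)) : (ε = 1 ∧ c = a ∧ d = b) ∨ (ε = -1 ∧ c = b ∧ d = a) := by
  rw [bt_smul_left, h.bt_eq, h.bt_eq, mul_left_comm, mul_right_inj' h.ne] at k
  have two : (2 : K) ≠ 0 := two_ne_zero
  have four : (4 : K) ≠ 0 := four_ne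
  unfold dl at k
  rcases mul_self_eq_one_iff.1 hε with rfl | rfl <;> split_ifs at k <;> grind

end DS

theorem trIn_of_model {T K : Type*} [Group T] [Field K] [Finite K] {ρ : SRep T K} (h : ρ.Hyp) {n : ℕ} (e : Fin n → M4 K)
    (κ : K) (hκ : κ ≠ 0) (hW : ∀ i j, ad (e i - e j) = e i - e j)
    (hβ : ∀ a b c d, (e a - e b) * (e c - e d) + (e c - e d) * (e a - e b) = (κ * ((if a = c then 1 else 0) -
      (if a = d then 1 else 0) - (if b = c then 1 else 0) + (if b = d then 1 else 0))) • 1)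
    (hact : ∀ x X, ρ.L x X → ∃ σ ∈ alternatingGroup (Fin n), ∀ a b, X * (e a - e b) = (e (σ a) - e (σ b)) * X)
    (hcen : ∀ Z, Sp Z → (∀ a b, Z * (e a - e b) = (e a - e b) * Z) → Z = 1 ∨ Z = -1) : ρ.TrIn ⊥ := fun x X hX => by
  have : NeZero (2 : K) := ⟨h.two⟩
  obtain ⟨σ, hσ, k⟩ := hact x X hX
  obtain ⟨Z, hZ, k1, k2⟩ := (DS.mk hκ hW hβ).exists_even hσ
  have e1 : X = Z * (ad Z * X) := by rw [← mul_assoc, hZ.right, one_mul]
  rcases hcen (ad Z * X) (hZ.inv.mul hX.sp) fun a b => by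
    rw [mul_assoc, k, ← mul_assoc, ad_swap hZ (k1 a b), mul_assoc] with k3 | k3 <;> rw [e1, k3]
  · simpa using k2
  · simpa using k2

/-- transvections -/
def tau (v : V4 K) : M4 K := 1 + vecMulVec v ![v 3, v 2, -v 1, -v 0]

omit [NeZero (2 : K)] in
theorem sp_tau (v : V4 K) : Sp (tau v) := by
  rw [Sp, ad_eq]; ext i j; fin_cases i <;> fin_cases j <;> simp [tau, Matrix.mul_apply, Fin.sum_univ_four, vecMulVec] <;> ring

theorem bt_tau (v : V4 K) {d : M4 K} (hd : IsV d) : bt (tau v * d * ad (tau v)) d = bt d d := by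
  rw [hd.eq, ad_eq]
  simp only [bt, Matrix.add_apply, Matrix.mul_apply, Fin.sum_univ_four]
  simp [tau, vv, vecMulVec]; ring

theorem tau_comm {d : M4 K} (hd : IsV d) (h : ∀ v, tau v * d = d * tau v) : d = 0 := by
  have h1 := h ![1, 0, 0, 0]
  have h2 := h ![0, 0, 0, 1]
  have h3 := h ![1, 1, 0, 0]
  rw [hd.eq] at h1 h2 h3 ⊢
  have e1 := congrFun (congrFun h1 0) 1
  have e2 := congrFun (congrFun h1 0) 2
  have e3 := congrFun (congrFun h2 3) 1
  have e4 := congrFun (congrFun h2 3) 2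
  have e5 := congrFun (congrFun h3 0) 2
  simp [tau, vv, Matrix.mul_apply, Fin.sum_univ_four, vecMulVec] at e1 e2 e3 e4 e5
  have : d 0 0 = 0 := (mul_eq_zero.1 (by linear_combination e5 + e2 - e3 : 2 * d 0 0 = 0)).resolve_left two_ne_zero
  rw [e1, e2, e3, e4, this]; unfold vv; mat4

theorem notMax_RS [Fintype ι] [Finite T] (h : ρ.Hyp) (h3 : (3 : K) ≠ 0) (hι : 5 ≤ Nat.card ι) (hd : DS e κ)
    (hV : ∀ a b, IsV (e a - e b)) (φ : T →* Equiv.Perm ι)
    (hφ : ∀ x X, ρ.L x X → ∀ a b, X * (e a - e b) = (e (φ x a) - e (φ x b)) * X) (hN : ∀ g, ρ.Nrm g → InA e g)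
    (hc : 2 * Nat.card T ≠ (Nat.card ι).factorial) : ρ.NotMax := by
  have : Nontrivial ι := Finite.one_lt_card_iff_nontrivial.1 (by omega)
  obtain ⟨a, b, hab⟩ := exists_pair_ne ι
  have n0 : e a - e b ≠ 0 := fun k => hd.ne (by simpa [k] using congrFun (congrFun (hd.sq hab) 0) 0 |>.symm)
  refine ⟨⟨⟨{g | InA e g}, ?_⟩, Sp.one, 1, 1, by simp⟩, ?_, hN, ?_, ?_⟩
  · rintro g g' ⟨h1, σ, ε, h2, h3⟩ ⟨h1', σ', ε', h2', h3'⟩
    exact ⟨h1.mul h1', σ * σ', ε' * ε, by linear_combination ε * ε * h2' + h2, fun a b => by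
      rw [mul_assoc, h3', Matrix.mul_smul, ← mul_assoc, h3]; simp [smul_smul, mul_assoc]⟩
  · rintro g ⟨h1, σ, ε, h2, h3⟩
    refine ⟨h1, h1.inv, σ⁻¹, ε, h2, fun a b => ?_⟩
    have := ad_swap h1 ((h3 (σ⁻¹ a) (σ⁻¹ b)).trans (Matrix.smul_mul _ _ _).symm)
    rw [← this]; simp [smul_smul, h2]
  · by_contra! k
    have hle : ∀ x, φ x ∈ alternatingGroup ι := fun x => MH.hom_eq_one h.perf (Equiv.Perm.sign.comp φ) x
    have hn : (φ.range.subgroupOf (alternatingGroup ι)).Normal := ⟨by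
      rintro ⟨_, -⟩ ⟨x, rfl⟩ ⟨σ, hσ⟩
      obtain ⟨Z, hZ, k1, -⟩ := hd.exists_even hσ
      obtain ⟨X, hX⟩ := ρ.exL x
      obtain ⟨y, hy⟩ := (k Z ⟨hZ, σ, 1, by simp, by simpa using k1⟩).2 x X hX
      refine ⟨y, Equiv.ext fun a => ?_⟩
      obtain ⟨b, hb⟩ := exists_ne a
      have e1 := hφ y _ hy a b
      have e2 := ad_swap hZ (k1 (σ⁻¹ a) (σ⁻¹ b))
      simp only [Equiv.Perm.coe_inv, Equiv.apply_symm_apply] at e2
      rw [mul_assoc, e2, ← mul_assoc, mul_assoc Z, hφ x X hX, ← mul_assoc, k1, mul_assoc, mul_assoc, ← mul_assoc Z] at e1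
      have e3 := congrArg (· * ad (Z * X * ad Z)) e1
      simp only [mul_assoc _ (Z * X * ad Z), hy.sp.right, mul_one] at e3
      exact ((hd.eq_of h3 ((φ y).injective.ne hb.symm) (ε := 1) (by simp) (by rw [one_smul]; exact congrArg (bt · _) e3)).resolve_right
        fun k => two_ne_zero (α := K) (by linear_combination k.1)).2.1.symm⟩
    have := h.simple
    have nt : φ.ker ≠ ⊤ := fun k => by
      obtain ⟨c, hc⟩ := h.scalar (Z := e a - e b) fun x X hX => by
        rw [hφ x X hX, (show φ x = 1 from (k ▸ Subgroup.mem_top x : x ∈ φ.ker))]; rfl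
      exact n0 ((hV a b).eq_smul_one hc)
    rcases alternatingGroup.normal_subgroup_eq_bot_or_eq_top hι (N := φ.range.subgroupOf (alternatingGroup ι)) with k | k
    · refine nt (eq_top_iff.2 fun x _ => ?_)
      have : (⟨φ x, hle x⟩ : alternatingGroup ι) ∈ φ.range.subgroupOf (alternatingGroup ι) := ⟨x, rfl⟩
      rw [k] at this
      exact congrArg Subtype.val (Subgroup.mem_bot.1 this)
    · have e1 : φ.range = alternatingGroup ι :=
        le_antisymm (by rintro _ ⟨x, rfl⟩; exact hle x) (Subgroup.subgroupOf_eq_top.1 k)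
      refine hc ?_
      rw [Nat.card_congr (MonoidHom.ofInjective ((MonoidHom.ker_eq_bot_iff φ).1
        (φ.normal_ker.eq_bot_or_eq_top.resolve_right nt))).toEquiv, e1, two_mul_nat_card_alternatingGroup, Nat.card_perm]
  · by_contra! k
    refine n0 (tau_comm (hV a b) fun v => ?_)
    obtain ⟨h1, σ, ε, h2, h4⟩ := k _ (sp_tau v)
    have := bt_tau v (hV a b)
    rw [h4, ← Matrix.smul_mul, mul_assoc, h1.right, mul_one] at this
    rw [h4]
    rcases hd.eq_of h3 hab h2 this with ⟨rfl, k1, k2⟩ | ⟨rfl, k1, k2⟩ <;> rw [k1, k2] <;> simp [sub_mul]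

theorem rot_fix' {X : M4 K} (hX : Sp X) {c : K} (h : X + ad X = c • 1) (hc : c * c ≠ 4) :
    ∃ p q, ∀ v, IsV v → bt v p = 0 → bt v q = 0 → X * v = v * X := by
  obtain ⟨j, hj⟩ : ∃ j, j = X - ad X := ⟨_, rfl⟩
  have j1 : ad j = -j := by simp [hj]
  have j2 : j * j = (c * c - 4) • 1 := by
    have : j * j = (X + ad X) * (X + ad X) - (4 : K) • 1 := by
      simp only [hj, mul_add, add_mul, mul_sub, sub_mul, hX.left, hX.right]; module
    rw [this, h]; simp [sub_smul, smul_smul]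
  have j3 : ∀ x, j * (j * x) = (c * c - 4) • x := fun x => by rw [← mul_assoc, j2]; simp
  have fin : ∀ v, j * v = v * j → X * v = v * X := fun v k => by
    have e : X + X = c • 1 + j := by rw [← h, hj]; abel
    exact half (by rw [← add_mul, ← mul_add, e, add_mul, mul_add, k]; simp)
  by_cases k : ∃ u, IsV u ∧ u * j = -(j * u) ∧ bt u u ≠ 0
  · obtain ⟨u, u1, u2, u0⟩ := k
    have u3 : IsV (j * u) := ⟨by simp [u1.ad, j1, u2], by
      have := congrArg trace u2
      rw [trace_neg, trace_mul_comm] at this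
      exact (mul_eq_zero.1 (by linear_combination this : 2 * (j * u).trace = 0)).resolve_left two_ne_zero⟩
    refine ⟨u, j * u, fun v hv h1 h2 => fin v (smul_right_injective _ (div_ne_zero u0 two_ne_zero) ?_)⟩
    have e : j * u * u = (bt u u / 2) • j := by rw [mul_assoc, u1.sq]; simp
    simp only [← Matrix.smul_mul, ← Matrix.mul_smul v, ← e]
    rw [← mul_assoc, hv.anti u3 h2, neg_mul, mul_assoc _ v, hv.anti u1 h1, mul_neg, neg_neg, mul_assoc]
  push Not at k
  refine ⟨0, 0, fun v hv _ _ => fin v (sub_eq_zero.1 (by_contra fun u0 => ?_))⟩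
  have u1 : IsV (j * v - v * j) := ⟨by simp [hv.ad, j1]; abel, by rw [trace_sub, trace_mul_comm, sub_self]⟩
  have u2 : (j * v - v * j) * j = -(j * (j * v - v * j)) := by simp [mul_sub, sub_mul, mul_assoc, j2, j3]
  generalize j * v - v * j = u at u0 u1 u2
  obtain ⟨z, hz, e⟩ := u1.dual u0
  have z1 : IsV ((c * c - 4) • z - j * z * j) := (hz.smul _).sub ⟨by simp [hz.ad, j1, mul_assoc], by
    rw [trace_mul_comm, ← mul_assoc, j2]; simp [hz.tr]⟩
  have z2 : ((c * c - 4) • z - j * z * j) * j = -(j * ((c * c - 4) • z - j * z * j)) := by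
    simp [mul_sub, sub_mul, mul_assoc, j2, j3]
  have z3 : bt u ((c * c - 4) • z - j * z * j) = 2 * (c * c - 4) := bt_of (by
    have : u * (j * z * j) + j * z * j * u = -(j * (u * z + z * u) * j) := by
      linear_combination (norm := noncomm_ring) u2 * z * j + j * z * u2
    rw [mul_sub, sub_mul, sub_add_sub_comm, this, Matrix.mul_smul, Matrix.smul_mul, ← smul_add, e, mul_one, j2]; module)
  have := k _ (u1.add z1) (by rw [add_mul, u2, z2, mul_add, neg_add])
  rw [bt_add_left, bt_add_right, bt_add_right, k u u1 u2, k _ z1 z2, bt_comm _ u, z3] at this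
  exact mul_ne_zero (four_ne (K := K)) (sub_ne_zero.2 hc) (by linear_combination this)

theorem fix_rot {X X' : M4 K} (hX : Sp X) (hX' : Sp X') {c c' : K} (h : X + ad X = c • 1) (hc : c * c ≠ 4)
    (h' : X' + ad X' = c' • 1) (hc' : c' * c' ≠ 4) : ∃ y, IsV y ∧ y ≠ 0 ∧ X * y = y * X ∧ X' * y = y * X' := by
  obtain ⟨a, b, hab⟩ := rot_fix' hX h hc
  obtain ⟨a', b', hab'⟩ := rot_fix' hX' h' hc'
  obtain ⟨y, hy, h0, h1, h2, h3, h4⟩ := exists_perp a b a' b'
  exact ⟨y, hy, h0, hab y hy h1 h2, hab' y hy h3 h4⟩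

theorem ts_zero (h : ρ.Hyp) {S : Set (M4 K)} (hf : S.Finite) (h1 : ∀ a ∈ S, ∀ b ∈ S, a * b = -(b * a))
    (h2 : ∀ x X, ρ.L x X → ∀ a ∈ S, act X a ∈ S) : ∀ a ∈ S, a = 0 := by
  have key : ∀ s : Set (M4 K), s.Finite → s ⊆ S → ∃ v : V4 K, v ≠ 0 ∧ ∀ a ∈ s, a *ᵥ v = 0 := fun s hs => by
    induction s, hs using Set.Finite.induction_on with
    | empty => exact fun _ => ⟨1, one_ne_zero, by simp⟩
    | @insert a s _ _ ih =>
      intro k
      have ha := k (Set.mem_insert a s)
      obtain ⟨v, h0, hv⟩ := ih fun x hx => k (Set.mem_insert_of_mem _ hx)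
      by_cases e : a *ᵥ v = 0
      · exact ⟨v, h0, by simpa [e] using hv⟩
      refine ⟨_, e, fun b hb => ?_⟩
      rcases hb with rfl | hb
      · rw [mulVec_mulVec, half (A := b * b) (B := 0) (by rw [add_zero]; exact add_eq_zero_iff_eq_neg.2 (h1 b ha b ha)), zero_mulVec]
      · rw [mulVec_mulVec, h1 b (k (Set.mem_insert_of_mem _ hb)) a ha, neg_mulVec, ← mulVec_mulVec, hv b hb]; simp
  obtain ⟨v, h0, hv⟩ := key S hf le_rfl
  let U : Submodule K (V4 K) := ⨅ a ∈ S, LinearMap.ker (mulVecLin a)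
  have hU : ∀ w, w ∈ U ↔ ∀ a ∈ S, a *ᵥ w = 0 := fun w => by simp [U]
  rcases h.irr U fun x X hX w hw => (hU _).2 fun a ha => by
    have := congrArg (X *ᵥ ·) ((hU w).1 hw _ (h2 _ _ hX.inv a ha))
    simpa [act, mulVec_mulVec, ← mul_assoc, hX.sp.right] using this with k | k
  · exact (h0 (by simpa [k] using (hU v).2 hv)).elim
  · exact fun a ha => Matrix.ext_iff_mulVec.2 fun w => by simpa using (hU w).1 (k ▸ Submodule.mem_top) a ha

theorem span5 {d : Fin 5 → M4 K} (hd : ∀ i, IsV (d i)) (h3 : (3 : K) ≠ 0) (hκ : κ ≠ 0)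
    (h : ∀ i j, bt (d i) (d j) = κ * ((if i = j then 1 else 0) + 1)) {v : M4 K} (hv : IsV v) (h0 : ∀ i, bt v (d i) = 0) :
    v = 0 := by
  let f : (Fin 5 → K) →ₗ[K] (Fin 5 → K) :=
    { toFun := fun u i => bt (vv (u 0) (u 1) (u 2) (u 3) (u 4)) (d i)
      map_add' := fun u v => funext fun i => by
        simp only [Pi.add_apply]; rw [(hd i).eq]; simp only [bt_vv]; ring
      map_smul' := fun u v => funext fun i => by
        simp only [Pi.smul_apply]; rw [(hd i).eq]; simp [bt_vv]; ring }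
  have hf : ∀ w, IsV w → f ![w 0 0, w 0 1, w 0 2, w 1 0, w 2 0] = fun i => bt w (d i) := fun w hw => by
    conv_rhs => rw [hw.eq]
    rfl
  have h6 : (6 : K) ≠ 0 := by rw [show (6 : K) = 2 * 3 by norm_num]; exact mul_ne_zero two_ne_zero h3
  have := LinearMap.injective_iff_surjective.2 (show Function.Surjective f from fun t => by
    let a : Fin 5 → K := fun i => (t i - (t 0 + t 1 + t 2 + t 3 + t 4) / 6) / κ
    refine ⟨_, (hf (a 0 • d 0 + a 1 • d 1 + a 2 • d 2 + a 3 • d 3 + a 4 • d 4) ((((((hd 0).smul _).add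
      ((hd 1).smul _)).add ((hd 2).smul _)).add ((hd 3).smul _)).add ((hd 4).smul _))).trans (funext fun i => ?_)⟩
    fin_cases i <;> simp [h, a] <;> field_simp <;> ring)
  have e := this ((hf v hv).trans ((funext h0).trans (map_zero f).symm))
  rw [hv.eq, show v 0 0 = 0 from congrFun e 0, show v 0 1 = 0 from congrFun e 1, show v 0 2 = 0 from congrFun e 2,
    show v 1 0 = 0 from congrFun e 3, show v 2 0 = 0 from congrFun e 4]
  unfold vv; mat4

end Cfsg.Agent.H2.Mi
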