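import Cfsg.Agent.H5.MH12

/-!
Consequences of Dickson's theorem for finite subgroups of `PGL₂` with small unipotent part.
-/

set_option autoImplicit false

namespace Cfsg.Agent.H2.Mi

open Cfsg.Agent.H4 Cfsg.Agent.H4.Bar Cfsg.Agent.H4.Mob Cfsg.Agent.H4.Dick Cfsg.Agent.H4.Pair MulAction

/-- dihedral-like groups -/
def Dih (M : Type*) [Group M] : Prop := ∀ a b : M, a * a ≠ 1 → b * b ≠ 1 → a * b = b * a

/-- properties of `A₄`, `S₄`, `A₅` -/
structure Exc (M : Type*) [Group M] : Prop where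
  pow : ∀ a : M, a ^ 2 = 1 ∨ a ^ 3 = 1 ∨ a ^ 4 = 1 ∨ a ^ 5 = 1
  sq : ∀ a b : M, a ^ 4 = 1 → b ^ 4 = 1 → a ^ 2 * b ^ 2 = b ^ 2 * a ^ 2 ∨ a ^ 2 = 1 ∨ b ^ 2 = 1
  inv : ∃ a : M, a ≠ 1 ∧ a * a = 1
  nrm : ∀ a : M, (∀ g, a * (g * a * g⁻¹) = g * a * g⁻¹ * a) → a * a = 1

/-- the normaliser of a group of translations induces at most `±1` -/
def T2 (p : ℕ) (M : Type*) [Group M] : Prop :=
  ∀ u h : M, u ^ p = 1 → u ≠ 1 → u * (h * u * h⁻¹) = h * u * h⁻¹ * u → h * h * u = u * (h * h)

section
variable {M N : Type*} [Group M] [Group N]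

theorem Dih.congr (h : Dih N) (e : M ≃* N) : Dih M := fun a b ha hb => e.injective (by
  rw [map_mul, map_mul]
  exact h _ _ (fun k => ha (e.injective (by rw [map_mul, k, map_one]))) fun k => hb (e.injective (by
    rw [map_mul, k, map_one])))

theorem Exc.congr (h : Exc N) (e : M ≃* N) : Exc M where
  pow a := by simpa only [← map_pow, EmbeddingLike.map_eq_one_iff] using h.pow (e a)
  sq a b ha hb := by
    simpa only [← map_pow, ← map_mul, EmbeddingLike.map_eq_one_iff, EmbeddingLike.apply_eq_iff_eq] using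
      h.sq (e a) (e b) (by rw [← map_pow, ha, map_one]) (by rw [← map_pow, hb, map_one])
  inv := h.inv.elim fun a ha => ⟨e.symm a, by simpa using ha.1, by rw [← map_mul, ha.2, map_one]⟩
  nrm a ha := e.injective (by
    rw [map_mul, map_one]
    refine h.nrm _ fun g => ?_
    obtain ⟨g, rfl⟩ := e.surjective g
    simpa using congrArg e (ha g))

theorem T2.congr {p : ℕ} (h : T2 p N) (e : M ≃* N) : T2 p M := fun u g h1 h2 h3 => e.injective (by
  simp only [map_mul]
  exact h _ _ (by rw [← map_pow, h1, map_one]) (by simpa using h2) (by simpa using congrArg e h3))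

theorem nine_dvd [Finite M] {u v : M} (hu : u ^ 3 = 1) (hv : v ^ 3 = 1) (h1 : u ≠ 1) (h : u * v = v * u) (h2 : v ≠ 1)
    (h3 : v ≠ u) (h4 : v ≠ u⁻¹) : 9 ∣ Nat.card M := by
  classical
  have : Fact (Nat.Prime 3) := ⟨Nat.prime_three⟩
  have ou : Nat.card (Subgroup.zpowers u) = 3 := by rw [Nat.card_zpowers, orderOf_eq_prime hu h1]
  have ov : Nat.card (Subgroup.zpowers v) = 3 := by rw [Nat.card_zpowers, orderOf_eq_prime hv h2]
  have hc : ∀ (a : Subgroup.zpowers u) (b : Subgroup.zpowers v),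
      Commute ((Subgroup.zpowers u).subtype a) ((Subgroup.zpowers v).subtype b) := by
    rintro ⟨_, i, rfl⟩ ⟨_, j, rfl⟩
    exact Commute.zpow_zpow h i j
  have := Subgroup.card_dvd_of_injective _ ((MonoidHom.noncommCoprod_injective _ _ hc).2
    ⟨Subtype.val_injective, Subtype.val_injective, by
      rw [Subgroup.range_subtype, Subgroup.range_subtype]
      have : Fact (Nat.card (Subgroup.zpowers v)).Prime := ⟨ov ▸ Nat.prime_three⟩
      rcases ((Subgroup.zpowers u).subgroupOf (Subgroup.zpowers v)).eq_bot_or_eq_top_of_prime_card with e | e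
      · exact Subgroup.subgroupOf_eq_bot.1 e
      · exfalso
        have hm : v ∈ Subgroup.zpowers u := Subgroup.subgroupOf_eq_top.1 e (Subgroup.mem_zpowers v)
        rw [mem_zpowers_iff_mem_range_orderOf, orderOf_eq_prime hu h1] at hm
        simp only [Finset.mem_image, Finset.mem_range] at hm
        obtain ⟨i, hi, rfl⟩ := hm
        interval_cases i
        · exact h2 (pow_zero _)
        · exact h3 (pow_one _)
        · exact h4 (eq_inv_of_mul_eq_one_left (by rw [← pow_succ, hu]))⟩)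
  rwa [Nat.card_prod, ou, ov] at this

theorem T2.of_nine [Finite M] (h : ¬ 9 ∣ Nat.card M) : T2 3 M := fun u g h1 h2 h3 => by
  have h4 : (g * u * g⁻¹) ^ 3 = 1 := by rw [conj_pow, h1]; simp
  by_cases e1 : g * u * g⁻¹ = u
  · calc g * g * u = g * (g * u * g⁻¹) * g := by group
      _ = g * u * g := by rw [e1]
      _ = g * u * g⁻¹ * (g * g) := by group
      _ = _ := by rw [e1]
  by_cases e2 : g * u * g⁻¹ = u⁻¹
  · calc g * g * u = g * (g * u * g⁻¹) * g := by group
      _ = g * u⁻¹ * g := by rw [e2]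
      _ = (g * u * g⁻¹)⁻¹ * (g * g) := by group
      _ = _ := by rw [e2, inv_inv]
  exact (h (nine_dvd h1 h4 h2 h3 (by simpa using h2) e1 e2)).elim

end

theorem exc_A4 : Exc (alternatingGroup (Fin 4)) :=
  ⟨by decide +kernel, by decide +kernel, by decide +kernel, by decide +kernel⟩

theorem exc_S4 : Exc (Equiv.Perm (Fin 4)) :=
  ⟨by decide +kernel, by decide +kernel, by decide +kernel, by decide +kernel⟩

theorem exc_A5 : Exc (alternatingGroup (Fin 5)) :=
  ⟨by decide +kernel, fun a _ ha _ => by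
    rcases Small.A5_pow a with h | h | h
    · exact Or.inr (Or.inl h)
    · rw [pow_succ, h, one_mul] at ha; simp [ha]
    · rw [pow_succ, ha, one_mul] at h; simp [h], by decide +kernel, by decide +kernel⟩

theorem klein_fin {F : Type*} [Field F] [Finite F] (h2 : (2 : F) ≠ 0) {p : ℕ} [CharP F p] (M : Subgroup (PG F))
    (h : T2 p M) : Dih M ∨ Exc M := by
  have hst : (∃ x : P1 F, M ≤ stabilizer (PG F) x) → Dih M := by
    rintro ⟨x, hx⟩ a b ha hb
    obtain ⟨g, rfl⟩ := exists_smul_inf x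
    have h1 : ∀ a : M, ∃ u v hu, a.1 = g * aff u v hu * g⁻¹ := fun a => by
      obtain ⟨u, v, hu, e⟩ := exists_aff_of_fix (g := g⁻¹ * a.1 * g) (by
        rw [mul_smul, mul_smul, hx a.2, inv_smul_smul])
      exact ⟨u, v, hu, by rw [← e]; group⟩
    obtain ⟨u, v, hu, e⟩ := h1 a
    obtain ⟨u', v', hu', e'⟩ := h1 b
    by_contra hne
    have h0 : u * v' + v - u' * v - v' ≠ 0 := fun k => hne (Subtype.ext (by
      rw [Subgroup.coe_mul, Subgroup.coe_mul, e, e', conj_mul, conj_mul, aff_mul, aff_mul]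
      congr 2
      rw [aff_eq_aff]
      exact ⟨mul_comm _ _, by linear_combination k⟩))
    have hc : (a * b * a⁻¹ * b⁻¹ : M).1 = g * tr (u * v' + v - u' * v - v') * g⁻¹ := by
      have : tr (u * v' + v - u' * v - v') = aff u v hu * aff u' v' hu' * (aff u v hu)⁻¹ * (aff u' v' hu')⁻¹ := by
        rw [eq_mul_inv_iff_mul_eq, eq_mul_inv_iff_mul_eq, tr, aff_mul, aff_mul, aff_mul, aff_eq_aff]
        constructor <;> ring
      rw [this]; simp only [Subgroup.coe_mul, Subgroup.coe_inv, e, e']; group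
    have h0' := h0
    generalize a * b * a⁻¹ * b⁻¹ = c at hc
    generalize u * v' + v - u' * v - v' = s at hc h0
    have key : ∀ (a : M) u v hu, a.1 = g * aff u v hu * g⁻¹ → a * a ≠ 1 → u = 1 := fun a u v hu e ha => by
      have := congrArg Subtype.val (h c a (Subtype.ext (by
        rw [Subgroup.coe_pow, hc, conj_pow, tr_pow, CharP.cast_eq_zero, zero_mul, tr_zero]; simp))
        (fun k => h0 (by simpa [k] using hc.symm)) (Subtype.ext (by
        have : (a * c * a⁻¹ : M).1 = g * tr (u * s) * g⁻¹ := by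
          rw [← aff_conj_tr (b := v) hu]; simp only [Subgroup.coe_mul, Subgroup.coe_inv, e, hc]; group
        show c.1 * (a * c * a⁻¹ : M).1 = (a * c * a⁻¹ : M).1 * c.1
        rw [this, hc, conj_mul, conj_mul, tr_mul, tr_mul, add_comm])))
      simp only [Subgroup.coe_mul, e, hc, conj_mul, tr, aff_mul, mul_left_inj, mul_right_inj, aff_eq_aff] at this
      have h3 : (u - 1) * (u + 1) = 0 := mul_right_cancel₀ h0 (by linear_combination this.2)
      refine sub_eq_zero.1 ((mul_eq_zero.1 h3).resolve_right fun k => ha (Subtype.ext ?_))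
      simp only [Subgroup.coe_mul, e, conj_mul, aff_mul, Subgroup.coe_one, conj_eq_one_iff, aff_eq_one]
      exact ⟨by linear_combination (u - 1) * k, by linear_combination v * k⟩
    obtain rfl := key a u v hu e ha
    obtain rfl := key b u' v' hu' e' hb
    exact h0' (by ring)
  have hnr : (∃ x y, IsPair x y ∧ M ≤ Bar.Nor x y) → Dih M := by
    rintro ⟨x, y, hxy, hx⟩ a b ha hb
    have k : ∀ a : M, a * a ≠ 1 → a.1 ∈ Bar.Tor x y := fun a ha => by_contra fun k =>
      ha (Subtype.ext (Bar.mul_self_eq_one hxy.ne (hx a.2) k))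
    exact Subtype.ext (Bar.Tor_comm hxy.ne (k a ha) (k b hb))
  by_cases h1 : ∃ z : P1 (Bar.Kb F), ∀ g ∈ M, g • z = z
  · obtain ⟨z, hz⟩ := h1
    rcases fixed_case hz with h | ⟨x, y, h, h'⟩
    · exact Or.inl (hst h)
    · exact Or.inl (hnr ⟨x, y, h, h'.trans (Bar.Tor_le_Nor x y)⟩)
  by_cases h3 : ∃ x y, IsPair x y ∧ M ≤ Bar.Nor x y
  · exact Or.inl (hnr h3)
  have hno := no_prime_normal h1 h3
  rcases dickson M with k | k | ⟨-, -, ⟨⟨e⟩⟩ | ⟨⟨e⟩⟩⟩ | ⟨-, -, -, ⟨e⟩⟩ | ⟨g, E, h4, h5, h6⟩
  · exact Or.inl (hst k)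
  · exact Or.inl (hnr k)
  · exact Or.inr (exc_A4.congr e)
  · exact Or.inr (exc_S4.congr e)
  · exact Or.inr (exc_A5.congr e)
  right
  have hc := (Subf.card_PSsub h2 E).trans (Subf.card_PGsub E).symm
  have key : ∀ κ (hκ : κ ≠ 0), aff κ 0 hκ ∈ cj g M → κ ^ 2 = 1 := fun κ hκ hm => by
    have := congrArg Subtype.val (h.congr (cjEquiv g M).symm ⟨tr 1, h5 (tr_mem_PSsub E.one_mem)⟩ ⟨_, hm⟩
      (Subtype.ext (by rw [Subgroup.coe_pow, tr_pow, CharP.cast_eq_zero, zero_mul, tr_zero]; rfl))
      (fun k => by simpa using congrArg Subtype.val k) (Subtype.ext (by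
        simp only [Subgroup.coe_mul, Subgroup.coe_inv, aff_conj_tr, tr_mul, add_comm])))
    simp only [Subgroup.coe_mul, tr, aff_mul, aff_eq_aff] at this
    linear_combination this.2
  have h7 : ∀ κ : E, κ ≠ 0 → κ ^ 4 = 1 := fun κ hκ => Subtype.ext (by
    have h0 : (κ : F) ≠ 0 := fun k => hκ (Subtype.ext k)
    have := key (κ * κ) (mul_ne_zero h0 h0) (h5 (mob_mem_PSsub (F := F) (a := κ * κ) (b := 0) (c := 0) (d := 1) (s := κ)
      (E.mul_mem κ.2 κ.2) E.zero_mem E.zero_mem E.one_mem κ.2 (by ring)))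
    push_cast; linear_combination this)
  have h8 : Nat.card E - 1 ∣ 4 := by
    rw [← Nat.card_units, ← IsCyclic.exponent_eq_card]
    exact Monoid.exponent_dvd_of_forall_pow_eq_one fun u => Units.ext (by simpa using h7 u u.ne_zero)
  have h9 := Subf.card_PGsub E
  have h10 : Nat.card E = 3 ∨ Nat.card E = 5 := by
    have := Nat.le_of_dvd (by norm_num) h8
    have h11 : Nat.card E ≤ 5 := by omega
    interval_cases Nat.card E <;> simp_all
  rcases H5.MH.eq_or_eq_of_card h5 h6 hc with e | e <;> rcases h10 with h10 | h10 <;> rw [h10] at h9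
  · obtain ⟨e'⟩ := Small.A4_of hno (by rw [← card_cj g, e]; omega)
    exact exc_A4.congr e'
  · obtain ⟨e'⟩ := Small.A5_of hno (by rw [← card_cj g, e]; omega)
    exact exc_A5.congr e'
  · obtain ⟨e'⟩ := Small.S4_of hno (by rw [← card_cj g, e]; omega)
    exact exc_S4.congr e'
  · exfalso
    have h11 : Nat.card E - 1 ∣ 2 := by
      rw [← Nat.card_units, ← IsCyclic.exponent_eq_card]
      refine Monoid.exponent_dvd_of_forall_pow_eq_one fun u => Units.ext (Subtype.ext ?_)
      have h0 : ((u : E) : F) ≠ 0 := fun k => u.ne_zero (Subtype.ext k)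
      simpa using key _ h0 (e ▸ mob_mem_PGsub u.1.2 E.zero_mem E.zero_mem E.one_mem)
    rw [h10] at h11
    norm_num at h11

/-- every finite set lies in a finite subfield -/
def LocFin (K : Type*) [Field K] : Prop := ∀ s : Finset K, ∃ E : Subfield K, Finite E ∧ ∀ x ∈ s, x ∈ E

theorem locFin (F : Type*) [Field F] [Finite F] : LocFin (AlgebraicClosure F) := fun s => by
  have : FiniteDimensional F (IntermediateField.adjoin F (s : Set (AlgebraicClosure F))) :=
    IntermediateField.finiteDimensional_adjoin fun x _ => Algebra.IsIntegral.isIntegral x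
  have hf : Finite (IntermediateField.adjoin F (s : Set (AlgebraicClosure F))) := Module.finite_of_finite F
  exact ⟨(IntermediateField.adjoin F (s : Set (AlgebraicClosure F))).toSubfield, hf,
    fun x hx => IntermediateField.subset_adjoin F _ hx⟩

theorem klein {K : Type*} [Field K] (hK : LocFin K) (h2 : (2 : K) ≠ 0) {p : ℕ} [CharP K p] (M : Subgroup (PG K))
    [Finite M] (h : T2 p M) : Dih M ∨ Exc M := by
  classical
  have := Fintype.ofFinite M
  choose a b c d hd e using fun g : M => exists_mob g.1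
  obtain ⟨E, hE, hm⟩ := hK (Finset.univ.image a ∪ Finset.univ.image b ∪ Finset.univ.image c ∪ Finset.univ.image d)
  have hle : M ≤ PGsub E := fun g hg => by
    rw [show g = _ from e ⟨g, hg⟩]
    exact mob_mem_PGsub (hm _ (by simp)) (hm _ (by simp)) (hm _ (by simp)) (hm _ (by simp))
  let f := Matrix.ProjGenLinGroup.map (n := Fin 2) E.subtype
  let e' : M.comap f ≃* M := ((M.comap f).equivMapOfInjective f (map_injective _)).trans
    (MulEquiv.subgroupCongr (Subgroup.map_comap_eq_self hle))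
  have : CharP E p := (RingHom.charP_iff_charP E.subtype p).2 inferInstance
  exact (klein_fin (F := E) (fun k => h2 (by rw [← map_ofNat E.subtype 2, k, map_zero])) _ (h.congr e')).imp
    (fun k => k.congr e'.symm) fun k => k.congr e'.symm

end Cfsg.Agent.H2.Mi
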