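import Cfsg.Agent.H2.MiV

/-!
Stabilisers of vectors of `V` act on projective lines.
-/

set_option autoImplicit false

namespace Cfsg.Agent.H2.Mi

open Matrix Cfsg.Agent.H1.Mit Cfsg.Agent.H4.Mob

variable {T K : Type*} [Group T] [Field K] {ρ : SRep T K}

theorem cent_one (hs : IsSimpleGroup T) (hp : commutator T = ⊤) {a s : T} (h1 : s ≠ 1)
    (h : ∀ g, a * (g * s * g⁻¹) = g * s * g⁻¹ * a) : a = 1 := by
  have h2 : Subgroup.normalClosure {s} ≤ Subgroup.centralizer {a} := by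
    refine (Subgroup.closure_le _).2 fun x hx => ?_
    obtain ⟨_, rfl, hx'⟩ := Group.mem_conjugatesOfSet_iff.1 hx
    obtain ⟨g, rfl⟩ := isConj_iff.1 hx'
    exact Subgroup.mem_centralizer_singleton_iff.2 (h g).symm
  rcases (Subgroup.normalClosure_normal (s := {s})).eq_bot_or_eq_top with e | e
  · exact (h1 (Subgroup.mem_bot.1 (e ▸ Subgroup.subset_normalClosure rfl))).elim
  have h3 : a ∈ Subgroup.center T := Subgroup.mem_center_iff.2 fun g =>
    Subgroup.mem_centralizer_singleton_iff.1 (h2 (e ▸ Subgroup.mem_top g))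
  rcases (inferInstance : (Subgroup.center T).Normal).eq_bot_or_eq_top with e | e
  · exact Subgroup.mem_bot.1 (e ▸ h3)
  · have : commutator T = ⊥ := (commutator_eq_bot_iff_center_eq_top T).2 e
    exact Subgroup.mem_bot.1 (this ▸ hp ▸ Subgroup.mem_top a)

theorem ad_comm {X y : M4 K} (hX : Sp X) (h : X * y = y * X) : ad X * y = y * ad X := by
  calc ad X * y = ad X * (y * X) * ad X := by rw [mul_assoc, mul_assoc, hX.right, mul_one]
    _ = _ := by rw [← h, ← mul_assoc, hX.left, one_mul]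

/-- the stabiliser of a vector -/
def Stab (ρ : SRep T K) (y : M4 K) : Subgroup T where
  carrier := {g | ∀ X, ρ.L g X → X * y = y * X}
  one_mem' X hX := by rcases hX.eq_one_iff.1 rfl with rfl | rfl <;> simp
  mul_mem' {a b} ha hb Z hZ := by
    obtain ⟨X, hX⟩ := ρ.exL a
    obtain ⟨Y, hY⟩ := ρ.exL b
    have : X * Y * y = y * (X * Y) := by rw [mul_assoc, hb Y hY, ← mul_assoc, ha X hX, mul_assoc]
    rcases (hX.mul hY).uniq hZ with rfl | rfl <;> simp [this]
  inv_mem' {a} ha Z hZ := by simpa using ad_comm hZ.inv.sp (ha _ (by simpa using hZ.inv))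

theorem mem_Stab {y X : M4 K} {g : T} (hX : ρ.L g X) : g ∈ Stab ρ y ↔ X * y = y * X :=
  ⟨fun h => h X hX, fun h Z hZ => by rcases hX.uniq hZ with rfl | rfl <;> simp [h]⟩

theorem Stab_neg (y : M4 K) : Stab ρ (-y) = Stab ρ y := by
  ext g; obtain ⟨X, hX⟩ := ρ.exL g; simp [mem_Stab hX]

/-- `g` acts as a scalar on the image of `w` -/
def Sc (ρ : SRep T K) (w : M4 K) (g : T) : Prop := ∃ X l, ρ.L g X ∧ X * w = (l : K) • w

theorem Sc.get {w X : M4 K} {g : T} (h : Sc ρ w g) (hX : ρ.L g X) : ∃ l : K, X * w = l • w := by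
  obtain ⟨Y, l, hY, e⟩ := h
  rcases hY.uniq hX with rfl | rfl
  exacts [⟨l, e⟩, ⟨-l, by simp [e]⟩]

theorem sc_sq {X w : M4 K} (hX : Sp X) (h1 : ad w = w) (h0 : w ≠ 0) (h : X * w = w * X) {l : K} (e : X * w = l • w) :
    ad X * w = l • w ∧ l * l = 1 := by
  have e1 : ad X * w = l • w := by simpa [h1, ad_comm hX h] using congrArg ad e
  refine ⟨e1, smul_left_injective K h0 ?_⟩
  have := congrArg (X * ·) e1
  simp only [← mul_assoc, hX.right, one_mul, Matrix.mul_smul, e, smul_smul] at this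
  simpa using this.symm

theorem L_scalar {g : T} {c : K} (h : ρ.L g (c • 1)) : g = 1 := by
  have := congrFun (congrFun h.sp.left 0) 0
  simp at this
  rcases mul_self_eq_one_iff.1 this with rfl | rfl <;> simp [h.eq_one_iff]

theorem rot_pow {X : M4 K} (hX : Sp X) {c : K} (h : X + ad X = c • 1) (n : ℕ) : ∃ a b : K, X ^ n = a • X + b • 1 := by
  induction n with
  | zero => exact ⟨0, 1, by simp⟩
  | succ n ih =>
    obtain ⟨a, b, e⟩ := ih
    have : X * X = c • X - 1 := by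
      rw [eq_sub_iff_add_eq, ← hX.right, ← mul_add, h]; simp
    exact ⟨a * c + b, -a, by rw [pow_succ, e, add_mul, Matrix.smul_mul, this]; simp [smul_sub, add_smul, smul_smul]; abel⟩

theorem Sc.rot {X w : M4 K} {x : T} (hX : ρ.L x X) {c : K} (h : X + ad X = c • 1) (hc : c * c ≠ 4) (h1 : ad w = w)
    (h0 : w ≠ 0) (hw : X * w = w * X) {n : ℕ} (hs : Sc ρ w (x ^ n)) : x ^ n = 1 := by
  obtain ⟨l, e⟩ := hs.get (hX.pow n)
  obtain ⟨a, b, e'⟩ := rot_pow hX.sp h n
  by_cases ha : a = 0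
  · exact L_scalar (c := b) ((hX.pow n).congr (by simp [e', ha]))
  have e1 : X * w = ((l - b) / a) • w := by
    refine smul_right_injective _ ha ?_
    simp only [smul_smul, mul_div_cancel₀ _ ha, sub_smul, ← e, e', add_mul]; simp
  obtain ⟨e2, e3⟩ := sc_sq hX.sp h1 h0 hw e1
  have := congrArg (· * w) h
  simp only [add_mul, e1, e2, ← add_smul, Matrix.smul_mul, one_mul] at this
  exact (hc (by rw [← smul_left_injective K h0 this]; linear_combination 4 * e3)).elim

variable [NeZero (2 : K)]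

theorem rk2 {w : M4 K} (h1 : ad w = w) {τ : K} (h2 : w * w = τ • w) (h3 : w.trace = 2 * τ) (h0 : w ≠ 0) :
    ∃ (R : Matrix (Fin 4) (Fin 2) K) (Q : Matrix (Fin 2) (Fin 4) K), Q * w * R = 1 ∧ w * R * Q * w = w := by
  have sw : ∀ a b, B (w *ᵥ a) b = -B (w *ᵥ b) a := fun a b => by rw [B_ad, h1, B_swap]
  have alt : ∀ a, B (w *ᵥ a) a = 0 := fun a =>
    (mul_eq_zero.1 (by linear_combination sw a a : 2 * B (w *ᵥ a) a = 0)).resolve_left two_ne_zero
  have dual : ∀ u : V4 K, u ≠ 0 → ∃ v, B u v = 1 := fun u hu => by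
    by_contra! k
    exact hu (B_nd fun v => by_contra fun e => k ((B u v)⁻¹ • v) (by simp [e]))
  obtain ⟨u, hu⟩ : ∃ u, w *ᵥ u ≠ 0 := by
    by_contra! k
    exact h0 (Matrix.ext_iff_mulVec.2 (by simpa using k))
  obtain ⟨v, hv⟩ := dual _ hu
  have hv' : B (w *ᵥ v) u = -1 := by rw [sw, hv]
  have key : ∀ r, B (w *ᵥ u) r = 0 → B (w *ᵥ v) r = 0 → w *ᵥ r = 0 := fun r r1 r2 => by
    by_contra hr
    obtain ⟨s0, hs0⟩ := dual _ hr
    obtain ⟨s, hs⟩ : ∃ s, s = s0 + B (w *ᵥ v) s0 • u - B (w *ᵥ u) s0 • v := ⟨_, rfl⟩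
    have s1 : B (w *ᵥ u) s = 0 := by simp [hs, alt, hv]
    have s2 : B (w *ᵥ v) s = 0 := by simp [hs, alt, hv']
    have s3 : B (w *ᵥ r) s = 1 := by simp [hs, hs0, sw r u, sw r v, r1, r2]
    have e : ad (col4 u r s v) * w * col4 u r s v = 1 := by
      refine Matrix.ext_iff_mulVec.2 fun b => sub_eq_zero.1 (B_nd fun a => ?_)
      rw [B_sub_left, B_swap _ a, ← mulVec_mulVec, ← mulVec_mulVec, ← B_ad, B_swap, neg_neg, one_mulVec]
      simp only [col4_mulVec, mulVec_add, mulVec_smul, B_add_left, B_add_right, B_smul_left, B_smul_right, alt, hv, hv',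
        r1, r2, s1, s2, s3, sw r u, sw r v, sw s u, sw s v, sw s r]
      simp [B]; ring
    have e1 : col4 u r s v * ad (col4 u r s v) * w = 1 := by rw [mul_assoc]; exact mul_eq_one_comm.1 e
    have e2 : w = τ • 1 := by rw [← one_mul w, ← e1, mul_assoc, h2, Matrix.mul_smul, e1]
    rw [e2] at h3 h0
    simp only [trace_smul, trace_one, Fintype.card_fin, smul_eq_mul] at h3
    have : τ = 0 := (mul_eq_zero.1 (by push_cast at h3; linear_combination h3 : 2 * τ = 0)).resolve_left two_ne_zero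
    simp [this] at h0
  have hR : ∀ x : Fin 2 → K, (Matrix.of ![u, v])ᵀ *ᵥ x = x 0 • u + x 1 • v := fun x => by
    ext i; simp [mulVec, dotProduct, mul_comm]
  have hQ : ∀ x : V4 K, !![v 3, v 2, -v 1, -v 0; -u 3, -u 2, u 1, u 0] *ᵥ x = ![B x v, -B x u] := fun x => by
    ext i; fin_cases i <;> simp [mulVec, dotProduct, B, Fin.sum_univ_four] <;> ring
  refine ⟨(Matrix.of ![u, v])ᵀ, !![v 3, v 2, -v 1, -v 0; -u 3, -u 2, u 1, u 0], ?_, ?_⟩ <;>
    refine Matrix.ext_iff_mulVec.2 fun x => ?_ <;> simp only [← mulVec_mulVec, hR, hQ]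
  · ext i; fin_cases i <;> simp [mulVec_add, mulVec_smul, alt, hv, hv']
  · rw [← sub_eq_zero, ← mulVec_sub]
    exact key _ (by simp [alt, hv, sw x u]) (by simp [alt, hv', sw x v])

theorem exists_psi {w : M4 K} (h1 : ad w = w) {τ : K} (h2 : w * w = τ • w) (h3 : w.trace = 2 * τ) (h0 : w ≠ 0)
    (Y : Subgroup T) (hY : Y ≤ Stab ρ w) : ∃ ψ : Y →* PG K, ∀ g, ψ g = 1 ↔ Sc ρ w g.1 := by
  obtain ⟨R, Q, e1, e2⟩ := rk2 h1 h2 h3 h0
  have hm : ∀ X Z : M4 K, Z * w = w * Z → Q * X * w * R * (Q * Z * w * R) = Q * (X * Z) * w * R := fun X Z h => by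
    calc _ = Q * X * (w * R * Q * (Z * w)) * R := by simp only [Matrix.mul_assoc]
      _ = Q * X * (w * R * Q * w * Z) * R := by rw [h]; simp only [Matrix.mul_assoc]
      _ = _ := by rw [e2, ← h]; simp only [Matrix.mul_assoc]
  let f : ∀ (g : Y) (X : M4 K), ρ.L g.1 X → GL (Fin 2) K := fun g X hX =>
    ⟨Q * X * w * R, Q * ad X * w * R, by rw [hm _ _ (ad_comm hX.sp (hY g.2 X hX)), hX.sp.right]; simpa using e1,
      by rw [hm _ _ (hY g.2 X hX), hX.sp.left]; simpa using e1⟩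
  have hf : ∀ g X hX Z hZ, ProjGenLinGroup.mk (f g X hX) = ProjGenLinGroup.mk (f g Z hZ) := fun g X hX Z hZ => by
    rcases hX.uniq hZ with rfl | rfl
    · rfl
    · exact ProjGenLinGroup.mk_eq_mk_iff.2 ⟨-1, Units.ext (by simp [f, ← Matrix.smul_one_eq_diagonal])⟩
  choose X hX using ρ.exL
  refine ⟨MonoidHom.mk' (fun g => ProjGenLinGroup.mk (f g _ (hX g))) fun a b => ?_, fun g => ?_⟩
  · rw [hf (a * b) _ (hX _) _ ((hX a).mul (hX b)), ← map_mul]
    exact congrArg _ (Units.ext (hm _ _ (hY b.2 _ (hX b))).symm)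
  have hc := hY g.2 _ (hX g)
  simp only [MonoidHom.mk'_apply]
  rw [← ProjGenLinGroup.mk_one, eq_comm, ProjGenLinGroup.mk_eq_mk_iff]
  constructor
  · rintro ⟨u, hu⟩
    have := congrArg Units.val hu
    simp only [f, one_mul, GeneralLinearGroup.coe_scalar, Matrix.scalar_apply, ← Matrix.smul_one_eq_diagonal] at this
    refine ⟨_, u, hX g, ?_⟩
    calc X g * w = w * R * Q * w * X g * R * Q * w := by
          rw [e2, ← hc, Matrix.mul_assoc _ w, Matrix.mul_assoc (X g), Matrix.mul_assoc (X g), e2]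
      _ = w * R * (Q * X g * w * R) * Q * w := by rw [Matrix.mul_assoc Q, hc]; simp only [Matrix.mul_assoc]
      _ = _ := by rw [← this]; simp [e2]
  · intro h
    obtain ⟨l, hl⟩ := h.get (hX g)
    refine ⟨Units.mk0 l (left_ne_zero_of_mul_eq_one (sc_sq (hX g).sp h1 h0 hc hl).2), Units.ext ?_⟩
    simp only [f, one_mul, GeneralLinearGroup.coe_scalar, Matrix.scalar_apply, ← Matrix.smul_one_eq_diagonal]
    rw [Matrix.mul_assoc Q, hl]; simp [e1]

end Cfsg.Agent.H2.Mi
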