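import Cfsg.Agent.H2.MiD

/-!
Rotations of order four, frames.
-/

set_option autoImplicit false

namespace Cfsg.Agent.H2.Mi

open Matrix Cfsg.Agent.H1.Mit

theorem quat_alg {R : Type*} [Ring R] (h2 : ∀ a b : R, a + a = b + b → a = b) {j j' y : R} (hj : j * j = -1)
    (hj' : j' * j' = -1) (hy : y * y = 1) (c1 : y * j = j * y) (c2 : y * j' = j' * y) (h1 : j' * j = j * j' * y)
    (h3 : j * j' * (1 + y) = -(1 + y)) {k g : R} (hk : k + k = (1 + j) * -(j * j') * (1 - j))
    (hg : g + g = (1 + j) * (1 - j')) :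
    -(j * j') * k + -(j * j') * k = 1 + y + j * (1 - y) ∧ g + g = 1 + -(j * j') * k - k + -(j * j') ∧
      k * (1 + y) = 1 + y := by
  obtain ⟨P, hP⟩ : ∃ P, P = 1 + y := ⟨_, rfl⟩
  obtain ⟨Q, hQ⟩ : ∃ Q, Q = 1 - y := ⟨_, rfl⟩
  have ext : ∀ A B : R, A * P = B * P → A * Q = B * Q → A = B := fun A B a b => h2 _ _ (by
    rw [hP] at a; rw [hQ] at b; linear_combination (norm := noncomm_ring) a + b)
  have a1 : ∀ x, j * (j * x) = -x := fun x => by rw [← mul_assoc, hj, neg_one_mul]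
  have a2 : ∀ x, j' * (j' * x) = -x := fun x => by rw [← mul_assoc, hj', neg_one_mul]
  have a3 : ∀ x, y * (j * x) = j * (y * x) := fun x => by rw [← mul_assoc, c1, mul_assoc]
  have a4 : ∀ x, y * (j' * x) = j' * (y * x) := fun x => by rw [← mul_assoc, c2, mul_assoc]
  have a5 : y * P = P := by rw [hP, mul_add, hy, mul_one, add_comm]
  have a6 : y * Q = -Q := by rw [hQ, mul_sub, hy, mul_one, neg_sub]
  have a7 : j' * P = j * P := by
    have := congrArg (j * ·) h3
    simp only [← hP, mul_assoc, a1, mul_neg, neg_inj] at this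
    exact this
  have a8 : j' * (j * P) = -P := by rw [← a7, a2]
  have a9 : j' * (j * Q) = -(j * (j' * Q)) := by rw [← mul_assoc, h1, mul_assoc, a6, mul_neg, mul_assoc]
  have a10 : j' * (j * (j' * Q)) = j * Q := by
    rw [← mul_assoc, h1, mul_assoc, a4, a6, mul_assoc, mul_neg, mul_neg, a2, neg_neg]
  have k1 : k + k = 1 + y + j' * (1 - y) := by
    rw [hk]; apply ext <;> simp only [mul_add, add_mul, mul_sub, sub_mul, mul_assoc, mul_one, one_mul, neg_mul, mul_neg,
      a1, a2, a3, a4, a5, a6, a7, a8, a9, a10] <;> abel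
  have k2 : -(j * j') * k + -(j * j') * k = 1 + y + j * (1 - y) := by
    rw [← mul_add, k1]; apply ext <;> simp only [mul_add, add_mul, mul_sub, sub_mul, mul_assoc, mul_one, one_mul, neg_mul,
      mul_neg, a1, a2, a3, a4, a5, a6, a7, a8, a9, a10] <;> abel
  refine ⟨k2, h2 _ _ ?_, h2 _ _ ?_⟩
  · rw [show 1 + -(j * j') * k - k + -(j * j') + (1 + -(j * j') * k - k + -(j * j')) =
      1 + 1 + (-(j * j') * k + -(j * j') * k) - (k + k) - (j * j' + j * j') by abel, k1, k2, hg]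
    apply ext <;> simp only [mul_add, add_mul, mul_sub, sub_mul, mul_assoc, mul_one, one_mul, neg_mul,
      mul_neg, a1, a2, a3, a4, a5, a6, a7, a8, a9, a10] <;> abel
  · rw [← add_mul, k1, ← hP]
    simp only [mul_add, add_mul, mul_sub, sub_mul, mul_assoc, mul_one, one_mul, a5, sub_self, mul_zero, add_zero]
    conv_lhs => lhs; rw [hP]
    rw [add_mul, a5, one_mul]

variable {T K : Type*} [Group T] [Field K] {ρ : SRep T K} {p : ℕ}

/-- the action on `V` -/
def act (X e : M4 K) : M4 K := X * e * ad X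

theorem act_mul (X Y e : M4 K) : act (X * Y) e = act X (act Y e) := by simp [act, mul_assoc]

theorem act_fix {X y : M4 K} (hX : Sp X) (h : X * y = y * X) : act X y = y := by rw [act, h, mul_assoc, hX.right, mul_one]

theorem IsV.act {X e : M4 K} (he : IsV e) (hX : Sp X) : IsV (act X e) := he.conj hX

theorem act_neg (X e : M4 K) : act X (-e) = -act X e := by simp [act]

/-- the quaternion group attached to a rotation of order four -/
structure Quat (ρ : SRep T K) (j y A B G : M4 K) : Prop where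
  rt : Rt ρ y
  a : ∃ t, ρ.L t A
  b : ∃ t, ρ.L t B
  g : ∃ t, ρ.L t G
  aa : A * A = y
  bb : B * B = y
  ab : A * B * (A * B) = y
  ay : A * y = y * A
  by' : B * y = y * B
  gact : ∀ e, IsV e → bt e y = 0 → act G e + act G e = e + act (A * B) e - act B e + act A e
  jact : ∀ e, IsV e → bt e y = 0 → e * j = -(j * e) → act (A * B) e = j * e

/-- frames of roots -/
def Fr (ρ : SRep T K) (e : Fin 5 → M4 K) : Prop := (∀ i, Rt ρ (e i)) ∧ ∀ i j, i ≠ j → bt (e i) (e j) = 0

theorem fr_mk {a b c d e : M4 K} (ha : Rt ρ a) (hb : Rt ρ b) (hc : Rt ρ c) (hd : Rt ρ d) (he : Rt ρ e) (h1 : bt a b = 0)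
    (h2 : bt a c = 0) (h3 : bt a d = 0) (h4 : bt a e = 0) (h5 : bt b c = 0) (h6 : bt b d = 0) (h7 : bt b e = 0)
    (h8 : bt c d = 0) (h9 : bt c e = 0) (h10 : bt d e = 0) : Fr ρ ![a, b, c, d, e] := by
  refine ⟨fun i => ?_, fun i j hij => ?_⟩
  · fin_cases i
    exacts [ha, hb, hc, hd, he]
  · fin_cases i <;> fin_cases j <;> simp [*, bt_comm b a, bt_comm c a, bt_comm d a, bt_comm e a, bt_comm c b, bt_comm d b,
      bt_comm e b, bt_comm d c, bt_comm e c, bt_comm e d] at hij ⊢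

theorem comm4 {v a b c d : M4 K} (h1 : v * a = -(a * v)) (h2 : v * b = -(b * v)) (h3 : v * c = -(c * v))
    (h4 : v * d = -(d * v)) : a * b * c * d * v = v * (a * b * c * d) := by
  linear_combination (norm := noncomm_ring) -h1 * (b * c * d) + a * h2 * (c * d) - a * b * h3 * d + a * b * c * h4

variable [NeZero (2 : K)]

theorem half {A B : M4 K} (h : A + A = B + B) : A = B :=
  smul_right_injective _ (two_ne_zero (α := K)) (by simpa only [two_smul] using h)

theorem act_triv {X y e : M4 K} (hX : Sp X) (hy : IsV y) (h : X * (1 + y) = 1 + y) (he : IsV e) (h0 : bt e y = 0) :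
    act X e = X * e + e * ad X - e := by
  have h1 : ad X * (1 + y) = 1 + y := by rw [← h, ← mul_assoc, hX.left, one_mul, h]
  have h2 : (1 + y) * ad X = 1 + y := by simpa [hy.ad] using congrArg ad h
  have h3 := he.anti hy h0
  refine half ?_
  have : (X - 1) * (1 + y) * e * (ad X - 1) + (X - 1) * e * ((1 + y) * (ad X - 1)) = 0 := by
    rw [sub_mul X, h, mul_sub (1 + y), h2]; simp
  rw [act]
  linear_combination (norm := noncomm_ring) this - (X - 1) * h3 * (ad X - 1)

theorem act_root {y e : M4 K} (hy : Rt ρ y) (he : IsV e) (h0 : bt e y = 0) : act y e = -e := by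
  rw [act, refl_eq hy.v hy.sq he, bt_comm, h0]; simp

theorem bt_act {X e f : M4 K} (hX : Sp X) (he : IsV e) (hf : IsV f) : bt (act X e) (act X f) = bt e f := he.bt_conj hf hX

theorem bt_act_zero {X y e : M4 K} (hX : Sp X) (hy : Rt ρ y) (h : X * X = y) (he : IsV e) (h0 : bt e y = 0) :
    bt e (act X e) = 0 := by
  have := bt_act hX he (he.act hX)
  rw [← act_mul, h, act_root hy he h0, bt_neg_right, bt_comm] at this
  exact (mul_eq_zero.1 (by linear_combination -this : 2 * bt e (act X e) = 0)).resolve_left two_ne_zero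

namespace Quat

variable {j y A B G e : M4 K}

omit [NeZero (2 : K)] in
theorem bab (h : Quat ρ j y A B G) : B * (A * B) = A := by
  obtain ⟨t, ht⟩ := h.a
  have := congrArg (ad A * ·) (h.ab.trans h.aa.symm)
  simpa only [← mul_assoc, ht.sp.left, one_mul] using this

theorem act_a (h : Quat ρ j y A B G) (he : IsV e) (h0 : bt e y = 0) : act A (act (A * B) e) = -act B e := by
  obtain ⟨t, ht⟩ := h.b
  rw [← act_mul, ← mul_assoc, h.aa, ← h.by', act_mul, act_root h.rt he h0, act_neg]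

theorem frame (h : Quat ρ j y A B G) (he : Rt ρ e) (h0 : bt e y = 0) :
    Fr ρ ![e, act (A * B) e, act A e, act B e, y] := by
  obtain ⟨a, ha⟩ := h.a
  obtain ⟨b, hb⟩ := h.b
  have hab := ha.mul hb
  have k1 := bt_act_zero ha.sp h.rt h.aa he.v h0
  have k2 := bt_act_zero hb.sp h.rt h.bb he.v h0
  have k3 := bt_act_zero hab.sp h.rt h.ab he.v h0
  have y0 : ∀ X, Sp X → X * y = y * X → bt (act X e) y = 0 := fun X hX e' => by
    rw [← act_fix hX e', bt_act hX he.v h.rt.v, h0]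
  have y1 := y0 _ ha.sp h.ay
  have y2 := y0 _ hb.sp h.by'
  have y3 := y0 _ hab.sp (by rw [mul_assoc, h.by', ← mul_assoc, h.ay, mul_assoc])
  have k4 : bt (act (A * B) e) (act A e) = 0 := by rw [act_mul, bt_act ha.sp (he.v.act hb.sp) he.v, bt_comm, k2]
  have k5 : bt (act (A * B) e) (act B e) = 0 := by
    rw [← bt_act hb.sp (he.v.act hab.sp) (he.v.act hb.sp), ← act_mul, ← act_mul, h.bab, h.bb,
      act_root h.rt he.v h0, bt_neg_right, bt_comm, k1, neg_zero]
  have k6 : bt (act A e) (act B e) = 0 := by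
    rw [← bt_act ha.sp (he.v.act ha.sp) (he.v.act hb.sp), ← act_mul, ← act_mul, h.aa,
      act_root h.rt he.v h0, bt_neg_left, k3, neg_zero]
  exact fr_mk he (he.conj hab) (he.conj ha) (he.conj hb) h.rt k3 k1 k2 h0 k4 k5 y3 k6 y1 y2

end Quat

theorem frame4 {a b c d : M4 K} (ha : Rt ρ a) (hb : Rt ρ b) (hc : Rt ρ c) (hd : Rt ρ d) (h1 : bt a b = 0)
    (h2 : bt a c = 0) (h3 : bt a d = 0) (h5 : bt b c = 0) (h6 : bt b d = 0) (h8 : bt c d = 0) :
    Fr ρ ![a, b, c, d, a * b * c * d] := by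
  have ab := hb.v.anti ha.v (bt_comm a b ▸ h1)
  have ac := hc.v.anti ha.v (bt_comm a c ▸ h2)
  have ad' := hd.v.anti ha.v (bt_comm a d ▸ h3)
  have bc := hc.v.anti hb.v (bt_comm b c ▸ h5)
  have bd := hd.v.anti hb.v (bt_comm b d ▸ h6)
  have cd := hd.v.anti hc.v (bt_comm c d ▸ h8)
  have k : ∀ {u v : M4 K}, u * v = -(v * u) → ∀ x, u * (v * x) = -(v * (u * x)) := fun e x => by
    rw [← mul_assoc, e, neg_mul, mul_assoc]
  have s : ∀ {u : M4 K}, Rt ρ u → ∀ x, u * (u * x) = x := fun e x => by rw [← mul_assoc, e.sq, one_mul]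
  have an : ∀ u ∈ [a, b, c, d], u * (a * b * c * d) = -(a * b * c * d * u) := by
    simp only [List.forall_mem_cons, mul_assoc, ab, ac, ad', bc, bd, cd, k ab, k ac, k ad', k bc, k bd, k cd, s ha, s hb,
      s hc, s hd, mul_neg, neg_neg, hd.sq, mul_one]
    simp
  obtain ⟨t1, l1⟩ := ha.ex
  obtain ⟨t2, l2⟩ := hb.ex
  obtain ⟨t3, l3⟩ := hc.ex
  obtain ⟨t4, l4⟩ := hd.ex
  have l := ((l1.mul l2).mul l3).mul l4
  have e : ad (a * b * c * d) = a * b * c * d := by
    simp only [ad_mul, ha.v.ad, hb.v.ad, hc.v.ad, hd.v.ad, mul_assoc, ab, ac, ad', bc, bd, cd, k ab, k ac, k ad', k bc, k bd,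
      k cd, mul_neg, neg_mul, neg_neg]
  refine fr_mk ha hb hc hd ⟨⟨e, ?_⟩, by simpa only [e] using l.sp.left, _, l⟩ h1 h2 h3 (bt_of_anti (an a (by simp))) h5 h6
    (bt_of_anti (an b (by simp))) h8 (bt_of_anti (an c (by simp))) (bt_of_anti (an d (by simp)))
  have := congrArg (fun x => trace (a * x)) (an a (by simp))
  simp only [s ha, mul_neg, trace_neg] at this
  rw [trace_mul_comm a, mul_assoc _ a a, ha.sq, mul_one] at this
  exact (mul_eq_zero.1 (by linear_combination this : 2 * trace (a * b * c * d) = 0)).resolve_left two_ne_zero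

theorem Fr.zero {e : Fin 5 → M4 K} (h : Fr ρ e) {v : M4 K} (hv : IsV v) (h0 : ∀ i, bt v (e i) = 0) : v = 0 := by
  have w : Rt ρ (e 0 * e 1 * e 2 * e 3) := (frame4 (h.1 0) (h.1 1) (h.1 2) (h.1 3) (h.2 _ _ (by decide))
    (h.2 _ _ (by decide)) (h.2 _ _ (by decide)) (h.2 _ _ (by decide)) (h.2 _ _ (by decide)) (h.2 _ _ (by decide))).1 4
  have c : ∀ v, IsV v → (∀ i, i ≠ 4 → bt v (e i) = 0) → ∃ c : K, v = c • (e 0 * e 1 * e 2 * e 3) := fun v hv h0 =>
    have a := fun i hi => hv.anti (h.1 i).v (h0 i hi)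
    w.v.comm hv w.ne (comm4 (a 0 (by decide)) (a 1 (by decide)) (a 2 (by decide)) (a 3 (by decide)))
  obtain ⟨l, rfl⟩ := c v hv fun i _ => h0 i
  obtain ⟨m, hm⟩ := c _ (h.1 4).v fun i hi => h.2 _ _ hi.symm
  have := h0 4
  rw [hm, bt_smul_left, bt_smul_right, w.bt_self] at this
  have m0 : m ≠ 0 := fun k => (h.1 4).ne (by rw [hm, k, zero_smul])
  simp only [mul_eq_zero, m0, two_ne_zero, or_false] at this
  rw [this, zero_smul]

/-- coordinates with respect to a frame -/
def co (e : Fin 5 → M4 K) (v : M4 K) : Fin 5 → K := fun i => bt v (e i)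

theorem Fr.bt_fr {e : Fin 5 → M4 K} (h : Fr ρ e) (i : Fin 5) : co e (e i) = Pi.single i 2 := by
  ext j
  by_cases hij : j = i
  · simp [co, hij, (h.1 i).bt_self]
  · simp [co, hij, h.2 i j (Ne.symm hij)]

theorem Fr.bt_sum {e : Fin 5 → M4 K} (h : Fr ρ e) (x : Fin 5 → K) (v : M4 K) :
    bt (∑ i, (x i / 2) • e i) v = x ⬝ᵥ co e v / 2 := by
  simp only [Fin.sum_univ_five, bt_add_left, bt_smul_left, dot5, co, bt_comm v]; ring

theorem Fr.lift {e : Fin 5 → M4 K} (h : Fr ρ e) (x : Fin 5 → K) :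
    IsV (∑ i, (x i / 2) • e i) ∧ co e (∑ i, (x i / 2) • e i) = x := by
  refine ⟨?_, funext fun j => ?_⟩
  · rw [Fin.sum_univ_five]
    exact (((((h.1 0).v.smul _).add ((h.1 1).v.smul _)).add ((h.1 2).v.smul _)).add ((h.1 3).v.smul _)).add
      ((h.1 4).v.smul _)
  · rw [co, h.bt_sum, h.bt_fr]; simp [two_ne_zero]

theorem Fr.inj {e : Fin 5 → M4 K} (h : Fr ρ e) {v w : M4 K} (hv : IsV v) (hw : IsV w) (k : co e v = co e w) : v = w :=
  sub_eq_zero.1 (h.zero (hv.sub hw) fun i => by rw [bt_sub_left, sub_eq_zero]; exact congrFun k i)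

theorem Fr.bt_eq {e : Fin 5 → M4 K} (h : Fr ρ e) {v : M4 K} (hv : IsV v) (w : M4 K) : co e v ⬝ᵥ co e w / 2 = bt v w := by
  rw [← h.bt_sum, h.inj (h.lift _).1 hv (h.lift _).2]

omit [NeZero (2 : K)] in
theorem co_lin (e : Fin 5 → M4 K) (v w : M4 K) (a b : K) : co e (a • v + b • w) = a • co e v + b • co e w := by
  ext i; simp [co]

variable [Finite T] [IsAlgClosed K]

theorem Fr.rs5 (hc : Ctx ρ p) {e : Fin 5 → M4 K} (h : Fr ρ e) : RS5 (co e '' {a | Rt ρ a}) := by
  have ng : ∀ v, co e (-v) = -co e v := fun v => by ext; simp [co]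
  refine ⟨?_, fun i => ⟨_, h.1 i, h.bt_fr i⟩, ?_, ?_, ?_, fun h3 a c z l ⟨a', ha, e1⟩ ⟨b', hb, e2⟩ ⟨c', hc', e3⟩
    ⟨d', hd, e4⟩ h1 h2 h4 h5 h6 => ?_, fun j => ?_⟩
  · rintro _ ⟨a, ha, rfl⟩
    have := h.bt_eq ha.v a
    rw [ha.bt_self] at this
    field_simp at this
    linear_combination this
  · rintro _ ⟨a, ha, rfl⟩
    exact ⟨_, ha.neg, ng a⟩
  · rintro _ ⟨a, ha, rfl⟩ _ ⟨b, hb, rfl⟩
    exact ⟨_, ha.refl hb, by rw [h.bt_eq ha.v]; ext; simp [co]⟩
  · rintro _ ⟨a, ha, rfl⟩ _ ⟨b, hb, rfl⟩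
    rw [h.bt_eq ha.v]
    exact (gram hc ha hb).imp (congrArg _) (Or.imp_left fun k => by rw [k, ng])
  · have e5 : co e (b' - a') = z := by rw [eq_sub_of_add_eq' e2.symm, ← e1]; ext; simp [co]
    have vz := hb.v.sub ha.v
    have e6 : d' = c' + l • (b' - a') := h.inj hd.v (hc'.v.add (vz.smul _)) (by
      rw [e4, ← e5, ← e3]; ext; simp [co])
    subst e1 e3 e5
    obtain ⟨α, μ, k⟩ := nine hc h3 ha (by simpa using hb) hc' (e6 ▸ hd) (fun k => h1 (by rw [k]; ext; simp [co])) h2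
      (by rw [← h.bt_eq vz, h4, zero_div]) (by rw [← h.bt_eq ha.v, h5, zero_div]) (by rw [← h.bt_eq hc'.v, h6, zero_div])
    exact ⟨α, μ, by rw [← co_lin, ← k]⟩
  · by_contra! k
    obtain ⟨t, ht⟩ := (h.1 j).ex
    refine (h.1 j).ne_one ht (hc.cent fun g => ?_)
    obtain ⟨G, hG⟩ := ρ.exL g
    have r := (h.1 j).conj hG
    refine (ht.comm_iff (hG.conj ht)).2 ?_
    generalize G * e j * ad G = a at r
    by_cases k1 : bt a (e j) = 0
    · exact Or.inr (r.v.anti (h.1 j).v k1)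
    · left
      rw [h.inj r.v ((h.1 j).v.smul (bt a (e j) / 2)) (funext fun i => by
        by_cases hi : i = j
        · simp [co, hi, (h.1 j).bt_self, two_ne_zero]
        · simpa [co, h.2 j i (Ne.symm hi)] using k _ ⟨a, r, rfl⟩ k1 i hi)]
      simp

theorem exists_quat (h : Ctx ρ p) {x : T} {X : M4 K} (hX : ρ.L x X) {c : K} (e : X + ad X = c • 1) (hc : c * c = 2) :
    ∃ y A B G, X * y = y * X ∧ Quat ρ (X * X) y A B G := by
  have hc4 : c * c ≠ 4 := fun k => two_ne_zero (α := K) (by linear_combination hc - k)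
  have c0 : c ≠ 0 := fun k => two_ne_zero (α := K) (by rw [← hc, k, mul_zero])
  have sq : ∀ X : M4 K, Sp X → X + ad X = c • 1 → c • X = 1 + X * X ∧ c • ad X = 1 - X * X ∧ ad (X * X) = -(X * X) ∧
      X * X * (X * X) = -1 := fun X hX e => by
    have e1 : c • X = 1 + X * X := by rw [← hX.right, add_comm, ← mul_add, e]; simp
    have e2 : c • ad X = 1 - X * X := by
      rw [eq_sub_of_add_eq' e, smul_sub, smul_smul, hc, e1, two_smul]; abel
    have e3 : ad (X * X) = -(X * X) := by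
      have := congrArg ad e1
      rw [ad_smul, e2, ad_add, ad_one, sub_eq_add_neg] at this
      exact (add_left_cancel this).symm
    exact ⟨e1, e2, e3, by rw [← (hX.mul hX).left, e3]; simp⟩
  obtain ⟨v2, -, v4, -⟩ := rot_vals hX e hc4
  have x4 : x ^ 4 = 1 := v4.2 (by rw [hc]; simp)
  have x2 : x ^ 2 ≠ 1 := fun k => c0 (v2.1 k)
  obtain ⟨g, hg⟩ : ∃ g, ¬ x ^ 2 * (g * x ^ 2 * g⁻¹) = g * x ^ 2 * g⁻¹ * x ^ 2 := by
    by_contra! k
    exact x2 (h.cent k)
  obtain ⟨G, hG⟩ := ρ.exL g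
  have hX' := hG.conj hX
  have e' := rot_conj hG.sp e
  have x4' : (g * x * g⁻¹) ^ 4 = 1 := by rw [conj_pow, x4]; simp
  have x2' : (g * x * g⁻¹) ^ 2 ≠ 1 := by rwa [conj_pow, Ne, conj_eq_one_iff]
  rw [← conj_pow] at hg
  generalize g * x * g⁻¹ = x' at hX' x4' x2' hg
  generalize G * X * ad G = X' at hX' e'
  obtain ⟨y, hy, h0, s, s', -, k⟩ := rot_pair h hX hX' e e' hc4
  obtain ⟨j1, j2, j3, j4⟩ := sq X hX.sp e
  have key : ∀ (x' : T) (X' y : M4 K), ρ.L x' X' → X' + ad X' = c • 1 → Rt ρ y → X * y = y * X → X' * y = y * X' →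
      X' * X' * (X * X) = X * X * (X' * X') * y → X * X * (X' * X') * (1 + y) = -(1 + y) →
      ∃ y A B G, X * y = y * X ∧ Quat ρ (X * X) y A B G := fun x' X' y hX' e' hy s s' k1 k2 => by
    obtain ⟨j1', j2', j3', j4'⟩ := sq X' hX'.sp e'
    have la := ((hX.mul hX).mul (hX'.mul hX')).neg
    have c1 : y * (X * X) = X * X * y := by rw [← mul_assoc, ← s, mul_assoc, ← s, mul_assoc]
    have c2 : y * (X' * X') = X' * X' * y := by rw [← mul_assoc, ← s', mul_assoc, ← s', mul_assoc]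
    have dbl : ∀ A B : M4 K, c • A * c • B = A * B + A * B := fun A B => by
      rw [Matrix.smul_mul, Matrix.mul_smul, smul_smul, hc, two_smul]
    obtain ⟨q1, q2, q3⟩ := quat_alg (fun _ _ => half) j4 j4' hy.sq c1 c2 k1 k2
      (k := X * -(X * X * (X' * X')) * ad X) (g := X * ad X') (by rw [← j1, ← j2, Matrix.smul_mul c X, dbl])
      (by rw [← j1, ← j2', dbl])
    have lb := hX.conj la
    have lg := hX.mul hX'.inv
    have q4 : -(X * X * (X' * X')) * (1 + y) = 1 + y := by rw [neg_mul, k2, neg_neg]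
    have ay : -(X * X * (X' * X')) * y = y * -(X * X * (X' * X')) := by
      rw [neg_mul, mul_neg, ← mul_assoc y, c1, mul_assoc _ y, c2, mul_assoc (X * X)]
    have aa : -(X * X * (X' * X')) * -(X * X * (X' * X')) = y := by
      have := la.sp.left
      rw [ad_neg, ad_mul, j3, j3', neg_mul_neg (X' * X'), k1, ← neg_mul, mul_assoc _ y, ← ay, ← mul_assoc] at this
      rw [← mul_one (_ * _), ← hy.sq, ← mul_assoc, this, one_mul]
    generalize X * X = j at *
    generalize X' * X' = j' at *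
    have by' : X * -(j * j') * ad X * y = y * (X * -(j * j') * ad X) := by
      rw [mul_assoc, ad_comm hX.sp s, ← mul_assoc, mul_assoc X, ay, ← mul_assoc, s]; simp only [mul_assoc]
    have bb : X * -(j * j') * ad X * (X * -(j * j') * ad X) = y := by
      rw [← act_fix hX.sp s, ← aa, act]; simp only [mul_assoc, ← mul_assoc (ad X) X, hX.sp.left, one_mul]
    generalize X * -(j * j') * ad X = B at *
    generalize -(j * j') = A at *
    generalize X * ad X' = G at *
    have q5 : A * B * (1 + y) = 1 + y := by rw [mul_assoc, q3, q4]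
    have q6 : G * (1 + y) = 1 + y := half (by rw [← add_mul, q2, add_mul, sub_mul, add_mul, q5, q3, q4]; simp)
    refine ⟨y, A, B, G, s, hy, ⟨_, la⟩, ⟨_, lb⟩, ⟨_, lg⟩, aa, bb, half (half ?_), ay, by', fun u hu u0 => ?_,
      fun u hu u0 u1 => half ?_⟩
    · have : (A * B + A * B) * (A * B + A * B) = y + y + (y + y) := by
        rw [q1]
        linear_combination (norm := noncomm_ring) hy.sq + j4 * (1 - y) * (1 - y) - j * c1 * (1 - y) + c1 * (1 - y) -
          j * hy.sq - j * hy.sq - hy.sq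
      linear_combination (norm := noncomm_ring) this
    · rw [act_triv lg.sp hy.v q6 hu u0, act_triv (la.mul lb).sp hy.v q5 hu u0, act_triv lb.sp hy.v q3 hu u0,
        act_triv la.sp hy.v q4 hu u0]
      have := congrArg ad q2
      simp only [ad_add, ad_sub, ad_one] at this
      linear_combination (norm := noncomm_ring) q2 * u + u * this
    · rw [act_triv (la.mul lb).sp hy.v q5 hu u0]
      have := congrArg ad q1
      simp only [ad_add, ad_sub, ad_one, ad_mul j, hy.v.ad, j3] at this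
      linear_combination (norm := noncomm_ring) q1 * u + u * this + hu.anti hy.v u0 - j * hu.anti hy.v u0 -
        u1 * (1 - y) + u * c1
  rcases ((k x4 x4').resolve_left x2).resolve_left x2' with k | ⟨y2, k⟩ | ⟨h3, k⟩
  · exact (hg (by simpa [mul_inv_eq_iff_eq_mul] using k)).elim
  · obtain ⟨j1', j2', j3', j4'⟩ := sq X' hX'.sp e'
    have l := (((hX.pow 2).mul (hX'.pow 2)).mul (hX.pow 2).inv).mul (hX'.pow 2).inv
    rw [pow_two X, pow_two X', j3, j3'] at l
    obtain ⟨y, hy, s, s', k⟩ : ∃ y, Rt ρ y ∧ X * y = y * X ∧ X' * y = y * X' ∧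
        X * X * (X' * X') * -(X * X) * -(X' * X') = y := by
      rcases k.uniq l with k' | k'
      exacts [⟨y, ⟨hy, y2, _, k⟩, s X hX, s' X' hX', k'⟩,
        ⟨-y, ⟨hy.neg, by simpa using y2, _, k.neg⟩, by simp [s X hX], by simp [s' X' hX'], k'⟩]
    have lS := (hX.mul hX).mul (hX'.mul hX')
    have aS : ad (X * X * (X' * X')) = X' * X' * (X * X) := by rw [ad_mul, j3, j3', neg_mul_neg]
    have c1 : X * X * (X' * X') * y = y * (X * X * (X' * X')) := (mem_Stab lS).1 (mul_mem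
      (mul_mem ((mem_Stab hX).2 s) ((mem_Stab hX).2 s)) (mul_mem ((mem_Stab hX').2 s') ((mem_Stab hX').2 s')))
    have k1 : X' * X' * (X * X) = X * X * (X' * X') * y := by
      have e1 : X * X * (X' * X') * (X * X * (X' * X')) = y := by rw [← k]; noncomm_ring
      rw [← aS, ← mul_one (ad _), ← hy.sq]
      conv_lhs => rhs; lhs; rw [← e1]
      rw [← mul_assoc, ← mul_assoc, lS.sp.left, one_mul]
    obtain ⟨l, hl⟩ := hy.v.comm (isV_av _) hy.ne (av_comm lS.sp c1)
    rw [av, aS, k1, sub_eq_iff_eq_add] at hl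
    generalize trace (X * X * (X' * X')) / 2 = τ at hl
    have k2 : X * X * (X' * X') * (1 + y) = l • (1 + y) := by
      have e1 : X * X * (X' * X') * (1 + y) = l • y + τ • 1 := by rw [mul_add, mul_one, hl]
      have e2 : (τ - l) • (1 + -y) = 0 := by
        have : (1 + y) * (1 + -y) = 0 := by linear_combination (norm := noncomm_ring) -hy.sq
        have e3 := congrArg (· * (1 + -y)) e1
        simp only [mul_assoc _ (1 + y), this, mul_zero] at e3
        rw [e3]; simp [sub_smul, add_mul, mul_add, hy.sq]; abel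
      rw [e1, sub_eq_zero.1 ((smul_eq_zero.1 e2).resolve_right (one_add_ne hy.v.neg)), smul_add, add_comm]
    rcases mul_self_eq_one_iff.1 (sc_sq lS.sp (by simp [hy.v.ad]) (one_add_ne hy.v) (by
      rw [mul_add, add_mul, c1]; simp) k2).2 with rfl | rfl
    · refine key _ (ad X') y hX'.inv (by rw [ad_ad, add_comm, e']) hy s (ad_comm hX'.sp s') ?_ ?_ <;> rw [← ad_mul, j3']
      · simp [k1]
      · simp [k2]
    · exact key _ X' y hX' e' hy s s' k1 (by rw [k2, neg_one_smul])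
  · exfalso
    obtain ⟨c3, k'⟩ := k.norm h h3 hy h0 s'
    obtain ⟨u, hu⟩ : ∃ u, u = x ^ 2 * x' ^ 2 * (x ^ 2)⁻¹ * (x' ^ 2)⁻¹ := ⟨_, rfl⟩
    rw [← hu] at c3 k'
    have e1 : x' ^ 2 * u * (x' ^ 2)⁻¹ = u := by
      have : x' ^ 2 * u * (x' ^ 2)⁻¹ = x' * (x' * u * x'⁻¹) * x'⁻¹ := by rw [pow_two]; group
      rcases k' with k' | k'
      · rw [this, k', k']
      · rw [this, k', ← conj_inv, k', inv_inv]
    have e2 : u * u = 1 := by
      calc u * u = u * (x' ^ 2 * u * (x' ^ 2)⁻¹) := by rw [e1]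
        _ = x ^ 2 * x' ^ 4 * (x ^ 2)⁻¹ * (x' ^ 4)⁻¹ := by rw [hu]; group
        _ = 1 := by rw [x4']; group
    rw [pow_succ, pow_two, e2, one_mul] at c3
    exact hg (by simpa [mul_inv_eq_iff_eq_mul, c3] using hu.symm)

end Cfsg.Agent.H2.Mi
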