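import Cfsg.Agent.H2.MiP

/-!
Rotations in groups with few unipotent elements.
-/

set_option autoImplicit false

namespace Cfsg.Agent.H2.Mi

open Matrix Cfsg.Agent.H1.Mit Cfsg.Agent.H4.Mob

variable {T K : Type*} [Group T] [Field K] {ρ : SRep T K} {p : ℕ}

/-- standing hypotheses over a closed field -/
structure Ctx (ρ : SRep T K) (p : ℕ) : Prop where
  hyp : ρ.Hyp
  loc : LocFin K
  pr : p.Prime
  ch : CharP K p
  u : ((3 : K) ≠ 0 ∧ ρ.NoQ) ∨ ((3 : K) = 0 ∧ ¬ 9 ∣ Nat.card T)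

theorem lift_unip (h2 : (2 : K) ≠ 0) (pr : p.Prime) [CharP K p] {u : T} (h : u ^ p = 1) :
    ∃ X, ρ.L u X ∧ (X - 1) ^ p = 0 := by
  have := Fact.mk pr
  obtain ⟨X, hX⟩ := ρ.exL u
  have ho : Odd p := pr.odd_of_ne_two fun e => h2 (by subst e; exact_mod_cast CharP.cast_eq_zero K 2)
  have k : ∀ X : M4 K, X ^ p = 1 → (X - 1) ^ p = 0 := fun X e => by
    rw [sub_pow_char_of_commute _ (Commute.one_right X), e, one_pow, sub_self]
  rcases (hX.pow p).eq_one_iff.1 h with e | e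
  exacts [⟨X, hX, k X e⟩, ⟨-X, hX.neg, k _ (by rw [ho.neg_pow, e, neg_neg])⟩]

theorem Ctx.three (h : Ctx ρ p) (h3 : (3 : K) = 0) : p = 3 := by
  have := h.ch
  exact (Nat.prime_dvd_prime_iff_eq h.pr Nat.prime_three).1 ((CharP.cast_eq_zero_iff K p 3).1 (by exact_mod_cast h3))

theorem Ctx.cent (h : Ctx ρ p) {a : T} (hc : ∀ g, a * (g * a * g⁻¹) = g * a * g⁻¹ * a) : a = 1 :=
  by_contra fun k => k (cent_one h.hyp.simple h.hyp.perf k hc)

variable [NeZero (2 : K)]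

theorem four_ne : (4 : K) ≠ 0 := by
  rw [show (4 : K) = 2 * 2 by norm_num]; exact mul_ne_zero two_ne_zero two_ne_zero

theorem unip_neg {X : M4 K} {n m : ℕ} (h : (X - 1) ^ n = 0) (h' : (-X - 1) ^ m = 0) : False := by
  have e := trace_unip h'
  rw [trace_neg, trace_unip h] at e
  exact mul_ne_zero two_ne_zero (four_ne (K := K)) (by linear_combination -e)

theorem unip_mul {X Y : M4 K} (pr : p.Prime) [CharP K p] (hX : (X - 1) ^ p = 0) (hY : (Y - 1) ^ p = 0)
    (h : X * Y = Y * X) : (X * Y - 1) ^ p = 0 := by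
  have := Fact.mk pr
  rw [sub_pow_char_of_commute _ (Commute.one_right _), one_pow, sub_eq_zero] at *
  rw [Commute.mul_pow h, hX, hY, one_mul]

theorem unip_ad {X : M4 K} {n : ℕ} (h : (X - 1) ^ n = 0) : (ad X - 1) ^ n = 0 := by
  simpa [ad_pow] using congrArg ad h

theorem unip_ns (hq : ρ.NoQ) {X y : M4 K} {x : T} (hX : ρ.L x X) {n : ℕ} (hn : (X - 1) ^ n = 0) (hy : IsV y)
    (h1 : y * y = 1) (h : X * y = y * X) : X = 1 := by
  have h0 : y ≠ 0 := fun e => by simp [e] at h1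
  obtain ⟨c, hc⟩ := hy.comm (isV_av X) h0 (av_comm hX.sp h)
  have e := av_unip hX.sp hn
  have hc' : Commute (ad X) (X - 1) := by simp [Commute, SemiconjBy, mul_sub, sub_mul, hX.sp.left, hX.sp.right]
  have e1 : av X ^ (2 * n) = 0 := by
    rw [e, (hc'.mul_right hc').mul_pow, ← pow_two, ← pow_mul, show 2 * (2 * n) = n * 4 by ring, pow_mul (X - 1), hn]
    simp
  rw [hc, smul_pow, pow_mul y, pow_two y, h1, one_pow] at e1
  have e2 : c = 0 := IsNilpotent.eq_zero ⟨_, (smul_eq_zero.1 e1).resolve_right one_ne_zero⟩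
  refine hq x X hX ?_
  have := congrArg (X * ·) (e.symm.trans (hc.trans (by rw [e2, zero_smul])))
  simpa [← mul_assoc, hX.sp.right] using this

theorem t2_sing (hq : ρ.NoQ) (pr : p.Prime) [CharP K p] {y : M4 K} (hy : IsV y) (h0 : y ≠ 0) :
    T2 p (Stab ρ y) := fun u h h1 h2 h3 => by
  obtain ⟨X, hX, e⟩ := lift_unip (ρ := ρ) two_ne_zero pr (congrArg Subtype.val h1)
  obtain ⟨H, hH⟩ := ρ.exL h.1
  have hX' := hH.conj hX
  obtain ⟨c, hc⟩ := hy.comm (isV_av X) h0 (av_comm hX.sp (u.2 X hX))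
  have e1 : H * X * ad H + ad (H * X * ad H) = X + ad X := by
    have : X + ad X = c • y + (X.trace / 2) • 1 := by rw [← hc, av, sub_add_cancel]
    calc _ = H * (X + ad X) * ad H := by simp [mul_add, add_mul, mul_assoc]
      _ = _ := by rw [this, mul_add, add_mul]; simp [h.2 H hH, mul_assoc, hH.sp.right]
  have e' : (H * X * ad H - 1) ^ p = 0 := by
    rw [show H * X * ad H - 1 = H * (X - 1) * ad H by rw [mul_sub, sub_mul, mul_one, hH.sp.right]]
    have : ∀ n, (H * (X - 1) * ad H) ^ n = H * (X - 1) ^ n * ad H := fun n => by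
      induction n with
      | zero => simp [hH.sp.right]
      | succ n ih => rw [pow_succ, ih, pow_succ]; simp only [mul_assoc, ← mul_assoc (ad H) H, hH.sp.left, one_mul]
    rw [this, e]; simp
  have hy' : H * X * ad H * y = y * (H * X * ad H) := (h * u * h⁻¹).2 _ hX'
  generalize H * X * ad H = X' at hX' e1 e' hy'
  have hc : X' * X = X * X' := by
    refine ((hX.comm_iff hX').1 (congrArg Subtype.val h3)).resolve_right fun k => ?_
    have : X' * X * ad X' = -X := by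
      rw [← neg_eq_iff_eq_neg, ← neg_mul, neg_eq_iff_eq_neg.2 k]
      have := congrArg trace (show ad X' * (X' * X) = ad X' * -(X * X') by rw [k])
      rw [← mul_assoc, hX'.sp.left, one_mul, mul_neg, trace_neg, trace_mul_comm, mul_assoc, hX'.sp.right, mul_one,
        trace_unip e] at this
      exact (mul_ne_zero two_ne_zero (four_ne (K := K)) (by linear_combination this)).elim
    have t := congrArg trace this
    rw [trace_mul_comm, ← mul_assoc, hX'.sp.left, one_mul, trace_neg, trace_unip e] at t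
    exact mul_ne_zero two_ne_zero (four_ne (K := K)) (by linear_combination t)
  have z1 := unip_mul pr e' (unip_ad e) (ad_comm hX.sp hc.symm).symm
  have z2 := unip_mul pr e' e hc
  have l1 := hX'.mul hX.inv
  have l2 := hX'.mul hX
  have y1 : X' * ad X * y = y * (X' * ad X) := (h * u * h⁻¹ * u⁻¹).2 _ l1
  have y2 : X' * X * y = y * (X' * X) := (h * u * h⁻¹ * u).2 _ l2
  have hz : (X' * ad X - 1) * (X' * X - 1) = 0 := by
    have : X' * (X' + ad X') = X' * (X + ad X) := by rw [e1]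
    rw [mul_add, hX'.sp.right, mul_add] at this
    rw [sub_mul, mul_sub, mul_sub, hc, mul_assoc, ← mul_assoc (ad X), hX.sp.left, one_mul, ← hc]
    simp only [mul_one, one_mul]
    rw [eq_sub_of_add_eq this]; abel
  have : X' * ad X = 1 ∨ X' * X = 1 := by
    obtain ⟨a, ha⟩ := hy.comm (isV_av _) h0 (av_comm l1.sp y1)
    obtain ⟨b, hb⟩ := hy.comm (isV_av _) h0 (av_comm l2.sp y2)
    rw [av_unip l1.sp z1] at ha
    rw [av_unip l2.sp z2] at hb
    by_cases a0 : a = 0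
    · refine Or.inl (hq _ _ l1 ?_)
      have := congrArg (X' * ad X * ·) ha
      simpa only [← mul_assoc _ (ad _), l1.sp.right, a0, one_mul, zero_smul, mul_zero] using this
    refine Or.inr (hq _ _ l2 (sq_of_cube l2.sp ?_))
    have k1 : y * (X' * X - 1) = 0 := (smul_eq_zero.1 (by
      rw [← Matrix.smul_mul, ← ha, mul_assoc, mul_assoc, hz]; simp)).resolve_left a0
    have := congrArg (X' * X * · * (X' * X - 1)) hb
    simp only [← mul_assoc _ (ad _), l2.sp.right, one_mul, Matrix.mul_smul, Matrix.smul_mul, mul_assoc _ y, k1] at this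
    simpa [pow_succ] using this
  rcases this with k | k
  · have e1 : h * u * h⁻¹ = u := Subtype.ext (mul_inv_eq_one.1 (l1.eq_one_iff.2 (Or.inl k)))
    calc h * h * u = h * (h * u * h⁻¹) * h := by group
      _ = h * u * h⁻¹ * (h * h) := by rw [e1]; nth_rw 2 [← e1]; group
      _ = _ := by rw [e1]
  · have e2 : h * u * h⁻¹ = u⁻¹ := Subtype.ext (eq_inv_of_mul_eq_one_left (l2.eq_one_iff.2 (Or.inl k)))
    calc h * h * u = h * (h * u * h⁻¹) * h := by group
      _ = h * u⁻¹ * h := by rw [e2]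
      _ = (h * u * h⁻¹)⁻¹ * (h * h) := by group
      _ = _ := by rw [e2, inv_inv]

theorem ker_s {y : M4 K} (hy : IsV y) (h0 : y ≠ 0) {g : T} (hg : g ∈ Stab ρ y) (h : Sc ρ y g) :
    ∃ X, ρ.L g X ∧ (X - 1) * y = 0 ∧ y * (X - 1) = 0 := by
  obtain ⟨X, l, hX, e⟩ := h
  have hc := hg X hX
  rcases mul_self_eq_one_iff.1 (sc_sq hX.sp hy.ad h0 hc e).2 with rfl | rfl
  · exact ⟨X, hX, by simp [sub_mul, e], by simp [mul_sub, ← hc, e]⟩
  · exact ⟨-X, hX.neg, by simp [sub_mul, e], by simp [mul_sub, ← hc, e]⟩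

theorem ker_mul {y N N' : M4 K} (hy : IsV y) (h0 : y ≠ 0) (h : N * y = 0) (h' : y * N' = 0) : N * N' = 0 := by
  obtain ⟨z, -, hz⟩ := hy.dual h0
  rw [← mul_one N, ← hz, mul_add, ← mul_assoc, h, add_mul, mul_assoc, mul_assoc, mul_assoc, h']; simp

theorem one_add_ne {y : M4 K} (hy : IsV y) : 1 + y ≠ 0 := fun e => four_ne (K := K) (by
  simpa [hy.tr] using congrArg trace e)

theorem ker_ns {y : M4 K} (hy : IsV y) {g : T} (hg : g ∈ Stab ρ y) (h : Sc ρ (1 + y) g)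
    (h' : Sc ρ (1 + -y) g) : g = 1 ∨ ρ.L g y := by
  obtain ⟨X, l, hX, e⟩ := h
  obtain ⟨m, e'⟩ := h'.get hX
  have hc := hg X hX
  have h1 := (sc_sq hX.sp (by simp [hy.ad]) (one_add_ne hy) (by simp [mul_add, add_mul, hc]) e).2
  have h2 := (sc_sq hX.sp (by simp [hy.ad]) (one_add_ne hy.neg) (by simp [mul_add, add_mul, hc]) e').2
  have : (2 : K) • X = l • (1 + y) + m • (1 + -y) := by rw [← e, ← e', ← mul_add, two_smul]; noncomm_ring
  have k : ∀ Z : M4 K, l • (1 + y) + m • (1 + -y) = (2 : K) • Z → ρ.L g Z := fun Z hZ =>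
    hX.congr (smul_right_injective _ (two_ne_zero (α := K)) (this.trans hZ).symm)
  rcases mul_self_eq_one_iff.1 h1 with rfl | rfl <;> rcases mul_self_eq_one_iff.1 h2 with rfl | rfl
  · exact Or.inl ((k 1 (by module)).eq_one_iff.2 (Or.inl rfl))
  · exact Or.inr (k y (by module))
  · exact Or.inr (by simpa using (k (-y) (by module)).neg)
  · exact Or.inl ((k (-1) (by module)).eq_one_iff.2 (Or.inr rfl))

variable [Finite T]

theorem psi_kl (h : Ctx ρ p) {y w : M4 K} (hy : IsV y) (h0 : y ≠ 0)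
    (hw : (y * y = 1 ∧ w = 1 + y) ∨ (y * y = 0 ∧ w = y)) :
    ∃ ψ : Stab ρ y →* PG K, (∀ g, ψ g = 1 ↔ Sc ρ w g.1) ∧ (Dih ψ.range ∨ Exc ψ.range) := by
  have := h.ch
  have := Fact.mk h.pr
  obtain ⟨ψ, hψ⟩ : ∃ ψ : Stab ρ y →* PG K, ∀ g, ψ g = 1 ↔ Sc ρ w g.1 := by
    rcases hw with ⟨e, rfl⟩ | ⟨e, rfl⟩
    · exact exists_psi (τ := 2) (by simp [hy.ad]) (by rw [mul_add, add_mul, add_mul, e]; simp [two_smul]; abel)
        (by simp [hy.tr]; norm_num) (one_add_ne hy) _ fun g hg X hX => by simp [mul_add, add_mul, hg X hX]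
    · exact exists_psi (τ := 0) hy.ad (by simpa using e) (by simp [hy.tr]) h0 _ le_rfl
  have : Finite ψ.range := Finite.of_surjective _ ψ.rangeRestrict_surjective
  have hd : Nat.card ψ.range ∣ Nat.card (Stab ρ y) := Subgroup.card_dvd_of_surjective _ ψ.rangeRestrict_surjective
  refine ⟨ψ, hψ, klein h.loc two_ne_zero (p := p) _ ?_⟩
  rcases h.u with ⟨-, hq⟩ | ⟨h3, h9⟩
  · rcases hw with ⟨e, rfl⟩ | ⟨e, rfl⟩
    · intro u _ h1 h2 _
      obtain ⟨v, hv⟩ := exists_prime_orderOf_dvd_card' p ((orderOf_eq_prime h1 h2 ▸ orderOf_dvd_natCard u).trans hd)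
      obtain ⟨X, hX, e'⟩ := lift_unip (ρ := ρ) two_ne_zero h.pr (congrArg Subtype.val (hv ▸ pow_orderOf_eq_one v))
      have : v = 1 := Subtype.ext (hX.eq_one_iff.2 (Or.inl (unip_ns hq hX e' hy e (v.2 X hX))))
      rw [this, orderOf_one] at hv
      exact (h.pr.one_lt.ne hv).elim
    · refine (t2_sing hq h.pr hy h0).congr (MonoidHom.ofInjective ((injective_iff_map_eq_one _).2 fun g hg => ?_)).symm
      obtain ⟨X, hX, e1, e2⟩ := ker_s hy h0 g.2 ((hψ g).1 hg)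
      exact Subtype.ext (hX.eq_one_iff.2 (Or.inl (hq _ _ hX (ker_mul hy h0 e1 e2))))
  · rw [h.three h3]
    exact T2.of_nine fun k => h9 ((k.trans hd).trans (Subgroup.card_subgroup_dvd_card _))

theorem kl_pair (h : Ctx ρ p) {y w : M4 K} (hy : IsV y) (h0 : y ≠ 0)
    (hw : (y * y = 1 ∧ w = 1 + y) ∨ (y * y = 0 ∧ w = y)) {x x' : T} (hx : x ∈ Stab ρ y) (hx' : x' ∈ Stab ρ y) :
    (Sc ρ w (x ^ 2) ∨ Sc ρ w (x ^ 3) ∨ Sc ρ w (x ^ 4) ∨ Sc ρ w (x ^ 5) ∨ Sc ρ w (x' ^ 2) ∨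
      Sc ρ w (x * x' * x⁻¹ * x'⁻¹)) ∧ (x ^ 4 = 1 → x' ^ 4 = 1 → Sc ρ w (x ^ 2) ∨ Sc ρ w (x' ^ 2) ∨
      Sc ρ w (x ^ 2 * x' ^ 2 * (x ^ 2)⁻¹ * (x' ^ 2)⁻¹)) := by
  obtain ⟨ψ, hψ, k⟩ := psi_kl h hy h0 hw
  lift x to Stab ρ y using hx
  lift x' to Stab ρ y using hx'
  have hψ' : ∀ g, Sc ρ w g.1 ↔ ψ.rangeRestrict g = 1 := fun g => by rw [← hψ, Subtype.ext_iff]; rfl
  simp only [← Subgroup.coe_pow, ← Subgroup.coe_inv, ← Subgroup.coe_mul, hψ', map_pow, map_mul, map_inv,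
    OneMemClass.coe_eq_one, mul_inv_eq_iff_eq_mul, one_mul]
  rcases k with k | k
  · have := k (ψ.rangeRestrict x) (ψ.rangeRestrict x')
    rw [← pow_two, ← pow_two] at this
    refine ⟨or_iff_not_imp_left.2 fun a => .inr (.inr (.inr (or_iff_not_imp_left.2 (this a)))),
      fun _ _ => or_iff_not_imp_left.2 fun a => or_iff_not_imp_left.2 fun b => ?_⟩
    exact Commute.pow_pow (this a b) 2 2
  · refine ⟨(k.pow (ψ.rangeRestrict x)).imp_right (Or.imp_right (Or.imp_right Or.inl)), fun a b => ?_⟩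
    exact or_rotate.1 (k.sq (ψ.rangeRestrict x) (ψ.rangeRestrict x') (by rw [← map_pow, a, map_one])
      (by rw [← map_pow, b, map_one]))

end Cfsg.Agent.H2.Mi
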