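import Cfsg.Agent.H2.MiR

/-!
Orders of rotations, inner products of roots.
-/

set_option autoImplicit false

namespace Cfsg.Agent.H2.Mi

open Matrix Cfsg.Agent.H1.Mit

variable {T K : Type*} [Group T] [Field K] {ρ : SRep T K} {p : ℕ}

/-- quadratic elements with a given centre -/
def Q3 (ρ : SRep T K) (y : M4 K) (k : T) : Prop := ∃ X, ρ.L k X ∧ (X - 1) * y = 0 ∧ y * (X - 1) = 0

/-- the kernel of the action of the stabiliser of `y` -/
def Kr (ρ : SRep T K) (y : M4 K) (k : T) : Prop := k = 1 ∨ (y * y = 1 ∧ ρ.L k y) ∨ ((3 : K) = 0 ∧ Q3 ρ y k)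

/-- roots -/
structure Rt (ρ : SRep T K) (a : M4 K) : Prop where
  v : IsV a
  sq : a * a = 1
  ex : ∃ t, ρ.L t a

/-- the allowed values of `β²` -/
def Al (s : K) : Prop := s = 0 ∨ s = 1 ∨ s = 2 ∨ s * s - 3 * s + 1 = 0

theorem cube_of_sq {k : T} {X : M4 K} (h3 : (3 : K) = 0) (hX : ρ.L k X) (h : (X - 1) * (X - 1) = 0) : k ^ 3 = 1 := by
  refine (hX.pow 3).eq_one_iff.2 (Or.inl ?_)
  have : X ^ 3 = 1 + (3 : K) • (X - 1) + (X + 1 + 1) * ((X - 1) * (X - 1)) := by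
    rw [show (3 : K) = 1 + 1 + 1 by norm_num, add_smul, add_smul, one_smul]; noncomm_ring
  rw [this, h3, h]; simp

theorem rot_step {X : M4 K} (hX : Sp X) {c a b : K} (h : X + ad X = c • 1) {n : ℕ} (e : X ^ n = a • X + b • 1) :
    X ^ (n + 1) = (a * c + b) • X + (-a) • 1 := by
  have : X * X = c • X - 1 := by rw [eq_sub_iff_add_eq, ← hX.right, ← mul_add, h]; simp
  rw [pow_succ, e, add_mul, Matrix.smul_mul, this]; simp [smul_sub, add_smul, smul_smul]; abel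

theorem rot_coef {X : M4 K} {x : T} (hX : ρ.L x X) {c a b : K} (h : X + ad X = c • 1) (hc : c * c ≠ 4) {n : ℕ}
    (e : X ^ n = a • X + b • 1) : x ^ n = 1 ↔ a = 0 := by
  refine ⟨fun k => by_contra fun ha => ?_, fun ha => L_scalar (c := b) ((hX.pow n).congr (by simp [e, ha]))⟩
  obtain ⟨l, hl⟩ : ∃ l : K, X ^ n = l • 1 := by
    rcases (hX.pow n).eq_one_iff.1 k with k | k
    exacts [⟨1, by simp [k]⟩, ⟨-1, by simp [k]⟩]
  have e1 : X = ((l - b) / a) • 1 := by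
    refine smul_right_injective _ ha ?_
    simp only [smul_smul, mul_div_cancel₀ _ ha, sub_smul, ← hl, e]; simp
  have e2 := congrFun (congrFun h 0) 0
  rcases hX.eq_one_iff.1 (L_scalar (hX.congr e1.symm)) with rfl | rfl <;> simp at e2 <;>
    exact hc (by rw [← e2]; norm_num)

theorem rot_vals {X : M4 K} {x : T} (hX : ρ.L x X) {c : K} (h : X + ad X = c • 1) (hc : c * c ≠ 4) :
    (x ^ 2 = 1 ↔ c = 0) ∧ (x ^ 3 = 1 ↔ c * c - 1 = 0) ∧ (x ^ 4 = 1 ↔ c * (c * c - 2) = 0) ∧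
    (x ^ 5 = 1 ↔ c * c * (c * c) - 3 * (c * c) + 1 = 0) ∧ (x ^ 6 = 1 ↔ c * (c * c - 1) * (c * c - 3) = 0) := by
  have e1 : X ^ 1 = (1 : K) • X + (0 : K) • 1 := by simp
  have e2 := rot_step hX.sp h e1
  have e3 := rot_step hX.sp h e2
  have e4 := rot_step hX.sp h e3
  have e5 := rot_step hX.sp h e4
  have e6 := rot_step hX.sp h e5
  rw [rot_coef hX h hc e2, rot_coef hX h hc e3, rot_coef hX h hc e4, rot_coef hX h hc e5, rot_coef hX h hc e6]
  refine ⟨?_, ?_, ?_, ?_, ?_⟩ <;> exact iff_of_eq (congrArg (· = 0) (by ring))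

theorem rot_conj {X G : M4 K} (hG : Sp G) {c : K} (h : X + ad X = c • 1) :
    G * X * ad G + ad (G * X * ad G) = c • 1 := by
  calc _ = G * (X + ad X) * ad G := by simp [mul_add, add_mul, mul_assoc]
    _ = _ := by rw [h]; simp [hG.right]

theorem Q3.conj {y : M4 K} {k x : T} (h : Q3 ρ y k) (hx : x ∈ Stab ρ y) : Q3 ρ y (x * k * x⁻¹) := by
  obtain ⟨Z, hZ, e1, e2⟩ := h
  obtain ⟨X, hX⟩ := ρ.exL x
  have e : X * Z * ad X - 1 = X * (Z - 1) * ad X := by rw [mul_sub, sub_mul, mul_one, hX.sp.right]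
  exact ⟨_, hX.conj hZ, by rw [e, mul_assoc, ad_comm hX.sp (hx X hX), mul_assoc, ← mul_assoc _ y, e1]; simp,
    by rw [e, ← mul_assoc, ← mul_assoc, ← hx X hX, mul_assoc X, e2]; simp⟩

variable [NeZero (2 : K)]

theorem Rt.bt_self {a : M4 K} (h : Rt ρ a) : bt a a = 2 := by simpa using bt_of_sq (x := a) (c := 1) (by simpa using h.sq)

omit [NeZero (2 : K)] in
theorem Rt.ne {a : M4 K} (h : Rt ρ a) : a ≠ 0 := fun e => by simpa [e] using h.sq

omit [NeZero (2 : K)] in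
theorem Rt.neg {a : M4 K} (h : Rt ρ a) : Rt ρ (-a) := ⟨h.v.neg, by simpa using h.sq, h.ex.imp fun _ k => k.neg⟩

omit [NeZero (2 : K)] in
theorem Rt.conj {a X : M4 K} {x : T} (h : Rt ρ a) (hX : ρ.L x X) : Rt ρ (X * a * ad X) :=
  ⟨h.v.conj hX.sp, by simp only [mul_assoc, ← mul_assoc (ad X) X, hX.sp.left, one_mul, ← mul_assoc a a, h.sq,
    hX.sp.right], h.ex.elim fun _ k => ⟨_, hX.conj k⟩⟩

theorem refl_eq {a b : M4 K} (ha : IsV a) (h : a * a = 1) (hb : IsV b) : a * b * ad a = bt a b • a - b := by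
  rw [ha.ad, eq_sub_of_add_eq (ha.cliff hb), sub_mul, mul_assoc, h]; simp

theorem Rt.refl {a b : M4 K} (ha : Rt ρ a) (hb : Rt ρ b) : Rt ρ (b - bt a b • a) := by
  obtain ⟨t, ht⟩ := ha.ex
  simpa [refl_eq ha.v ha.sq hb.v] using (hb.conj ht).neg

theorem Rt.ne_one {a : M4 K} (h : Rt ρ a) {t : T} (ht : ρ.L t a) : t ≠ 1 := fun e => by
  rcases ht.eq_one_iff.1 e with e | e
  exacts [h.ne (h.v.eq_smul_one (c := 1) (by simpa using e)), h.ne (h.v.eq_smul_one (c := -1) (by simpa using e))]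

theorem rt_rot {a b : M4 K} (ha : IsV a) (hb : IsV b) : a * b + ad (a * b) = bt a b • 1 := by
  rw [ad_mul, ha.ad, hb.ad, ha.cliff hb]

variable [Finite T]

theorem Q3.norm (h : Ctx ρ p) (h3 : (3 : K) = 0) {y : M4 K} (hy : IsV y) (h0 : y ≠ 0) {k x : T} (hk : Q3 ρ y k)
    (hx : x ∈ Stab ρ y) : k ^ 3 = 1 ∧ (x * k * x⁻¹ = k ∨ x * k * x⁻¹ = k⁻¹) := by
  obtain ⟨Z', hZ', e1', e2'⟩ := hk.conj hx
  obtain ⟨Z, hZ, e1, e2⟩ := hk
  have c1 := cube_of_sq h3 hZ (ker_mul hy h0 e1 e2)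
  refine ⟨c1, ?_⟩
  by_cases k1 : k = 1
  · simp [k1]
  by_contra! hne
  refine (h.u.resolve_left fun k => k.1 h3).2 (nine_dvd c1 (cube_of_sq h3 hZ' (ker_mul hy h0 e1' e2')) k1
    (hZ.comm_of hZ' ?_) (by simpa using k1) hne.1 hne.2)
  have := (ker_mul hy h0 e1 e2').trans (ker_mul hy h0 e1' e2).symm
  simp only [mul_sub, sub_mul, mul_one, one_mul] at this
  linear_combination (norm := noncomm_ring) this

variable [IsAlgClosed K]

theorem rot_pair (h : Ctx ρ p) {x x' : T} {X X' : M4 K} (hX : ρ.L x X) (hX' : ρ.L x' X') {c : K}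
    (e : X + ad X = c • 1) (e' : X' + ad X' = c • 1) (hc : c * c ≠ 4) :
    ∃ y, IsV y ∧ y ≠ 0 ∧ x ∈ Stab ρ y ∧ x' ∈ Stab ρ y ∧
      (x ^ 2 = 1 ∨ x ^ 3 = 1 ∨ x ^ 4 = 1 ∨ x ^ 5 = 1 ∨ x' ^ 2 = 1 ∨ Kr ρ y (x * x' * x⁻¹ * x'⁻¹)) ∧
      (x ^ 4 = 1 → x' ^ 4 = 1 → x ^ 2 = 1 ∨ x' ^ 2 = 1 ∨ Kr ρ y (x ^ 2 * x' ^ 2 * (x ^ 2)⁻¹ * (x' ^ 2)⁻¹)) := by
  obtain ⟨y, hy, h0, hx, hx', h1⟩ : ∃ y, IsV y ∧ y ≠ 0 ∧ X * y = y * X ∧ X' * y = y * X' ∧ (y * y = 1 ∨ y * y = 0) := by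
    obtain ⟨a, b, hab⟩ := rot_fix hX.sp e hc
    obtain ⟨a', b', hab'⟩ := rot_fix hX'.sp e' hc
    obtain ⟨y, hy, h0, h1, h2, h3, h4⟩ := exists_perp a b a' b'
    by_cases k : bt y y / 2 = 0
    · exact ⟨y, hy, h0, hab y hy h1 h2, hab' y hy h3 h4, Or.inr (by rw [hy.sq, k, zero_smul])⟩
    obtain ⟨μ, hμ⟩ := IsAlgClosed.exists_eq_mul_self (bt y y / 2)⁻¹
    refine ⟨μ • y, hy.smul _, smul_ne_zero (fun e => k (inv_eq_zero.1 (by rw [hμ, e, mul_zero]))) h0, by simp [hab y hy h1 h2],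
      by simp [hab' y hy h3 h4], Or.inl ?_⟩
    rw [Matrix.smul_mul, Matrix.mul_smul, hy.sq, smul_smul, smul_smul, ← hμ, inv_mul_cancel₀ k, one_smul]
  have s := (mem_Stab hX).2 hx
  have s' := (mem_Stab hX').2 hx'
  have m1 : x * x' * x⁻¹ * x'⁻¹ ∈ Stab ρ y := mul_mem (mul_mem (mul_mem s s') (inv_mem s)) (inv_mem s')
  have m2 : x ^ 2 * x' ^ 2 * (x ^ 2)⁻¹ * (x' ^ 2)⁻¹ ∈ Stab ρ y :=
    mul_mem (mul_mem (mul_mem (pow_mem s 2) (pow_mem s' 2)) (inv_mem (pow_mem s 2))) (inv_mem (pow_mem s' 2))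
  refine ⟨y, hy, h0, s, s', ?_⟩
  rcases h1 with h1 | h1
  · have r : ∀ {X : M4 K} {x : T} {y : M4 K} {n : ℕ}, ρ.L x X → X + ad X = c • 1 → IsV y → X * y = y * X →
        Sc ρ (1 + y) (x ^ n) → x ^ n = 1 := fun hX e hy hx =>
      Sc.rot hX e hc (by simp [hy.ad]) (one_add_ne hy) (by simp [mul_add, add_mul, hx])
    obtain ⟨a1, a2⟩ := kl_pair h hy h0 (Or.inl ⟨h1, rfl⟩) s s'
    obtain ⟨b1, b2⟩ := kl_pair h hy.neg (neg_ne_zero.2 h0) (Or.inl ⟨by simpa using h1, rfl⟩)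
      ((Stab_neg y).ge s) ((Stab_neg y).ge s')
    have k : ∀ g ∈ Stab ρ y, Sc ρ (1 + y) g → Sc ρ (1 + -y) g → Kr ρ y g := fun g hg a b =>
      (ker_ns hy hg a b).imp_right fun k => Or.inl ⟨h1, k⟩
    have r1 := fun n => r (n := n) hX e hy hx
    have r2 := fun n => r (n := n) hX' e' hy hx'
    have r3 := fun n => r (n := n) hX e hy.neg (by simp [hx])
    have r4 := fun n => r (n := n) hX' e' hy.neg (by simp [hx'])
    refine ⟨?_, fun u v => ?_⟩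
    · by_contra! hh
      obtain ⟨n2, n3, n4, n5, n2', n⟩ := hh
      exact n (k _ m1 (by simpa [mt (r1 _) n2, mt (r1 _) n3, mt (r1 _) n4, mt (r1 _) n5, mt (r2 _) n2'] using a1)
        (by simpa [mt (r3 _) n2, mt (r3 _) n3, mt (r3 _) n4, mt (r3 _) n5, mt (r4 _) n2'] using b1))
    · by_contra! hh
      obtain ⟨n2, n2', n⟩ := hh
      exact n (k _ m2 (((a2 u v).resolve_left (mt (r1 _) n2)).resolve_left (mt (r2 _) n2'))
        (((b2 u v).resolve_left (mt (r3 _) n2)).resolve_left (mt (r4 _) n2')))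
  · obtain ⟨a1, a2⟩ := kl_pair h hy h0 (Or.inr ⟨h1, rfl⟩) s s'
    have k : ∀ g ∈ Stab ρ y, Sc ρ y g → Kr ρ y g := fun g hg a => by
      obtain ⟨Z, hZ, e1, e2⟩ := ker_s hy h0 hg a
      rcases h.u with ⟨-, hq⟩ | ⟨h3, -⟩
      exacts [Or.inl (hZ.eq_one_iff.2 (Or.inl (hq _ _ hZ (ker_mul hy h0 e1 e2)))), Or.inr (Or.inr ⟨h3, Z, hZ, e1, e2⟩)]
    have r1 := fun n => Sc.rot (n := n) hX e hc hy.ad h0 hx
    have r2 := fun n => Sc.rot (n := n) hX' e' hc hy.ad h0 hx'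
    exact ⟨a1.imp (r1 _) (Or.imp (r1 _) (Or.imp (r1 _) (Or.imp (r1 _) (Or.imp (r2 _) (k _ m1))))),
      fun u v => (a2 u v).imp (r1 _) (Or.imp (r2 _) (k _ m2))⟩

theorem rot_order (h : Ctx ρ p) {x : T} {X : M4 K} (hX : ρ.L x X) {c : K} (e : X + ad X = c • 1) (hc : c * c ≠ 4) :
    Al (c * c) := by
  obtain ⟨v2, v3, v4, v5, v6⟩ := rot_vals hX e hc
  by_contra hh
  have n2 : x ^ 2 ≠ 1 := fun k => hh (Or.inl (by rw [v2.1 k, mul_zero]))
  have n3 : x ^ 3 ≠ 1 := fun k => hh (Or.inr (Or.inl (sub_eq_zero.1 (v3.1 k))))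
  have n4 : x ^ 4 ≠ 1 := fun k => hh ((mul_eq_zero.1 (v4.1 k)).elim (fun k => Or.inl (by rw [k, mul_zero]))
    fun k => Or.inr (Or.inr (Or.inl (sub_eq_zero.1 k))))
  have n5 : x ^ 5 ≠ 1 := fun k => hh (Or.inr (Or.inr (Or.inr (v5.1 k))))
  have key : ∀ g, Commute (x ^ 2) (g * x * g⁻¹) ∨ ((3 : K) = 0 ∧ Commute (x ^ 6) (g * x * g⁻¹)) := fun g => by
    obtain ⟨G, hG⟩ := ρ.exL g
    obtain ⟨y, hy, h0, s, -, k, -⟩ := rot_pair h hX (hG.conj hX) e (rot_conj hG.sp e) hc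
    have n2' : (g * x * g⁻¹) ^ 2 ≠ 1 := by rwa [conj_pow, Ne, conj_eq_one_iff]
    generalize g * x * g⁻¹ = x' at k n2'
    simp only [n2, n3, n4, n5, n2', false_or] at k
    obtain ⟨u, hu⟩ : ∃ u, u = x * x' * x⁻¹ * x'⁻¹ := ⟨_, rfl⟩
    rw [← hu] at k
    have e1 : x * x' = u * x' * x := by rw [hu]; group
    have e2 : x * u * x⁻¹ = u⁻¹ → Commute (x ^ 2) x' := fun k => by
      have : x * u = u⁻¹ * x := by rw [← k]; group
      rw [Commute, SemiconjBy, pow_two, mul_assoc, e1, ← mul_assoc, ← mul_assoc, this, mul_assoc u⁻¹, e1]; group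
    rcases k with k | ⟨h1, k⟩ | ⟨h3, k⟩
    · exact Or.inl (e2 (by simp [k]))
    · refine Or.inl (e2 ?_)
      rw [hX.comm_of k (s X hX), mul_inv_cancel_right]
      exact eq_inv_of_mul_eq_one_left ((k.mul k).eq_one_iff.2 (Or.inl h1))
    · obtain ⟨c3, k | k⟩ := k.norm h h3 hy h0 s
      · refine Or.inr ⟨h3, (show Commute (x ^ 3) x' from ?_).pow_left 2 |>.symm.symm |> fun k => by
          simpa [← pow_mul] using k⟩
        have : x * u = u * x := by rw [← mul_inv_eq_iff_eq_mul, k]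
        have k2 : ∀ n, x ^ n * x' = u ^ n * x' * x ^ n := fun n => by
          induction n with
          | zero => simp
          | succ n ih =>
            rw [pow_succ', mul_assoc, ih, ← mul_assoc, ← mul_assoc, (Commute.pow_right this n).eq, mul_assoc _ x, e1]
            group
        rw [Commute, SemiconjBy, k2, c3, one_mul]
      · exact Or.inl (e2 k)
  have n1 : x ≠ 1 := fun k => n2 (by simp [k])
  by_cases h3 : (3 : K) = 0
  · have := v6.1 (cent_one h.hyp.simple h.hyp.perf n1 fun g => (key g).elim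
      (fun k => by simpa [← pow_mul] using (k.pow_left 3).eq) fun k => k.2.eq)
    rw [h3, sub_zero] at this
    simp only [mul_eq_zero, or_self] at this
    rcases this with (k | k) | k
    exacts [n2 (v2.2 k), n3 (v3.2 k), n2 (v2.2 k)]
  · exact n2 (cent_one h.hyp.simple h.hyp.perf n1 fun g => ((key g).resolve_right fun k => h3 k.1).eq)

theorem gram (h : Ctx ρ p) {a b : M4 K} (ha : Rt ρ a) (hb : Rt ρ b) :
    b = a ∨ b = -a ∨ (Al (bt a b * bt a b) ∧ (bt a b * bt a b = 4 → (3 : K) = 0)) := by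
  obtain ⟨s, hs⟩ := ha.ex
  obtain ⟨t, ht⟩ := hb.ex
  have e := rt_rot ha.v hb.v
  by_cases hc : bt a b * bt a b = 4
  swap
  · exact Or.inr (Or.inr ⟨rot_order h (hs.mul ht) e hc, fun k => (hc k).elim⟩)
  rcases h.u with ⟨-, hq⟩ | ⟨h3, -⟩
  swap
  · exact Or.inr (Or.inr ⟨Or.inr (Or.inl (by linear_combination hc + h3)), fun _ => h3⟩)
  have k : ∀ b, Rt ρ b → bt a b = 2 → b = a := fun b hb e => by
    obtain ⟨t, ht⟩ := hb.ex
    have e1 := rot_step (hs.mul ht).sp (rt_rot ha.v hb.v) (n := 1) (a := 1) (b := 0) (by simp)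
    have := hq _ _ (hs.mul ht) (by
      rw [mul_sub, sub_mul, ← pow_two, e1, e]; simp [two_smul]; abel)
    rw [← one_mul b, ← ha.sq, mul_assoc, this, mul_one]
  rcases mul_self_eq_mul_self_iff.1 (hc.trans (by norm_num : (4 : K) = 2 * 2)) with e | e
  · exact Or.inl (k b hb e)
  · exact Or.inr (Or.inl (neg_eq_iff_eq_neg.1 (k _ hb.neg (by simp [e]))))

omit [IsAlgClosed K] in
theorem nine (h : Ctx ρ p) (h3 : (3 : K) = 0) {a c z : M4 K} {l : K} (ha : Rt ρ a) (ha' : Rt ρ (a + z)) (hc : Rt ρ c)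
    (hc' : Rt ρ (c + l • z)) (h0 : z ≠ 0) (hl : l ≠ 0) (hz : bt z z = 0) (h1 : bt a z = 0) (h2 : bt c z = 0) :
    ∃ α μ : K, c = α • a + μ • z := by
  have vz : IsV z := by simpa using ha'.v.sub ha.v
  have zz : z * z = 0 := by rw [vz.sq, hz]; simp
  obtain ⟨s, hs⟩ := ha.ex
  obtain ⟨s', hs'⟩ := ha'.ex
  obtain ⟨t, ht⟩ := hc.ex
  obtain ⟨t', ht'⟩ := hc'.ex
  have l1 : ρ.L (s * s') (1 + a * z) := (hs.mul hs').congr (by rw [mul_add, ha.sq])
  have l2 : ρ.L (t * t') (1 + (l • c) * z) := (ht.mul ht').congr (by rw [mul_add, hc.sq]; simp)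
  have k : ∀ a c : M4 K, IsV c → bt c z = 0 → a * z * (c * z) = 0 := fun a c hc e => by
    rw [hc.anti vz e, mul_neg, mul_assoc, ← mul_assoc z, zz]; simp
  have h2' : bt (l • c) z = 0 := by simp [h2]
  have q1 := k a a ha.v h1
  have q2 := k (l • c) _ (hc.v.smul l) h2'
  have w : ∀ w : M4 K, IsV w → bt w z = 0 → w * z = 0 → ∃ μ : K, w = μ • z := fun w hw e e' =>
    vz.comm hw h0 (by rw [vz.anti hw (by rw [bt_comm, e]), e', neg_zero])
  have ne : ∀ {u : T} {N N' : M4 K}, N * N = 0 → N' * N' = 0 → ρ.L u (1 + N) → ρ.L u (1 + N') → N' = N :=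
    fun {u N N'} q q' l l' => by
      rcases l.uniq l' with e | e
      · exact add_left_cancel e
      · exact (unip_neg (n := 2) (m := 2) (X := 1 + N) (by rw [add_sub_cancel_left, pow_two, q])
          (by rw [← e, add_sub_cancel_left, pow_two, q'])).elim
  have n1 : ∀ {u : T} {a : M4 K}, a * a = 1 → ∀ l : K, l ≠ 0 → (l • a) * z * ((l • a) * z) = 0 →
      ρ.L u (1 + (l • a) * z) → u ≠ 1 := fun {u a} ha l hl q hu e => by
    have := congrArg (a * ·) (ne (N := 0) (by simp) q (by simpa [e] using ρ.oneL) hu)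
    simp only [Matrix.smul_mul, Matrix.mul_smul, ← mul_assoc, ha, one_mul, mul_zero] at this
    exact h0 ((smul_eq_zero.1 this).resolve_left hl)
  have fin : ∀ ε : K, (l • c) * z = (ε • a) * z → ∃ α μ : K, c = α • a + μ • z := fun ε e => by
    obtain ⟨μ, hμ⟩ := w (l • c - ε • a) ((hc.v.smul _).sub (ha.v.smul _)) (by simp [h1, h2]) (by rw [sub_mul, e, sub_self])
    exact ⟨l⁻¹ * ε, l⁻¹ * μ, by rw [mul_smul, mul_smul, ← hμ, ← smul_add, add_sub_cancel, smul_smul,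
      inv_mul_cancel₀ hl, one_smul]⟩
  by_cases e1 : t * t' = s * s'
  · exact fin 1 (by simpa using ne q1 q2 l1 (e1 ▸ l2))
  by_cases e2 : t * t' = (s * s')⁻¹
  · refine fin (-1) ?_
    have : ρ.L (s * s')⁻¹ (1 + -(a * z)) := l1.inv.congr (by simp [ha.v.ad, vz.ad, ha.v.anti vz h1])
    simpa using ne (by simpa using q1) q2 this (e2 ▸ l2)
  refine ((h.u.resolve_left fun k => k.1 h3).2 (nine_dvd (cube_of_sq h3 l1 (by simpa using q1))
    (cube_of_sq h3 l2 (by simpa using q2)) (n1 ha.sq 1 one_ne_zero (by simpa using q1) (by simpa using l1))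
    (l1.comm_of l2 ?_) (n1 hc.sq l hl q2 l2) e1 e2)).elim
  simp only [mul_add, add_mul, k a _ (hc.v.smul l) h2', k (l • c) a ha.v h1]
  noncomm_ring

end Cfsg.Agent.H2.Mi
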