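import Cfsg.Agent.H1.M4Def
import Cfsg.Agent.H2.MiK

/-!
The five-dimensional orthogonal space of traceless self-adjoint `4 × 4` matrices.
-/

set_option autoImplicit false

namespace Cfsg.Agent.H2.Mi

open Matrix Cfsg.Agent.H1.Mit

variable {K : Type*} [Field K]

/-- traceless self-adjoint matrices -/
structure IsV (x : M4 K) : Prop where
  ad : ad x = x
  tr : x.trace = 0

/-- twice the bilinear form -/
def bt (x y : M4 K) : K := (x * y + y * x) 0 0

/-- the general element of `V` -/
def vv (a b c d e : K) : M4 K := !![a, b, c, 0; d, -a, 0, -c; e, 0, -a, b; 0, -e, d, a]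

/-- the projection to `V` -/
noncomputable def av (X : M4 K) : M4 K := X + ad X - (X.trace / 2) • 1

theorem bt_comm (x y : M4 K) : bt x y = bt y x := by rw [bt, bt, add_comm]

@[simp] theorem bt_add_left (x y z : M4 K) : bt (x + y) z = bt x z + bt y z := by
  simp [bt, add_mul, mul_add]; ring
@[simp] theorem bt_add_right (x y z : M4 K) : bt z (x + y) = bt z x + bt z y := by
  simp [bt, add_mul, mul_add]; ring
@[simp] theorem bt_sub_left (x y z : M4 K) : bt (x - y) z = bt x z - bt y z := by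
  simp [bt, sub_mul, mul_sub]; ring
@[simp] theorem bt_sub_right (x y z : M4 K) : bt z (x - y) = bt z x - bt z y := by
  simp [bt, sub_mul, mul_sub]; ring
@[simp] theorem bt_neg_left (x z : M4 K) : bt (-x) z = -bt x z := by simp [bt]; ring
@[simp] theorem bt_neg_right (x z : M4 K) : bt z (-x) = -bt z x := by simp [bt]; ring
@[simp] theorem bt_smul_left (c : K) (x z : M4 K) : bt (c • x) z = c * bt x z := by simp [bt]; ring
@[simp] theorem bt_smul_right (c : K) (x z : M4 K) : bt z (c • x) = c * bt z x := by simp [bt]; ring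
@[simp] theorem bt_zero_left (z : M4 K) : bt 0 z = 0 := by simp [bt]
@[simp] theorem bt_zero_right (z : M4 K) : bt z 0 = 0 := by simp [bt]

theorem bt_of {x y : M4 K} {c : K} (h : x * y + y * x = c • 1) : bt x y = c := by rw [bt, h]; simp

theorem bt_of_anti {x y : M4 K} (h : x * y = -(y * x)) : bt x y = 0 := bt_of (by simp [h])

theorem bt_of_sq {x : M4 K} {c : K} (h : x * x = c • 1) : bt x x = 2 * c := bt_of (by rw [h, ← add_smul, two_mul])

theorem isV_vv (a b c d e : K) : IsV (vv a b c d e) :=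
  ⟨by rw [ad_eq]; unfold vv; mat4, by simp [vv, trace, Fin.sum_univ_four]⟩

theorem bt_vv (a b c d e a' b' c' d' e' : K) :
    bt (vv a b c d e) (vv a' b' c' d' e') = 2 * a * a' + b * d' + d * b' + c * e' + e * c' := by
  simp [bt, vv, Matrix.mul_apply, Fin.sum_univ_four]; ring

namespace IsV

variable {x y X : M4 K}

theorem zero : IsV (0 : M4 K) := ⟨by simp, by simp⟩
theorem add (hx : IsV x) (hy : IsV y) : IsV (x + y) := ⟨by simp [hx.ad, hy.ad], by simp [hx.tr, hy.tr]⟩
theorem sub (hx : IsV x) (hy : IsV y) : IsV (x - y) := ⟨by simp [hx.ad, hy.ad], by simp [hx.tr, hy.tr]⟩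
theorem neg (hx : IsV x) : IsV (-x) := ⟨by simp [hx.ad], by simp [hx.tr]⟩
theorem smul (hx : IsV x) (c : K) : IsV (c • x) := ⟨by simp [hx.ad], by simp [hx.tr]⟩

theorem conj (hx : IsV x) (hX : Sp X) : IsV (X * x * H1.Mit.ad X) :=
  ⟨by simp [hx.ad, mul_assoc], by rw [trace_mul_comm, ← mul_assoc, hX.left, one_mul, hx.tr]⟩

variable [NeZero (2 : K)]

theorem eq (hx : IsV x) : x = vv (x 0 0) (x 0 1) (x 0 2) (x 1 0) (x 2 0) := by
  have h := hx.ad
  have t := hx.tr
  rw [ad_eq] at h
  have e := fun i j => congrFun (congrFun h i) j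
  have e00 := e 0 0; have e01 := e 0 1; have e02 := e 0 2; have e03 := e 0 3; have e10 := e 1 0; have e11 := e 1 1
  have e12 := e 1 2; have e20 := e 2 0; have e21 := e 2 1; have e30 := e 3 0
  simp [trace, Fin.sum_univ_four] at e00 e01 e02 e03 e10 e11 e12 e20 e21 e30 t
  have k : ∀ a : K, -a = a → a = 0 := fun a h => (mul_eq_zero.1 (by linear_combination -h : 2 * a = 0)).resolve_left
    two_ne_zero
  have : x 1 1 = -x 0 0 := mul_left_cancel₀ (two_ne_zero (α := K)) (by linear_combination t - e00 - e11)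
  ext i j; fin_cases i <;> fin_cases j <;> simp [vv, k _ e03, k _ e12, k _ e21, k _ e30, *] <;>
    first | linear_combination -e02 | linear_combination -e20

theorem cliff (hx : IsV x) (hy : IsV y) : x * y + y * x = bt x y • 1 := by
  rw [hx.eq, hy.eq, bt_vv]; unfold vv; mat4

theorem anti (hx : IsV x) (hy : IsV y) (h : bt x y = 0) : x * y = -(y * x) :=
  eq_neg_of_add_eq_zero_left (by rw [hx.cliff hy, h, zero_smul])

theorem sq (hx : IsV x) : x * x = (bt x x / 2) • 1 := by
  refine smul_right_injective _ (two_ne_zero (α := K)) ?_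
  simp only [smul_smul]
  rw [two_smul, hx.cliff hx, mul_div_cancel₀ _ two_ne_zero]

theorem bt_conj (hx : IsV x) (hy : IsV y) (hX : Sp X) : bt (X * x * H1.Mit.ad X) (X * y * H1.Mit.ad X) = bt x y :=
  bt_of (by
    have : ∀ x y : M4 K, X * x * H1.Mit.ad X * (X * y * H1.Mit.ad X) = X * (x * y) * H1.Mit.ad X := fun x y => by
      rw [show X * x * H1.Mit.ad X * (X * y * H1.Mit.ad X) = X * x * (H1.Mit.ad X * X) * y * H1.Mit.ad X by
        simp only [mul_assoc], hX.left]; simp only [mul_assoc, one_mul]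
    rw [this, this, ← add_mul, ← mul_add, hx.cliff hy]; simp [hX.right])

theorem nd (hx : IsV x) (h : ∀ z, IsV z → bt x z = 0) : x = 0 := by
  have h1 := h _ (isV_vv 1 0 0 0 0)
  have h2 := h _ (isV_vv 0 1 0 0 0)
  have h3 := h _ (isV_vv 0 0 1 0 0)
  have h4 := h _ (isV_vv 0 0 0 1 0)
  have h5 := h _ (isV_vv 0 0 0 0 1)
  rw [hx.eq, bt_vv] at h1 h2 h3 h4 h5
  simp at h1 h2 h3 h4 h5
  rw [hx.eq, h1.resolve_left two_ne_zero, h2, h3, h4, h5]; unfold vv; mat4

theorem dual (hx : IsV x) (h : x ≠ 0) : ∃ z, IsV z ∧ x * z + z * x = 1 := by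
  by_contra! k
  refine h (hx.nd fun z hz => by_contra fun e => k ((bt x z)⁻¹ • z) (hz.smul _) ?_)
  rw [hx.cliff (hz.smul _), bt_smul_right, inv_mul_cancel₀ e, one_smul]

theorem comm (hx : IsV x) (hy : IsV y) (h0 : x ≠ 0) (h : x * y = y * x) : ∃ c : K, y = c • x := by
  obtain ⟨z, hz, e⟩ := hx.dual h0
  have e1 : x * y = (bt x y / 2) • 1 := by
    refine smul_right_injective _ (two_ne_zero (α := K)) ?_
    simp only [smul_smul]
    rw [two_smul, mul_div_cancel₀ _ two_ne_zero, ← hx.cliff hy, h]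
  refine ⟨bt z y, ?_⟩
  calc y = (x * z + z * x) * y := by rw [e, one_mul]
    _ = x * (z * y + y * z) := by
      rw [add_mul, mul_add, mul_assoc z, ← mul_assoc x y, e1, mul_assoc]; simp
    _ = _ := by rw [hz.cliff hy]; simp

theorem eq_smul_one (hx : IsV x) {c : K} (h : x = c • 1) : x = 0 := by
  have := hx.tr
  rw [h] at this ⊢
  simp only [trace_smul, trace_one, Fintype.card_fin, smul_eq_mul, mul_eq_zero] at this
  rw [this.resolve_right (by
    rw [show ((4 : ℕ) : K) = 2 * 2 by norm_num]; exact mul_ne_zero two_ne_zero two_ne_zero), zero_smul]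

end IsV

variable [NeZero (2 : K)]

theorem isV_av (X : M4 K) : IsV (av X) :=
  ⟨by simp [av, add_comm], by simp [av]; field_simp; norm_num⟩

omit [NeZero (2 : K)] in
theorem av_comm {X y : M4 K} (hX : Sp X) (h : X * y = y * X) : y * av X = av X * y := by
  have : y * ad X = ad X * y := by
    calc y * ad X = ad X * (X * y) * ad X := by rw [← mul_assoc, hX.left, one_mul]
      _ = _ := by rw [h, mul_assoc, mul_assoc, hX.right, mul_one]
  simp [av, mul_add, add_mul, mul_sub, sub_mul, h, this]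

/-- an involution of the symplectic group is `±1` or lies in `V` -/
theorem root_cases {X : M4 K} (hX : Sp X) (h : X * X = 1) : X = 1 ∨ X = -1 ∨ IsV X := by
  have e : ad X = X := by rw [← mul_one (ad X), ← h, ← mul_assoc, hX.left, one_mul]
  by_cases ht : X.trace = 0
  · exact Or.inr (Or.inr ⟨e, ht⟩)
  have h1 := isV_av X
  have e1 : X = (1 / 2 : K) • (av X + (X.trace / 2) • 1) := by
    rw [av, e, sub_add_cancel, ← two_smul K X, smul_smul, one_div, inv_mul_cancel₀ two_ne_zero, one_smul]
  have e2 : av X = 0 := by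
    refine h1.eq_smul_one (c := (4 - bt (av X) (av X) / 2 - (X.trace / 2) ^ 2) / X.trace) ?_
    refine smul_right_injective _ ht ?_
    have : (av X + (X.trace / 2) • 1) * (av X + (X.trace / 2) • 1) = (4 : K) • 1 := by
      rw [av, e, sub_add_cancel, add_mul, mul_add, h]; module
    rw [add_mul, mul_add, mul_add, h1.sq] at this
    simp only [smul_smul, mul_div_cancel₀ _ ht, Matrix.mul_smul, Matrix.smul_mul, mul_one, one_mul] at this ⊢
    rw [sub_smul, sub_smul, ← this, pow_two]
    have : X.trace = X.trace / 2 + X.trace / 2 := (add_halves _).symm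
    conv_lhs => rw [this, add_smul]
    abel
  rw [e2, zero_add, smul_smul] at e1
  generalize 1 / 2 * (X.trace / 2) = c at e1
  subst e1
  have := congrFun (congrFun h 0) 0
  simp at this
  rcases mul_self_eq_one_iff.1 this with rfl | rfl <;> simp

omit [NeZero (2 : K)] in
theorem trace_unip {X : M4 K} {n : ℕ} (h : (X - 1) ^ n = 0) : X.trace = 4 := by
  have := (Matrix.isNilpotent_trace_of_isNilpotent ⟨n, h⟩).eq_zero
  simpa [sub_eq_zero] using this

theorem av_unip {X : M4 K} (hX : Sp X) {n : ℕ} (h : (X - 1) ^ n = 0) : av X = ad X * ((X - 1) * (X - 1)) := by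
  rw [av, trace_unip h, show (4 : K) / 2 = 2 by field_simp; norm_num]
  simp only [mul_sub, sub_mul, ← mul_assoc, hX.left, one_mul, mul_one, two_smul]
  abel

theorem sq_of_cube {X : M4 K} (hX : Sp X) (h : (X - 1) ^ 3 = 0) : (X - 1) * (X - 1) = 0 := by
  have e := av_unip hX h
  have hc : (X - 1) * ad X = ad X * (X - 1) := by simp [mul_sub, sub_mul, hX.left, hX.right]
  have h3 : (X - 1) * ((X - 1) * (X - 1)) = 0 := by rw [← h]; noncomm_ring
  have e1 : (X - 1) * av X = 0 := by rw [e, ← mul_assoc, hc, mul_assoc, h3, mul_zero]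
  have e2 : av X * (X - 1) = 0 := by rw [e, mul_assoc, mul_assoc, h3, mul_zero]
  have e3 : av X * av X = 0 := by
    conv_lhs => lhs; rw [e]
    rw [mul_assoc, mul_assoc, e1]; simp
  by_cases h0 : av X = 0
  · have := congrArg (X * ·) (e.symm.trans h0)
    simpa [← mul_assoc, hX.right] using this
  obtain ⟨z, -, hz⟩ := (isV_av X).dual h0
  calc (X - 1) * (X - 1) = ((X - 1) * (av X * z + z * av X)) * ((av X * z + z * av X) * (X - 1)) := by
        rw [hz, mul_one, one_mul]
    _ = (X - 1) * z * (av X * av X) * z * (X - 1) := by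
        rw [mul_add, ← mul_assoc (X - 1) (av X), e1, add_mul (av X * z), mul_assoc z, e2]; simp [mul_assoc]
    _ = 0 := by rw [e3]; simp

/-- four vectors have a common perpendicular -/
theorem exists_perp (a b c d : M4 K) :
    ∃ y, IsV y ∧ y ≠ 0 ∧ bt y a = 0 ∧ bt y b = 0 ∧ bt y c = 0 ∧ bt y d = 0 := by
  let f : (Fin 5 → K) →ₗ[K] M4 K :=
    { toFun := fun u => vv (u 0) (u 1) (u 2) (u 3) (u 4)
      map_add' := fun u v => by unfold vv; mat4
      map_smul' := fun u v => by unfold vv; mat4 }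
  let g : M4 K →ₗ[K] (Fin 4 → K) :=
    { toFun := fun y i => bt y (![a, b, c, d] i)
      map_add' := fun u v => by ext; simp
      map_smul' := fun u v => by ext; simp }
  obtain ⟨u, hu, h0⟩ := (Submodule.ne_bot_iff _).1 (LinearMap.ker_ne_bot_of_finrank_lt (f := g ∘ₗ f) (by simp))
  refine ⟨f u, isV_vv _ _ _ _ _, fun e => h0 ?_, congrFun hu 0, congrFun hu 1, congrFun hu 2, congrFun hu 3⟩
  have e' := fun i j => congrFun (congrFun e i) j
  ext i; fin_cases i
  exacts [e' 0 0, e' 0 1, e' 0 2, e' 1 0, e' 2 0]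

/-- the fixed space of a rotation has codimension at most two -/
theorem rot_fix [IsAlgClosed K] {X : M4 K} (hX : Sp X) {c : K} (h : X + ad X = c • 1) (hc : c * c ≠ 4) :
    ∃ p q, ∀ v, IsV v → bt v p = 0 → bt v q = 0 → X * v = v * X := by
  obtain ⟨μ, hμ⟩ := IsAlgClosed.exists_eq_mul_self (c * c - 4)
  have h0 : μ ≠ 0 := fun e => hc (by linear_combination hμ + μ * e)
  obtain ⟨j, hj⟩ : ∃ j, j = X - ad X := ⟨_, rfl⟩
  have j1 : ad j = -j := by simp [hj]
  have j2 : j * j = (μ * μ) • 1 := by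
    have : j * j = (X + ad X) * (X + ad X) - (4 : K) • 1 := by
      simp only [hj, mul_add, add_mul, mul_sub, sub_mul, hX.left, hX.right]; module
    rw [this, h, ← hμ]; simp [sub_smul, smul_smul]
  have key : ∀ μ : K, μ ≠ 0 → j * j = (μ * μ) • 1 → ∃ p, ∀ w, IsV w → j * w = μ • w → ∃ l : K, w = l • p := by
    intro μ h0 j2
    by_cases k : ∃ p, IsV p ∧ j * p = μ • p ∧ p ≠ 0
    · obtain ⟨p, hp, e, hp0⟩ := k
      have : ∀ p w : M4 K, IsV p → j * p = μ • p → j * w = μ • w → p * w = 0 := fun p w hp e e' => by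
        have e1 := congrArg ad e
        rw [ad_mul, ad_smul, hp.ad, j1, mul_neg] at e1
        have e2 : (2 * μ) • (p * w) = 0 := by
          rw [two_mul, add_smul]
          conv_lhs => lhs; rw [← Matrix.smul_mul, ← e1]
          rw [← Matrix.mul_smul, ← e']; simp [mul_assoc]
        exact (smul_eq_zero.1 e2).resolve_left (mul_ne_zero two_ne_zero h0)
      exact ⟨p, fun w hw e' => hp.comm hw hp0 (by rw [this p w hp e e', this w p hw e' e])⟩
    · exact ⟨0, fun w hw e => ⟨0, by_contra fun k' => k ⟨w, hw, e, by simpa using k'⟩⟩⟩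
  obtain ⟨p, hp⟩ := key μ h0 j2
  obtain ⟨q, hq⟩ := key (-μ) (neg_ne_zero.2 h0) (by simpa using j2)
  have hφ : ∀ w, IsV w → IsV (j * w - w * j) := fun w hw =>
    ⟨by simp [hw.ad, j1]; abel, by rw [trace_sub, trace_mul_comm, sub_self]⟩
  refine ⟨p, q, fun v hv h1 h2 => ?_⟩
  have : j * v - v * j = 0 := (hφ v hv).nd fun w hw => by
    obtain ⟨u, hu⟩ : ∃ u, u = j * w - w * j := ⟨_, rfl⟩
    have u1 : IsV u := hu ▸ hφ w hw
    have u2 : u * j = -(j * u) := by
      simp only [hu, mul_sub, sub_mul, mul_assoc, j2, ← mul_assoc j j]; simp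
    have u3 : IsV (j * u) := ⟨by simp [u1.ad, j1, u2], by
      have := congrArg trace u2
      rw [trace_neg, trace_mul_comm] at this
      exact (mul_eq_zero.1 (by linear_combination this : 2 * (j * u).trace = 0)).resolve_left two_ne_zero⟩
    obtain ⟨l, hl⟩ := hp (μ • u + j * u) ((u1.smul _).add u3) (by
      rw [mul_add, ← mul_assoc, j2]; simp [smul_smul, add_comm])
    obtain ⟨l', hl'⟩ := hq (μ • u - j * u) ((u1.smul _).sub u3) (by
      rw [mul_sub, ← mul_assoc, j2]; simp [smul_smul, smul_sub]; abel)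
    have e1 := congrArg (bt v) hl
    have e2 := congrArg (bt v) hl'
    simp only [bt_add_right, bt_sub_right, bt_smul_right, h1, h2] at e1 e2
    have e3 : bt v u = 0 := (mul_eq_zero.1 (by linear_combination e1 + e2 : 2 * μ * bt v u = 0)).resolve_left
      (mul_ne_zero two_ne_zero h0)
    have e4 := hv.anti u1 e3
    have e5 := hv.cliff hw
    refine bt_of_anti (eq_neg_of_add_eq_zero_left ?_)
    have : (j * v - v * j) * w + w * (j * v - v * j) = j * (v * w + w * v) - (v * w + w * v) * j - (v * u + u * v) := by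
      rw [hu]; noncomm_ring
    rw [this, e5, e4]; simp
  have e : (2 : K) • X = c • 1 + j := by rw [← h, hj, two_smul]; abel
  refine smul_right_injective _ (two_ne_zero (α := K)) ?_
  simp only [← Matrix.smul_mul, ← Matrix.mul_smul v, e, add_mul, mul_add, sub_eq_zero.1 this]; simp

end Cfsg.Agent.H2.Mi
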