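import Cfsg.Agent.H2.SUMax

set_option autoImplicit false
set_option linter.unusedSectionVars false

/-! Coordinates in a computable model of a small field. -/

namespace Cfsg.Agent.H2.Cases

open Module Cfsg.Agent.Form Cfsg.Agent.H7
open scoped Matrix MatrixGroups

/-- a model field together with a basis -/
structure Mdl (K : Type*) [CommRing K] (κ ι : Type) (F : Type*) [Field F] where
  φ : K ≃+* F
  b : Basis κ F (ι → F)

/-- the form with Gram matrix `G` -/
def fm {K : Type*} {κ : Type} [CommRing K] [Fintype κ] (G : Matrix κ κ K) (σ₀ : K → K) (u v : κ → K) : K :=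
  ∑ i, ∑ j, u i * G i j * σ₀ (v j)

namespace Mdl

variable {K : Type*} [CommRing K] {κ ι : Type} [Fintype κ] [DecidableEq κ] [Fintype ι] [DecidableEq ι]
  {F : Type*} [Field F] (M : Mdl K κ ι F)

/-- the vector with given coordinates -/
noncomputable def X (v : κ → K) : ι → F := M.b.equivFun.symm fun i => M.φ (v i)

theorem repr_X (v : κ → K) (i : κ) : M.b.repr (M.X v) i = M.φ (v i) :=
  congrFun (M.b.equivFun.apply_symm_apply fun i => M.φ (v i)) i

theorem X_eq (v : κ → K) : M.X v = ∑ i, M.φ (v i) • M.b i := M.b.equivFun_symm_apply _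

theorem X_inj : Function.Injective M.X := fun u v h => funext fun i => M.φ.injective (by
  rw [← M.repr_X, h, M.repr_X])

theorem X_surj : Function.Surjective M.X := fun x => ⟨fun i => M.φ.symm (M.b.repr x i), by
  apply M.b.equivFun.injective
  ext i; simp [repr_X]⟩

theorem X_add (u v : κ → K) : M.X (u + v) = M.X u + M.X v := by
  simp [X_eq, add_smul, Finset.sum_add_distrib]

theorem X_smul (c : K) (v : κ → K) : M.X (c • v) = M.φ c • M.X v := by
  simp [X_eq, Finset.smul_sum, smul_smul]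

theorem X_zero : M.X 0 = 0 := by simp [X_eq]

theorem X_single (i : κ) : M.X (Pi.single i 1) = M.b i := by
  apply M.b.equivFun.injective
  ext j
  simp [repr_X, Pi.single_apply, Finsupp.single_apply, eq_comm, apply_ite M.φ]

/-- coordinates of a matrix -/
noncomputable def mm (g : Matrix ι ι F) : Matrix κ κ K :=
  (LinearMap.toMatrix M.b M.b (Matrix.toLin' g)).map M.φ.symm

theorem mm_apply (g : Matrix ι ι F) (i j : κ) : M.φ (M.mm g i j) = M.b.repr (g *ᵥ M.b j) i := by
  simp [mm, LinearMap.toMatrix_apply]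

theorem mm_X (g : Matrix ι ι F) (v : κ → K) : g *ᵥ M.X v = M.X (M.mm g *ᵥ v) := by
  apply M.b.equivFun.injective
  ext i
  rw [Basis.equivFun_apply, Basis.equivFun_apply, repr_X, X_eq, Matrix.mulVec_sum]
  simp [Matrix.mulVec_smul, Matrix.mulVec, dotProduct, mm_apply, mul_comm]

theorem mm_eq {g : Matrix ι ι F} {A : Matrix κ κ K} (h : ∀ j, g *ᵥ M.b j = M.X (fun i => A i j)) :
    M.mm g = A := by
  ext i j
  apply M.φ.injective
  rw [mm_apply, h, repr_X]

theorem mm_col (g : Matrix ι ι F) (j : κ) : g *ᵥ M.b j = M.X (fun i => M.mm g i j) := by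
  rw [← X_single, mm_X, Matrix.mulVec_single_one]; rfl

theorem mm_inj : Function.Injective M.mm := fun g h e => matrix_ext_mulVec fun v => by
  obtain ⟨v, rfl⟩ := M.X_surj v
  rw [mm_X, mm_X, e]

theorem mm_surj : Function.Surjective M.mm := fun A =>
  ⟨LinearMap.toMatrix' (Matrix.toLin M.b M.b (A.map M.φ)), by
    ext i j; simp [mm]⟩

theorem mm_mul (g h : Matrix ι ι F) : M.mm (g * h) = M.mm g * M.mm h := M.mm_eq fun j => by
  rw [← Matrix.mulVec_mulVec, mm_col, mm_X]; rfl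

theorem mm_add (g h : Matrix ι ι F) : M.mm (g + h) = M.mm g + M.mm h := M.mm_eq fun j => by
  rw [Matrix.add_mulVec, mm_col, mm_col, ← X_add]; rfl

theorem mm_smul (c : K) (h : Matrix ι ι F) : M.mm (M.φ c • h) = c • M.mm h := M.mm_eq fun j => by
  rw [Matrix.smul_mulVec, mm_col, ← X_smul]; rfl

theorem mm_one : M.mm 1 = 1 := M.mm_eq fun j => by
  rw [Matrix.one_mulVec, ← X_single]; congr 1; ext i; simp [Matrix.one_apply, Pi.single_apply]

theorem mm_pow (g : Matrix ι ι F) (n : ℕ) : M.mm (g ^ n) = M.mm g ^ n := by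
  induction n with
  | zero => simp [mm_one]
  | succ n ih => rw [pow_succ, pow_succ, mm_mul, ih]

theorem det_mm (g : Matrix ι ι F) : M.φ (M.mm g).det = g.det := by
  rw [RingEquiv.map_det, ← LinearMap.det_toLin' g, ← LinearMap.det_toMatrix M.b]
  congr 1; ext i j; simp [mm]

theorem exists_md {A A' : Matrix κ κ K} (h : A * A' = 1) : ∃ g : GL ι F, M.mm g = A := by
  obtain ⟨g, rfl⟩ := M.mm_surj A
  obtain ⟨g', rfl⟩ := M.mm_surj A'
  rw [← mm_mul, ← mm_one M] at h
  have h1 := M.mm_inj h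
  exact ⟨⟨g, g', h1, mul_eq_one_comm.1 h1⟩, rfl⟩

theorem mem_SL {g : GL ι F} : g ∈ Geo.specialLinear ι F ↔ (M.mm g).det = 1 := by
  rw [← M.φ.injective.eq_iff, det_mm, map_one, Geo.specialLinear, MonoidHom.mem_ker, Units.ext_iff]; rfl

variable {P : FP F} {S : PQ P (ι → F)} {σ₀ : K → K} {G : Matrix κ κ K}

/-- the form is given by `G` -/
structure Gram (S : PQ P (ι → F)) (σ₀ : K → K) (G : Matrix κ κ K) : Prop where
  σ : ∀ a, M.φ (σ₀ a) = P.σ (M.φ a)
  gram : ∀ i j, S.B (M.b i) (M.b j) = M.φ (G i j)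

variable {M}

theorem Gram.B_X (h : M.Gram S σ₀ G) (u v : κ → K) : S.B (M.X u) (M.X v) = M.φ (fm G σ₀ u v) := by
  simp only [X_eq, fm, S.B_sum_left, S.B_sum_right, S.B_smul_left, S.B_smul_right, h.gram, map_sum, map_mul, h.σ,
    Finset.mul_sum]
  exact Finset.sum_congr rfl fun i _ => Finset.sum_congr rfl fun j _ => by ring

theorem Gram.fm_mm (h : M.Gram S σ₀ G) {g : GL ι F} (hg : g ∈ Asch.IsoB S) (u v : κ → K) :
    fm G σ₀ (M.mm g *ᵥ u) (M.mm g *ᵥ v) = fm G σ₀ u v := M.φ.injective (by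
  rw [← h.B_X, ← h.B_X, ← mm_X, ← mm_X, Asch.mem_IsoB.1 hg])

theorem Gram.fm_col (h : M.Gram S σ₀ G) {g : GL ι F} (hg : g ∈ Asch.IsoB S) (i j : κ) :
    fm G σ₀ (fun k => M.mm g k i) (fun k => M.mm g k j) = G i j := M.φ.injective (by
  rw [← h.B_X, ← mm_col, ← mm_col, Asch.mem_IsoB.1 hg, h.gram])

theorem Gram.mem_IsoB (h : M.Gram S σ₀ G) {g : GL ι F}
    (hg : ∀ i j, fm G σ₀ (fun k => M.mm g k i) (fun k => M.mm g k j) = G i j) : g ∈ Asch.IsoB S := by
  have h1 : ∀ i j, S.B (g.val *ᵥ M.b i) (g.val *ᵥ M.b j) = S.B (M.b i) (M.b j) := fun i j => by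
    rw [mm_col, mm_col, h.B_X, hg, h.gram]
  refine Asch.mem_IsoB.2 fun u v => ?_
  rw [← M.b.sum_repr u, ← M.b.sum_repr v]
  simp only [Matrix.mulVec_sum, Matrix.mulVec_smul, S.B_sum_left, S.B_sum_right, S.B_smul_left, S.B_smul_right, h1]

theorem Gram.exists_iso (h : M.Gram S σ₀ G) {A A' : Matrix κ κ K} (h0 : A * A' = 1)
    (hA : ∀ i j, fm G σ₀ (fun k => A k i) (fun k => A k j) = G i j) : ∃ g ∈ Asch.IsoB S, M.mm g = A := by
  obtain ⟨g, rfl⟩ := M.exists_md h0
  exact ⟨g, h.mem_IsoB hA, rfl⟩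

variable (M)

/-- a matrix preserves a relation -/
def Pres (R : (κ → K) → (κ → K) → Prop) (A : Matrix κ κ K) : Prop := ∀ u v, R u v → R (A *ᵥ u) (A *ᵥ v)

theorem Pres.mul {R : (κ → K) → (κ → K) → Prop} {A B : Matrix κ κ K} (ha : Pres R A) (hb : Pres R B) :
    Pres R (A * B) := fun u v h => by simpa using ha _ _ (hb u v h)

theorem Pres.pow {R : (κ → K) → (κ → K) → Prop} {A : Matrix κ κ K} (ha : Pres R A) (n : ℕ) : Pres R (A ^ n) := by
  induction n with
  | zero => exact fun u v h => by simpa using h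
  | succ n ih => rw [pow_succ]; exact ih.mul ha

/-- the elements preserving a relation -/
def pres [Finite F] (R : (κ → K) → (κ → K) → Prop) : Subgroup (GL ι F) where
  carrier := {g | Pres R (M.mm g)}
  one_mem' := fun u v h => by simpa [mm_one] using h
  mul_mem' := fun {a b} ha hb => by
    change Pres R (M.mm (a.val * b.val))
    rw [mm_mul]; exact Pres.mul ha hb
  inv_mem' := fun {a} ha => by
    have h : a⁻¹ = a ^ (orderOf a - 1) := by
      rw [inv_eq_iff_mul_eq_one, ← pow_succ', Nat.sub_add_cancel (orderOf_pos a), pow_orderOf_eq_one]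
    change Pres R (M.mm (a⁻¹).val)
    rw [h, Units.val_pow_eq_pow_val, mm_pow]
    exact Pres.pow ha _

theorem not_max [Finite F] {G H : Subgroup (GL ι F)} (hH : Geo.IsMaximalIn G H) (R : (κ → K) → (κ → K) → Prop)
    (h : ∀ g ∈ H, Pres R (M.mm g)) (h1 : ∃ g ∈ G, Pres R (M.mm g) ∧ g ∉ H)
    (h2 : ∃ g ∈ G, ¬ Pres R (M.mm g)) : False := by
  obtain ⟨g, a1, a2, a3⟩ := h1
  obtain ⟨k, b1, b2⟩ := h2
  exact not_strict hH (M := M.pres R) h (fun hle => b2 (hle b1)) a1 a2 a3

/-- the multiples of a list of vectors -/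
def Pts (L : List (κ → K)) (u _v : κ → K) : Prop := ∃ p ∈ L, ∃ c : K, u = c • p

theorem pres_pts {L : List (κ → K)} {A : Matrix κ κ K} (h : ∀ p ∈ L, ∃ p' ∈ L, ∃ c : K, A *ᵥ p = c • p') :
    Pres (Pts L) A := by
  rintro _ v ⟨p, hp, c, rfl⟩
  obtain ⟨p', hp', c', e⟩ := h p hp
  exact ⟨p', hp', c * c', by rw [Matrix.mulVec_smul, e, smul_smul]⟩

theorem Pres.smul_pts {L : List (κ → K)} {A : Matrix κ κ K} (h : Pres (Pts L) A) (c : K) :
    Pres (Pts L) (c • A) := by
  intro u v hu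
  obtain ⟨p, hp, d, e⟩ := h u v hu
  exact ⟨p, hp, c * d, by rw [Matrix.smul_mulVec, e, smul_smul]⟩

end Mdl

section basis
variable {F : Type*} [Field F] {V : Type*} [AddCommGroup V] [Module F V] [FiniteDimensional F V] {P : FP F}

theorem exists_basis_of_gram (S : PQ P V) {κ : Type*} [Fintype κ] [DecidableEq κ] (v w : κ → V)
    (h : ∀ i j, i ≠ j → S.B (v i) (w j) = 0) (h1 : ∀ i, S.B (v i) (w i) ≠ 0)
    (hn : Fintype.card κ = finrank F V) : ∃ b : Basis κ F V, ∀ i, b i = v i := by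
  have hli : LinearIndependent F v := LinearIndependent.of_pairwise_dual_eq_zero_one v
    (fun i => (S.B (v i) (w i))⁻¹ • S.lin (w i)) (fun i j hij => by simp [h j i hij.symm])
    (fun i => by simp [h1 i])
  cases isEmpty_or_nonempty κ
  · have : Subsingleton V := Module.finrank_zero_iff.1 (by rw [← hn]; simp)
    exact ⟨Basis.empty V, fun i => isEmptyElim i⟩
  · exact ⟨basisOfLinearIndependentOfCardEqFinrank hli hn, fun i => by simp⟩

end basis

end Cfsg.Agent.H2.Cases
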