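import Cfsg.Agent.H2.NFr
import Cfsg.Agent.H3.S7a

/-!
Class six in `SL₇(q)`: reduction to the standard model.
-/

set_option autoImplicit false

namespace Cfsg.Agent.H2.NF

open H3.S7

/-- clause five of the list of geometric maximal subgroups of `SL₇(q)` -/
theorem clause5 {F : Type*} [Field F] [Fintype F]
    (core : ∀ (o : Om7 F) (p : ℕ) (M : Subgroup (G7 F)), p.Prime → CharP F p →
      (Fintype.card F = p ∨ (Fintype.card F = p ^ 3 ∧ (p % 7 = 2 ∨ p % 7 = 4))) → (∀ g ∈ M, g.val.det = 1) →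
      (∀ g ∈ Geo.subgroupNormalizer o.R, g.val.det = 1 → g ∈ M) → ((2 : F) ≠ 0 ∨ Fintype.card F = 8) →
      Geo.specialLinear I F ≤ M ∨ M ≤ Geo.subgroupNormalizer o.R)
    (hF : ∃ p : ℕ, p.Prime ∧ CharP F p ∧ ((Fintype.card F = p ∧ p % 7 = 1) ∨
      (Fintype.card F = p ^ 3 ∧ (p % 7 = 2 ∨ p % 7 = 4))))
    (R : Subgroup (GL (Fin 7) F)) (hR : Geo.IsLinearSymplecticTypeData 7 R) :
    Geo.IsMaximalIn (Geo.specialLinear (Fin 7) F) (Geo.subgroupNormalizer R ⊓ Geo.specialLinear (Fin 7) F) := by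
  obtain ⟨p, hp, hc, hq⟩ := hF
  refine es_max7 (fun ω hω => ⟨(⟨ω, hω⟩ : Om7 F).a, b F, (⟨ω, hω⟩ : Om7 F).a_val, rfl, fun M h1 h2 =>
    core ⟨ω, hω⟩ p M hp hc (hq.imp_left And.left) h1 h2 (or_iff_not_imp_left.2 fun h => ?_)⟩) R hR
  obtain rfl : p = 2 := (Nat.prime_dvd_prime_iff_eq hp Nat.prime_two).1
    ((CharP.cast_eq_zero_iff F p 2).1 (by simpa using h))
  exact (hq.resolve_left fun h => absurd h.2 (by norm_num)).1

end Cfsg.Agent.H2.NF
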