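import Cfsg.Agent.H8.L5k

/-!
Normal form of an extraspecial group of order `r ^ 3` in dimension `r`.
-/

set_option autoImplicit false
set_option linter.unusedSectionVars false
set_option linter.unusedSimpArgs false

namespace Cfsg.Agent.H2.NF

open Matrix Subgroup Module
open scoped commutatorElement

variable {F : Type*} [Field F] {r : ℕ} [hr : Fact r.Prime]

/-- commuting up to a scalar -/
def Cm (x y : GL (ZMod r) F) (c : F) : Prop := x.val * y.val = c • (y.val * x.val)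

theorem Cm.mul {x x' y : GL (ZMod r) F} {c c' : F} (h : Cm x y c) (h' : Cm x' y c') : Cm (x * x') y (c * c') := by
  rw [Cm, Units.val_mul, mul_assoc, h', mul_smul_comm, ← mul_assoc, h, smul_mul_assoc, smul_smul, mul_assoc, mul_comm c]

theorem Cm.pow {x y : GL (ZMod r) F} {c : F} (h : Cm x y c) (n : ℕ) : Cm (x ^ n) y (c ^ n) := by
  induction n with
  | zero => simp [Cm]
  | succ n ih => rw [pow_succ, pow_succ]; exact ih.mul h

theorem Cm.refl (x : GL (ZMod r) F) : Cm x x 1 := (one_smul _ _).symm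

theorem Cm.pw {x y : GL (ZMod r) F} {c : F} (h : Cm x y c) : c ^ r = 1 := by
  have := congrArg det h
  rw [det_smul, det_mul, det_mul, mul_comm, ZMod.card, eq_comm, mul_eq_right₀ (mul_ne_zero
    (GeneralLinearGroup.det_ne_zero y) (GeneralLinearGroup.det_ne_zero x))] at this
  exact this

theorem Cm.symm {x y : GL (ZMod r) F} {c : F} (h : Cm x y c) : Cm y x (c ^ (r - 1)) := by
  rw [Cm, h, smul_smul, ← pow_succ, Nat.sub_add_cancel hr.out.pos, h.pw, one_smul]

theorem Cm.comm {x y : GL (ZMod r) F} {c : F} (h : Cm x y c) : (x * y * x⁻¹ * y⁻¹).val = c • 1 := by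
  rw [mul_assoc, ← _root_.mul_inv_rev, Units.val_mul, Units.val_mul, h, smul_mul_assoc, ← Units.val_mul,
    ← Units.val_mul, mul_inv_cancel, Units.val_one]

section
variable {ω : F} (hω : IsPrimitiveRoot ω r) {a b : GL (ZMod r) F} (ha : a.val = diagonal fun i => ω ^ i.val)
  (hb : b.val = of fun i j => if i = j + 1 then 1 else 0)
include hω

theorem pw_add (i j : ZMod r) : ω ^ (i + j).val = ω ^ i.val * ω ^ j.val := by
  rw [ZMod.val_add, ← pow_add, eq_comm]
  conv_lhs => rw [← Nat.mod_add_div (i.val + j.val) r, pow_add, pow_mul, hω.pow_eq_one, one_pow, mul_one]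

theorem pw_inj {i j : ZMod r} (h : ω ^ i.val = ω ^ j.val) : i = j :=
  ZMod.val_injective r (hω.pow_inj i.val_lt j.val_lt h)

include ha hb

theorem ab : Cm a b ω := by
  ext i j
  rw [ha, hb, diagonal_mul, Matrix.smul_apply, mul_diagonal, of_apply]
  split_ifs with h
  · simp [h, pw_add hω, ZMod.val_one, mul_comm]
  · simp

theorem sc_mem {x : GL (ZMod r) F} {c : F} (h : x.val = c • 1) (hc : c ^ r = 1) : x ∈ closure {a, b} := by
  have := hr.out.pos
  obtain ⟨k, -, rfl⟩ := hω.eq_pow_of_pow_eq_one hc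
  have a1 : a ∈ closure {a, b} := subset_closure (by simp)
  have b1 : b ∈ closure {a, b} := subset_closure (by simp)
  rw [show x = (a * b * a⁻¹ * b⁻¹) ^ k from
    Units.ext (by rw [h, Units.val_pow_eq_pow_val, (ab hω ha hb).comm]; simp [_root_.smul_pow])]
  exact pow_mem (mul_mem (mul_mem (mul_mem a1 b1) (inv_mem a1)) (inv_mem b1)) k

theorem sc_of {y : GL (ZMod r) F} (h1 : Cm y a 1) (h2 : Cm y b 1) : y.val = y.val 0 0 • 1 := by
  have e1 : ∀ i j, i ≠ j → y.val i j = 0 := fun i j hij => by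
    have := congrFun (congrFun h1 i) j
    rw [one_smul, ha, mul_diagonal, diagonal_mul, mul_comm] at this
    by_contra hn
    exact hij (pw_inj hω (mul_right_cancel₀ hn this).symm)
  have e2 : ∀ j, y.val (j + 1) (j + 1) = y.val j j := fun j => by
    simpa [hb, mul_apply] using congrFun (congrFun h2 (j + 1)) j
  have e3 : ∀ n : ℕ, y.val n n = y.val 0 0 := fun n => by
    induction n with
    | zero => simp
    | succ n ih => rw [Nat.cast_succ, e2, ih]
  ext i j
  by_cases hij : i = j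
  · subst hij
    simpa using e3 i.val
  · simp [e1 i j hij, hij]

theorem exists_nf {x : GL (ZMod r) F} {c d : F} (h1 : Cm x a c) (h2 : Cm x b d) :
    ∃ (m n : ℕ) (e : F), (x * a ^ m * b ^ n).val = e • 1 := by
  have := hr.out.pos
  obtain ⟨i, -, rfl⟩ := hω.eq_pow_of_pow_eq_one h1.pw
  obtain ⟨j, -, rfl⟩ := hω.eq_pow_of_pow_eq_one h2.pw
  have e : ∀ k, ω ^ k * (ω ^ (r - 1)) ^ k = 1 := fun k => by
    rw [← mul_pow, ← pow_succ', Nat.sub_add_cancel this, hω.pow_eq_one, one_pow]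
  refine ⟨(r - 1) * j, i, _, sc_of hω ha hb ?_ ?_⟩
  · simpa [e] using (h1.mul ((Cm.refl _).pow ((r - 1) * j))).mul ((ab hω ha hb).symm.pow i)
  · simpa [e, pow_mul] using (h2.mul ((ab hω ha hb).pow ((r - 1) * j))).mul ((Cm.refl _).pow i)

end

theorem exists_NF [Fintype F] (ho : Odd r) {R : Subgroup (GL (ZMod r) F)}
    (hR : Geo.IsSymplecticTypeGroup r R) (hirr : Geo.ActsAbsolutelyIrreducibly (Geo.matrixSet R))
    (hZ : Nat.card (center R) = r) : ∃ ω : F, IsPrimitiveRoot ω r ∧ ∃ Q : GL (ZMod r) F, ∀ a b : GL (ZMod r) F,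
      (a.val = diagonal fun i => ω ^ i.val) → (b.val = of fun i j => if i = j + 1 then 1 else 0) →
      R.comap (MulAut.conj Q).toMonoidHom = closure {a, b} := by
  have h5R : ∀ x : R, x ^ r = 1 := fun x => by
    simpa [hR.exponent_eq, Nat.coprime_two_left.2 ho] using Monoid.pow_exponent_eq_one x
  have h5' : ∀ x ∈ R, x ^ r = 1 := fun x hx => congrArg Subtype.val (h5R ⟨x, hx⟩)
  have sc : ∀ z ∈ R, (∀ g ∈ R, z * g = g * z) → ∃ c : F, z.val = c • 1 := fun z hz e =>
    hirr.2 z.val (by rintro _ ⟨g, hg, rfl⟩; exact congrArg Units.val (e g hg))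
  have cm : ∀ x ∈ R, ∀ y ∈ R, ∃ c, Cm x y c := fun x hx y hy => by
    have := H8.L5.class_two hR.pGroup hR.cyclic_of_characteristic h5R hZ
      (commutator_mem_commutator (mem_top (⟨x, hx⟩ : R)) (mem_top (⟨y, hy⟩ : R)))
    obtain ⟨c, e⟩ := sc _ (⁅(⟨x, hx⟩ : R), (⟨y, hy⟩ : R)⁆).2 fun g hg =>
      (congrArg Subtype.val (mem_center_iff.1 this ⟨g, hg⟩)).symm
    exact ⟨c, by rw [Cm, ← smul_one_mul, ← e]; simp [commutatorElement_def, mul_assoc]⟩
  obtain ⟨x, hx, y, hy, hne⟩ : ∃ x ∈ R, ∃ y ∈ R, x * y ≠ y * x := by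
    by_contra! hc
    have := (Asch.full_iff_absIrr.2 hirr).comm (Z := single 0 1 1) (by
      rintro _ ⟨g, hg, rfl⟩
      obtain ⟨c, e⟩ := sc g hg (hc g hg)
      simp [e]) (single 1 0 1)
    simpa using congrFun (congrFun this 0) 0
  obtain ⟨ω, c1⟩ := cm x hx y hy
  have c2 := c1.comm
  have hω : IsPrimitiveRoot ω r := orderOf_eq_prime c1.pw (fun e => hne (Units.ext (by simpa [Cm, e] using c1))) ▸
    IsPrimitiveRoot.orderOf ω
  have w0 := hω.ne_zero hr.out.ne_zero
  obtain ⟨k, v, v0, hv⟩ : ∃ (k : ℕ) (v : ZMod r → F), v ≠ 0 ∧ x.val *ᵥ v = ω ^ k • v := by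
    have e := congrArg (detMonoidHom.comp (Polynomial.aeval (R := F) x.val).toRingHom.toMonoidHom)
      (Polynomial.X_pow_sub_one_eq_prod hr.out.pos hω)
    have e1 : x.val ^ r = 1 := congrArg Units.val (h5' x hx)
    rw [map_prod, eq_comm] at e
    obtain ⟨c, c1, c2⟩ := Finset.prod_eq_zero_iff.1 (e.trans (by simp [e1]))
    obtain ⟨k, -, rfl⟩ := hω.eq_pow_of_pow_eq_one ((Polynomial.mem_nthRootsFinset hr.out.pos 1).1 c1)
    obtain ⟨v, v0, hv⟩ := exists_mulVec_eq_zero_iff.2 (show det (x.val - ω ^ k • 1) = 0 by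
      simpa [Algebra.algebraMap_eq_smul_one, _root_.smul_pow] using c2)
    exact ⟨k, v, v0, by simpa [sub_mulVec, smul_mulVec, sub_eq_zero] using hv⟩
  have e1 : ∀ j : ℕ, x.val *ᵥ (y ^ j).val *ᵥ v = (ω ^ k * ω ^ j) • (y ^ j).val *ᵥ v := fun j => by
    induction j with
    | zero => simpa using hv
    | succ j ih =>
      rw [pow_succ' y, Units.val_mul, ← mulVec_mulVec, mulVec_mulVec _ x.val, c1, smul_mulVec, ← mulVec_mulVec, ih,
        mulVec_smul, smul_smul]
      congr 1; ring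
  let P : Matrix (ZMod r) (ZMod r) F := of fun i j => ((y ^ j.val).val *ᵥ v) i
  obtain ⟨Q, hQ⟩ : IsUnit P := linearIndependent_cols_iff_isUnit.1 (Module.End.eigenvectors_linearIndependent'
    (toLin' x.val) (fun j : ZMod r => ω ^ k * ω ^ j.val) (fun i j e => pw_inj hω
      (mul_left_cancel₀ (pow_ne_zero k w0) e)) _ fun j => ⟨Module.End.mem_eigenspace_iff.2 (e1 j.val), fun e => v0 (by
        simpa using congrArg (((y ^ j.val)⁻¹).val *ᵥ ·) (show (y ^ j.val).val *ᵥ v = 0 from e))⟩)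
  refine ⟨ω, hω, Q, fun a b ha hb => ?_⟩
  have a1 : a ∈ closure {a, b} := subset_closure (by simp)
  have b1 : b ∈ closure {a, b} := subset_closure (by simp)
  have f1 : x.val * P = ω ^ k • (P * a.val) := by
    ext i j
    rw [ha, Matrix.smul_apply, mul_diagonal]
    exact (congrFun (e1 j.val) i).trans (by simp [P]; ring)
  have f2 : y.val * P = P * b.val := by
    have e : ∀ j : ℕ, ∀ i, (y.val *ᵥ (y ^ j).val *ᵥ v) i = ((y ^ (j + 1)).val *ᵥ v) i := fun j i => by
      rw [mulVec_mulVec, pow_succ' y, Units.val_mul]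
    ext i j
    refine (e j.val i).trans ?_
    have : y ^ (j.val + 1) = y ^ (j + 1).val := by
      rw [ZMod.val_add, ZMod.val_one, eq_comm]
      conv_rhs => rw [← Nat.mod_add_div (j.val + 1) r, pow_add, pow_mul, h5' y hy, one_pow, mul_one]
    simp [P, hb, mul_apply, this, -Units.val_pow_eq_pow_val]
  rw [← hQ] at f1 f2
  have g1 : x.val = ω ^ k • (Q * a * Q⁻¹).val := by
    rw [Units.val_mul, Units.val_mul, ← smul_mul_assoc, ← f1, Units.mul_inv_cancel_right]
  have g2 : Q * b * Q⁻¹ = y := Units.ext (by rw [Units.val_mul, Units.val_mul, ← f2, Units.mul_inv_cancel_right])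
  have m1 : Q * a * Q⁻¹ ∈ R := by
    rw [show Q * a * Q⁻¹ = ((x * y * x⁻¹ * y⁻¹) ^ k)⁻¹ * x from eq_inv_mul_iff_mul_eq.2 (Units.ext (by
      rw [Units.val_mul, Units.val_pow_eq_pow_val, c2, g1]; simp [_root_.smul_pow]))]
    exact mul_mem (inv_mem (pow_mem (mul_mem (mul_mem (mul_mem hx hy) (inv_mem hx)) (inv_mem hy)) k)) hx
  have m2 : closure {a, b} ≤ R.comap (MulAut.conj Q).toMonoidHom := (closure_le _).2 (by
    rintro _ (rfl | rfl)
    exacts [m1, show Q * _ * Q⁻¹ ∈ R from g2 ▸ hy])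
  refine le_antisymm (fun g hg => ?_) m2
  have key : ∀ w ∈ closure {a, b}, ∃ c, Cm g w c := fun w hw => (cm _ hg _ (m2 hw)).imp fun c e => by
    simpa [Cm, mul_assoc] using congrArg ((Q⁻¹).val * · * Q.val) e
  obtain ⟨c, hc⟩ := key _ a1
  obtain ⟨d, hd⟩ := key _ b1
  obtain ⟨m, n, e, he⟩ := exists_nf hω ha hb hc hd
  have := h5' _ (mem_comap.1 (mul_mem (mul_mem hg (pow_mem (m2 a1) m)) (pow_mem (m2 b1) n)))
  rw [← map_pow, map_eq_one_iff (MulAut.conj Q).toMonoidHom (MulAut.conj Q).injective] at this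
  have := sc_mem hω ha hb he (by simpa [he, _root_.smul_pow, -Units.val_mul] using congrArg (·.val 0 0) this)
  rwa [mul_mem_cancel_right (pow_mem b1 _), mul_mem_cancel_right (pow_mem a1 _)] at this

/-- class six in prime dimension from the statement for the standard model -/
theorem es_max_of [Fintype F] (h3 : 3 ≤ r) (core : ∀ ω : F, IsPrimitiveRoot ω r → ∃ a b : GL (ZMod r) F,
      (a.val = diagonal fun i => ω ^ i.val) ∧ (b.val = of fun i j => if i = j + 1 then 1 else 0) ∧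
      ∀ M : Subgroup (GL (ZMod r) F), (∀ g ∈ M, g.val.det = 1) →
        (∀ g ∈ Geo.subgroupNormalizer (closure {a, b}), g.val.det = 1 → g ∈ M) →
        Geo.specialLinear (ZMod r) F ≤ M ∨ M ≤ Geo.subgroupNormalizer (closure {a, b}))
    (R : Subgroup (GL (ZMod r) F)) (hR : Geo.IsLinearSymplecticTypeData r R) :
    Geo.IsMaximalIn (Geo.specialLinear (ZMod r) F) (Geo.subgroupNormalizer R ⊓ Geo.specialLinear (ZMod r) F) := by
  obtain ⟨ω, hω, Q, h⟩ := exists_NF (hr.out.odd_of_ne_two (by omega)) hR.symplecticType hR.absIrred (by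
      obtain ⟨p, e, -, -, h | h | h⟩ := hR.field
      exacts [h.2.2.1, absurd h.1 (by omega), absurd h.1 (by omega)])
  obtain ⟨a, b, ha, hb, core⟩ := core ω hω
  have h := h a b ha hb
  have hS : ∀ g : GL (ZMod r) F, g ∈ Geo.specialLinear (ZMod r) F ↔ g.val.det = 1 := fun g => by
    rw [Geo.specialLinear, MonoidHom.mem_ker, Units.ext_iff, GeneralLinearGroup.val_det_apply, Units.val_one]
  have hS' : ∀ g : GL (ZMod r) F, Q * g * Q⁻¹ ∈ Geo.specialLinear (ZMod r) F ↔ g.val.det = 1 := fun g => by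
    rw [hS, Units.val_mul, Units.val_mul, det_units_conj]
  have hN : ∀ g, Q * g * Q⁻¹ ∈ Geo.subgroupNormalizer R ↔ g ∈ Geo.subgroupNormalizer (closure {a, b}) := fun g => by
    rw [← h, Geo.subgroupNormalizer, Geo.subgroupNormalizer,
      ← comap_normalizer_eq_of_surjective _ (MulAut.conj Q).surjective]; rfl
  refine ⟨lt_of_le_of_ne inf_le_right fun e => H7.SL_not_le_subgroupNormalizer (by simpa using h3) hr.out
    hR.symplecticType.pGroup hR.absIrred (e.ge.trans inf_le_left), fun M h1 h2 => ?_⟩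
  have cj : ∀ g : GL (ZMod r) F, g = Q * (Q⁻¹ * g * Q) * Q⁻¹ := fun g => by group
  refine (core (M.comap (MulAut.conj Q).toMonoidHom) (fun g hg => (hS' g).1 (h2 hg))
    fun g a b => h1 ⟨(hN g).2 a, (hS' g).2 b⟩).symm.imp
    (fun k => le_antisymm (fun g hg => ⟨?_, h2 hg⟩) h1) fun k => le_antisymm h2 fun g hg => ?_
  · rw [cj g] at hg ⊢
    exact k (x := Q⁻¹ * g * Q) ((hS _).2 ((hS' _).1 hg))
  · rw [cj g] at hg ⊢
    exact (hN _).2 (k (x := Q⁻¹ * g * Q) hg)

/-- the same statement with index type `Fin 7` -/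
theorem es_max7 [Fintype F] (core : ∀ ω : F, IsPrimitiveRoot ω 7 → ∃ a b : GL (ZMod 7) F,
      (a.val = diagonal fun i => ω ^ i.val) ∧ (b.val = of fun i j => if i = j + 1 then 1 else 0) ∧
      ∀ M : Subgroup (GL (ZMod 7) F), (∀ g ∈ M, g.val.det = 1) →
        (∀ g ∈ Geo.subgroupNormalizer (closure {a, b}), g.val.det = 1 → g ∈ M) →
        Geo.specialLinear (ZMod 7) F ≤ M ∨ M ≤ Geo.subgroupNormalizer (closure {a, b}))
    (R : Subgroup (GL (Fin 7) F)) (hR : Geo.IsLinearSymplecticTypeData 7 R) :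
    Geo.IsMaximalIn (Geo.specialLinear (Fin 7) F) (Geo.subgroupNormalizer R ⊓ Geo.specialLinear (Fin 7) F) :=
  haveI : Fact (Nat.Prime 7) := ⟨by norm_num⟩
  es_max_of (r := 7) (by norm_num) core R hR

end Cfsg.Agent.H2.NF
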