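import Mathlib
import Cfsg.Prelude.Def_Perm

set_option autoImplicit false

namespace Cfsg.Agent.H2.NearField

variable {F : Type*} [Cfsg.NearField F]

theorem zero_mul' (a : F) : (0 : F) * a = 0 := by
  have h := Cfsg.NearField.right_distrib (0 : F) 0 a
  rw [add_zero] at h
  exact (add_eq_left.mp h.symm)

theorem neg_mul' (x a : F) : (-x) * a = -(x * a) := by
  have h := Cfsg.NearField.right_distrib (-x) x a
  rw [neg_add_cancel, zero_mul'] at h
  exact eq_neg_of_add_eq_zero_left h.symm

theorem mul_ne_zero' {a b : F} (ha : a ≠ 0) (hb : b ≠ 0) : a * b ≠ 0 := by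
  intro h
  obtain ⟨c, hc, -⟩ := Cfsg.NearField.exists_inv b hb
  apply ha
  have : a * b * c = a := by rw [mul_assoc, hc, mul_one]
  rw [← this, h, zero_mul']

/-- The affine map as a permutation. -/
def aff (a c b : F) (h1 : a * c = 1) (h2 : c * a = 1) : Equiv.Perm F where
  toFun x := x * a + b
  invFun y := (y - b) * c
  left_inv x := by
    simp only [add_sub_cancel_right, mul_assoc, h1, mul_one]
  right_inv y := by
    simp only [mul_assoc, h2, mul_one, sub_add_cancel]

/-- Right multiplication as an additive hom. -/
def mulRightHom (a : F) : F →+ F where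
  toFun x := x * a
  map_zero' := zero_mul' a
  map_add' x y := Cfsg.NearField.right_distrib x y a

end Cfsg.Agent.H2.NearField
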