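import Cfsg.Agent.H2.Model

set_option autoImplicit false
set_option linter.unusedSectionVars false

/-! Pairs of totally isotropic planes in dimension four. -/

namespace Cfsg.Agent.H2.Cases

open Module Cfsg.Agent.Form Cfsg.Agent.H7
open scoped Matrix MatrixGroups

variable {ι : Type} [Fintype ι] [DecidableEq ι] {F : Type*} [Field F] {P : FP F}

/-- isometry condition on a model matrix -/
def IsoM {K : Type*} {κ : Type} [CommRing K] [Fintype κ] (G : Matrix κ κ K) (σ₀ : K → K) (A : Matrix κ κ K) : Prop :=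
  ∀ i j, fm G σ₀ (fun k => A k i) (fun k => A k j) = G i j

instance decIsoM {K : Type*} {κ : Type} [CommRing K] [Fintype κ] [DecidableEq K] (G : Matrix κ κ K) (σ₀ : K → K)
    (A : Matrix κ κ K) : Decidable (IsoM G σ₀ A) := 
  @Fintype.decidableForallFintype _ _ (fun _ => @Fintype.decidableForallFintype _ _
    (fun _ => ‹DecidableEq K› _ _) _) _

theorem Mdl.Gram.exists_iso' {K : Type*} {κ : Type} [CommRing K] [Fintype κ] [DecidableEq κ] {M : Mdl K κ ι F}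
    {S : PQ P (ι → F)} {σ₀ : K → K} {G : Matrix κ κ K} (h : M.Gram S σ₀ G) (A A' : Matrix κ κ K)
    (h0 : A * A' = 1 ∧ IsoM G σ₀ A) : ∃ g ∈ Asch.IsoB S, M.mm g = A := h.exists_iso h0.1 h0.2

theorem Mdl.Gram.exists_su {K : Type*} {κ : Type} [CommRing K] [Fintype κ] [DecidableEq κ] {M : Mdl K κ ι F}
    {S : PQ P (ι → F)} {σ₀ : K → K} {G : Matrix κ κ K} (h : M.Gram S σ₀ G) (A A' : Matrix κ κ K)
    (h0 : A * A' = 1 ∧ IsoM G σ₀ A) (h1 : A.det = 1) :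
    ∃ g ∈ Asch.IsoB S ⊓ Geo.specialLinear ι F, M.mm g = A := by
  obtain ⟨g, hg, rfl⟩ := h.exists_iso h0.1 h0.2
  exact ⟨g, ⟨hg, M.mem_SL.2 h1⟩, rfl⟩

theorem pair_basis {S : PQ P (ι → F)} (hS : S.Nondeg) {D : Fin 2 → Submodule F (ι → F)}
    (hD : Geo.IsMDecomposition 2 D) (ht : ∀ i, Geo.IsTotallySingularFor S.B (D i)) :
    ∃ b : Basis (Fin 4) F (ι → F), b 0 ∈ D 0 ∧ b 1 ∈ D 0 ∧ b 2 ∈ D 1 ∧ b 3 ∈ D 1 ∧
      ∀ i j, S.B (b i) (b j) = !![0, 0, 1, 0; 0, 0, 0, 1; P.ε, 0, 0, 0; 0, P.ε, 0, 0] i j := by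
  obtain ⟨π, hπ⟩ := exists_projs hD.indep hD.iSup_eq_top
  obtain ⟨p, q, α, β, hp, hq, -, a1, a2, a3, a4, -⟩ :=
    exists_two_coords (hD.finrank_eq 0) (π 0) (hπ.mem 0) (hπ.self 0)
  have key : ∀ φ : Dual F (ι → F), ∃ v ∈ D 1, ∀ x ∈ D 0, S.B x v = φ x := fun φ => by
    obtain ⟨v, rfl⟩ := hS.exists_lin φ
    refine ⟨π 1 v, hπ.mem 1 v, fun x hx => ?_⟩
    have := hπ.sum v
    rw [Fin.sum_univ_two] at this
    rw [PQ.lin_apply]
    conv_rhs => rw [← this, S.B_add_right, ht 0 x hx _ (hπ.mem 0 v), zero_add]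
  obtain ⟨r, hr, hr'⟩ := key α
  obtain ⟨s, hs, hs'⟩ := key β
  let v : Fin 4 → ι → F := ![p, q, r, s]
  have e1 := (hr' p hp).trans a1
  have e2 := (hr' q hq).trans a2
  have e3 := (hs' p hp).trans a3
  have e4 := (hs' q hq).trans a4
  have hv : ∀ i j, S.B (v i) (v j) = !![0, 0, 1, 0; 0, 0, 0, 1; P.ε, 0, 0, 0; 0, P.ε, 0, 0] i j := fun i j => by
    fin_cases i <;> fin_cases j <;>
      simp [v, e1, e2, e3, e4, S.B_swap p r, S.B_swap p s, S.B_swap q r, S.B_swap q s, ht 0 _ hp _ hp,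
        ht 0 _ hp _ hq, ht 0 _ hq _ hp, ht 0 _ hq _ hq, ht 1 _ hr _ hr, ht 1 _ hr _ hs, ht 1 _ hs _ hr,
        ht 1 _ hs _ hs]
  obtain ⟨b, hb⟩ := exists_basis_of_gram S v (fun i => v (i + 2)) (fun i j h => by
    rw [hv]; fin_cases i <;> fin_cases j <;> first | rfl | exact (h rfl).elim) (fun i => by
    rw [hv]; fin_cases i <;> simp [P.ε_ne_zero]) (by rw [finrank_pi', card_eq_of_isMDecomposition hD]; rfl)
  exact ⟨b, hb 0 ▸ hp, hb 1 ▸ hq, hb 2 ▸ hr, hb 3 ▸ hs, fun i j => by rw [hb, hb, hv]⟩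

theorem pair_shape {K : Type*} [CommRing K] {S : PQ P (ι → F)} {D : Fin 2 → Submodule F (ι → F)}
    (ht : ∀ i, Geo.IsTotallySingularFor S.B (D i)) (M : Mdl K (Fin 4) ι F) (h0 : M.b 0 ∈ D 0) (h1 : M.b 1 ∈ D 0)
    (h2 : M.b 2 ∈ D 1) (h3 : M.b 3 ∈ D 1)
    (hb : ∀ i j, S.B (M.b i) (M.b j) = !![0, 0, 1, 0; 0, 0, 0, 1; P.ε, 0, 0, 0; 0, P.ε, 0, 0] i j)
    {g : GL ι F} (hg : g ∈ Geo.decompositionStabilizer D) :
    ∃ a b c d a' b' c' d' : K, M.mm g = !![a, b, 0, 0; c, d, 0, 0; 0, 0, a', b'; 0, 0, c', d'] ∨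
      M.mm g = !![0, 0, a', b'; 0, 0, c', d'; a, b, 0, 0; c, d, 0, 0] := by
  have k0 : ∀ v, M.X v ∈ D 0 → v 2 = 0 ∧ v 3 = 0 := fun v hv => by
    have e1 := ht 0 _ hv _ h0
    have e2 := ht 0 _ hv _ h1
    simp [Mdl.X_eq, Fin.sum_univ_four, S.B_add_left, S.B_smul_left, hb, P.ε_ne_zero] at e1 e2
    exact ⟨e1, e2⟩
  have k1 : ∀ v, M.X v ∈ D 1 → v 0 = 0 ∧ v 1 = 0 := fun v hv => by
    have e1 := ht 1 _ hv _ h2
    have e2 := ht 1 _ hv _ h3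
    simp [Mdl.X_eq, Fin.sum_univ_four, S.B_add_left, S.B_smul_left, hb] at e1 e2
    exact ⟨e1, e2⟩
  obtain ⟨σ, hσ⟩ := (mem_decompositionStabilizer_iff D g).1 hg
  have c : ∀ i j, M.b j ∈ D i → M.X (fun k => M.mm g k j) ∈ D (σ i) := fun i j h =>
    M.mm_col g j ▸ mem_of_map_eq (hσ i) h
  have c0 := c 0 0 h0
  have c1 := c 0 1 h1
  have c2 := c 1 2 h2
  have c3 := c 1 3 h3
  obtain ⟨e0, e1⟩ | ⟨e0, e1⟩ : (σ 0 = 0 ∧ σ 1 = 1) ∨ (σ 0 = 1 ∧ σ 1 = 0) := by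
    have := σ.injective.ne (zero_ne_one (α := Fin 2))
    omega
  · rw [e0] at c0 c1
    rw [e1] at c2 c3
    refine ⟨M.mm g 0 0, M.mm g 0 1, M.mm g 1 0, M.mm g 1 1, M.mm g 2 2, M.mm g 2 3, M.mm g 3 2, M.mm g 3 3,
      Or.inl ?_⟩
    ext i j
    fin_cases i <;> fin_cases j <;>
      first | rfl | exact (k0 _ c0).1 | exact (k0 _ c0).2 | exact (k0 _ c1).1 | exact (k0 _ c1).2 | exact (k1 _ c2).1 | exact (k1 _ c2).2 | exact (k1 _ c3).1 | exact (k1 _ c3).2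
  · rw [e0] at c0 c1
    rw [e1] at c2 c3
    refine ⟨M.mm g 2 0, M.mm g 2 1, M.mm g 3 0, M.mm g 3 1, M.mm g 0 2, M.mm g 0 3, M.mm g 1 2, M.mm g 1 3,
      Or.inr ?_⟩
    ext i j
    fin_cases i <;> fin_cases j <;>
      first | rfl | exact (k1 _ c0).1 | exact (k1 _ c0).2 | exact (k1 _ c1).1 | exact (k1 _ c1).2 | exact (k0 _ c2).1 | exact (k0 _ c2).2 | exact (k0 _ c3).1 | exact (k0 _ c3).2

end Cfsg.Agent.H2.Cases
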