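import Mathlib
import Cfsg.Agent.H2.Klein

set_option autoImplicit false

/-! Finite subgroups of `SL(2,K)` without unipotent elements: element orders and traces. -/

namespace Cfsg.Agent.H2.SL2Fin

open Matrix MulAction

variable {K : Type*} [Field K]

/-- `2 × 2` matrices -/
abbrev M2 (K : Type*) : Type _ := Matrix (Fin 2) (Fin 2) K

/-- traceless involutions -/
structure X (K : Type*) [Field K] where
  /-- the matrix -/
  val : M2 K
  trace_eq : val.trace = 0
  sq_eq : val * val = 1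

theorem X.ext' {N N' : X K} (h : N.val = N'.val) : N = N' := by
  cases N; cases N'; congr

instance instMulActionX : MulAction (GL (Fin 2) K) (X K) where
  smul M N := ⟨M.val * N.val * (M⁻¹).val, by
    rw [trace_mul_cycle, Units.inv_mul, one_mul, N.trace_eq], by
    simp only [mul_assoc]
    rw [← mul_assoc _ M.val, Units.inv_mul, one_mul, ← mul_assoc N.val, N.sq_eq,
      one_mul, Units.mul_inv]⟩
  one_smul N := X.ext' (by
    change (1 : GL (Fin 2) K).val * N.val * ((1 : GL (Fin 2) K)⁻¹).val = N.val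
    simp)
  mul_smul A B N := X.ext' (by
    change (A * B).val * N.val * ((A * B)⁻¹).val = A.val * (B.val * N.val * (B⁻¹).val) * (A⁻¹).val
    rw [_root_.mul_inv_rev, Units.val_mul, Units.val_mul]
    simp only [mul_assoc])

theorem smul_eq_iff (M : GL (Fin 2) K) (N : X K) : M • N = N ↔ M.val * N.val = N.val * M.val := by
  constructor
  · intro h
    have h : M.val * N.val * (M⁻¹).val = N.val := congrArg X.val h
    conv_rhs => rw [← h, mul_assoc, Units.inv_mul, mul_one]
  · intro h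
    apply X.ext'
    change M.val * N.val * (M⁻¹).val = N.val
    rw [h, mul_assoc, Units.mul_inv, mul_one]

theorem anticomm {P Q : M2 K} (hP : P.trace = 0) (hQ : Q.trace = 0) :
    P * Q + Q * P = (P * Q).trace • (1 : M2 K) := by
  rw [trace_fin_two] at hP hQ
  have h1 : P 1 1 = - P 0 0 := by linear_combination hP
  have h2 : Q 1 1 = - Q 0 0 := by linear_combination hQ
  ext i j
  fin_cases i <;> fin_cases j <;>
    simp [Matrix.mul_apply, Fin.sum_univ_two, trace_fin_two, h1, h2] <;> ring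

/-- Cayley–Hamilton -/
theorem sq_eq {M : M2 K} (h : M.det = 1) : M * M = M.trace • M - 1 := by
  rw [det_fin_two] at h
  ext i j
  fin_cases i <;> fin_cases j <;> simp [Matrix.mul_apply, Fin.sum_univ_two, trace_fin_two]
  · linear_combination -h
  · ring
  · ring
  · linear_combination -h

theorem inv_eq {M : GL (Fin 2) K} (h : M.val.det = 1) : (M⁻¹).val = M.val.trace • (1 : M2 K) - M.val := by
  have := congrArg (· * (M⁻¹).val) (sq_eq h)
  simp only [mul_assoc, Units.mul_inv, mul_one, sub_mul, smul_mul_assoc, one_mul] at this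
  rw [eq_sub_iff_add_eq, add_comm, ← eq_sub_iff_add_eq]; exact this

theorem eq_smul_of_commute (h2 : (2 : K) ≠ 0) {P N : M2 K} (hP : P.trace = 0)
    (hN : N.trace = 0) (hNN : N * N = 1) (h : P * N = N * P) : ∃ c : K, P = c • N := by
  have h1 := anticomm hP hN
  rw [← h, ← two_smul K] at h1
  refine ⟨(P * N).trace / 2, ?_⟩
  have h3 := congrArg (fun Z => (2 : K)⁻¹ • (Z * N)) h1
  simp only [smul_mul_assoc, mul_assoc, hNN, mul_one, one_mul, smul_smul] at h3
  rw [inv_mul_cancel₀ h2, one_smul] at h3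
  rw [div_eq_inv_mul]
  exact h3

/-- traceless part -/
def tl (M : M2 K) : M2 K := M - (M.trace / 2) • 1

theorem trace_tl (h2 : (2 : K) ≠ 0) (M : M2 K) : (tl M).trace = 0 := by
  simp [tl, div_mul_cancel₀ _ h2]

theorem tl_sq (h2 : (2 : K) ≠ 0) {M : M2 K} (h : M.det = 1) :
    tl M * tl M = ((M.trace / 2) ^ 2 - 1) • (1 : M2 K) := by
  simp only [tl, sub_mul, mul_sub, sq_eq h, smul_mul_assoc, mul_smul_comm, mul_one, one_mul]
  set t := M.trace
  obtain ⟨u, hu⟩ : ∃ u, t = 2 * u := ⟨t / 2, by field_simp⟩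
  rw [hu, mul_div_cancel_left₀ _ h2]
  module

theorem commute_tl (M N : M2 K) : tl M * N = N * tl M ↔ M * N = N * M := by
  simp [tl, sub_mul, mul_sub]

theorem ncard_fixedBy [IsAlgClosed K] (h2 : (2 : K) ≠ 0) (M : GL (Fin 2) K) (hd : M.val.det = 1)
    (hM : M.val.trace ^ 2 ≠ 4) : (fixedBy (X K) M).ncard = 2 := by
  set δ := (M.val.trace / 2) ^ 2 - 1 with hδ
  have hδ0 : δ ≠ 0 := by
    intro h
    apply hM
    rw [hδ, sub_eq_zero, div_pow, div_eq_one_iff_eq (pow_ne_zero _ h2)] at h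
    rw [h]; norm_num
  obtain ⟨s, hs⟩ := IsAlgClosed.exists_pow_nat_eq δ⁻¹ (n := 2) (by norm_num)
  have hsq : ∀ c : K, c ^ 2 = δ⁻¹ → (c • tl M.val) * (c • tl M.val) = 1 := by
    intro c hc
    rw [smul_mul_assoc, mul_smul_comm, tl_sq h2 hd, smul_smul, smul_smul, ← pow_two, hc,
      inv_mul_cancel₀ hδ0, one_smul]
  let N1 : X K := ⟨s • tl M.val, by simp [trace_tl h2], hsq s hs⟩
  let N2 : X K := ⟨(-s) • tl M.val, by simp [trace_tl h2], hsq (-s) (by rw [neg_sq, hs])⟩
  rw [Set.ncard_eq_two]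
  refine ⟨N1, N2, ?_, ?_⟩
  · intro h
    have h1 : s • tl M.val = (-s) • tl M.val := congrArg X.val h
    have h3 := hsq s hs
    nth_rw 1 [h1] at h3
    rw [neg_smul, neg_mul, hsq s hs] at h3
    have : (-1 : K) = 1 := by simpa using congrFun (congrFun h3 0) 0
    exact h2 (by linear_combination -this)
  · ext N
    rw [mem_fixedBy, smul_eq_iff]
    constructor
    · intro h
      obtain ⟨c, hc⟩ := eq_smul_of_commute h2 (trace_tl h2 M.val) N.trace_eq N.sq_eq
        ((commute_tl _ _).mpr h)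
      have h3 := tl_sq h2 hd
      rw [hc, smul_mul_assoc, mul_smul_comm, N.sq_eq, smul_smul] at h3
      have h4 : c * c = δ := by simpa using congrFun (congrFun h3 0) 0
      have h5 : (c * s - 1) * (c * s + 1) = 0 := by
        have : δ * s ^ 2 = 1 := by rw [hs, mul_inv_cancel₀ hδ0]
        linear_combination s ^ 2 * h4 + this
      rcases mul_eq_zero.mp h5 with h6 | h6
      · left
        apply X.ext'
        change N.val = s • tl M.val
        rw [hc, smul_smul, show s * c = 1 by linear_combination h6, one_smul]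
      · right
        apply X.ext'
        change N.val = (-s) • tl M.val
        rw [hc, smul_smul, show -s * c = 1 by linear_combination -h6, one_smul]
    · rintro (rfl | rfl)
      · change _ * (s • tl _) = (s • tl _) * _
        rw [smul_mul_assoc, mul_smul_comm, (commute_tl _ _).mpr rfl]
      · change _ * ((-s) • tl _) = ((-s) • tl _) * _
        rw [smul_mul_assoc, mul_smul_comm, (commute_tl _ _).mpr rfl]

theorem scalar_of_trivial (h2 : (2 : K) ≠ 0) (M : GL (Fin 2) K) (h : ∀ N : X K, M • N = N) :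
    ∃ c : K, M.val = c • (1 : M2 K) := by
  have h1 := (smul_eq_iff M ⟨!![1, 0; 0, -1], by simp [trace_fin_two], by
    ext i j; fin_cases i <;> fin_cases j <;> simp⟩).mp (h _)
  have h3 := (smul_eq_iff M ⟨!![0, 1; 1, 0], by simp [trace_fin_two], by
    ext i j; fin_cases i <;> fin_cases j <;> simp⟩).mp (h _)
  have a1 := congrFun (congrFun h1 0) 1
  have a2 := congrFun (congrFun h3 0) 0
  have a3 := congrFun (congrFun h3 0) 1
  simp [Matrix.mul_apply, Fin.sum_univ_two] at a1 a2 a3
  have b1 : M.val 0 1 = 0 := by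
    apply mul_left_cancel₀ h2
    linear_combination -a1
  refine ⟨M.val 0 0, ?_⟩
  ext i j
  fin_cases i <;> fin_cases j <;> simp [b1, ← a2, a3]

theorem eq_neg_one_of_trace (h2 : (2 : K) ≠ 0) {Γ : Subgroup (GL (Fin 2) K)}
    (hd : ∀ M ∈ Γ, M.val.det = 1) (hu : ∀ M ∈ Γ, M.val.trace = 2 → M = 1) {M : GL (Fin 2) K}
    (hM : M ∈ Γ) (ht : M.val.trace = -2) : M.val = -1 := by
  have h1 := sq_eq (hd M hM)
  have h3 := hu (M * M) (mul_mem hM hM) (by
    rw [Units.val_mul, h1, trace_sub, trace_smul, ht]; simp; norm_num)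
  rw [← Units.val_mul, h3, Units.val_one, ht] at h1
  apply smul_right_injective _ h2
  change (2 : K) • M.val = (2 : K) • (-1)
  linear_combination (norm := module) h1

/-- polynomial satisfied by traces -/
def tracePoly (m : ℕ) (s : K) : K :=
  s * (s ^ 2 - 1) * (s ^ 2 - 4) *
    (if m = 4 then s ^ 2 - 2 else if m = 5 then s ^ 4 - 3 * s ^ 2 + 1 else 1)

theorem coeff_eq_zero {M : M2 K} (hd : M.det = 1) (hM : M.trace ^ 2 ≠ 4) {α β c : K}
    (h : α • M - β • (1 : M2 K) = c • 1) : α = 0 := by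
  by_contra hα
  apply hM
  rw [det_fin_two] at hd
  have a0 := congrFun (congrFun h 0) 0
  have a1 := congrFun (congrFun h 0) 1
  have a3 := congrFun (congrFun h 1) 1
  simp [hα] at a0 a1 a3
  have : M 0 0 = M 1 1 := by
    apply mul_left_cancel₀ hα
    linear_combination a0 - a3
  rw [trace_fin_two]
  rw [a1, ← this] at hd
  rw [← this]
  linear_combination 4 * hd

theorem pow_three {M : M2 K} (hd : M.det = 1) :
    M ^ 3 = (M.trace ^ 2 - 1) • M - M.trace • (1 : M2 K) := by
  rw [pow_succ, pow_two, sq_eq hd, sub_mul, smul_mul_assoc, sq_eq hd, one_mul]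
  module

theorem pow_four {M : M2 K} (hd : M.det = 1) :
    M ^ 4 = (M.trace ^ 3 - 2 * M.trace) • M - (M.trace ^ 2 - 1) • (1 : M2 K) := by
  rw [pow_succ, pow_three hd, sub_mul, smul_mul_assoc, sq_eq hd, smul_mul_assoc, one_mul]
  module

theorem pow_five {M : M2 K} (hd : M.det = 1) :
    M ^ 5 = (M.trace ^ 4 - 3 * M.trace ^ 2 + 1) • M - (M.trace ^ 3 - 2 * M.trace) • (1 : M2 K) := by
  rw [pow_succ, pow_four hd, sub_mul, smul_mul_assoc, sq_eq hd, smul_mul_assoc, one_mul]
  module

theorem trivial_or_two [IsAlgClosed K] (h2 : (2 : K) ≠ 0) (Γ : Subgroup (GL (Fin 2) K))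
    (hd : ∀ M ∈ Γ, M.val.det = 1) (hu : ∀ M ∈ Γ, M.val.trace = 2 → M = 1) (M : Γ) :
    (∀ x : X K, M • x = x) ∨ (fixedBy (X K) M).ncard = 2 := by
  by_cases h : (M : GL (Fin 2) K).val.trace ^ 2 = 4
  · left
    intro N
    change (M : GL (Fin 2) K) • N = N
    rw [smul_eq_iff]
    have : ((M : GL (Fin 2) K).val.trace - 2) * ((M : GL (Fin 2) K).val.trace + 2) = 0 := by
      linear_combination h
    rcases mul_eq_zero.mp this with h | h
    · rw [hu M M.2 (by linear_combination h)]; simp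
    · rw [eq_neg_one_of_trace h2 hd hu M.2 (by linear_combination h)]; simp
  · exact Or.inr (ncard_fixedBy h2 M (hd M M.2) h)

theorem cases [IsAlgClosed K] (h2 : (2 : K) ≠ 0) (Γ : Subgroup (GL (Fin 2) K)) [Finite Γ]
    (hd : ∀ M ∈ Γ, M.val.det = 1) (hu : ∀ M ∈ Γ, M.val.trace = 2 → M = 1) :
    (∃ N : X K, ∀ M ∈ Γ, M ^ 2 • N = N) ∨ ∃ m, (m = 3 ∨ m = 4 ∨ m = 5) ∧
      ∀ M ∈ Γ, tracePoly m M.val.trace = 0 := by
  rcases Klein.main (Γ := Γ) (X := X K) (trivial_or_two h2 Γ hd hu) with ⟨N, hN⟩ | ⟨m, hm, h⟩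
  · exact Or.inl ⟨N, fun M hM => hN ⟨M, hM⟩⟩
  right
  refine ⟨m, hm, fun M hM => ?_⟩
  have hdM := hd M hM
  by_cases h4 : M.val.trace ^ 2 = 4
  · simp [tracePoly, h4]
  have e3 : (∀ x : X K, M ^ 3 • x = x) → M.val.trace ^ 2 - 1 = 0 := by
    intro h
    obtain ⟨c, hc⟩ := scalar_of_trivial h2 _ h
    rw [Units.val_pow_eq_pow_val, pow_three hdM] at hc
    exact coeff_eq_zero hdM h4 hc
  rcases h ⟨M, hM⟩ with h | h | h
  · obtain ⟨c, hc⟩ := scalar_of_trivial h2 (M ^ 2) h
    rw [pow_two, Units.val_mul, sq_eq hdM, ← one_smul K (1 : M2 K), smul_smul, mul_one] at hc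
    simp [tracePoly, coeff_eq_zero hdM h4 hc]
  · simp [tracePoly, e3 h]
  · rcases hm with rfl | rfl | rfl
    · simp [tracePoly, e3 h]
    · obtain ⟨c, hc⟩ := scalar_of_trivial h2 (M ^ 4) h
      rw [Units.val_pow_eq_pow_val, pow_four hdM] at hc
      have := coeff_eq_zero hdM h4 hc
      simp only [tracePoly, if_true]
      linear_combination (M.val.trace ^ 2 - 1) * (M.val.trace ^ 2 - 4) * this
    · obtain ⟨c, hc⟩ := scalar_of_trivial h2 (M ^ 5) h
      rw [Units.val_pow_eq_pow_val, pow_five hdM] at hc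
      have := coeff_eq_zero hdM h4 hc
      simp [tracePoly, this]

/-- Two elements of order three in a finite subgroup of `SL(2,K)` without unipotent elements. -/
theorem two_order_three [IsAlgClosed K] (h2 : (2 : K) ≠ 0) (Γ : Subgroup (GL (Fin 2) K)) [Finite Γ]
    (hd : ∀ M ∈ Γ, M.val.det = 1) (hu : ∀ M ∈ Γ, M.val.trace = 2 → M = 1)
    {A B : GL (Fin 2) K} (hA : A ∈ Γ) (hB : B ∈ Γ) (hA3 : A ^ 3 = 1) (hB3 : B ^ 3 = 1)
    (htA : A.val.trace = -1) (htB : B.val.trace = -1) (hAB : A * B ≠ B * A) :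
    (A * B).val ^ 2 = -1 ∨ (A * B).val ^ 3 = -1 ∨ (A * B).val ^ 5 = -1 := by
  have hneg : (-1 : M2 K) ≠ 1 := by
    intro h
    have : (-1 : K) = 1 := by simpa using congrFun (congrFun h 0) 0
    exact h2 (by linear_combination -this)
  have hcube : ∀ P Q : GL (Fin 2) K, P ^ 3 = 1 → Q ^ 3 = 1 → (P * Q).val ≠ -1 := by
    intro P Q hP hQ h
    have h1 : P.val = - (Q⁻¹).val := by
      rw [← mul_one P.val, ← Units.mul_inv Q, ← mul_assoc, ← Units.val_mul, h]; simp
    have h3 : P.val ^ 3 = 1 := by rw [← Units.val_pow_eq_pow_val, hP, Units.val_one]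
    rw [h1, neg_pow, ← Units.val_pow_eq_pow_val, inv_pow, hQ] at h3
    norm_num at h3
    exact hneg h3
  set x := (A * B).val.trace with hx
  have hAi := inv_eq (hd A hA)
  have hBi := inv_eq (hd B hB)
  rw [htA] at hAi
  rw [htB] at hBi
  have ht1 : (A * B⁻¹).val.trace = 1 - x := by
    rw [Units.val_mul, hBi, mul_sub, trace_sub, ← Units.val_mul, ← hx, mul_smul_comm, mul_one,
      trace_smul, htA]
    simp
  have ht2 : (A * B * A⁻¹ * B⁻¹).val.trace = x ^ 2 - x := by
    have e1 : (A * B * A⁻¹ * B⁻¹).val = (A * B).val * (B * A)⁻¹.val := by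
      rw [← Units.val_mul]; congr 1; group
    have e2 : (B * A).val.trace = x := by rw [hx, Units.val_mul, Units.val_mul, trace_mul_comm]
    have e3 : ((A * B).val * (B * A).val).trace = x := by
      rw [Units.val_mul, Units.val_mul, mul_assoc, ← mul_assoc B.val, sq_eq (hd B hB),
        trace_mul_comm, mul_assoc, sq_eq (hd A hA), htA, htB]
      simp only [mul_sub, sub_mul, smul_mul_assoc, mul_smul_comm, trace_sub, trace_smul, mul_one,
        one_mul, htA, htB, smul_eq_mul, trace_one]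
      rw [← Units.val_mul, e2]
      simp
      ring
    rw [e1, inv_eq (hd _ (mul_mem hB hA)), e2, mul_sub, trace_sub, e3, mul_smul_comm, mul_one,
      trace_smul, ← hx, smul_eq_mul, pow_two]
  have hc : A * B * A⁻¹ * B⁻¹ ∈ Γ := mul_mem (mul_mem (mul_mem hA hB) (inv_mem hA)) (inv_mem hB)
  have n1 : x ^ 2 - x ≠ 2 := by
    intro h
    have := hu _ hc (ht2.trans h)
    apply hAB
    rwa [mul_inv_eq_one, mul_inv_eq_iff_eq_mul] at this
  have n2 : x ^ 2 - x ≠ -2 := fun h => hcube (A * B * A⁻¹) B⁻¹ (by rw [conj_pow, hB3]; simp)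
    (by rw [inv_pow, hB3, inv_one]) (eq_neg_one_of_trace h2 hd hu hc (ht2.trans h))
  have n3 : x ≠ -2 := fun h => hcube A B hA3 hB3 (eq_neg_one_of_trace h2 hd hu (mul_mem hA hB) h)
  have n4 : 1 - x ≠ -2 := fun h => hcube A B⁻¹ hA3 (by rw [inv_pow, hB3, inv_one])
    (eq_neg_one_of_trace h2 hd hu (mul_mem hA (inv_mem hB)) (ht1.trans h))
  have n5 : x - 2 ≠ 0 := fun h => n1 (by linear_combination (x + 1) * h)
  have n6 : x + 1 ≠ 0 := fun h => n1 (by linear_combination (x - 2) * h)
  have n7 : x + 2 ≠ 0 := fun h => n3 (by linear_combination h)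
  have n8 : x - 3 ≠ 0 := fun h => n4 (by linear_combination -h)
  have key : x = 0 ∨ x = 1 ∨ x ^ 2 = x + 1 := by
    rcases cases h2 Γ hd hu with ⟨N, hN⟩ | ⟨m, hm, h⟩
    · exfalso
      apply hAB
      have hsq : ∀ P : GL (Fin 2) K, P ^ 3 = 1 → P = (P ^ 2) ^ 2 := fun P hP => by
        rw [← pow_mul, show 2 * 2 = 3 + 1 from rfl, pow_succ, hP, one_mul]
      have a1 := hN _ (pow_mem hA 2)
      have b1 := hN _ (pow_mem hB 2)
      rw [← hsq A hA3, smul_eq_iff, ← commute_tl] at a1
      rw [← hsq B hB3, smul_eq_iff, ← commute_tl] at b1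
      obtain ⟨c, hc⟩ := eq_smul_of_commute h2 (trace_tl h2 _) N.trace_eq N.sq_eq a1
      obtain ⟨d, hd⟩ := eq_smul_of_commute h2 (trace_tl h2 _) N.trace_eq N.sq_eq b1
      apply Units.ext
      rw [Units.val_mul, Units.val_mul, ← commute_tl, eq_comm, ← commute_tl, hc, hd]
      simp [smul_smul, mul_comm]
    · have p1 := h _ (mul_mem hA hB)
      have p2 := h _ (mul_mem hA (inv_mem hB))
      rw [ht1] at p2
      rw [← hx] at p1
      by_contra hcon
      push Not at hcon
      obtain ⟨c0, c1, c2⟩ := hcon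
      have c1' : x - 1 ≠ 0 := sub_ne_zero.mpr c1
      have q1 : x * (x ^ 2 - 1) * (x ^ 2 - 4) ≠ 0 := by
        rw [show x * (x ^ 2 - 1) * (x ^ 2 - 4) = x * (x - 1) * (x + 1) * (x - 2) * (x + 2) by ring]
        simp [c0, c1', n5, n6, n7]
      have q2 : (1 - x) * ((1 - x) ^ 2 - 1) * ((1 - x) ^ 2 - 4) ≠ 0 := by
        rw [show (1 - x) * ((1 - x) ^ 2 - 1) * ((1 - x) ^ 2 - 4) =
          -(x * (x - 1) * (x + 1) * (x - 2) * (x - 3)) by ring]
        simp [c0, c1', n5, n6, n8]
      replace p1 := (mul_eq_zero.mp p1).resolve_left q1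
      replace p2 := (mul_eq_zero.mp p2).resolve_left q2
      rcases hm with rfl | rfl | rfl
      · simp at p1
      · simp only [if_true] at p1 p2
        apply n2
        apply mul_left_cancel₀ h2
        linear_combination (2 * x - 2) * p1 - 2 * x * p2
      · norm_num at p1 p2
        have c2' : x ^ 2 - x - 1 ≠ 0 := fun h => c2 (by linear_combination h)
        have r1 : x ^ 2 + x - 1 = 0 := by
          apply mul_left_cancel₀ c2'
          linear_combination p1
        have r2 : x ^ 2 - 3 * x + 1 = 0 := by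
          apply mul_left_cancel₀ c2'
          linear_combination p2
        have r3 : 2 * x - 1 = 0 := by
          apply mul_left_cancel₀ h2
          linear_combination r1 - r2
        have : (1 : K) = 0 := by linear_combination (2 * x + 3) * r3 - 4 * r1
        exact one_ne_zero this
  have hdAB := hd _ (mul_mem hA hB)
  rcases key with h | h | h
  · left
    rw [pow_two, sq_eq hdAB, ← hx, h]; simp
  · right; left
    rw [pow_three hdAB, ← hx, h]; simp
  · right; right
    rw [pow_five hdAB, ← hx, show x ^ 4 - 3 * x ^ 2 + 1 = 0 by linear_combination (x ^ 2 + x - 1) * h,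
      show x ^ 3 - 2 * x = 1 by linear_combination (x + 1) * h]
    simp

end Cfsg.Agent.H2.SL2Fin
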