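import Mathlib
import Cfsg.Agent.H2.SL2Fin
import Cfsg.Agent.H2.Semireg

set_option autoImplicit false

/-! Two elements of order three in a Frobenius complement generate `SL(2,3)` or `SL(2,5)`:
the order of their product is `4`, `6` or `10`. -/

namespace Cfsg.Agent.H2.PairThree

open Matrix Subgroup Cfsg.Agent.H2.Semireg Cfsg.Agent.H2.SL2Fin

variable {G : Type*} [Group G] [Finite G]

theorem pair_three_closed {K V : Type*} [Field K] [IsAlgClosed K] [AddCommGroup V] [Module K V]
    [Module.Finite K V] [Nontrivial V] {ρ : G →* Module.End K V} (h : IsSR ρ) (h2 : (2 : K) ≠ 0)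
    {a b : G} (ha : a ^ 3 = 1) (ha1 : a ≠ 1) (hb : b ^ 3 = 1) (hb1 : b ≠ 1) (hab : b ∉ zpowers a) :
    ∃ k, (k = 2 ∨ k = 3 ∨ k = 5) ∧ ((a * b) ^ k) ^ 2 = 1 ∧ (a * b) ^ k ≠ 1 := by
  classical
  have hA := h.order_three ha ha1
  have hB := h.order_three hb hb1
  set A := ρ a with hAdef
  set B := ρ b with hBdef
  let t : Module.End K V := A * B + B * A + A + B + 1
  have htA : A * t = t * A := by
    have : A * t - t * A = (A * A + A + 1) * B - B * (A * A + A + 1) := by
      simp only [t]; noncomm_ring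
    rw [hA, zero_mul, mul_zero, sub_zero, sub_eq_zero] at this
    exact this
  obtain ⟨x, hx⟩ := Module.End.exists_eigenvalue t
  obtain ⟨u, hu⟩ := hx.exists_hasEigenvector
  have hu1 : t u = x • u := hu.apply_eq_smul
  have hAA : ∀ w, A (A w) = -A w - w := fun w => by
    have := congrArg (fun f : Module.End K V => f w) hA
    simp only [LinearMap.add_apply, Module.End.mul_apply, Module.End.one_apply,
      LinearMap.zero_apply] at this
    linear_combination (norm := module) this
  have hBB : ∀ w, B (B w) = -B w - w := fun w => by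
    have := congrArg (fun f : Module.End K V => f w) hB
    simp only [LinearMap.add_apply, Module.End.mul_apply, Module.End.one_apply,
      LinearMap.zero_apply] at this
    linear_combination (norm := module) this
  obtain ⟨v, ω, hv0, hω, hAv, htv⟩ : ∃ (v : V) (ω : K), v ≠ 0 ∧ ω ^ 2 + ω + 1 = 0 ∧ A v = ω • v ∧
      t v = x • v := by
    obtain ⟨ω, hω⟩ := IsAlgClosed.exists_eq_mul_self (-3 : K)
    obtain ⟨w, hw⟩ : ∃ w : K, w ^ 2 + w + 1 = 0 := ⟨(ω - 1) / 2, by
      field_simp; linear_combination -hω⟩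
    by_cases h0 : A u + (1 + w) • u = 0
    · exact ⟨u, -1 - w, hu.2, by linear_combination hw, by linear_combination (norm := module) h0, hu1⟩
    · refine ⟨A u + (1 + w) • u, w, h0, hw, ?_, ?_⟩
      · rw [map_add, hAA, map_smul]
        linear_combination (norm := module) (-hw) • u
      · rw [map_add, map_smul, ← Module.End.mul_apply, ← htA, Module.End.mul_apply, hu1, map_smul]
        module
  have hABv : A (B v) = (x - 1 - ω) • v - (1 + ω) • B v := by
    have : t v = A (B v) + B (A v) + A v + B v + v := rfl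
    rw [htv, hAv, map_smul] at this
    linear_combination (norm := module) -this
  let e : (Fin 2 → K) →ₗ[K] V :=
    (LinearMap.proj 0 : (Fin 2 → K) →ₗ[K] K).smulRight v +
      (LinearMap.proj 1 : (Fin 2 → K) →ₗ[K] K).smulRight (B v)
  have he : ∀ c, e c = c 0 • v + c 1 • B v := fun c => rfl
  have heinj : ∀ c, e c = 0 → c = 0 := by
    intro c hc
    rw [he] at hc
    by_cases h1 : c 1 = 0
    · rw [h1, zero_smul, add_zero, smul_eq_zero] at hc
      ext i; fin_cases i
      · exact hc.resolve_right hv0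
      · exact h1
    exfalso
    obtain ⟨μ, hμ⟩ : ∃ μ : K, B v = μ • v := ⟨-(c 0) / c 1, by
      apply smul_right_injective V h1
      simp only [smul_smul]
      rw [mul_div_cancel₀ _ h1]
      linear_combination (norm := module) hc⟩
    have hμ2 : μ ^ 2 + μ + 1 = 0 := by
      have := hBB v
      rw [hμ, map_smul, hμ] at this
      apply smul_left_injective K hv0
      change (μ ^ 2 + μ + 1) • v = (0 : K) • v
      linear_combination (norm := module) this
    have : (μ - ω) * (μ * ω - 1) = 0 := by linear_combination ω * hμ2 - μ * hω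
    rcases mul_eq_zero.mp this with h3 | h3
    · have : ρ (a⁻¹ * b) v = v := by
        rw [map_mul, Module.End.mul_apply, ← hBdef, hμ, sub_eq_zero.mp h3, ← hAv, hAdef,
          ← Module.End.mul_apply, ← map_mul, inv_mul_cancel, map_one]; rfl
      by_cases h4 : a⁻¹ * b = 1
      · exact hab (by rw [← inv_mul_eq_one.mp h4]; exact mem_zpowers a)
      · exact hv0 (h.fixed h4 this)
    · have : ρ (a * b) v = v := by
        rw [map_mul, Module.End.mul_apply, ← hBdef, hμ, map_smul, ← hAdef, hAv, smul_smul,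
          sub_eq_zero.mp h3, one_smul]
      by_cases h4 : a * b = 1
      · exact hab (by rw [eq_inv_of_mul_eq_one_right h4]; exact inv_mem (mem_zpowers a))
      · exact hv0 (h.fixed h4 this)
  have heinj' : Function.Injective e := (injective_iff_map_eq_zero e).mpr heinj
  let Rel : G → GL (Fin 2) K → Prop := fun g M => ∀ c, ρ g (e c) = e (M.val *ᵥ c)
  have hRmul : ∀ {g g' M M'}, Rel g M → Rel g' M' → Rel (g * g') (M * M') := by
    intro g g' M M' h1 h2 c
    rw [map_mul, Module.End.mul_apply, h2, h1, Units.val_mul, mulVec_mulVec]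
  have hRone : Rel 1 1 := fun c => by simp
  have hRinv : ∀ {g M}, Rel g M → Rel g⁻¹ M⁻¹ := by
    intro g M h1 c
    have := h1 ((M⁻¹).val *ᵥ c)
    rw [mulVec_mulVec, Units.mul_inv, one_mulVec] at this
    rw [← this, ← Module.End.mul_apply, ← map_mul, inv_mul_cancel, map_one]; rfl
  have hRpow : ∀ {g M} (n : ℕ), Rel g M → Rel (g ^ n) (M ^ n) := by
    intro g M n h1
    induction n with
    | zero => simpa using hRone
    | succ n ih => rw [pow_succ, pow_succ]; exact hRmul ih h1
  have hRuniq : ∀ {g M M'}, Rel g M → Rel g M' → M = M' := by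
    intro g M M' h1 h2
    apply Units.ext
    apply Matrix.toLin'.injective
    apply LinearMap.ext
    intro c
    exact heinj' ((h1 c).symm.trans (h2 c))
  have hRfix : ∀ {g M}, Rel g M → ∀ c, c ≠ 0 → M.val *ᵥ c = c → g = 1 := by
    intro g M h1 c hc hMc
    by_contra hg
    exact hc (heinj c (h.fixed hg (by rw [h1, hMc])))
  let Γ : Subgroup (GL (Fin 2) K) :=
    { carrier := {M | M.val.det = 1 ∧ ∃ g, Rel g M}
      mul_mem' := by
        rintro M M' ⟨d1, g, h1⟩ ⟨d2, g', h2⟩
        exact ⟨by rw [Units.val_mul, det_mul, d1, d2, one_mul], g * g', hRmul h1 h2⟩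
      one_mem' := ⟨by simp, 1, hRone⟩
      inv_mem' := by
        rintro M ⟨d1, g, h1⟩
        refine ⟨?_, g⁻¹, hRinv h1⟩
        have := congrArg det (Units.inv_mul M)
        rwa [det_mul, d1, mul_one, det_one] at this }
  have hfin : Finite Γ := by
    apply Finite.of_injective (fun M : Γ => M.2.2.choose)
    intro M M' hM
    have h1 := M.2.2.choose_spec
    have h2 := M'.2.2.choose_spec
    simp only at hM
    rw [hM] at h1
    exact Subtype.ext (hRuniq h1 h2)
  have hu' : ∀ M ∈ Γ, M.val.trace = 2 → M = 1 := by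
    rintro M ⟨hd, g, hg⟩ ht
    have hdet : (M.val - 1).det = 0 := by
      rw [det_fin_two] at hd ⊢
      rw [trace_fin_two] at ht
      simp only [Matrix.sub_apply, one_apply_eq, ne_eq, zero_ne_one, not_false_eq_true, one_apply_ne,
        sub_zero, one_ne_zero]
      linear_combination hd - ht
    obtain ⟨c, hc0, hc⟩ := exists_mulVec_eq_zero_iff.mpr hdet
    rw [sub_mulVec, one_mulVec, sub_eq_zero] at hc
    have := hRfix hg c hc0 hc
    rw [this] at hg
    exact hRuniq hg hRone
  let MA : GL (Fin 2) K := GeneralLinearGroup.mkOfDetNeZero !![ω, x - 1 - ω; 0, -1 - ω] (by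
    rw [det_fin_two_of, show ω * (-1 - ω) - (x - 1 - ω) * 0 = 1 by linear_combination -hω]
    exact one_ne_zero)
  let MB : GL (Fin 2) K := GeneralLinearGroup.mkOfDetNeZero !![0, -1; 1, -1] (by
    rw [det_fin_two_of]; simp)
  have hMA : MA.val = !![ω, x - 1 - ω; 0, -1 - ω] := rfl
  have hMB : MB.val = !![0, -1; 1, -1] := rfl
  have RA : Rel a MA := by
    intro c
    rw [he, he, hMA, map_add, map_smul, map_smul, ← hAdef, hAv, hABv]
    simp only [mulVec, dotProduct, Fin.sum_univ_two, of_apply, cons_val', cons_val_zero,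
      cons_val_one, cons_val_fin_one]
    module
  have RB : Rel b MB := by
    intro c
    rw [he, he, hMB, map_add, map_smul, map_smul, ← hBdef, hBB]
    simp only [mulVec, dotProduct, Fin.sum_univ_two, of_apply, cons_val', cons_val_zero,
      cons_val_one, cons_val_fin_one]
    module
  have hAΓ : MA ∈ Γ := ⟨by rw [hMA, det_fin_two_of]; linear_combination -hω, a, RA⟩
  have hBΓ : MB ∈ Γ := ⟨by rw [hMB, det_fin_two_of]; simp, b, RB⟩
  have e1 : (![1, 0] : Fin 2 → K) ≠ 0 := fun h => one_ne_zero (congrFun h 0)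
  have key := two_order_three h2 Γ (fun M hM => hM.1) hu' hAΓ hBΓ
    (hRuniq (hRpow 3 RA) (ha ▸ hRone)) (hRuniq (hRpow 3 RB) (hb ▸ hRone))
    (by rw [hMA, trace_fin_two_of]; ring) (by rw [hMB, trace_fin_two_of]; ring) (by
      intro hc
      apply hab
      apply h.mem_zpowers Nat.prime_three a b ha hb _ ha1
      have h1 := hRmul (hRmul RA RB) (hRinv (hRmul RB RA))
      rw [hc, mul_inv_cancel] at h1
      exact mul_inv_eq_one.mp (hRfix h1 _ e1 (by simp)))
  have fin : ∀ k : ℕ, (MA * MB).val ^ k = -1 → ((a * b) ^ k) ^ 2 = 1 ∧ (a * b) ^ k ≠ 1 := by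
    intro k hk
    have h1 := hRpow k (hRmul RA RB)
    rw [← Units.val_pow_eq_pow_val] at hk
    constructor
    · apply hRfix (hRpow 2 h1) _ e1
      rw [Units.val_pow_eq_pow_val, hk]; simp
    · intro h3
      rw [h3] at h1
      rw [hRuniq h1 hRone] at hk
      have : (1 : K) = -1 := by simpa using congrFun (congrFun hk 0) 0
      exact h2 (by linear_combination this)
  rcases key with k | k | k
  · exact ⟨2, by simp, fin 2 k⟩
  · exact ⟨3, by simp, fin 3 k⟩
  · exact ⟨5, by simp, fin 5 k⟩

theorem pair_three {F V : Type*} [Field F] [AddCommGroup V] [Module F V]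
    [Module.Finite F V] [Nontrivial V] {ρ : G →* Module.End F V} (h : IsSR ρ) (h2 : (2 : F) ≠ 0)
    {a b : G} (ha : a ^ 3 = 1) (ha1 : a ≠ 1) (hb : b ^ 3 = 1) (hb1 : b ≠ 1) (hab : b ∉ zpowers a) :
    ∃ k, (k = 2 ∨ k = 3 ∨ k = 5) ∧ ((a * b) ^ k) ^ 2 = 1 ∧ (a * b) ^ k ≠ 1 := by
  let K := AlgebraicClosure F
  have : Nontrivial (TensorProduct F K V) := by
    rw [← Module.finrank_pos_iff (R := K), Module.finrank_baseChange]
    exact Module.finrank_pos
  have h2' : (2 : K) ≠ 0 := by
    intro h0
    apply h2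
    apply (algebraMap F K).injective
    rw [map_ofNat, map_zero, h0]
  exact pair_three_closed (h.map (Module.End.baseChangeHom F K V : Module.End F V →+*
    Module.End K (TensorProduct F K V))) h2' ha ha1 hb hb1 hab

end Cfsg.Agent.H2.PairThree
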