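import Mathlib
import Cfsg.Agent.H2.Regular

set_option autoImplicit false

/-! A transitive linear group with a normal subgroup spanning a quaternion algebra. -/

namespace Cfsg.Agent.H2.QuatStruct

open Subgroup Cfsg.Agent.H2.NormalField Cfsg.Agent.H2.Regular

variable {F V G : Type*} [Field F] [AddCommGroup V] [Module F V] [Group G]

/-- `ρ N` spans the quaternion algebra over the field `L` with units `I`, `J`. -/
structure QS (ρ : G →* Module.End F V) (N : Subgroup G) (L : Subalgebra F (Module.End F V))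
    (I J : Module.End F V) : Prop where
  ii : I * I = -1
  jj : J * J = -1
  ji : J * I = -(I * J)
  memI : I ∈ alg ρ N
  memJ : J ∈ alg ρ N
  le : L ≤ alg ρ N
  cI : ∀ l ∈ L, l * I = I * l
  cJ : ∀ l ∈ L, l * J = J * l
  span : ∀ n ∈ N, ∃ a ∈ L, ∃ b ∈ L, ∃ c ∈ L, ∃ d ∈ L, ρ n = a + b * I + c * J + d * (I * J)
  field : IsField L

/-- the split form of `QS` -/
structure MS (ρ : G →* Module.End F V) (N : Subgroup G) (L : Subalgebra F (Module.End F V))
    (E K : Module.End F V) : Prop where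
  ee : E * E = 1
  kk : K * K = -1
  ke : K * E = -(E * K)
  memE : E ∈ alg ρ N
  memK : K ∈ alg ρ N
  le : L ≤ alg ρ N
  cE : ∀ l ∈ L, l * E = E * l
  cK : ∀ l ∈ L, l * K = K * l
  span : ∀ n ∈ N, ∃ a ∈ L, ∃ b ∈ L, ∃ c ∈ L, ∃ d ∈ L, ρ n = a + b * E + c * K + d * (E * K)
  field : IsField L

variable {ρ : G →* Module.End F V} {N : Subgroup G} {L : Subalgebra F (Module.End F V)}

theorem QS.split {I J : Module.End F V} (h : QS ρ N L I J) {s t : F} (hst : s ^ 2 + t ^ 2 = -1) :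
    MS ρ N L (s • I + t • J) (I * J) := by
  have ii' : ∀ x, I * (I * x) = -x := fun x => by rw [← mul_assoc, h.ii, neg_one_mul]
  have jj' : ∀ x, J * (J * x) = -x := fun x => by rw [← mul_assoc, h.jj, neg_one_mul]
  have ji' : ∀ x, J * (I * x) = -(I * (J * x)) := fun x => by
    rw [← mul_assoc, h.ji, neg_mul, mul_assoc]
  have e : (s • I + t • J) * (I * J) = t • I - s • J := by
    simp only [add_mul, smul_mul_assoc, ii', ji', h.jj, mul_neg, mul_one, neg_neg]; module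
  refine ⟨?_, ?_, ?_, add_mem (Subalgebra.smul_mem _ h.memI s) (Subalgebra.smul_mem _ h.memJ t),
    mul_mem h.memI h.memJ, h.le, fun l hl => ?_, fun l hl => ?_, fun n hn => ?_, h.field⟩
  · simp only [add_mul, mul_add, smul_mul_assoc, mul_smul_comm, h.ii, h.jj, h.ji]
    linear_combination (norm := module) (-hst) • (1 : Module.End F V)
  · simp only [mul_assoc, ji', mul_neg, ii', h.jj, neg_neg]
  · rw [e]
    simp only [mul_add, mul_smul_comm, mul_assoc, h.ji, h.jj, mul_neg, ii', mul_one, neg_neg]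
    module
  · rw [mul_add, add_mul, mul_smul_comm, mul_smul_comm, smul_mul_assoc, smul_mul_assoc,
      h.cI l hl, h.cJ l hl]
  · rw [← mul_assoc, h.cI l hl, mul_assoc, h.cJ l hl, mul_assoc]
  · obtain ⟨a, ha, b, hb, c, hc, d, hd, hn⟩ := h.span n hn
    refine ⟨a, ha, -(s • b + t • c), neg_mem (add_mem (L.smul_mem hb s) (L.smul_mem hc t)), d, hd,
      s • c - t • b, sub_mem (L.smul_mem hc s) (L.smul_mem hb t), ?_⟩
    rw [hn, e]
    simp only [add_mul, mul_add, sub_mul, mul_sub, neg_mul, smul_mul_assoc, mul_smul_comm]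
    linear_combination (norm := module) hst • (b * I) + hst • (c * J)

namespace MS
variable {E K : Module.End F V}

theorem span_alg (h : MS ρ N L E K) {x : Module.End F V} (hx : x ∈ alg ρ N) :
    ∃ a ∈ L, ∃ b ∈ L, ∃ c ∈ L, ∃ d ∈ L, x = a + b * E + c * K + d * (E * K) := by
  let Q : Set (Module.End F V) :=
    {x | ∃ a ∈ L, ∃ b ∈ L, ∃ c ∈ L, ∃ d ∈ L, x = a + b * E + c * K + d * (E * K)}
  have hadd : ∀ x ∈ Q, ∀ y ∈ Q, x + y ∈ Q := by
    rintro _ ⟨a, ha, b, hb, c, hc, d, hd, rfl⟩ _ ⟨a', ha', b', hb', c', hc', d', hd', rfl⟩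
    exact ⟨_, add_mem ha ha', _, add_mem hb hb', _, add_mem hc hc', _, add_mem hd hd', by
      noncomm_ring⟩
  have hL : ∀ l ∈ L, ∀ y ∈ Q, l * y ∈ Q := by
    rintro l hl _ ⟨a, ha, b, hb, c, hc, d, hd, rfl⟩
    exact ⟨_, mul_mem hl ha, _, mul_mem hl hb, _, mul_mem hl hc, _, mul_mem hl hd, by noncomm_ring⟩
  have hE : ∀ y ∈ Q, E * y ∈ Q := by
    rintro _ ⟨a, ha, b, hb, c, hc, d, hd, rfl⟩
    refine ⟨b, hb, a, ha, d, hd, c, hc, ?_⟩
    simp only [mul_add, ← mul_assoc, ← h.cE a ha, ← h.cE b hb, ← h.cE c hc, ← h.cE d hd]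
    rw [mul_assoc b, h.ee, mul_assoc d E E, h.ee]; noncomm_ring
  have hK : ∀ y ∈ Q, K * y ∈ Q := by
    rintro _ ⟨a, ha, b, hb, c, hc, d, hd, rfl⟩
    refine ⟨-c, neg_mem hc, d, hd, a, ha, -b, neg_mem hb, ?_⟩
    simp only [mul_add, ← mul_assoc, ← h.cK a ha, ← h.cK b hb, ← h.cK c hc, ← h.cK d hd]
    rw [mul_assoc b, h.ke, mul_assoc c, h.kk, mul_assoc d K E, h.ke, mul_assoc d, neg_mul,
      mul_assoc E K K, h.kk]; noncomm_ring
  have key : ∀ y ∈ Q, x * y ∈ Q := by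
    induction hx using Algebra.adjoin_induction with
    | mem x hx =>
      obtain ⟨n, hn, rfl⟩ := hx
      obtain ⟨a, ha, b, hb, c, hc, d, hd, hn⟩ := h.span n hn
      intro y hy
      rw [hn]
      simp only [add_mul, mul_assoc]
      exact hadd _ (hadd _ (hadd _ (hL a ha y hy) _ (hL b hb _ (hE y hy))) _ (hL c hc _ (hK y hy))) _
        (hL d hd _ (hE _ (hK y hy)))
    | algebraMap c => exact hL _ (L.algebraMap_mem c)
    | add x y _ _ ihx ihy => intro z hz; rw [add_mul]; exact hadd _ (ihx z hz) _ (ihy z hz)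
    | mul x y _ _ ihx ihy => intro z hz; rw [mul_assoc]; exact ihx _ (ihy z hz)
  have := key 1 ⟨1, one_mem L, 0, zero_mem L, 0, zero_mem L, 0, zero_mem L, by simp⟩
  rwa [mul_one] at this

theorem exists_inv (h : MS ρ N L E K) {l : Module.End F V} (hl : l ∈ L) (hl0 : l ≠ 0) :
    ∃ m ∈ L, ∀ v, m (l v) = v := by
  obtain ⟨m, hm⟩ := h.field.mul_inv_cancel (a := ⟨l, hl⟩) (fun h0 => hl0 (congrArg Subtype.val h0))
  rw [h.field.mul_comm] at hm
  exact ⟨m, m.2, fun v => congrArg (fun x : L => (x : Module.End F V) v) hm⟩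

theorem eq_zero (h : MS ρ N L E K) {l : Module.End F V} (hl : l ∈ L) {v : V} (hv : v ≠ 0)
    (hlv : l v = 0) : l = 0 := by
  by_contra hl0
  obtain ⟨m, -, hm⟩ := h.exists_inv hl hl0
  exact hv (by rw [← hm v, hlv, map_zero])

theorem EE (h : MS ρ N L E K) (v : V) : E (E v) = v := congrArg (fun x : Module.End F V => x v) h.ee
theorem KK (h : MS ρ N L E K) (v : V) : K (K v) = -v := congrArg (fun x : Module.End F V => x v) h.kk
theorem EK (h : MS ρ N L E K) (v : V) : E (K v) = -K (E v) := by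
  have := congrArg (fun x : Module.End F V => x v) h.ke
  simp only [Module.End.mul_apply, LinearMap.neg_apply] at this
  rw [this, neg_neg]
theorem El (h : MS ρ N L E K) {l : Module.End F V} (hl : l ∈ L) (v : V) : E (l v) = l (E v) :=
  congrArg (fun x : Module.End F V => x v) (h.cE l hl).symm
theorem Kl (h : MS ρ N L E K) {l : Module.End F V} (hl : l ∈ L) (v : V) : K (l v) = l (K v) :=
  congrArg (fun x : Module.End F V => x v) (h.cK l hl).symm

theorem indep (h : MS ρ N L E K) (h2 : (2 : F) ≠ 0) {x y : V} (hx : E x = x) (hy : E y = y)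
    (hxy : x + K y = 0) : x = 0 ∧ y = 0 := by
  have h1 := congrArg E hxy
  rw [map_add, h.EK, hx, hy, map_zero] at h1
  have h3 : (2 : F) • x = 0 := by linear_combination (norm := module) hxy + h1
  have h4 : x = 0 := (smul_eq_zero.mp h3).resolve_left h2
  rw [h4, zero_add] at hxy
  have h5 := congrArg K hxy
  rw [h.KK, map_zero, neg_eq_zero] at h5
  exact ⟨h4, h5⟩

theorem exists_fixed (h : MS ρ N L E K) (W : Submodule F V) (hE : ∀ v ∈ W, E v ∈ W)
    (hK : ∀ v ∈ W, K v ∈ W) (hW : W ≠ ⊥) : ∃ u ∈ W, u ≠ 0 ∧ E u = u := by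
  obtain ⟨w, hw, hw0⟩ := (Submodule.ne_bot_iff W).mp hW
  by_cases h1 : w + E w = 0
  · refine ⟨K w, hK w hw, fun h0 => hw0 ?_, ?_⟩
    · rw [← neg_eq_zero, ← h.KK, h0, map_zero]
    · rw [h.EK, ← map_neg, ← eq_neg_of_add_eq_zero_left h1]
  · exact ⟨w + E w, add_mem hw (hE w hw), h1, by rw [map_add, h.EE, add_comm]⟩

theorem decomp (h : MS ρ N L E K) (h2 : (2 : F) ≠ 0) (v : V) :
    ∃ x y, E x = x ∧ E y = y ∧ v = x + K y := by
  refine ⟨(2 : F)⁻¹ • (v + E v), (2 : F)⁻¹ • K (E v - v), ?_, ?_, ?_⟩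
  · rw [map_smul, map_add, h.EE, add_comm]
  · rw [map_smul, h.EK, map_sub, h.EE, ← map_neg, neg_sub]
  · rw [map_smul, h.KK, ← smul_add, show v + E v + -(E v - v) = (2 : F) • v by module,
      inv_smul_smul₀ h2]

theorem rank_one [Finite V] (h : MS ρ N L E K) (h2 : (2 : F) ≠ 0) (hN : N.Normal)
    (htrans : ∀ v w : V, v ≠ 0 → w ≠ 0 → ∃ g : G, ρ g v = w) {u : V} (hu0 : u ≠ 0) (hu : E u = u)
    {u' : V} (hu' : E u' = u') : ∃ l ∈ L, u' = l u := by
  have : Finite (Module.End F V) := DFunLike.finite _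
  by_contra hno
  push Not at hno
  have ind : ∀ a ∈ L, ∀ b ∈ L, a u + b u' = 0 → a = 0 ∧ b = 0 := by
    intro a ha b hb hab
    have hb0 : b = 0 := by
      by_contra hb0
      obtain ⟨m, hm, hm2⟩ := h.exists_inv hb hb0
      refine hno (-(m * a)) (neg_mem (mul_mem hm ha)) ?_
      rw [← hm2 u', eq_neg_of_add_eq_zero_right hab, map_neg]; rfl
    rw [hb0, LinearMap.zero_apply, add_zero] at hab
    exact ⟨h.eq_zero ha hu0 hab, hb0⟩
  obtain ⟨g, hg⟩ := htrans (u + K u') u (fun h0 => hu0 (h.indep h2 hu hu' h0).1) hu0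
  have h1 := ncard_ann_eq ρ (alg ρ N) (alg_norm ρ hN) g (u + K u')
  have h3 : {b | b ∈ (alg ρ N : Set (Module.End F V)) ∧ b (u + K u') = 0} = {0} := by
    ext x
    refine ⟨fun ⟨hx, hx2⟩ => ?_, fun hx => by rw [hx]; exact ⟨zero_mem _, rfl⟩⟩
    obtain ⟨a, ha, b, hb, c, hc, d, hd, rfl⟩ := h.span_alg hx
    have e : ((a + b) u + (-(c + d)) u') + K ((c - d) u + (a - b) u') = 0 := by
      rw [← hx2]
      simp only [LinearMap.add_apply, LinearMap.sub_apply, LinearMap.neg_apply,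
        Module.End.mul_apply, map_add, map_sub, map_neg, h.Kl ha, h.Kl hb, h.Kl hc, h.Kl hd, h.EK,
        h.KK, hu, hu']
      abel
    obtain ⟨e1, e2⟩ := h.indep h2
      (by rw [map_add, h.El (add_mem ha hb), h.El (neg_mem (add_mem hc hd)), hu, hu'])
      (by rw [map_add, h.El (sub_mem hc hd), h.El (sub_mem ha hb), hu, hu']) e
    obtain ⟨f1, f2⟩ := ind _ (add_mem ha hb) _ (neg_mem (add_mem hc hd)) e1
    obtain ⟨f3, f4⟩ := ind _ (sub_mem hc hd) _ (sub_mem ha hb) e2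
    have z : ∀ x : Module.End F V, x + x = 0 → x = 0 := fun x hx =>
      (smul_eq_zero.mp (by rw [two_smul, hx])).resolve_left h2
    have ha0 : a = 0 := z a (by linear_combination (norm := abel) f1 + f4)
    have hb0 : b = 0 := z b (by linear_combination (norm := abel) f1 - f4)
    have hc0 : c = 0 := z c (by linear_combination (norm := abel) f3 - f2)
    have hd0 : d = 0 := z d (by linear_combination (norm := abel) -f3 - f2)
    simp [ha0, hb0, hc0, hd0]
  rw [h3, hg, Set.ncard_singleton, Set.ncard_eq_one] at h1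
  obtain ⟨x, hx⟩ := h1
  have m1 : (0 : Module.End F V) ∈ ({x} : Set _) := hx ▸ ⟨zero_mem _, rfl⟩
  have m2 : 1 - E ∈ ({x} : Set _) := hx ▸ ⟨sub_mem (one_mem _) h.memE, by simp [hu]⟩
  have h4 : (1 - E) (K u) = 0 := by rw [m2, ← m1]; rfl
  rw [LinearMap.sub_apply, h.EK, hu, sub_neg_eq_add, Module.End.one_apply, ← map_add] at h4
  have h5 := (h.indep h2 (map_zero E) (y := u + u) (by rw [map_add, hu]) (by rw [h4, add_zero])).2
  exact hu0 ((smul_eq_zero.mp (by rw [two_smul, h5])).resolve_left h2)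

theorem main [Finite V] [Nontrivial V] (h : MS ρ N L E K) (h2 : (2 : F) ≠ 0) (hN : N.Normal)
    (htrans : ∀ v w : V, v ≠ 0 → w ≠ 0 → ∃ g : G, ρ g v = w) :
    Nat.card V = Nat.card L ^ 2 ∧
    (∀ W : Submodule F V, (∀ n ∈ N, ∀ v ∈ W, ρ n v ∈ W) → W = ⊥ ∨ W = ⊤) ∧
    ∀ c : Module.End F V, (∀ n ∈ N, c * ρ n = ρ n * c) → c ∈ L := by
  have hdec : ∀ u, u ≠ 0 → E u = u → ∀ v, ∃ l ∈ L, ∃ m ∈ L, v = l u + K (m u) := by
    intro u hu0 hu v
    obtain ⟨x, y, hx, hy, rfl⟩ := h.decomp h2 v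
    obtain ⟨l, hl, rfl⟩ := h.rank_one h2 hN htrans hu0 hu hx
    obtain ⟨m, hm, rfl⟩ := h.rank_one h2 hN htrans hu0 hu hy
    exact ⟨l, hl, m, hm, rfl⟩
  obtain ⟨u, -, hu0, hu⟩ := h.exists_fixed ⊤ (fun _ _ => trivial) (fun _ _ => trivial) top_ne_bot
  refine ⟨?_, fun W hW => ?_, fun c hc => ?_⟩
  · rw [pow_two, ← Nat.card_prod]
    symm
    apply Nat.card_eq_of_bijective
      (fun x : L × L => (x.1 : Module.End F V) u + K ((x.2 : Module.End F V) u))
    constructor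
    · rintro ⟨a, b⟩ ⟨c, d⟩ hab
      have hac := sub_mem a.2 c.2
      have hbd := sub_mem b.2 d.2
      obtain ⟨e1, e2⟩ := h.indep h2 (x := ((a : Module.End F V) - c) u)
        (y := ((b : Module.End F V) - d) u) (by rw [h.El hac, hu]) (by rw [h.El hbd, hu]) (by
          simp only [LinearMap.sub_apply, map_sub] at hab ⊢
          linear_combination (norm := abel) hab)
      exact Prod.ext (Subtype.ext (sub_eq_zero.mp (h.eq_zero hac hu0 e1)))
        (Subtype.ext (sub_eq_zero.mp (h.eq_zero hbd hu0 e2)))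
    · intro v
      obtain ⟨l, hl, m, hm, rfl⟩ := hdec u hu0 hu v
      exact ⟨(⟨l, hl⟩, ⟨m, hm⟩), rfl⟩
  · have hB := alg_apply_mem ρ hW
    refine or_iff_not_imp_left.mpr fun hW0 => ?_
    obtain ⟨w, hw, hw0, hw1⟩ := h.exists_fixed W (hB E h.memE) (hB K h.memK) hW0
    rw [eq_top_iff]
    intro v _
    obtain ⟨l, hl, m, hm, rfl⟩ := hdec w hw0 hw1 v
    exact add_mem (hB l (h.le hl) w hw) (hB K h.memK _ (hB m (h.le hm) w hw))
  · have hB : ∀ y ∈ alg ρ N, ∀ v, c (y v) = y (c v) := fun y hy v =>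
      congrArg (fun x : Module.End F V => x v) (commute_alg ρ hc y hy)
    obtain ⟨l, hl, hl2⟩ := h.rank_one h2 hN htrans hu0 hu (u' := c u) (by rw [← hB E h.memE, hu])
    have : c = l := by
      ext v
      obtain ⟨a, ha, b, hb, rfl⟩ := hdec u hu0 hu v
      have cm : ∀ a ∈ L, a (l u) = l (a u) := fun a ha => congrArg
        (fun x : L => (x : Module.End F V) u) (h.field.mul_comm ⟨a, ha⟩ ⟨l, hl⟩)
      rw [map_add, map_add, hB a (h.le ha), hB K h.memK, hB b (h.le hb), hl2, cm a ha, cm b hb,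
        h.Kl hl]
    rw [this]; exact hl

end MS

theorem QS.main {p : ℕ} [Fact p.Prime] {V : Type*} [AddCommGroup V] [Module (ZMod p) V] [Finite V]
    [Nontrivial V] {ρ : G →* Module.End (ZMod p) V} {L : Subalgebra (ZMod p) (Module.End (ZMod p) V)}
    {I J : Module.End (ZMod p) V} (h : QS ρ N L I J) (h2 : (2 : ZMod p) ≠ 0) (hN : N.Normal)
    (htrans : ∀ v w : V, v ≠ 0 → w ≠ 0 → ∃ g : G, ρ g v = w) :
    Nat.card V = Nat.card L ^ 2 ∧
    (∀ W : Submodule (ZMod p) V, (∀ n ∈ N, ∀ v ∈ W, ρ n v ∈ W) → W = ⊥ ∨ W = ⊤) ∧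
    ∀ c : Module.End (ZMod p) V, (∀ n ∈ N, c * ρ n = ρ n * c) → c ∈ L := by
  obtain ⟨s, t, hst⟩ := ZMod.sq_add_sq p (-1)
  exact (h.split hst).main h2 hN htrans

end Cfsg.Agent.H2.QuatStruct
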