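import Mathlib
import Cfsg.Agent.H2.QuatAlg
import Cfsg.Agent.H2.Semireg

set_option autoImplicit false

/-! The subgroup generated by the elements of order three of a Frobenius complement. -/

namespace Cfsg.Agent.H2.ThreeGen

open Subgroup Cfsg.Agent.H2.Semireg Cfsg.Agent.H2.QuatAlg

section ring
variable {R : Type*} [Ring R]

/-- the trace of `A * B` -/
def tau (A B : R) : R := A * B + B * A + A + B + 1

theorem tau_inv (A B : R) : tau A (-B - 1) = 1 - tau A B := by simp only [tau]; noncomm_ring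

theorem tau_conj {A B : R} (hA : A * A + A + 1 = 0) (hB : B * B + B + 1 = 0) :
    tau A (B * A * (-B - 1)) = tau A B - tau A B * tau A B + 1 ∧
    tau A ((-B - 1) * A * B) = tau A B - tau A B * tau A B + 1 := by
  have a1 : A * A = -A - 1 := by linear_combination (norm := ncr) hA
  have b1 : B * B = -B - 1 := by linear_combination (norm := ncr) hB
  have a2 : ∀ x, A * (A * x) = -(A * x) - x := fun x => by rw [← mul_assoc, a1]; noncomm_ring
  have b2 : ∀ x, B * (B * x) = -(B * x) - x := fun x => by rw [← mul_assoc, b1]; noncomm_ring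
  constructor <;>
  · simp only [tau, mul_add, add_mul, mul_sub, sub_mul, mul_assoc, mul_one, one_mul,
      mul_neg, neg_mul, neg_neg, neg_add_rev, neg_sub, a1, a2, b1, b2]
    abel

theorem tau_pair {A X Y : R} (h : Pair A X) (k : Pair A Y) : tau (A - X) (A - Y) = f X Y + 1 := by
  simp only [tau, f]
  linear_combination (norm := ncr) 2 * h.aa - h.xa - k.xa

theorem f_of_sum {A X Y : R} (h : Pair A X) (k : Pair A Y) (e : A - Y = -(A - X) - 1) :
    f X Y = -1 := by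
  have e1 : X + Y = 2 * A + 1 := by linear_combination (norm := ncr) -e
  have e2 : (X + Y) * (X + Y) = (2 * A + 1) * (2 * A + 1) := by rw [e1]
  simp only [f]
  linear_combination (norm := ncr) e2 - h.xx - k.xx + 4 * h.aa

theorem conj_of_f {X Y : R} (hX : X * X = -1) (h : f X Y = -1) : X * Y * -X = X - Y := by
  simp only [f] at h
  linear_combination (norm := ncr) Y * hX - h * X

theorem cube_of_f {X Y : R} (hX : X * X = -1) (hY : Y * Y = -1) (h : f X Y = -1) :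
    (X * Y) ^ 3 = 1 := by
  simp only [f] at h
  have : X * Y * (X * Y) + X * Y + 1 = 0 := by
    linear_combination (norm := ncr) X * h * Y - hX * Y * Y + hY
  linear_combination (norm := ncr) (X * Y - 1) * this

end ring

variable {G R : Type*} [Group G] [Ring R] [Nontrivial R] {ι : G →* R}

/-- the hypothesis on pairs of elements of order three -/
def P3 (G : Type*) [Group G] : Prop :=
  ∀ a b : G, a ^ 3 = 1 → a ≠ 1 → b ^ 3 = 1 → b ≠ 1 → b ∉ zpowers a →
    ∃ k, (k = 2 ∨ k = 3 ∨ k = 5) ∧ ((a * b) ^ k) ^ 2 = 1 ∧ (a * b) ^ k ≠ 1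

omit [Nontrivial R] in
theorem map_inv_of {x : G} {Y : R} (h : ι x * Y = 1) : ι x⁻¹ = Y := by
  rw [← mul_one (ι x⁻¹), ← h, ← mul_assoc, ← map_mul, inv_mul_cancel, map_one, one_mul]

omit [Nontrivial R] in
theorem inv_three (h : IsSR ι) {a : G} (ha : a ^ 3 = 1) (ha1 : a ≠ 1) : ι a⁻¹ = -ι a - 1 :=
  map_inv_of (by linear_combination (norm := ncr) -h.order_three ha ha1)

omit [Nontrivial R] in
theorem inv_four {x : G} (hx : ι x * ι x = -1) : ι x⁻¹ = -ι x :=
  map_inv_of (by rw [mul_neg, hx, neg_neg])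

omit [Nontrivial R] in
theorem tau_eq (h : IsSR ι) {a b : G} (ha : a ^ 3 = 1) (ha1 : a ≠ 1) (hb : b ^ 3 = 1)
    (hb1 : b ≠ 1) : tau (ι a) (ι b) = ι (a * b) + ι (a * b)⁻¹ := by
  rw [mul_inv_rev, map_mul, map_mul, inv_three h ha ha1, inv_three h hb hb1, tau]; noncomm_ring

theorem mem_zpowers_three {a b : G} (ha : a ^ 3 = 1) (hb : b ∈ zpowers a) :
    b = 1 ∨ b = a ∨ b = a⁻¹ := by
  obtain ⟨j, rfl⟩ := hb
  simp only
  have h3 : a ^ (3 : ℤ) = 1 := by exact_mod_cast ha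
  rw [zpow_eq_zpow_emod' j ha]
  have : j % (3 : ℕ) = 0 ∨ j % (3 : ℕ) = 1 ∨ j % (3 : ℕ) = 2 := by push_cast; omega
  rcases this with h | h | h <;> rw [h]
  · simp
  · simp
  · right; right
    rw [eq_inv_iff_mul_eq_one, ← zpow_add_one]; exact h3

theorem tau_cases (h : IsSR ι) (h3 : P3 G) {a b : G} (ha : a ^ 3 = 1) (ha1 : a ≠ 1)
    (hb : b ^ 3 = 1) (hb1 : b ≠ 1) (hab : b ∉ zpowers a) :
    tau (ι a) (ι b) = 0 ∨ tau (ι a) (ι b) = 1 ∨
      (tau (ι a) (ι b) * tau (ι a) (ι b) = tau (ι a) (ι b) + 1 ∧ ι ((a * b) ^ 5) = -1) := by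
  obtain ⟨k, hk, h1, h2⟩ := h3 a b ha ha1 hb hb1 hab
  have hz := h.eq_neg_one h1 h2
  have hc := h.involution_central h1
  set z := (a * b) ^ k with hzdef
  have hu : IsUnit (ι (a * b) + 1) := by
    have := h (a * b * z) (fun h4 => by
      have h5 : b = a⁻¹ * z⁻¹ := by rw [← eq_inv_of_mul_eq_one_left h4]; group
      have h6 : Commute a⁻¹ z⁻¹ := (Commute.inv_inv (hc a))
      rw [h5, h6.mul_pow, inv_pow, ha, inv_one, one_mul, inv_pow, inv_eq_one, pow_succ, h1,
        one_mul] at hb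
      exact h2 hb)
    rw [map_mul, hz] at this
    convert this.neg using 1
    noncomm_ring
  rw [tau_eq h ha ha1 hb hb1]
  have e1 : ι (a * b) * ι (a * b)⁻¹ = 1 := by rw [← map_mul, mul_inv_cancel, map_one]
  have e2 : ι (a * b)⁻¹ * ι (a * b) = 1 := by rw [← map_mul, inv_mul_cancel, map_one]
  rw [hzdef, map_pow] at hz
  rw [map_pow]
  generalize ι (a * b) = C at *
  generalize ι (a * b)⁻¹ = D at *
  rcases hk with rfl | rfl | rfl
  · left
    linear_combination (norm := ncr) D * hz - e2 * C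
  · right; left
    have : C * C - C + 1 = 0 := hu.mul_right_eq_zero.mp (by linear_combination (norm := ncr) hz)
    linear_combination (norm := ncr) D * this - e2 * C + e2
  · right; right
    refine ⟨?_, hz⟩
    have : C ^ 4 - C ^ 3 + C * C - C + 1 = 0 :=
      hu.mul_right_eq_zero.mp (by linear_combination (norm := ncr) hz)
    linear_combination (norm := ncr) D * D * this - D * e2 * (C ^ 3 - C ^ 2 + C - 1)
      - e2 * (C ^ 2 - C + 1) + e1 + e2

/-- the quaternion units attached to `a` -/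
def S (ι : G →* R) (a : G) : Set G := {X | Pair (ι a) (ι X)}

omit [Nontrivial R] in
theorem mem_of_tau_zero (h : IsSR ι) {a b : G} (ha : a ^ 3 = 1) (ha1 : a ≠ 1)
    (hb : b ^ 3 = 1) (hb1 : b ≠ 1) (ht : tau (ι a) (ι b) = 0) : (a * b)⁻¹ ∈ S ι a := by
  have hA := h.order_three ha ha1
  have hB := h.order_three hb hb1
  have e : ι (a * b)⁻¹ = -(ι a * ι b) := by
    rw [tau_eq h ha ha1 hb hb1, map_mul] at ht
    exact eq_neg_of_add_eq_zero_right ht
  have e2 : ι (a * b)⁻¹ * (ι a * ι b) = 1 := by rw [← map_mul, ← map_mul, inv_mul_cancel, map_one]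
  rw [e] at e2
  refine ⟨hA, ?_, ?_⟩ <;> rw [e]
  · linear_combination (norm := ncr) -e2
  · simp only [tau] at ht
    linear_combination (norm := ncr) hA - ι a * ht

theorem mem_closure_three (h : IsSR ι) (h3 : P3 G) {a b : G} (ha : a ^ 3 = 1) (ha1 : a ≠ 1)
    (hb : b ^ 3 = 1) : b ∈ closure (insert a (S ι a)) := by
  have haC : a ∈ closure (insert a (S ι a)) := subset_closure (Set.mem_insert _ _)
  have hS : ∀ X ∈ S ι a, X ∈ closure (insert a (S ι a)) := fun X hX =>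
    subset_closure (Set.mem_insert_of_mem _ hX)
  have key : ∀ b : G, b ^ 3 = 1 → b ≠ 1 → tau (ι a) (ι b) = 0 → b ∈ closure (insert a (S ι a)) := by
    intro b hb hb1 ht
    have := mul_mem (inv_mem haC) (inv_mem (hS _ (mem_of_tau_zero h ha ha1 hb hb1 ht)))
    simpa using this
  by_cases hb1 : b = 1
  · rw [hb1]; exact one_mem _
  by_cases hab : b ∈ zpowers a
  · exact zpowers_le.mpr haC hab
  rcases tau_cases h h3 ha ha1 hb hb1 hab with ht | ht | ⟨ht, hz⟩
  · exact key b hb hb1 ht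
  · rw [← inv_mem_iff]
    refine key _ (by rw [inv_pow, hb, inv_one]) (inv_ne_one.mpr hb1) ?_
    rw [inv_three h hb hb1, tau_inv, ht, sub_self]
  · obtain ⟨t1, t2⟩ := tau_conj (h.order_three ha ha1) (h.order_three hb hb1)
    rw [← inv_three h hb hb1, ← map_mul, ← map_mul, ht] at t1 t2
    have c1 : (b * a * b⁻¹) ^ 3 = 1 := by rw [conj_pow, ha]; group
    have c2 : (b⁻¹ * a * b) ^ 3 = 1 := by
      have := conj_pow (a := b⁻¹) (b := a) (i := 3)
      rw [inv_inv] at this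
      rw [this, ha]; group
    have d1 : b * a * b⁻¹ ≠ 1 := fun h4 => ha1 (by
      calc a = b⁻¹ * (b * a * b⁻¹) * b := by group
        _ = 1 := by rw [h4]; group)
    have d2 : b⁻¹ * a * b ≠ 1 := fun h4 => ha1 (by
      calc a = b * (b⁻¹ * a * b) * b⁻¹ := by group
        _ = 1 := by rw [h4]; group)
    have t3 : tau (ι a) (ι (b * a * b⁻¹)) = 0 := by rw [t1]; abel
    have m1 := key _ c1 d1 t3
    have m2 := key _ c2 d2 (by rw [t2]; abel)
    have hX := mem_of_tau_zero h ha ha1 c1 d1 t3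
    have m3 : (a * b) ^ 5 ∈ closure (insert a (S ι a)) := by
      have : (a * b) ^ 5 = (a * (b * a * b⁻¹))⁻¹ * (a * (b * a * b⁻¹))⁻¹ :=
        h.injective (by rw [hz, map_mul, Pair.xx hX])
      rw [this]; exact mul_mem (hS _ hX) (hS _ hX)
    have e : b = ((a * (b * a * b⁻¹) * (b⁻¹ * a * b) * a * (b * a * b⁻¹))⁻¹ * (a * b) ^ 5)⁻¹ := by
      have b1 : b⁻¹ = b * b := by
        rw [inv_eq_iff_mul_eq_one, ← hb]; simp only [pow_succ, pow_zero]; group
      have : (a * b) ^ 5 = a * b * a * (b⁻¹ * b⁻¹) * a * b * a * b * a * b⁻¹ * (b * b) := by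
        have b2 : b⁻¹ * b⁻¹ = b := by rw [b1]; calc _ = b ^ 3 * b := by
                                                      simp only [pow_succ, pow_zero]; group
          _ = b := by rw [hb, one_mul]
        rw [b2]; simp only [pow_succ, pow_zero]; group
      rw [this, ← b1]; group
    rw [e]
    exact inv_mem (mul_mem (inv_mem (mul_mem (mul_mem (mul_mem (mul_mem haC m1) m2) haC) m1)) m3)

omit [Nontrivial R] in
theorem map_J {a X : G} (hX : X ∈ S ι a) :
    ι (a⁻¹ * X * a) = J (ι a) (ι X) := by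
  rw [mul_assoc, map_mul, map_mul, ← Pair.aJ hX, ← mul_assoc, ← map_mul, inv_mul_cancel, map_one,
    one_mul]

omit [Nontrivial R] in
theorem map_K {a X : G} (hX : X ∈ S ι a) :
    ι (a * X * a⁻¹) = K (ι a) (ι X) := by
  rw [map_mul, map_mul, ← Pair.Ka hX, mul_assoc, ← map_mul, mul_inv_cancel, map_one, mul_one]

omit [Nontrivial R] in
theorem J_mem {a X : G} (hX : X ∈ S ι a) :
    a⁻¹ * X * a ∈ S ι a := by
  change Pair _ _
  rw [map_J hX]; exact Pair.pJ hX

omit [Nontrivial R] in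
theorem K_mem {a X : G} (hX : X ∈ S ι a) :
    a * X * a⁻¹ ∈ S ι a := by
  change Pair _ _
  rw [map_K hX]; exact Pair.pK hX

theorem f_cases (h : IsSR ι) (h3 : P3 G) {a X Y : G} (ha : a ^ 3 = 1) (ha1 : a ≠ 1)
    (hX : X ∈ S ι a) (hY : Y ∈ S ι a) (hne : Y ≠ X) :
    f (ι X) (ι Y) = -1 ∨ f (ι X) (ι Y) = 0 ∨ f (ι X) (ι Y) * f (ι X) (ι Y) + f (ι X) (ι Y) = 1 := by
  have key : ∀ X ∈ S ι a, ι (X * a⁻¹ * X⁻¹) = ι a - ι X ∧ (X * a⁻¹ * X⁻¹) ^ 3 = 1 ∧
      X * a⁻¹ * X⁻¹ ≠ 1 := by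
    intro X hX
    refine ⟨?_, by rw [conj_pow, inv_pow, ha]; group, fun h4 => ha1 ?_⟩
    · rw [map_mul, map_mul, inv_three h ha ha1, inv_four hX.xx]
      linear_combination (norm := ncr) hX.xa * ι X - ι a * hX.xx
    · calc a = (X⁻¹ * (X * a⁻¹ * X⁻¹) * X)⁻¹ := by group
        _ = 1 := by rw [h4]; group
  obtain ⟨x1, x2, x3⟩ := key X hX
  obtain ⟨y1, y2, y3⟩ := key Y hY
  by_cases hm : Y * a⁻¹ * Y⁻¹ ∈ zpowers (X * a⁻¹ * X⁻¹)
  · rcases mem_zpowers_three x2 hm with h4 | h4 | h4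
    · exact absurd h4 y3
    · rw [h4, x1, sub_right_inj] at y1
      exact absurd (h.injective y1).symm hne
    · rw [h4, inv_three h x2 x3, x1] at y1
      exact Or.inl (f_of_sum hX hY y1.symm)
  · have := tau_cases h h3 x2 x3 y2 y3 hm
    rw [x1, y1, tau_pair hX hY] at this
    rcases this with h4 | h4 | ⟨h4, -⟩
    · left; linear_combination (norm := ncr) h4
    · right; left; linear_combination (norm := ncr) h4
    · right; right; linear_combination (norm := ncr) h4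

theorem values (h : IsSR ι) (h2 : IsUnit (2 : R)) (h3 : P3 G) {a X Y : G} (ha : a ^ 3 = 1)
    (ha1 : a ≠ 1) (hX : X ∈ S ι a) (hY : Y ∈ S ι a) (hne : Y ∉ closure {a, X}) :
    (f (ι X) (ι Y) = -1 ∧
      f (K (ι a) (ι X)) (ι Y) * f (K (ι a) (ι X)) (ι Y) + f (K (ι a) (ι X)) (ι Y) = 1) ∨
    (f (J (ι a) (ι X)) (ι Y) = -1 ∧ f (ι X) (ι Y) * f (ι X) (ι Y) + f (ι X) (ι Y) = 1) ∨
    (f (K (ι a) (ι X)) (ι Y) = -1 ∧
      f (J (ι a) (ι X)) (ι Y) * f (J (ι a) (ι X)) (ι Y) + f (J (ι a) (ι X)) (ι Y) = 1) := by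
  have haC : a ∈ closure ({a, X} : Set G) := subset_closure (by simp)
  have hXC : X ∈ closure ({a, X} : Set G) := subset_closure (by simp)
  refine three_values h2 (f_cases h h3 ha ha1 hX hY fun e => hne (e ▸ hXC)) ?_ ?_
    (Pair.f_sum hY _) (sum_sq hX hY)
  · rw [← map_J hX]
    exact f_cases h h3 ha ha1 (J_mem hX) hY fun e =>
      hne (e ▸ mul_mem (mul_mem (inv_mem haC) hXC) haC)
  · rw [← map_K hX]
    exact f_cases h h3 ha ha1 (K_mem hX) hY fun e =>
      hne (e ▸ mul_mem (mul_mem haC hXC) (inv_mem haC))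

theorem exists_gold (h : IsSR ι) (h2 : IsUnit (2 : R)) (h3 : P3 G) {a X Y : G} (ha : a ^ 3 = 1)
    (ha1 : a ≠ 1) (hX : X ∈ S ι a) (hY : Y ∈ S ι a) (hne : Y ∉ closure {a, X}) :
    ∃ Y' : G, Y ∈ closure {a, Y'} ∧
      Gold (ι a) (ι X) (ι Y') (-f (K (ι a) (ι X)) (ι Y')) := by
  have m1 : ∀ W : G, a⁻¹ * W * a ∈ closure ({a, W} : Set G) := fun W =>
    mul_mem (mul_mem (inv_mem (subset_closure (by simp))) (subset_closure (by simp)))
      (subset_closure (by simp))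
  have m2 : ∀ W : G, a * W * a⁻¹ ∈ closure ({a, W} : Set G) := fun W =>
    mul_mem (mul_mem (subset_closure (by simp)) (subset_closure (by simp)))
      (inv_mem (subset_closure (by simp)))
  rcases values h h2 h3 ha ha1 hX hY hne with ⟨h4, h5⟩ | ⟨h4, h5⟩ | ⟨h4, h5⟩
  · exact ⟨Y, subset_closure (by simp), gold_of hX hY h4 h5⟩
  · refine ⟨a * Y * a⁻¹, ?_, gold_of hX (K_mem hY) ?_ ?_⟩
    · have := m1 (a * Y * a⁻¹)
      rwa [show a⁻¹ * (a * Y * a⁻¹) * a = Y by group] at this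
    · rw [map_K hY, Pair.fK hX hY, h4]
    · rw [map_K hY, Pair.fK (Pair.pK hX) hY, Pair.JK hX, h5]
  · refine ⟨a⁻¹ * Y * a, ?_, gold_of hX (J_mem hY) ?_ ?_⟩
    · have := m2 (a⁻¹ * Y * a)
      rwa [show a * (a⁻¹ * Y * a) * a⁻¹ = Y by group] at this
    · rw [map_J hY, Pair.fJ hX hY, h4]
    · rw [map_J hY, Pair.fJ (Pair.pK hX) hY, Pair.KK hX, h5]

theorem mem_of_gold (h : IsSR ι) (h2 : IsUnit (2 : R)) (h3 : P3 G) {a X Y Z : G} (ha : a ^ 3 = 1)
    (ha1 : a ≠ 1) {φ : R} (g : Gold (ι a) (ι X) (ι Y) φ) (hZ : Z ∈ S ι a) :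
    Z ∈ closure {a, X, Y} := by
  by_contra hne
  have haC : a ∈ closure ({a, X, Y} : Set G) := subset_closure (by simp)
  have hXC : X ∈ closure ({a, X, Y} : Set G) := subset_closure (by simp)
  have hYC : Y ∈ closure ({a, X, Y} : Set G) := subset_closure (by simp)
  have hle : ∀ W ∈ closure ({a, X, Y} : Set G), closure {a, W} ≤ closure ({a, X, Y} : Set G) := by
    intro W hW
    rw [closure_le]
    rintro _ (rfl | rfl)
    exacts [haC, hW]
  obtain ⟨W, h4, g'⟩ := exists_gold h h2 h3 ha ha1 g.pX hZ fun h4 => hne (hle X hXC h4)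
  have hW : W ∉ closure ({a, X, Y} : Set G) := fun h5 => hne (hle W h5 h4)
  rcases values h h2 h3 ha ha1 g.pY g'.pY (fun h5 => hW (hle Y hYC h5)) with
    ⟨h5, -⟩ | ⟨h5, -⟩ | ⟨h5, -⟩
  · have fX : ∀ {Y φ : R}, Gold (ι a) (ι X) Y φ → f (ι X) Y = -1 := by
      intro Y φ g
      apply h2.mul_left_cancel
      have e : 2 * f (ι X) Y = f (ι X) (2 * Y) := by simp only [f]; noncomm_ring
      have c := g.φX.eq
      rw [e, g.eqY]
      simp only [f]
      linear_combination (norm := ncr) 2 * g.pX.xx + g.pX.mIJ + g.pX.mJI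
        - c * (K (ι a) (ι X) - J (ι a) (ι X))
        + φ * (g.pX.mIK + g.pX.mKI - g.pX.mIJ - g.pX.mJI)
    have e1 : ι (X * (Y * W) * X⁻¹) = (ι Y - ι X) * (ι W - ι X) := by
      rw [show X * (Y * W) * X⁻¹ = (X * Y * X⁻¹) * (X * W * X⁻¹) by group]
      simp only [map_mul, inv_four g.pX.xx]
      rw [conj_of_f g.pX.xx (fX g), conj_of_f g.pX.xx (fX g')]
      noncomm_ring
    have e2 : (Y * W) ^ 3 = 1 := h.injective (by
      rw [map_pow, map_mul, map_one]; exact cube_of_f g.pY.xx g'.pY.xx h5)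
    have e3 := h.mem_zpowers Nat.prime_three a (X * (Y * W) * X⁻¹) ha (by rw [conj_pow, e2]; group)
      (h.injective (by rw [map_mul, map_mul ι _ a, e1]; exact (commute_g h2 g g').eq.symm)) ha1
    have e4 : W = Y⁻¹ * (X⁻¹ * (X * (Y * W) * X⁻¹) * X) := by group
    exact hW (e4 ▸ mul_mem (inv_mem hYC) (mul_mem (mul_mem (inv_mem hXC)
      (zpowers_le.mpr haC e3)) hXC))
  · rw [← g.pY.fK g'.pY] at h5
    exact not_fK h2 g g' h5
  · rw [← g.pY.fJ g'.pY] at h5
    exact not_fJ h2 g g' h5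

/-- The elements of order three lie in `⟨a⟩`, in an `SL(2,3)`, or in an `SL(2,5)`. -/
theorem trichotomy (h : IsSR ι) (h2 : IsUnit (2 : R)) (h3 : P3 G) {a : G} (ha : a ^ 3 = 1)
    (ha1 : a ≠ 1) : (∀ b : G, b ^ 3 = 1 → b ∈ zpowers a) ∨
      (∃ X ∈ S ι a, ∀ b : G, b ^ 3 = 1 → b ∈ closure {a, X}) ∨
      ∃ X Y : G, Gold (ι a) (ι X) (ι Y) (-f (K (ι a) (ι X)) (ι Y)) ∧
        ∀ b : G, b ^ 3 = 1 → b ∈ closure {a, X, Y} := by
  by_cases hS : ∃ X, X ∈ S ι a
  · obtain ⟨X, hX⟩ := hS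
    right
    by_cases hY : ∀ Y ∈ S ι a, Y ∈ closure {a, X}
    · refine Or.inl ⟨X, hX, fun b hb => (closure_le _).mpr ?_ (mem_closure_three h h3 ha ha1 hb)⟩
      rintro Y (rfl | hY')
      exacts [subset_closure (by simp), hY Y hY']
    · push Not at hY
      obtain ⟨Y, hY, hne⟩ := hY
      obtain ⟨Y', -, g⟩ := exists_gold h h2 h3 ha ha1 hX hY hne
      refine Or.inr ⟨X, Y', g, fun b hb =>
        (closure_le _).mpr ?_ (mem_closure_three h h3 ha ha1 hb)⟩
      rintro Z (rfl | hZ)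
      exacts [subset_closure (by simp), mem_of_gold h h2 h3 ha ha1 g hZ]
  · refine Or.inl fun b hb => (closure_le _).mpr ?_ (mem_closure_three h h3 ha ha1 hb)
    rintro Z (rfl | hZ)
    exacts [mem_zpowers _, absurd ⟨Z, hZ⟩ hS]

end Cfsg.Agent.H2.ThreeGen
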