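import Mathlib
import Cfsg.Agent.H2.Dihed3
import Cfsg.Agent.H2.ThreeGen
import Cfsg.Agent.H2.PairThree
import Cfsg.Agent.H2.Icosian

set_option autoImplicit false

/-! Zassenhaus: a perfect Frobenius complement is `SL(2,5)`. -/

namespace Cfsg.Agent.H2.Zassenhaus

open Subgroup Cfsg.Agent.H2.Semireg Cfsg.Agent.H2.QuatAlg Cfsg.Agent.H2.ThreeGen
  Cfsg.Agent.H2.Dihed3
open scoped MatrixGroups

variable {G : Type*} [Group G]

theorem eq_top_of_comm [Group.IsPerfect G] (Q : Subgroup G) [Q.Normal] (s : Set G)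
    (hs : closure s = ⊤) (hc : ∀ x ∈ s, ∀ y ∈ s, (x * y)⁻¹ * (y * x) ∈ Q) : Q = ⊤ := by
  let π := QuotientGroup.mk' Q
  have h1 : closure (π '' s) = ⊤ := by
    rw [← MonoidHom.map_closure, hs, map_top_of_surjective _ (QuotientGroup.mk'_surjective Q)]
  have h2 : IsMulCommutative (closure (π '' s)) := isMulCommutative_closure (by
    rintro _ ⟨x, hx, rfl⟩ _ ⟨y, hy, rfl⟩
    rw [← map_mul, ← map_mul]
    exact QuotientGroup.eq.mpr (hc x hx y hy))
  rw [h1] at h2
  have h3 : Subsingleton (⊤ : Subgroup (G ⧸ Q)) := inferInstance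
  rw [eq_top_iff]
  intro g _
  rw [← QuotientGroup.eq_one_iff]
  exact congrArg Subtype.val (h3.elim ⟨g, mem_top _⟩ 1)

theorem normal_of_gens [Finite G] (Q : Subgroup G) (s t : Set G) (hs : closure s = ⊤)
    (ht : closure t = Q) (h : ∀ g ∈ s, ∀ x ∈ t, g * x * g⁻¹ ∈ Q) : Q.Normal := by
  rw [← normalizer_eq_top_iff, eq_top_iff, ← hs, closure_le]
  intro g hg
  apply mem_normalizer_fintype
  intro x hx
  have : Q ≤ Q.comap (MulAut.conj g).toMonoidHom := by
    conv_lhs => rw [← ht]
    rw [closure_le]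
    exact fun x hx => h g hg x hx
  exact this hx

variable {R : Type*} [Ring R] [Nontrivial R] {ι : G →* R}

theorem closure_three_eq_top [Finite G] [Group.IsPerfect G] (h : IsSR ι) {a : G} (ha : a ^ 3 = 1)
    (ha1 : a ≠ 1) : closure {b : G | b ^ 3 = 1} = ⊤ := by
  set N := closure {b : G | b ^ 3 = 1} with hN
  have hNn : N.Normal := normal_of_gens N Set.univ _ closure_univ rfl fun g _ x hx =>
    subset_closure (by
      change (g * x * g⁻¹) ^ 3 = 1
      rw [conj_pow, show x ^ 3 = 1 from hx]; group)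
  have : Fact (Nat.Prime 3) := ⟨Nat.prime_three⟩
  let a' : N := ⟨a, subset_closure ha⟩
  have hP : IsPGroup 3 (zpowers a') := by
    apply IsPGroup.of_card (n := 1)
    rw [Nat.card_zpowers, pow_one]
    exact orderOf_eq_prime (Subtype.ext ha) (fun h => ha1 (congrArg Subtype.val h))
  obtain ⟨P, hP⟩ := hP.exists_le_sylow
  have hF := P.normalizer_sup_eq_top
  have haP : a ∈ (P : Subgroup N).map N.subtype := ⟨a', hP (mem_zpowers a'), rfl⟩
  have hc : IsCyclic ((P : Subgroup N).map N.subtype) :=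
    h.isCyclic_odd (by norm_num) (P.2.map N.subtype)
  have hle : normalizer (((P : Subgroup N).map N.subtype : Subgroup G) : Set G) ≤
      normalizer (zpowers a : Set G) := by
    intro g hg
    apply mem_normalizer_fintype
    rintro _ ⟨j, rfl⟩
    simp only
    rw [← conj_zpow]
    refine zpow_mem (h.mem_zpowers Nat.prime_three a _ ha (by rw [conj_pow, ha]; group) ?_ ha1) j
    exact setLike_mul_comm haP ((hg a).mp haP)
  have hM := isSolvable_normalizer h ha ha1
  set M := normalizer (zpowers a : Set G)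
  have hsup : M ⊔ N = ⊤ := eq_top_iff.mpr (hF.ge.trans (sup_le_sup_right hle N))
  have hsurj : Function.Surjective ((QuotientGroup.mk' N).comp M.subtype) := by
    rw [← MonoidHom.range_eq_top, MonoidHom.range_comp, range_subtype, eq_top_iff,
      ← map_top_of_surjective _ (QuotientGroup.mk'_surjective N), ← hsup, Subgroup.map_sup,
      QuotientGroup.map_mk'_self, sup_bot_eq]
  have hs := solvable_of_surjective hsurj
  rcases subsingleton_or_nontrivial (G ⧸ N) with h1 | h1
  · rw [eq_top_iff]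
    intro g _
    rw [← QuotientGroup.eq_one_iff]
    exact h1.elim _ _
  · exact absurd hs (Group.IsPerfect.not_isSolvable _)

theorem exists_gold_gen [Finite G] [Group.IsPerfect G] [Nontrivial G] (h : IsSR ι) (h3 : P3 G) :
    ∃ a X Y : G, Gold (ι a) (ι X) (ι Y) (-f (K (ι a) (ι X)) (ι Y)) ∧ closure {a, X, Y} = ⊤ ∧
      IsUnit (2 : R) := by
  have : Fact (Nat.Prime 3) := ⟨Nat.prime_three⟩
  obtain ⟨a, ha'⟩ := exists_prime_orderOf_dvd_card' (G := G) 3 (three_dvd_card h)
  have ha : a ^ 3 = 1 := by rw [← ha', pow_orderOf_eq_one]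
  have ha1 : a ≠ 1 := fun h => by simp [h] at ha'
  obtain ⟨z, hz, hz1⟩ := exists_involution h
  have h2 : IsUnit (2 : R) := by
    have := (h z hz1).neg
    rw [h.eq_neg_one hz hz1] at this
    convert this using 1
    norm_num
  have htop := closure_three_eq_top h ha ha1
  rcases trichotomy h h2 h3 ha ha1 with h4 | ⟨X, hX, h4⟩ | ⟨X, Y, g, h4⟩
  · exfalso
    have h5 : zpowers a = ⊤ := eq_top_iff.mpr (htop.ge.trans ((closure_le _).mpr h4))
    exact ha1 (central_eq_one (p := 3) (fun P => by
      have := h.isCyclic_odd (by norm_num) P.2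
      infer_instance) ha fun g => setLike_mul_comm (h5.ge (mem_top g)) (mem_zpowers a))
  · exfalso
    have h5 : closure {a, X} = ⊤ := eq_top_iff.mpr (htop.ge.trans ((closure_le _).mpr h4))
    set W := a⁻¹ * X * a with hW
    have hWι : ι W = J (ι a) (ι X) := map_J hX
    have mX : X ∈ closure ({X, W} : Set G) := subset_closure (by simp)
    have mW : W ∈ closure ({X, W} : Set G) := subset_closure (by simp)
    have e1 : a * X * a⁻¹ = X * W := h.injective (by rw [map_K hX, map_mul, hWι, Pair.mIJ hX])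
    have hn : (closure ({X, W} : Set G)).Normal := normal_of_gens _ _ _ h5 rfl (by
      rintro g (rfl | rfl) x (rfl | rfl)
      · rw [e1]; exact mul_mem mX mW
      · rw [hW, show g * (g⁻¹ * X * g) * g⁻¹ = X by group]; exact mX
      · exact mul_mem (mul_mem mX mX) (inv_mem mX)
      · exact mul_mem (mul_mem mX mW) (inv_mem mX))
    have h6 := eq_top_of_comm (closure ({X, W} : Set G)) _ h5 (by
      rintro x (rfl | rfl) y (rfl | rfl)
      · simp
      · rw [show (x * y)⁻¹ * (y * x) = y⁻¹ * (x⁻¹ * y * x) by group]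
        exact mul_mem (inv_mem mX) mW
      · rw [show (x * y)⁻¹ * (y * x) = (y⁻¹ * x * y)⁻¹ * x by group]
        exact mul_mem (inv_mem mW) mX
      · simp)
    have hZn : (zpowers z).Normal := ⟨fun a ha g => by
      obtain ⟨j, rfl⟩ := ha
      have : Commute g z := h.involution_central hz g
      simp only
      rw [(this.zpow_right j).eq, mul_inv_cancel_right]; exact ⟨j, rfl⟩⟩
    have e2 : W * X = X * W * z := h.injective (by
      rw [map_mul ι W, map_mul ι _ z, map_mul ι X, hWι, Pair.mIJ hX, Pair.mJI hX, h.eq_neg_one hz hz1, mul_neg_one])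
    have h7 := eq_top_of_comm (zpowers z) _ h6 (by
      rintro x (rfl | rfl) y (rfl | rfl)
      · simp
      · rw [e2, inv_mul_cancel_left]; exact mem_zpowers z
      · rw [e2, show (y * W * z)⁻¹ * (y * W) = z⁻¹ by group]; exact inv_mem (mem_zpowers z)
      · simp)
    obtain ⟨j, hj⟩ := h7.ge (mem_top a)
    simp only at hj
    have e3 : a ^ 2 = 1 := by
      rw [← hj, ← zpow_natCast, ← zpow_mul, mul_comm, zpow_mul, zpow_natCast, hz, one_zpow]
    rw [pow_succ, e3, one_mul] at ha
    exact ha1 ha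
  · exact ⟨a, X, Y, g, eq_top_iff.mpr (htop.ge.trans ((closure_le _).mpr h4)), h2⟩

section linear
variable {F V : Type*} [Field F] [AddCommGroup V] [Module F V] [Module.Finite F V] [Nontrivial V]
  {ρ : G →* Module.End F V}

theorem p3 [Finite G] [Group.IsPerfect G] [Nontrivial G] (h : IsSR ρ) : P3 G := by
  obtain ⟨z, hz, hz1⟩ := exists_involution h
  have h2 : (2 : F) ≠ 0 := fun h0 => h.natCast_ne_zero hz1 Nat.prime_two hz (by
    rw [← map_natCast (algebraMap F (Module.End F V)), Nat.cast_ofNat, h0, map_zero])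
  exact fun a b ha ha1 hb hb1 hab => PairThree.pair_three h h2 ha ha1 hb hb1 hab

/-- **Zassenhaus** -/
theorem zassenhaus [Finite G] [Group.IsPerfect G] [Nontrivial G] (h : IsSR ρ) :
    Nonempty (G ≃* SL(2, ZMod 5)) := by
  obtain ⟨a, X, Y, g, htop, h2⟩ := exists_gold_gen h (p3 h)
  obtain ⟨θ, h3, h4, -⟩ := Icosian.exists_hom h.injective h2 g
  exact ⟨(MulEquiv.ofBijective θ ⟨h3, MonoidHom.range_eq_top.mp (h4.trans htop)⟩).symm⟩

end linear

end Cfsg.Agent.H2.Zassenhaus
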