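import Mathlib
import Cfsg.Agent.H2.QuatStruct
import Cfsg.Agent.H2.QuatAut
import Cfsg.Agent.H2.Zassenhaus

set_option autoImplicit false

/-! Exceptional linear groups regular on non-zero vectors. -/

namespace Cfsg.Agent.H2.RegClass

open Subgroup Cfsg.Agent.H2.SolvClass2 Cfsg.Agent.H2.Semireg Cfsg.Agent.H2.NormalField
  Cfsg.Agent.H2.Regular Cfsg.Agent.H2.QuatStruct Cfsg.Agent.H2.QuatAut Cfsg.Agent.H2.QuatAlg
  Cfsg.Agent.H2.Icosian
open scoped MatrixGroups

variable {G : Type*} [Group G]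

theorem dichotomy {R : Type*} [Ring R] [Nontrivial R] {ι : G →* R} [Finite G] (h : IsSR ι)
    {A : Subgroup G} (hAn : A.Normal) (hAc : IsMulCommutative A)
    (hAmax : ∀ B : Subgroup G, B.Normal → IsMulCommutative B → A ≤ B → B = A) {N : Subgroup G}
    (hNn : N.Normal) (hNle : N ≤ centralizer (A : Set G)) (hNna : ¬ IsMulCommutative N)
    (hNmin : ∀ M : Subgroup G, M.Normal → M ≤ N → ¬ IsMulCommutative M → M = N) :
    Nonempty (QuaternionGroup 2 ≃* N) ∨ Group.IsPerfect N := by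
  by_cases hc : IsMulCommutative (⁅N, N⁆ : Subgroup G)
  swap
  · exact Or.inr (isPerfect_iff.mpr (hNmin _ inferInstance (commutator_le_left N N) hc))
  left
  have h1 : ⁅N, N⁆ ≤ A := le_of_max hAn hAc hAmax inferInstance hc
    ((commutator_le_left N N).trans hNle)
  have h2 : ∀ x y z : N, z * (x * y * x⁻¹ * y⁻¹) = x * y * x⁻¹ * y⁻¹ * z := fun x y z =>
    Subtype.ext (hNle z.2 _ (h1 (commutator_mem_commutator x.2 y.2))).symm
  have hnil : Group.IsNilpotent N := by
    apply of_quotient_center_nilpotent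
    have : IsMulCommutative (N ⧸ center N) := by
      rw [Normal.quotient_commutative_iff_commutator_le, commutator_def, commutator_le]
      intro x _ y _
      exact mem_center_iff.mpr (h2 x y)
    open scoped IsMulCommutative in infer_instance
  obtain ⟨S⟩ := (inferInstance : Nonempty (Sylow 2 N))
  have hι := h.subgroup N
  rcases hι.cyclic_or_quaternion S.2 with hS | ⟨x, h4, hi, hS⟩
  · have : IsZGroup N := ⟨fun p hp P => by
      have := Fact.mk hp
      by_cases hp2 : p = 2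
      · subst hp2
        exact (Sylow.equiv S P).isCyclic.mp hS
      · exact hι.isCyclic_odd hp2 P.2⟩
    have : IsCyclic N := inferInstance
    exact (hNna inferInstance).elim
  obtain ⟨y, hy⟩ : ∃ y : S, y ∉ zpowers x := by
    by_contra hno
    push Not at hno
    rw [(eq_top_iff' _).mpr hno, index_top] at hi
    omega
  obtain ⟨hyx, hy4⟩ := hS y hy
  have hx2 : x ^ 2 ≠ 1 := fun h => by
    have := Nat.le_of_dvd two_pos (h4.trans (orderOf_dvd_of_pow_eq_one h)); omega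
  have hch : (S : Subgroup N).Characteristic := Sylow.characteristic_of_normal S inferInstance
  have hS2 : (S : Subgroup N) = ⊤ := by
    rw [← map_subtype_inj, ← MonoidHom.range_eq_map, range_subtype]
    refine hNmin _ inferInstance (map_subtype_le _) fun hc => hx2 ?_
    have h5 : y * x = x * y := Subtype.ext (Subtype.ext (comm_iff.mp hc _ ⟨y, y.2, rfl⟩ _
      ⟨x, x.2, rfl⟩))
    rw [h5, mul_inv_cancel_right] at hyx
    rw [pow_two]; nth_rw 1 [hyx]; exact inv_mul_cancel x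
  have hx4 : orderOf x = 2 * 2 := by
    refine Nat.dvd_antisymm (orderOf_dvd_of_pow_eq_one ?_) h4
    have h5 : y * (y * x * y⁻¹ * x⁻¹) = y * x * y⁻¹ * x⁻¹ * y := Subtype.ext (h2 y x y)
    rw [hyx, ← mul_inv_eq_iff_eq_mul] at h5
    have h6 : y * (x⁻¹ * x⁻¹) * y⁻¹ = (y * x * y⁻¹)⁻¹ * (y * x * y⁻¹)⁻¹ := by group
    rw [h6, hyx, inv_inv] at h5
    calc x ^ (2 * 2) = x * x * (x * x) := by simp only [pow_succ, pow_zero]; group
      _ = 1 := by nth_rw 1 [h5]; group
  obtain ⟨e⟩ := quaternion_iso (n := 2) hx4 hi hy hyx ((hι.subgroup S).involution_unique _ _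
    (by rw [← pow_two, ← pow_mul, show 2 * 2 = orderOf y from hy4.symm, pow_orderOf_eq_one])
    (by rw [← pow_mul, ← hx4, pow_orderOf_eq_one])
    (by rw [← pow_two]; exact pow_ne_one_of_lt_orderOf two_ne_zero (by rw [hy4]; norm_num)) hx2)
  exact ⟨e.trans ((MulEquiv.subgroupCongr hS2).trans topEquiv)⟩

variable {F V : Type*} [Field F] [AddCommGroup V] [Module F V] {ρ : G →* Module.End F V}

theorem two_ne_zero_of [Nontrivial V] (h : IsSR ρ) {z : G} (hz : z ^ 2 = 1) (hz1 : z ≠ 1) :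
    (2 : F) ≠ 0 := fun h0 => h.natCast_ne_zero hz1 Nat.prime_two hz (by
    rw [← map_natCast (algebraMap F (Module.End F V)), Nat.cast_ofNat, h0, map_zero])

open QuaternionGroup in
theorem qs_q8 [Nontrivial V] (h : IsSR ρ) {N : Subgroup G} (e : QuaternionGroup 2 ≃* N) :
    QS ρ N ⊥ (ρ (e (a 1))) (ρ (e (xa 0))) ∧ (2 : F) ≠ 0 := by
  let ι : QuaternionGroup 2 →* Module.End F V := (ρ.comp N.subtype).comp e.toMonoidHom
  have hι : IsSR ι := (h.subgroup N).comp _ e.injective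
  have hz : ι (a 2) = -1 := hι.eq_neg_one (by decide) (by decide)
  refine ⟨?_, two_ne_zero_of hι (z := a 2) (by decide) (by decide)⟩
  change QS ρ N ⊥ (ι (a 1)) (ι (xa 0))
  have hc : ∀ l ∈ (⊥ : Subalgebra F (Module.End F V)), ∀ x, l * x = x * l := by
    rintro _ ⟨c, rfl⟩ x
    exact Algebra.commutes c x
  refine ⟨by rw [← map_mul, ← hz]; rfl, by rw [← map_mul, ← hz]; rfl, ?_, mem_alg ρ (e _).2,
    mem_alg ρ (e _).2, bot_le, fun l hl => hc l hl _, fun l hl => hc l hl _, fun n hn => ?_,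
    (Algebra.botEquiv F (Module.End F V)).toMulEquiv.isField (Field.toIsField F)⟩
  · rw [← neg_one_mul, ← hz, ← map_mul, ← map_mul, ← map_mul]; rfl
  · obtain ⟨q, hq⟩ := e.surjective ⟨n, hn⟩
    have h1 : ρ n = ι q := by simp [ι, hq]
    have key : ∀ q : QuaternionGroup 2, q = 1 ∨ q = a 1 ∨ q = xa 0 ∨ q = a 1 * xa 0 ∨
      q = a 2 ∨ q = a 2 * a 1 ∨ q = a 2 * xa 0 ∨ q = a 2 * (a 1 * xa 0) := by decide
    have m0 := zero_mem (⊥ : Subalgebra F (Module.End F V))
    have m1 := one_mem (⊥ : Subalgebra F (Module.End F V))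
    have m2 := neg_mem m1
    rw [h1]
    rcases key q with rfl | rfl | rfl | rfl | rfl | rfl | rfl | rfl
    · exact ⟨1, m1, 0, m0, 0, m0, 0, m0, by simp⟩
    · exact ⟨0, m0, 1, m1, 0, m0, 0, m0, by simp⟩
    · exact ⟨0, m0, 0, m0, 1, m1, 0, m0, by simp⟩
    · exact ⟨0, m0, 0, m0, 0, m0, 1, m1, by rw [map_mul]; simp⟩
    · exact ⟨-1, m2, 0, m0, 0, m0, 0, m0, by rw [hz]; simp⟩
    · exact ⟨0, m0, -1, m2, 0, m0, 0, m0, by rw [map_mul, hz]; simp⟩
    · exact ⟨0, m0, 0, m0, -1, m2, 0, m0, by rw [map_mul, hz]; simp⟩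
    · exact ⟨0, m0, 0, m0, 0, m0, -1, m2, by rw [map_mul, map_mul, hz]; simp⟩

theorem qs_perfect [Finite V] [Nontrivial V] [Finite G] (h : IsReg ρ) {N : Subgroup G}
    (hN : N.Normal) [Group.IsPerfect N] [Nontrivial N] :
    ∃ L I J, QS ρ N L I J ∧ (2 : F) ≠ 0 := by
  have hι := h.isSR.subgroup N
  have : Module.Finite F V := Module.Finite.of_finite
  obtain ⟨a, X, Y, g, htop, h2⟩ := Zassenhaus.exists_gold_gen hι (Zassenhaus.p3 hι)
  obtain ⟨θ, -, h4, -, -, -, h5⟩ := exists_hom hι.injective h2 g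
  obtain ⟨z, hz, hz1⟩ := Dihed3.exists_involution hι
  have h2F := two_ne_zero_of hι hz hz1
  set ι := ρ.comp N.subtype with hιdef
  set φ := -f (K (ι a) (ι X)) (ι Y) with hφ
  let L := alg ρ N ⊓ Subalgebra.centralizer F (ρ '' N)
  have hm : ∀ n : N, ι n ∈ alg ρ N := fun n => mem_alg ρ n.2
  have hL : ∀ l ∈ L, ∀ x ∈ alg ρ N, l * x = x * l := fun l hl =>
    commute_alg ρ fun n hn => (hl.2 _ ⟨n, hn, rfl⟩).symm
  have hJ : J (ι a) (ι X) ∈ alg ρ N := sub_mem (sub_mem (hm a) (mul_mem (hm X) (hm a))) (hm X)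
  have hK : K (ι a) (ι X) ∈ alg ρ N := add_mem (add_mem (mul_mem (hm X) (hm a)) (hm a)) (one_mem _)
  have hφL : φ ∈ L := by
    refine ⟨neg_mem (add_mem (mul_mem hK (hm Y)) (mul_mem (hm Y) hK)), ?_⟩
    rintro _ ⟨n, hn, rfl⟩
    have : closure {a, X, Y} ≤ centr ι {φ} := by
      rw [closure_le]
      rintro x (rfl | rfl | rfl) _ rfl
      exacts [g.φa.eq.symm, g.φX.eq.symm, g.φY.eq.symm]
    exact this (htop.ge (mem_top ⟨n, hn⟩)) φ rfl
  have hpe : ∀ p, (2 : F)⁻¹ • pe φ p ∈ L := fun p =>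
    L.smul_mem (add_mem (zsmul_mem (one_mem L) _) (zsmul_mem hφL _)) _
  have hcomm : ∀ x ∈ L, ∀ y ∈ L, x * y = y * x := fun x hx y hy => hL x hx y hy.1
  refine ⟨L, ι X, J (ι a) (ι X), ⟨g.pX.xx, g.pX.pJ.xx, by rw [g.pX.mJI, g.pX.mIJ], hm X, hJ,
    inf_le_left, fun l hl => hL l hl _ (hm X), fun l hl => hL l hl _ hJ, fun n hn => ?_,
    isField_of_injective L hcomm (injective_of_transitive ρ L hcomm ?_ h.trans)⟩, h2F⟩
  · obtain ⟨s, hs⟩ := (h4.trans htop).ge (mem_top ⟨n, hn⟩)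
    have h6 := h5 s
    rw [hs] at h6
    refine ⟨_, hpe (T (toT s)).1, _, hpe (T (toT s)).2.1, _, hpe (T (toT s)).2.2.1, _,
      hpe (T (toT s)).2.2.2, ?_⟩
    simp only [smul_mul_assoc, ← smul_add, g.pX.mIJ]
    rw [eq_inv_smul_iff₀ h2F, two_smul, ← two_mul]
    exact h6
  · intro x l hl
    refine ⟨alg_norm ρ hN x l hl.1, ?_⟩
    rintro _ ⟨n, hn, rfl⟩
    have h6 := hL l hl _ (mem_alg ρ (hN.conj_mem' n hn x))
    calc ρ n * (ρ x * l * ρ x⁻¹) = ρ x * (ρ (x⁻¹ * n * x) * l) * ρ x⁻¹ := by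
          simp only [← mul_assoc, ← map_mul]; congr 3; group
      _ = _ := by
          rw [← h6]; simp only [mul_assoc, ← map_mul]; congr 3; group

theorem card_dvd_of_le_field [Finite V] [Nontrivial V] (h : Function.Injective ρ) {A : Subgroup G}
    {L : Subalgebra F (Module.End F V)} (hL : IsField L) (hAL : ∀ a ∈ A, ρ a ∈ L) :
    Nat.card A ∣ Nat.card L - 1 := by
  letI := hL.toField
  let f : A →* L := (ρ.comp A.subtype).codRestrict L fun a => hAL a a.2
  rw [← Nat.card_units]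
  refine card_dvd_of_injective f.toHomUnits fun a b hab => Subtype.ext (h ?_)
  exact congrArg (fun x : Lˣ => ((x : L) : Module.End F V)) hab

theorem centralizer_facts {p : ℕ} [Fact p.Prime] {V : Type*} [AddCommGroup V] [Module (ZMod p) V]
    [Finite V] [Nontrivial V] {ρ : G →* Module.End (ZMod p) V} (h : IsReg ρ) {N : Subgroup G}
    (hN : N.Normal) {L : Subalgebra (ZMod p) (Module.End (ZMod p) V)}
    {I J : Module.End (ZMod p) V} (q : QS ρ N L I J) (h2 : (2 : ZMod p) ≠ 0) :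
    IsMulCommutative (centralizer (N : Set G)) ∧
      Nat.card (centralizer (N : Set G)) ∣ Nat.card L - 1 := by
  have h3 : ∀ c ∈ centralizer (N : Set G), ρ c ∈ L := fun c hc =>
    (q.main h2 hN h.trans).2.2 _ fun n hn => by rw [← map_mul, ← map_mul, hc n hn]
  refine ⟨comm_iff.mpr fun x hx y hy => h.isSR.injective ?_,
    card_dvd_of_le_field h.isSR.injective q.field h3⟩
  rw [map_mul, map_mul]
  exact congrArg Subtype.val (q.field.mul_comm ⟨_, h3 x hx⟩ ⟨_, h3 y hy⟩)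

theorem nontrivial_of_not_comm {H : Subgroup (V ≃ₗ[F] V)} {N : Subgroup H}
    (hN : ¬ IsMulCommutative N) : Nontrivial V := by
  rcases subsingleton_or_nontrivial V with h | h
  · exact absurd ⟨⟨fun a b => Subtype.ext (Subtype.ext (LinearEquiv.ext fun v => h.elim _ _))⟩⟩ hN
  · exact h

theorem nontrivial_of_not_comm' {N : Type*} [Group N] (hN : ¬ IsMulCommutative N) :
    Nontrivial N := by
  rcases subsingleton_or_nontrivial N with h | h
  · exact absurd ⟨⟨fun a b => h.elim _ _⟩⟩ hN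
  · exact h

end Cfsg.Agent.H2.RegClass
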