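import Mathlib

set_option autoImplicit false

/-! A certificate for a subgroup of `GL(2,p)` acting regularly on non-zero vectors. -/

namespace Cfsg.Agent.H2.RegTable

open Matrix

variable {p : ℕ}

theorem vec_ext {v w : Fin 2 → ZMod p} (h0 : v 0 = w 0) (h1 : v 1 = w 1) : v = w := by
  ext i; fin_cases i <;> assumption

theorem regular_of_table [Fact p.Prime] (S : Set (GL (Fin 2) (ZMod p)))
    (F1 F2 : ZMod p → ZMod p → ZMod p) (h1 : F1 1 0 = 0) (h2 : F2 1 0 = 1)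
    (hS : ∀ s ∈ S, ∀ x y : ZMod p, (x ≠ 0 ∨ y ≠ 0) →
      s 0 0 * F1 x y + s 0 1 * F2 x y = F1 (s 0 0 * x + s 0 1 * y) (s 1 0 * x + s 1 1 * y) ∧
      s 1 0 * F1 x y + s 1 1 * F2 x y = F2 (s 0 0 * x + s 0 1 * y) (s 1 0 * x + s 1 1 * y))
    (d : ZMod p → ZMod p → ℕ) (P1 P2 : ZMod p → ZMod p → ZMod p)
    (hd : ∀ x y : ZMod p, (x ≠ 0 ∨ y ≠ 0) → (x = 1 ∧ y = 0) ∨
      (d (P1 x y) (P2 x y) < d x y ∧ ∃ s ∈ S, s 0 0 * P1 x y + s 0 1 * P2 x y = x ∧
        s 1 0 * P1 x y + s 1 1 * P2 x y = y)) :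
    Nat.card (Subgroup.closure S) = p ^ 2 - 1 ∧ ∀ v w : Fin 2 → ZMod p, v ≠ 0 → w ≠ 0 →
      ∃! h : Subgroup.closure S, Matrix.mulVec ((h : GL (Fin 2) (ZMod p)) :
        Matrix (Fin 2) (Fin 2) (ZMod p)) v = w := by
  have hne : ∀ v : Fin 2 → ZMod p, v ≠ 0 ↔ (v 0 ≠ 0 ∨ v 1 ≠ 0) := by
    intro v
    rw [← not_and_or, not_iff_not]
    exact ⟨fun h => by simp [h], fun h => vec_ext h.1 h.2⟩
  let f : (Fin 2 → ZMod p) → (Fin 2 → ZMod p) := fun v => ![F1 (v 0) (v 1), F2 (v 0) (v 1)]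
  have hmv : ∀ (s : Matrix (Fin 2) (Fin 2) (ZMod p)) (v : Fin 2 → ZMod p) (i : Fin 2),
      (s *ᵥ v) i = s i 0 * v 0 + s i 1 * v 1 := by
    intro s v i
    simp [Matrix.mulVec, dotProduct, Fin.sum_univ_two]
  have hinj : ∀ (g : GL (Fin 2) (ZMod p)) (v : Fin 2 → ZMod p), v ≠ 0 →
      (g : Matrix (Fin 2) (Fin 2) (ZMod p)) *ᵥ v ≠ 0 := by
    intro g v hv h
    apply hv
    have : ((g⁻¹ * g : GL (Fin 2) (ZMod p)) : Matrix (Fin 2) (Fin 2) (ZMod p)) *ᵥ v = 0 := by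
      rw [Units.val_mul, ← Matrix.mulVec_mulVec, h, Matrix.mulVec_zero]
    simpa using this
  have hS' : ∀ s ∈ S, ∀ v : Fin 2 → ZMod p, v ≠ 0 →
      (s : Matrix (Fin 2) (Fin 2) (ZMod p)) *ᵥ f v = f ((s : Matrix (Fin 2) (Fin 2) (ZMod p)) *ᵥ v) := by
    intro s hs v hv
    have := hS s hs (v 0) (v 1) ((hne v).mp hv)
    apply vec_ext
    · simp only [f, hmv, cons_val_zero, cons_val_one]; exact this.1
    · simp only [f, hmv, cons_val_zero, cons_val_one]; exact this.2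
  have hG : ∀ g ∈ Subgroup.closure S, ∀ v : Fin 2 → ZMod p, v ≠ 0 →
      (g : Matrix (Fin 2) (Fin 2) (ZMod p)) *ᵥ f v = f ((g : Matrix (Fin 2) (Fin 2) (ZMod p)) *ᵥ v) := by
    intro g hg
    induction hg using Subgroup.closure_induction with
    | mem s hs => exact hS' s hs
    | one => intro v _; simp
    | mul a b _ _ iha ihb =>
      intro v hv
      rw [Units.val_mul, ← Matrix.mulVec_mulVec, ← Matrix.mulVec_mulVec, ihb v hv,
        iha _ (hinj b v hv)]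
    | inv a _ iha =>
      intro v hv
      have := iha _ (hinj a⁻¹ v hv)
      rw [Matrix.mulVec_mulVec, ← Units.val_mul, mul_inv_cancel, Units.val_one,
        Matrix.one_mulVec] at this
      rw [← this, Matrix.mulVec_mulVec, ← Units.val_mul, inv_mul_cancel, Units.val_one,
        Matrix.one_mulVec]
  let e : Fin 2 → ZMod p := ![1, 0]
  have he : e ≠ 0 := (hne e).mpr (Or.inl (by simp [e]))
  have hfe : f e = ![0, 1] := by simp [f, e, h1, h2]
  have hstab : ∀ g ∈ Subgroup.closure S, (g : Matrix (Fin 2) (Fin 2) (ZMod p)) *ᵥ e = e → g = 1 := by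
    intro g hg hge
    have h3 := hG g hg e he
    rw [hge, hfe] at h3
    have a0 := congrFun hge 0
    have a1 := congrFun hge 1
    have b0 := congrFun h3 0
    have b1 := congrFun h3 1
    simp only [hmv, e, cons_val_zero, cons_val_one, mul_one, mul_zero, add_zero, zero_add] at a0 a1 b0 b1
    ext i j
    fin_cases i <;> fin_cases j <;> simp [a0, a1, b0, b1]
  have htr : ∀ (n : ℕ) (v : Fin 2 → ZMod p), v ≠ 0 → d (v 0) (v 1) = n →
      ∃ g ∈ Subgroup.closure S, (g : Matrix (Fin 2) (Fin 2) (ZMod p)) *ᵥ e = v := by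
    intro n
    induction n using Nat.strong_induction_on with
    | _ n ih =>
      intro v hv hn
      rcases hd (v 0) (v 1) ((hne v).mp hv) with ⟨a, b⟩ | ⟨hlt, s, hs, a, b⟩
      · exact ⟨1, one_mem _, by rw [Units.val_one, Matrix.one_mulVec]; exact vec_ext a.symm b.symm⟩
      · have hsv : (s : Matrix (Fin 2) (Fin 2) (ZMod p)) *ᵥ ![P1 (v 0) (v 1), P2 (v 0) (v 1)] = v :=
          vec_ext (by rw [hmv]; exact a) (by rw [hmv]; exact b)
        obtain ⟨g, hg, hge⟩ := ih _ (hn ▸ hlt) ![P1 (v 0) (v 1), P2 (v 0) (v 1)]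
          (fun h => hv (by rw [← hsv, h, Matrix.mulVec_zero])) rfl
        exact ⟨s * g, mul_mem (Subgroup.subset_closure hs) hg, by
          rw [Units.val_mul, ← Matrix.mulVec_mulVec, hge, hsv]⟩
  have hreg : ∀ v w : Fin 2 → ZMod p, v ≠ 0 → w ≠ 0 →
      ∃! h : Subgroup.closure S, Matrix.mulVec ((h : GL (Fin 2) (ZMod p)) :
        Matrix (Fin 2) (Fin 2) (ZMod p)) v = w := by
    intro v w hv hw
    obtain ⟨a, ha, hae⟩ := htr _ v hv rfl
    obtain ⟨b, hb, hbe⟩ := htr _ w hw rfl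
    have key : ∀ h : Subgroup.closure S, Matrix.mulVec ((h : GL (Fin 2) (ZMod p)) :
        Matrix (Fin 2) (Fin 2) (ZMod p)) v = w → h = ⟨b * a⁻¹, mul_mem hb (inv_mem ha)⟩ := by
      rintro ⟨h, hh⟩ hhv
      have := hstab (b⁻¹ * h * a) (mul_mem (mul_mem (inv_mem hb) hh) ha) (by
        rw [Units.val_mul, Units.val_mul, ← Matrix.mulVec_mulVec, ← Matrix.mulVec_mulVec, hae, hhv,
          ← hbe, Matrix.mulVec_mulVec, ← Units.val_mul, inv_mul_cancel, Units.val_one,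
          Matrix.one_mulVec])
      apply Subtype.ext
      change h = b * a⁻¹
      calc h = b * (b⁻¹ * h * a) * a⁻¹ := by group
        _ = b * a⁻¹ := by rw [this, mul_one]
    refine ⟨⟨b * a⁻¹, mul_mem hb (inv_mem ha)⟩, ?_, key⟩
    change ((b * a⁻¹ : GL (Fin 2) (ZMod p)) : Matrix (Fin 2) (Fin 2) (ZMod p)) *ᵥ v = w
    rw [← hae, Matrix.mulVec_mulVec, ← Units.val_mul, inv_mul_cancel_right, hbe]
  refine ⟨?_, hreg⟩
  have : Nat.card (Subgroup.closure S) = Nat.card {v : Fin 2 → ZMod p // v ≠ 0} := by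
    apply Nat.card_eq_of_bijective (fun g => ⟨_, hinj (g : GL (Fin 2) (ZMod p)) e he⟩)
    constructor
    · intro a b hab
      exact (hreg e _ he (hinj (b : GL (Fin 2) (ZMod p)) e he)).unique (congrArg Subtype.val hab) rfl
    · rintro ⟨w, hw⟩
      obtain ⟨g, hg, -⟩ := hreg e w he hw
      exact ⟨g, Subtype.ext hg⟩
  rw [this]
  simp [Fintype.card_subtype_compl]

/-- table lookup -/
def look (p T k : ℕ) (x y : ZMod p) : ℕ := (T >>> (k * (p * x.val + y.val))) % 2 ^ k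

end Cfsg.Agent.H2.RegTable
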