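import Cfsg.Agent.H2.Chain

set_option autoImplicit false
set_option linter.unusedSectionVars false

/-! Models for subfield subgroups and extraspecial normalisers in three-dimensional unitary groups. -/

namespace Cfsg.Agent.H2.Cases

open Module Cfsg.Agent.Form Cfsg.Agent.H7 Mdl
open scoped Matrix MatrixGroups

variable {n : ℕ}

/-- a monomial matrix -/
def monoM {K : Type*} [Zero K] (σ : Equiv.Perm (Fin n)) (c : Fin n → K) : Matrix (Fin n) (Fin n) K :=
  fun r s => if r = σ s then c s else 0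

theorem mono_eq {K : Type*} [CommRing K] {A : Matrix (Fin n) (Fin n) K} {σ : Equiv.Perm (Fin n)} {c : Fin n → K}
    (h : ∀ v i, (A *ᵥ v) (σ i) = c i * v i) : A = monoM σ c := by
  ext r s
  obtain ⟨i, rfl⟩ := σ.surjective r
  have := h (Pi.single s 1) i
  rw [Matrix.mulVec_single_one, Matrix.col_apply] at this
  rw [this]
  by_cases e : i = s <;> simp [monoM, e]

theorem exists_diag {k : Type*} [Field k] (h2 : (2 : k) ≠ 0) {G : Matrix (Fin n) (Fin n) k} (hG : Gᵀ = G)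
    (hd : G.det ≠ 0) : ∃ (Q : Matrix (Fin n) (Fin n) k) (d : Fin n → k), (∀ i, d i ≠ 0) ∧
      Qᵀ * G * Q = Matrix.diagonal d := by
  letI := invertibleOfNonzero h2
  obtain ⟨w, hw⟩ := LinearMap.BilinForm.exists_orthogonal_basis (B := Matrix.toBilin' G) ⟨fun x y => by
    simp only [Matrix.toBilin'_apply', RingHom.id_apply]
    rw [Matrix.dotProduct_mulVec, ← Matrix.mulVec_transpose, hG, dotProduct_comm]⟩
  let b := w.reindex (finCongr (Module.finrank_fin_fun k))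
  let Q := (Pi.basisFun k (Fin n)).toMatrix b
  have h1 : Qᵀ * G * Q = Matrix.diagonal fun i => Matrix.toBilin' G (b i) (b i) := by
    ext i j
    have : (Qᵀ * G * Q) i j = Matrix.toBilin' G (b i) (b j) := by
      rw [Matrix.toBilin'_apply', Matrix.mul_assoc]; rfl
    rw [this]
    by_cases e : i = j
    · simp [e]
    · rw [Matrix.diagonal_apply_ne _ e, Basis.reindex_apply, Basis.reindex_apply]
      exact hw fun h => e ((finCongr _).symm.injective h)
  refine ⟨Q, _, fun i => ?_, h1⟩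
  have h3 : Q.det ≠ 0 := ((Pi.basisFun k (Fin n)).isUnit_det b).ne_zero
  have := congrArg Matrix.det h1
  rw [Matrix.det_mul, Matrix.det_mul, Matrix.det_transpose, Matrix.det_diagonal] at this
  exact Finset.prod_ne_zero_iff.1 (this ▸ mul_ne_zero (mul_ne_zero h3 hd) h3) i (Finset.mem_univ i)

/-- diagonal forms in three variables are similar to the standard form -/
def Diag3 (k : Type) [CommRing k] : Prop := ∀ x y z : k, x ≠ 0 → y ≠ 0 → z ≠ 0 →
  ∃ a b c : k, a * x * a + b * y * b + c * z * c = x * y * z ∧ ∃ d e f : k, d * x * d + e * y * e + f * z * f = x * y * z ∧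
    a * x * d + b * y * e + c * z * f = 0 ∧ ∃ g h i : k, g * x * g + h * y * h + i * z * i = x * y * z ∧
    a * x * g + b * y * h + c * z * i = 0 ∧ d * x * g + e * y * h + f * z * i = 0

theorem diag3_three : Diag3 (ZMod 3) := by unfold Diag3; decide +kernel

theorem diag3_five : Diag3 (ZMod 5) := by unfold Diag3; decide +kernel

theorem Diag3.exists {k : Type} [Field k] (h : Diag3 k) (h2 : (2 : k) ≠ 0) {G : Matrix (Fin 3) (Fin 3) k}
    (hG : Gᵀ = G) (hd : G.det ≠ 0) : ∃ (Q : Matrix (Fin 3) (Fin 3) k) (t : k), t ≠ 0 ∧ Qᵀ * G * Q = t • 1 := by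
  obtain ⟨Q, x, h1, h3⟩ := exists_diag h2 hG hd
  obtain ⟨a, b, c, e1, d, e, f, e2, e3, g, h, i, e4, e5, e6⟩ := h _ _ _ (h1 0) (h1 1) (h1 2)
  refine ⟨Q * !![a, d, g; b, e, h; c, f, i], x 0 * x 1 * x 2, mul_ne_zero (mul_ne_zero (h1 0) (h1 1)) (h1 2), ?_⟩
  rw [Matrix.transpose_mul, Matrix.mul_assoc, Matrix.mul_assoc, ← Matrix.mul_assoc G, ← Matrix.mul_assoc Qᵀ,
    ← Matrix.mul_assoc Qᵀ, h3, ← Matrix.mul_assoc]
  ext r s
  fin_cases r <;> fin_cases s <;> simp [Matrix.mul_apply, Fin.sum_univ_three, Matrix.diagonal_apply] <;>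
    first | assumption | linear_combination e3 | linear_combination e5 | linear_combination e6

variable {F : Type*} [Field F] [Fintype F]

theorem fm_real {K k : Type*} [CommRing K] [CommRing k] (ψ : k →+* K) {σ₀ : K → K} (h1 : ∀ a, σ₀ (ψ a) = ψ a)
    (h2 : ∀ x y, σ₀ (x * y) = σ₀ x * σ₀ y) (G A : Matrix (Fin n) (Fin n) k) (c : K) (i j : Fin n) :
    fm (G.map ψ) σ₀ (fun r => (c • A.map ψ) r i) (fun r => (c • A.map ψ) r j) =
      c * σ₀ c * ψ ((Aᵀ * G * A) i j) := by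
  simp only [fm, Matrix.mul_apply, map_sum, map_mul, Finset.mul_sum, Finset.sum_mul, Matrix.smul_apply,
    Matrix.map_apply, smul_eq_mul, h1, h2, Matrix.transpose_apply]
  rw [Finset.sum_comm]
  exact Finset.sum_congr rfl fun _ _ => Finset.sum_congr rfl fun _ _ => by ring

theorem real_model {p : ℕ} [Fact p.Prime] (hq : Fintype.card F = p ^ 2) {K : Type*} [CommRing K] (φ : K ≃+* F)
    {σ₀ : K → K} (hφ : ∀ x, φ (σ₀ x) = φ x ^ p) (ψ : ZMod p →+* K) (h1 : ∀ x, σ₀ x = x → ∃ a, x = ψ a)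
    (h2 : (2 : ZMod p) ≠ 0) (h3 : Diag3 (ZMod p)) {F₀ : Subfield F} {P : GL (Fin 3) F}
    (hF : Fintype.card F = Nat.card F₀ ^ 2) (hP : Geo.IsFormRationalStructure (hermForm 3 F p) F₀ 1 P) :
    ∃ M : Mdl K (Fin 3) (Fin 3) F, M.Gram (US hq 3) σ₀ 1 ∧ ∀ g ∈ Geo.subfieldSubgroup F₀ P ⊓ SUG 3 F p,
      ∃ (c : K) (A : Matrix (Fin 3) (Fin 3) (ZMod p)) (t : ZMod p), t ≠ 0 ∧ Aᵀ * A = t • 1 ∧
        M.mm g = c • A.map ψ := by
  have hF₀ : ∀ x, φ x ∈ F₀ → ∃ a, x = ψ a := fun x hx => h1 x (φ.injective (by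
    rwa [hφ, Nat.pow_left_injective two_ne_zero (hq.symm.trans hF), ← Asch.mem_subfield_iff]))
  have hψ : ∀ a, σ₀ (ψ a) = ψ a := fun a => φ.injective (by rw [hφ, ← map_pow, ← map_pow, ZMod.pow_card])
  have hσ : ∀ x y, σ₀ (x * y) = σ₀ x * σ₀ y := fun x y => φ.injective (by simp only [map_mul, hφ, mul_pow])
  haveI : Nontrivial K := φ.symm.injective.nontrivial
  let M₀ : Mdl K _ _ F := ⟨φ, Pi.basisFun F (Fin 3)⟩
  have hM₀ : ∀ X, (M₀.mm X).map φ = X := fun X => by ext i j; simp [M₀.mm_apply, M₀]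
  let S := US hq 3
  let M₁ := M₀.conj P
  choose G hG using fun i j => hF₀ (φ.symm (S.B (M₁.b i) (M₁.b j))) (by
    have := hP (Pi.single i 1) (Pi.single j 1) (fun k => by by_cases h : k = i <;> simp [h])
      (fun k => by by_cases h : k = j <;> simp [h])
    rw [one_mul] at this
    rw [φ.apply_symm_apply]
    simp only [M₁, Mdl.conj, M₀, Basis.map_apply, Pi.basisFun_apply]
    exact this)
  have hG₁ : M₁.Gram S σ₀ ((Matrix.of G).map ψ) := ⟨hφ, fun i j => φ.symm_apply_eq.1 (hG i j)⟩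
  obtain ⟨Q, t, ht, hQ⟩ := h3.exists h2 (G := Matrix.of G) (by
    ext i j
    apply ψ.injective
    apply φ.injective
    rw [← hψ]
    exact (hG₁.σ _).trans ((congrArg _ (hG₁.gram j i).symm).trans ((S.unit_B_swap _ _).symm.trans (hG₁.gram i j))))
    (fun h => by
      obtain ⟨v, hv, h4⟩ := Matrix.exists_vecMul_eq_zero_iff.2 h
      refine hv (funext fun i => ψ.injective ?_)
      have : M₁.X (ψ ∘ v) = M₁.X 0 := by
        rw [X_zero]
        refine US_nondeg hq 3 _ fun y => ?_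
        obtain ⟨y, rfl⟩ := M₁.X_surj y
        rw [hG₁.B_X, fm, Finset.sum_comm, Finset.sum_eq_zero, map_zero]
        intro j _
        have := congrArg ψ (congrFun h4 j)
        simp only [Matrix.vecMul, dotProduct, map_sum, map_mul, Pi.zero_apply, map_zero] at this
        rw [← Finset.sum_mul]
        exact mul_eq_zero_of_left this _
      simpa using congrFun (M₁.X_inj this) i)
  obtain ⟨l, hl⟩ := Asch.exists_norm_eq hq (a := φ (ψ t⁻¹)) (by rw [← hφ, hψ])
  obtain ⟨l, rfl⟩ := φ.surjective l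
  replace hl : l * σ₀ l * ψ t = 1 := φ.injective (by
    rw [map_mul, map_mul, hφ, hl, ← map_mul, ← map_mul, inv_mul_cancel₀ ht, map_one])
  let Q' := t⁻¹ • (Qᵀ * Matrix.of G)
  have hQ' : Q' * Q = 1 := by rw [Matrix.smul_mul, hQ, smul_smul, inv_mul_cancel₀ ht, one_smul]
  have hl' : (σ₀ l * ψ t) • Q'.map ψ * l • Q.map ψ = 1 := by
    rw [Matrix.smul_mul, Matrix.mul_smul, smul_smul, ← Matrix.map_mul, hQ', mul_comm, ← mul_assoc, hl]; simp
  obtain ⟨k, hk⟩ := M₁.exists_md (mul_eq_one_comm.1 hl')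
  have hG₂ := hG₁.conj k (G' := 1) fun i j => by
    rw [hk, fm_real ψ hψ hσ, hQ]
    by_cases e : i = j <;> simp [Matrix.one_apply, e, hl]
  refine ⟨M₁.conj k, hG₂, fun g hg => ?_⟩
  obtain ⟨c, hc⟩ := (Asch.mem_subfieldSubgroup_iff _ _ _).1 hg.1
  have e1 : M₁.mm g = M₀.mm (Asch.cj P⁻¹ g) := M₀.conj_mm P (by simp [Asch.cj_apply, ← mul_assoc])
  choose A hA using fun i j => hF₀ ((φ.symm c • M₁.mm g) i j) (by
    have := hc i j
    rw [← hM₀ (Asch.cj P⁻¹ g), ← e1] at this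
    simpa using this)
  have e2 : M₁.mm g = φ.symm (c⁻¹ : Fˣ) • (Matrix.of A).map ψ := by
    rw [show (Matrix.of A).map ψ = φ.symm c • M₁.mm g from (Matrix.ext hA).symm, smul_smul, ← map_mul]; simp
  have e3 : (M₁.conj k).mm g = φ.symm (c⁻¹ : Fˣ) • (Q' * Matrix.of A * Q).map ψ := by
    rw [← Matrix.one_mul (Mdl.mm _ _), ← hl', Matrix.mul_assoc, ← hk, mul_conj_mm, hk, e2]
    simp only [Matrix.smul_mul, Matrix.mul_smul, smul_smul, Matrix.map_mul, Matrix.mul_assoc]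
    congr 1
    linear_combination φ.symm (c⁻¹ : Fˣ) * hl
  generalize φ.symm (c⁻¹ : Fˣ) = d at e3
  generalize Q' * Matrix.of A * Q = B at e3
  have e4 := hG₂.fm_col hg.2.1
  have e5 : (1 : Matrix (Fin 3) (Fin 3) K) = (1 : Matrix _ _ (ZMod p)).map ψ := by simp
  simp only [e3, e5, fm_real ψ hψ hσ, Matrix.mul_one] at e4
  have e6 : d * σ₀ d * ψ ((Bᵀ * B) 0 0) = 1 := by simpa using e4 0 0
  refine ⟨d, B, (Bᵀ * B) 0 0, fun h => by simp [h] at e6, Matrix.ext fun i j => ψ.injective ?_, e3⟩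
  have := e4 i j
  rw [Matrix.map_apply] at this
  rw [Matrix.smul_apply, smul_eq_mul, map_mul]
  linear_combination -ψ ((Bᵀ * B) i j) * e6 + ψ ((Bᵀ * B) 0 0) * this

theorem exists_pair27 {R : Subgroup (GL (Fin n) F)} (h1 : Geo.IsSymplecticTypeGroup 3 R)
    (h2 : Geo.ActsAbsolutelyIrreducibly (Geo.matrixSet R)) (h3 : Nat.card R = 27)
    (h4 : Nat.card (Subgroup.center R) = 3) {w : F} (hw : ∀ c : F, c ^ 3 = 1 → c = 1 ∨ c = w ∨ c * w = 1) :
    (∀ x ∈ R, x ^ 3 = 1) ∧ ∃ x ∈ R, ∃ y ∈ R, x * y ≠ y * x ∧ x.val * y.val = w • (y.val * x.val) := by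
  have hp : ∀ x ∈ R, x ^ 3 = 1 := fun x hx => by
    have := Monoid.pow_exponent_eq_one (⟨x, hx⟩ : R)
    rw [h1.exponent_eq] at this
    exact congrArg Subtype.val this
  obtain ⟨x, y, h⟩ : ∃ x y : R, x * y ≠ y * x := by
    by_contra h
    push Not at h
    rw [(Subgroup.eq_top_iff' _).2 fun x => Subgroup.mem_center_iff.2 fun g => h g x, Subgroup.card_top, h3] at h4
    omega
  haveI : Fact (Nat.Prime 3) := ⟨Nat.prime_three⟩
  have hc := IsPGroup.isMulCommutative_of_card_eq_prime_sq (G := R ⧸ Subgroup.center R) (p := 3) (by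
    have := Subgroup.card_eq_card_quotient_mul_card_subgroup (Subgroup.center R)
    rw [h3, h4] at this
    omega)
  have h5 : (y * x)⁻¹ * (x * y) ∈ Subgroup.center R := QuotientGroup.eq.1 (hc.is_comm.comm (y : _ ⧸ _) x)
  obtain ⟨c, hc⟩ := Asch.mem_scalars_iff'.1 (center_scalar_of_absIrred h2 _ fun z hz =>
    congrArg Subtype.val (Subgroup.mem_center_iff.1 h5 ⟨z, hz⟩))
  have h6 : x.1.val * y.1.val = c.val • (y.1.val * x.1.val) := by
    have : x.1 * y.1 = y.1 * x.1 * Asch.sc _ c := by rw [← hc]; simp [mul_assoc]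
    simpa using congrArg Units.val this
  have h7 := hp _ ((y * x)⁻¹ * (x * y)).2
  rw [hc, ← map_pow] at h7
  have h' : x.1 * y.1 ≠ y.1 * x.1 := fun e => h (Subtype.ext e)
  have h8 : n ≠ 0 := fun e => h' (Units.ext (Matrix.ext fun i => absurd i.2 (by omega)))
  refine ⟨hp, ?_⟩
  have h9 := congrArg (fun g : GL (Fin n) F => g.val ⟨0, by omega⟩ ⟨0, by omega⟩) h7
  rcases hw c (by simpa [smul_pow] using h9) with e | e | e
  · exact absurd (Units.ext (by simpa [e] using h6)) h'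
  · exact ⟨x, x.2, y, y.2, h', e ▸ h6⟩
  · exact ⟨y, y.2, x, x.2, h'.symm, by rw [h6, smul_smul, mul_comm w, e, one_smul]⟩

/-- the elements of the standard extraspecial group -/
def E27 {K : Type*} [CommRing K] (w : K) (a : Fin 3 × Fin 3 × Fin 3) : Matrix (Fin 3) (Fin 3) K :=
  fun r s => if r = s + a.2.2 then w ^ (a.1 + a.2.1 * r).val else 0

theorem extra_model {q : ℕ} (hq : Fintype.card F = q ^ 2) {K : Type*} [CommRing K] (φ : K ≃+* F)
    {σ₀ : K → K} (hφ : ∀ x, φ (σ₀ x) = φ x ^ q) (w : K) (hw : ∀ c : K, c ^ 3 = 1 → c = 1 ∨ c = w ∨ c * w = 1)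
    (hw' : σ₀ w = w * w ∧ w * w + w + 1 = 0 ∧ (3 : K) ≠ 0)
    (hE : Function.Injective (E27 w) ∧ ∀ a, E27 w a = w ^ a.1.val • (E27 w (0, 1, 0) ^ a.2.1.val *
      E27 w (0, 0, 1) ^ a.2.2.val)) {R : Subgroup (GL (Fin 3) F)} (h1 : Geo.IsSymplecticTypeGroup 3 R)
    (h2 : Geo.ActsAbsolutelyIrreducibly (Geo.matrixSet R)) (h0 : R ≤ GU 3 F q) (h3 : Nat.card R = 27)
    (h4 : Nat.card (Subgroup.center R) = 3) :
    ∃ M : Mdl K (Fin 3) (Fin 3) F, M.Gram (US hq 3) σ₀ 1 ∧ ∀ g ∈ Geo.subgroupNormalizer R, ∀ a, ∃ b,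
      M.mm g * E27 w a = E27 w b * M.mm g := by
  obtain ⟨hp, x, hx, y, hy, h5, h6⟩ := exists_pair27 h1 h2 h3 h4 (w := φ w) fun c hc => by
    obtain ⟨c, rfl⟩ := φ.surjective c
    simpa only [← map_mul, ← map_one φ, φ.injective.eq_iff] using hw c (φ.injective (by simpa using hc))
  let S := US hq 3
  set c := φ w with hc
  have c1 : (Asch.UP hq).σ c = c * c := (hφ w).symm.trans (by rw [hw'.1, map_mul])
  have c2 : c * c + c + 1 = 0 := by simpa using congrArg φ hw'.2.1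
  have c3 : (3 : F) ≠ 0 := fun h => hw'.2.2 (φ.injective (by rw [map_ofNat, h, map_zero]))
  have c4 : c * c * c = 1 := by linear_combination (c - 1) * c2
  have c5 : c ≠ 1 := fun h => c3 (by rw [h] at c2; linear_combination c2)
  have c6 : c * c ≠ 1 := fun h => c5 (by linear_combination c4 - c * h)
  have c7 : c * c ≠ c := fun h => c5 (by linear_combination c * c * h - (c - 1) * c4)
  have cube : ∀ x ∈ R, ∀ v, x.val *ᵥ (x.val *ᵥ (x.val *ᵥ v)) = v := fun x hx v => by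
    rw [Matrix.mulVec_mulVec, Matrix.mulVec_mulVec, ← Units.val_mul, ← Units.val_mul, ← pow_three', hp x hx]; simp
  have hxy : ∀ v, x.val *ᵥ (y.val *ᵥ v) = c • y.val *ᵥ (x.val *ᵥ v) := fun v => by
    rw [Matrix.mulVec_mulVec, Matrix.mulVec_mulVec, h6, Matrix.smul_mulVec]
  obtain ⟨u, hu, hu0⟩ : ∃ u, x.val *ᵥ u = u ∧ u ≠ 0 := by
    by_contra h
    push Not at h
    have h7 : ∀ v, v + x.val *ᵥ v + x.val *ᵥ (x.val *ᵥ v) = 0 := fun v => h _ (by
      simp only [Matrix.mulVec_add, cube x hx]; abel)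
    have e1 := h7 (y.val *ᵥ (y.val *ᵥ (y.val *ᵥ 1)))
    have e2 := congrArg (fun v => y.val *ᵥ v) (h7 (y.val *ᵥ (y.val *ᵥ 1)))
    have e3 := congrArg (fun v => y.val *ᵥ (y.val *ᵥ v)) (h7 (y.val *ᵥ 1))
    simp only [hxy, Matrix.mulVec_add, Matrix.mulVec_smul, cube y hy, Matrix.mulVec_zero] at e1 e2 e3
    have : (3 : F) • (1 : Fin 3 → F) = 0 := by
      linear_combination (norm := skip) e1 + e2 + e3 - c2 • (x.val *ᵥ 1) -
        ((c * c - c + 1) * c2) • (x.val *ᵥ (x.val *ᵥ 1))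
      module
    exact c3 (by simpa [smul_pow] using congrFun this 0)
  have hv : ∀ u, x.val *ᵥ u = u → ∀ i : Fin 3, x.val *ᵥ ![u, y.val *ᵥ u, y.val *ᵥ (y.val *ᵥ u)] i =
      ![1, c, c * c] i • ![u, y.val *ᵥ u, y.val *ᵥ (y.val *ᵥ u)] i := fun u hu i => by
    fin_cases i <;> simp [hxy, hu, Matrix.mulVec_smul, smul_smul, -Matrix.mulVec_mulVec]
  have hB : ∀ u, x.val *ᵥ u = u → ∀ i j : Fin 3, S.B (![u, y.val *ᵥ u, y.val *ᵥ (y.val *ᵥ u)] i)
      (![u, y.val *ᵥ u, y.val *ᵥ (y.val *ᵥ u)] j) = if i = j then S.B u u else 0 := fun u hu i j => by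
    split_ifs with e
    · subst e
      have := Asch.mem_IsoB.1 (show y ∈ Asch.IsoB S from h0 hy)
      fin_cases i <;> simp [this, -Matrix.mulVec_mulVec]
    · have := Asch.mem_IsoB.1 (show x ∈ Asch.IsoB S from h0 hx) (![u, y.val *ᵥ u, y.val *ᵥ (y.val *ᵥ u)] i)
        (![u, y.val *ᵥ u, y.val *ᵥ (y.val *ᵥ u)] j)
      rw [hv u hu, hv u hu, S.B_smul_left, S.B_smul_right, ← mul_assoc, ← sub_eq_zero, ← sub_one_mul] at this
      refine (mul_eq_zero.1 this).resolve_left (sub_ne_zero.2 fun h => ?_)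
      fin_cases i <;> fin_cases j <;> simp [c1] at e h
      · exact c6 h
      · exact c5 (by linear_combination h - c * c4)
      · exact c5 h
      · exact c6 (by linear_combination h - c * c * c4)
      · exact c6 h
      · exact c5 (by linear_combination h - c * c4)
  have hli := Module.End.eigenvectors_linearIndependent' (Matrix.toLin' x.val) ![1, c, c * c] (fun i j h => by
    fin_cases i <;> fin_cases j <;> simp [c5, c6, c7, c5.symm, c6.symm, c7.symm] at h ⊢)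
    ![u, y.val *ᵥ u, y.val *ᵥ (y.val *ᵥ u)] fun i => ⟨Module.End.mem_eigenspace_iff.2 (hv u hu i), fun h => hu0 (by
      rw [← cube y hy u]
      fin_cases i
      · simp [show u = 0 from h]
      · simp [show y.val *ᵥ u = 0 from h, -Matrix.mulVec_mulVec]
      · simp [show y.val *ᵥ (y.val *ᵥ u) = 0 from h, -Matrix.mulVec_mulVec])⟩
  obtain ⟨a, ha⟩ := exists_norm_one_unit (unit_ne (isUnitaryForm_hermForm hq 3)) S (x := u) (fun h => hu0
    (US_nondeg hq 3 u fun z => by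
      let b := basisOfLinearIndependentOfCardEqFinrank hli (by simp)
      rw [← b.sum_repr z, S.B_sum_right]
      refine Finset.sum_eq_zero fun i _ => ?_
      rw [S.B_smul_right, coe_basisOfLinearIndependentOfCardEqFinrank]
      exact mul_eq_zero_of_right _ ((hB u hu 0 i).trans (by simp [h])))) (map_one _)
  have hu' : x.val *ᵥ (a • u) = a • u := by rw [Matrix.mulVec_smul, hu]
  generalize a • u = v at ha hu'
  obtain ⟨b, hb⟩ := exists_basis_of_gram S _ _ (fun i j h => (hB v hu' i j).trans (if_neg h))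
    (fun i => by rw [hB v hu', if_pos rfl, ha]; exact one_ne_zero) (by simp)
  let M : Mdl K (Fin 3) (Fin 3) F := ⟨φ, b⟩
  have mx : M.mm x = E27 w (0, 1, 0) := M.mm_eq fun j => by
    rw [X_eq, hb, hv v hu']
    fin_cases j <;> simp [M, hb, E27, Fin.sum_univ_three, hc, sq, -Matrix.mulVec_mulVec]
  have my : M.mm y = E27 w (0, 0, 1) := M.mm_eq fun j => by
    rw [X_eq, hb]
    fin_cases j <;> simp [M, hb, E27, Fin.sum_univ_three, cube y hy, -Matrix.mulVec_mulVec]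
  let z : R := ⟨x, hx⟩ * ⟨y, hy⟩ * (⟨y, hy⟩ * ⟨x, hx⟩)⁻¹
  have mz : M.mm z.1 = w • 1 := by
    rw [← M.mm_one, ← mm_smul]
    congr 1
    change (x * y * (y * x)⁻¹).val = _
    rw [Units.val_mul, Units.val_mul, h6, ← Units.val_mul, smul_mul_assoc, ← Units.val_mul, mul_inv_cancel]; rfl
  let f : Fin 3 × Fin 3 × Fin 3 → R := fun a => z ^ a.1.val * (⟨x, hx⟩ ^ a.2.1.val * ⟨y, hy⟩ ^ a.2.2.val)
  have mf : ∀ a, M.mm (f a).1 = E27 w a := fun a => by
    rw [hE.2]
    simp [f, mm_mul, mm_pow, mx, my, mz, smul_pow]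
  have hf := (Nat.bijective_iff_injective_and_card f).2 ⟨fun a b h => hE.1 (by rw [← mf, ← mf, h]), by simp [h3]⟩
  refine ⟨M, gram_one hq M hφ (fun i => by rw [hb, hB v hu', if_pos rfl, ha]) fun i j h => by
    rw [hb, hb, hB v hu', if_neg h], fun g hg a => ?_⟩
  obtain ⟨b, e⟩ := hf.2 ⟨_, (hg (f a)).1 (f a).2⟩
  exact ⟨b, by rw [← mf, ← mf, ← mm_mul, ← mm_mul, e]; simp [mul_assoc]⟩

end Cfsg.Agent.H2.Cases
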