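import Cfsg.Agent.H2.Chain3
import Cfsg.Agent.H2.SU3A

set_option autoImplicit false
set_option synthInstance.maxSize 40000

/-! Non-maximal geometric subgroups of two small three-dimensional unitary groups. -/

namespace Cfsg.Agent.H2.Cases

open Mdl
open scoped Matrix MatrixGroups

set_option Elab.async false

namespace U3

theorem sim_three {k K : Type*} [Field k] [CommRing K] (ψ : k →+* K) {L : List (Fin 3 → K)}
    {C : Matrix (Fin 3) (Fin 3) K → Prop} (hC : ∀ A, C A → Pres (Pts L) A)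
    (h : ∀ a b c : k, a * a + b * b + c * c = 1 → ∀ d e f : k,
    (a * d + b * e + c * f = 0 ∧ d * d + e * e + f * f = 1) → ∀ g h i : k,
    (a * g + b * h + c * i = 0 ∧ d * g + e * h + f * i = 0 ∧ g * g + h * h + i * i = 1) →
    C (Matrix.map !![a, d, g; b, e, h; c, f, i] ψ)) {A : Matrix (Fin 3) (Fin 3) k} {t : k} (h1 : t ≠ 0)
    (h2 : Aᵀ * A = t • 1) (c : K) : Pres (Pts L) (c • A.map ψ) := by
  have h3 : A.det * A.det = t ^ 3 := by simpa using congrArg Matrix.det h2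
  have h4 : A.det ≠ 0 := fun h => h1 (by simpa [h] using h3.symm)
  obtain ⟨x, B, rfl, h5⟩ : ∃ (x : k) (B : Matrix _ _ k), x • B = A ∧ Bᵀ * B = 1 := ⟨A.det / t, (t / A.det) • A, by
    rw [smul_smul, div_mul_div_cancel₀ h1, div_self h4, one_smul], by
    rw [Matrix.transpose_smul, Matrix.smul_mul, Matrix.mul_smul, h2, smul_smul, smul_smul,
      show t / A.det * (t / A.det) * t = 1 by field_simp; linear_combination -h3, one_smul]⟩
  have e : ∀ i j, B 0 i * B 0 j + B 1 i * B 1 j + B 2 i * B 2 j = if i = j then 1 else 0 := fun i j => by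
    simpa [Matrix.mul_apply, Fin.sum_univ_three, Matrix.one_apply] using congrFun (congrFun h5 i) j
  rw [show (x • B).map ψ = ψ x • B.map ψ by ext; simp, B.eta_fin_three]
  exact ((hC _ (h _ _ _ (e 0 0) _ _ _ ⟨e 0 1, e 1 1⟩ _ _ _ ⟨e 0 2, e 1 2, e 2 2⟩)).smul_pts _).smul_pts c

instance nontrivial9 : Nontrivial F9 := ⟨0, 1, by decide⟩

instance nontrivial25 : Nontrivial F25 := ⟨0, 1, by decide⟩

instance charP9 : CharP F9 3 := (CharP.charP_iff_prime_eq_zero Nat.prime_three).2 (by decide +kernel)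

instance factFive : Fact (Nat.Prime 5) := ⟨by norm_num⟩

instance charP25 : CharP F25 5 := (CharP.charP_iff_prime_eq_zero Nat.prime_five).2 (by decide +kernel)

/-- the prime field -/
def ψ3 : ZMod 3 →+* F9 := ZMod.castHom (dvd_refl 3) F9

/-- the prime field -/
def ψ5 : ZMod 5 →+* F25 := ZMod.castHom (dvd_refl 5) F25

/-- the points -/
def L3 : List (Fin 3 → F9) := List.map (dv F9.e 3) [0x1, 0x20, 0x400]

theorem enum3 : ∀ a b c : ZMod 3, a * a + b * b + c * c = 1 → ∀ d e f : ZMod 3,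
    (a * d + b * e + c * f = 0 ∧ d * d + e * e + f * f = 1) → ∀ g h i : ZMod 3,
    (a * g + b * h + c * i = 0 ∧ d * g + e * h + f * i = 0 ∧ g * g + h * h + i * i = 1) →
    PL L3 (Matrix.map !![a, d, g; b, e, h; c, f, i] ψ3) := by
  decide +kernel

theorem real3 {F : Type*} [Field F] [Fintype F] (hq : Fintype.card F = 3 ^ 2) {F₀ : Subfield F}
    {P : GL (Fin 3) F} (hF : Fintype.card F = Nat.card F₀ ^ 2)
    (hP : Geo.IsFormRationalStructure (hermForm 3 F 3) F₀ 1 P) :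
    ¬ Geo.IsMaximalIn (SUG 3 F 3) (Geo.subfieldSubgroup F₀ P ⊓ SUG 3 F 3) := by
  intro hH
  obtain ⟨φ, hφ⟩ := F9.exists_equiv hq
  obtain ⟨M, hG, hM⟩ := real_model hq φ hφ ψ3 (by decide +kernel) (by decide) diag3_three hF hP
  refine not_max_pts hG hH L3 (fun g hg => ?_) (dm F9.e 3 0x10000600003) (dm F9.e 3 0x10000300006)
    (dm F9.e 3 0x72808400001) (dm F9.e 3 0x43810700001) (by decide +kernel) (fun g hg e => ?_) (by decide +kernel)
  · obtain ⟨c, A, t, h1, h2, h3⟩ := hM g hg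
    rw [h3]
    exact sim_three ψ3 (fun _ => PL.pres) enum3 h1 h2 c
  · obtain ⟨c, A, t, -, -, h3⟩ := hM g hg
    exact (by decide +kernel : ∀ c : F9, ∀ a b : ZMod 3, ¬ ((dm F9.e 3 0x10000600003) 0 0 = c * ψ3 a ∧
      (dm F9.e 3 0x10000600003) 2 2 = c * ψ3 b)) c (A 0 0) (A 2 2)
      ⟨congrFun (congrFun (e.symm.trans h3) 0) 0, congrFun (congrFun (e.symm.trans h3) 2) 2⟩

/-- the points -/
def L7 : List (Fin 3 → F25) := List.map (dv F25.e 3)
  [0x400, 0x20, 0x420, 0x1020, 0x3020, 0x3420, 0x4420, 0x4820, 0x1, 0x401, 0x1001, 0x3001, 0x3401,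
    0x4401, 0x4801, 0x21, 0x421, 0x821, 0xc21, 0x1021, 0x2821, 0x3c21, 0x441, 0x841, 0xc41, 0x1041,
    0x461, 0x861, 0xc61, 0x1061, 0x81, 0x481, 0x881, 0xc81, 0x1081, 0x2881, 0x3c81, 0x14a1, 0x50a1,
    0x24c1, 0x34c1, 0x44c1, 0x54c1, 0x34e1, 0x44e1, 0x3101, 0x4901, 0x1921, 0x3121, 0x4921, 0x6121,
    0x541, 0x1141, 0x3961, 0x4161, 0x181, 0x2181, 0x2581, 0x3581, 0x4581, 0x5581, 0x5981, 0x1a1,
    0x19a1, 0x1da1, 0x31a1, 0x49a1, 0x5da1, 0x61a1, 0x2dc1, 0x4dc1, 0x5e1, 0x11e1, 0x2e01, 0x4e01,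
    0x221, 0x1a21, 0x1e21, 0x3221, 0x4a21, 0x5e21, 0x6221, 0x241, 0x2241, 0x2641, 0x3641, 0x4641,
    0x5641, 0x5a41, 0x3a61, 0x4261, 0x1681, 0x5281, 0x1aa1, 0x32a1, 0x4aa1, 0x62a1, 0x32c1, 0x4ac1,
    0x36e1, 0x46e1, 0x2701, 0x3701, 0x4701, 0x5701]
/-- the elements -/
def T7 : List (Matrix (Fin 3) (Fin 3) F25) := List.map (dm F25.e 3)
  [0x6800090400, 0x100c04400, 0x300103400, 0x8824000001, 0xc0000d00004, 0xd000040000c, 0x40101000,
    0x1100000881a0, 0x6000094800, 0x6022000004, 0x120000088020, 0x2000009000, 0x62000180,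
    0x3080001a0, 0x110000d0000d, 0x318000180, 0x2008000004, 0x1180001a0, 0x110000060080,
    0xd0000d00011, 0x400000901a0, 0x480c03000, 0x49a000020, 0x6818000001, 0x901a000004,
    0x120000400011, 0xc0000020220, 0x110001200004, 0x9000089000, 0x340c00400, 0xd0000090080,
    0x880000b000, 0x881a000011, 0x800093400, 0xc0000090180, 0x2002000001, 0x9000068400, 0x35a000220,
    0x340404800, 0x102000080, 0x1000110000c, 0x880008c400, 0x824000011, 0x120000090240,
    0x120001100004, 0xd0000088220, 0x441200400, 0x301101000, 0x882200000d, 0x110000008240,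
    0x80006c800, 0x822000012, 0x600000c400, 0x120000008220, 0x900800000d, 0x6800061000, 0x322000020,
    0x301203000, 0x448000240, 0x40000100004, 0xc0000068020, 0x340d03400, 0x680200000c, 0x2000020400,
    0x11a000180, 0x100d04800, 0x4820001a0, 0x10000c00011, 0x440403000, 0x48000080, 0x40001100012,
    0x10000100001]
/-- the generators -/
def S7 : List (Matrix (Fin 3) (Fin 3) F25) := List.map (dm F25.e 3) [0x40001100012, 0x48000080, 0x440403000]

/-- the elements -/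
def T8 : List (Matrix (Fin 3) (Fin 3) F25) := List.map (dm F25.e 3)
  [0x30902410461, 0x408c2308881, 0x22108111041, 0x120c8208c21, 0x108000020, 0x30842419041,
    0x2000020400, 0x40882320c21, 0x41846409082, 0x41902110821, 0x420c4108441, 0x11108410c81,
    0x100100400, 0x108c6409061, 0x40000008020, 0x12084408461, 0x100401000, 0x11842410881,
    0x40886109041, 0x10000008080, 0x41048110c21, 0x41842118c81, 0x10000020020, 0x42084121061,
    0x802000004, 0x22042308482, 0x40101000, 0x11102118824, 0x120c4421041, 0x41102410c24,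
    0x11902418c21, 0x32042221082, 0x42000020, 0x22102418464, 0x2000009000, 0x10882208821,
    0x102000080, 0x20842110441, 0x10000400004, 0x42088308c81, 0x800008400, 0x32048411061,
    0x22048118461, 0x800021000, 0x12088220881, 0x40000100004, 0x11044108422, 0x48000080,
    0x30908119044, 0x108c2220c81, 0x32102111064, 0x20902119061, 0x11846120482, 0x108c8308824,
    0x42082220824, 0x12082308c24, 0x11104121082, 0x120c6108464, 0x11048418821, 0x40000020080,
    0x10886420441, 0x2008000004, 0x30848209022, 0x40400400, 0x41908418c84, 0x408c6120461,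
    0x11908110884, 0x41108118881, 0x20848320422, 0x408c4409044, 0x12086121044, 0x10884109064,
    0x30908220482, 0x41848410824, 0x11848118c24, 0x20908309082, 0x20842209083, 0x30848110464,
    0x420c8320821, 0x20908410444, 0x32108418441, 0x41044421022, 0x420c2208c84, 0x10888320c84,
    0x40888208884, 0x41906420422, 0x22042411044, 0x20848419064, 0x41104408482, 0x41046108483,
    0x408c8220c24, 0x11046421083, 0x40884420464, 0x42086408444, 0x22102321022, 0x11042110c84,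
    0x41042418884, 0x32102208422, 0x32048308423, 0x420c6421064, 0x30842320483, 0x32108321083,
    0x32042118444, 0x11906109022, 0x11844409023, 0x120c2320884, 0x41844120423, 0x11904420483,
    0x41904109083, 0x108c4120444, 0x22048221023, 0x20902220423, 0x22108208483, 0x808000001,
    0x41106121023, 0x11106408423, 0x40000400001, 0x30902309023, 0x2002000001, 0x10000100001]
/-- the generators -/
def S8 : List (Matrix (Fin 3) (Fin 3) F25) := List.map (dm F25.e 3) [0x2002000001, 0x30902309023]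

theorem hT7 : GenPL L7 S7 T7 := by decide +kernel

theorem hT8 : GenPL L7 S8 T8 := by decide +kernel

theorem enum5 : ∀ a b c : ZMod 5, a * a + b * b + c * c = 1 → ∀ d e f : ZMod 5,
    (a * d + b * e + c * f = 0 ∧ d * d + e * e + f * f = 1) → ∀ g h i : ZMod 5,
    (a * g + b * h + c * i = 0 ∧ d * g + e * h + f * i = 0 ∧ g * g + h * h + i * i = 1) →
    MemT T8 [1, -1] (Matrix.map !![a, d, g; b, e, h; c, f, i] ψ5) := by
  decide +kernel

theorem hU7 : SUM 1 F25.cj (dm F25.e 3 0x155014600001) (dm F25.e 3 0x6781f500001) ∧ NPL L7 (dm F25.e 3 0x155014600001) := by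
  decide +kernel

theorem real5 {F : Type*} [Field F] [Fintype F] (hq : Fintype.card F = 5 ^ 2) {F₀ : Subfield F}
    {P : GL (Fin 3) F} (hF : Fintype.card F = Nat.card F₀ ^ 2)
    (hP : Geo.IsFormRationalStructure (hermForm 3 F 5) F₀ 1 P) :
    ¬ Geo.IsMaximalIn (SUG 3 F 5) (Geo.subfieldSubgroup F₀ P ⊓ SUG 3 F 5) := by
  intro hH
  obtain ⟨φ, hφ⟩ := F25.exists_equiv hq
  obtain ⟨M, hG, hM⟩ := real_model hq φ hφ ψ5 (by decide +kernel) (by decide) diag3_five hF hP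
  refine not_max_pts hG hH L7 (fun g hg => ?_) (dm F25.e 3 0x1000110000c) (dm F25.e 3 0x10000c00011)
    _ _ (by decide +kernel) (fun g hg e => ?_) hU7
  · obtain ⟨c, A, t, h1, h2, h3⟩ := hM g hg
    rw [h3]
    exact sim_three ψ5 (fun _ h => MemT.pres h hT8) enum5 h1 h2 c
  · obtain ⟨c, A, t, -, -, h3⟩ := hM g hg
    exact (by decide +kernel : ∀ c : F25, ∀ a b : ZMod 5, ¬ ((dm F25.e 3 0x1000110000c) 0 0 = c * ψ5 a ∧
      (dm F25.e 3 0x1000110000c) 2 2 = c * ψ5 b)) c (A 0 0) (A 2 2)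
      ⟨congrFun (congrFun (e.symm.trans h3) 0) 0, congrFun (congrFun (e.symm.trans h3) 2) 2⟩

theorem enum7 : ∀ σ : Equiv.Perm (Fin 3), ∀ a : F25, a * F25.cj a = 1 → ∀ b : F25, b * F25.cj b = 1 →
    ∀ c : F25, c * F25.cj c = 1 → (Equiv.Perm.sign σ : ℤ) * (a * b * c) = 1 →
    MemT T7 (List.map F25.e [1, 12, 17]) (monoM σ ![a, b, c]) := by
  decide +kernel

theorem frame5 {F : Type*} [Field F] [Fintype F] (hq : Fintype.card F = 5 ^ 2)
    {D : Fin 3 → Submodule F (Fin 3 → F)} (hD : Geo.IsNondegenerateMDecomposition (hermForm 3 F 5) 1 D) :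
    ¬ Geo.IsMaximalIn (SUG 3 F 5) (Geo.decompositionStabilizer D ⊓ SUG 3 F 5) := by
  intro hH
  obtain ⟨φ, hφ⟩ := F25.exists_equiv hq
  obtain ⟨M, hG, hM⟩ := frame_model hq φ hφ hD
  refine not_max_pts hG hH L7 (fun g hg => ?_) (dm F25.e 3 0x10882208821) (dm F25.e 3 0x10882208821)
    _ _ (by decide +kernel) (fun g hg e => ?_) hU7
  · obtain ⟨σ, c, a1, a2, a3⟩ := hM g hg
    have : c = ![c 0, c 1, c 2] := by ext i; fin_cases i <;> rfl
    rw [mono_eq a3, this]
    exact (enum7 σ _ (a1 0) _ (a1 1) _ (a1 2) (by rwa [Fin.prod_univ_three] at a2)).pres hT7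
  · obtain ⟨σ, c, -, -, a3⟩ := hM g hg
    have := mono_col a3 0 0 1 (by decide)
    rw [e] at this
    revert this; decide +kernel

/-- the points -/
def L9 : List (Fin 3 → F25) := List.map (dv F25.e 3)
  [0x1421, 0x3821, 0x4c21, 0x5021, 0x4a1, 0x30a1, 0x20e1, 0x3ce1, 0x1d01, 0x2101, 0x2941, 0x5941,
    0x3161, 0x4561, 0x1581, 0x2d81, 0x4181, 0x4d81, 0x5c1, 0x45c1, 0x1de1, 0x3de1, 0x3201, 0x4601,
    0x2e21, 0x3a21, 0x4221, 0x5221, 0x661, 0x3261, 0x681, 0x4681, 0x2ac1, 0x5ec1, 0x5ae1, 0x5ee1]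
/-- the elements -/
def T9 : List (Matrix (Fin 3) (Fin 3) F25) := List.map (dm F25.e 3)
  [0x73a1e841d07, 0x779d0f79cef, 0x1655ad7bdef6, 0x17b595652956, 0xab294ab5ed6, 0xf79de8421e8,
    0x16bdd4abaaea, 0xf7a0ef3bce7, 0x1655ed755ad6, 0x341201000, 0x77a10f3bdef, 0xa52af655aea,
    0x40000068240, 0xf41de743def, 0x322000020, 0x11000010000c, 0x16b5af652ad7, 0xf3a10841de8,
    0x100401000, 0x1000110000c, 0xf7bcef421e7, 0x458000020, 0x2008000004, 0x17bdef655d56,
    0x900800000d, 0x1755af7bdeca, 0x7421ef43d0f, 0x1655956b2957, 0x17b5aeabdad7, 0x839d0f41ce8,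
    0x16b2af6bdaf7, 0x16bd94ab594a, 0x87bd083bd0f, 0xf3bce741def, 0x175294abded7, 0x779de73bde8,
    0xa55aca55af6, 0x77bd0f4210f, 0x17b5d56b5ef6, 0x17baaca55d57, 0x779ce842107, 0x17bdaf6baad6,
    0xa55957bdd57, 0xf3bdef3a0e7, 0x175594a55957, 0x879d08420ef, 0x318000180, 0x40000020080,
    0x80008b000, 0x1655d56bdef7, 0x83bce87bdef, 0x6000088400, 0x400000901a0, 0xf7bd0779d0f,
    0x800008400, 0x1755ad6b2af6, 0xf3a0e73a0ef, 0x843de843cef, 0x73bcef3a1ef, 0x165295655ad7,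
    0xf3bd087bd08, 0xf7a107421ef, 0x17bdacab5af7, 0x839ce83a10f, 0x87bdef420e8, 0x202400000d,
    0xf7bde83bce8, 0xabdad755ef7, 0x340404800, 0x16bded655ed7, 0x1755d4ab2af7, 0x10000100001]
/-- the generators -/
def S9 : List (Matrix (Fin 3) (Fin 3) F25) := List.map (dm F25.e 3) [0x1755d4ab2af7, 0x16bded655ed7]

theorem hT9 : GenPL L9 S9 T9 := by decide +kernel

/-- a matrix given by its columns -/
def col3 (Y : Matrix (Fin 3) (Fin 3) F25) (v : Fin 3 → F25) : Matrix (Fin 3) (Fin 3) F25 :=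
  fun r c => ![v, Y *ᵥ v, Y *ᵥ (Y *ᵥ v)] c r

/-- the determinant -/
def det3 (A : Matrix (Fin 3) (Fin 3) F25) : F25 := A 0 0 * A 1 1 * A 2 2 - A 0 0 * A 1 2 * A 2 1 -
  A 0 1 * A 1 0 * A 2 2 + A 0 1 * A 1 2 * A 2 0 + A 0 2 * A 1 0 * A 2 1 - A 0 2 * A 1 1 * A 2 0

/-- a fixed vector -/
abbrev Fix3 (E : Matrix (Fin 3) (Fin 3) F25) (a b c : F25) : Prop := E 0 0 * a + E 0 1 * b + E 0 2 * c = a ∧
  E 1 0 * a + E 1 1 * b + E 1 2 * c = b ∧ E 2 0 * a + E 2 1 * b + E 2 2 * c = c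

/-- the matrices belong to the list -/
def C9 (a b c : F25) : Prop := a * F25.cj a + b * F25.cj b + c * F25.cj c = 1 →
  ∀ s, det3 (col3 (E27 (F25.e 12) s) ![a, b, c]) = 1 →
    MemT T9 (List.map F25.e [1, 12, 17]) (col3 (E27 (F25.e 12) s) ![a, b, c])

instance decC9 (a b c : F25) : Decidable (C9 a b c) := by unfold C9; infer_instance

/-- a first test -/
abbrev Pre3 (E : Matrix (Fin 3) (Fin 3) F25) (a b : F25) : Prop := (E 0 2 = 0 → E 0 0 * a + E 0 1 * b = a) ∧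
  (E 1 2 = 0 → E 1 0 * a + E 1 1 * b = b)

/-- the fixed vectors -/
def FixL (r : Fin 3 × Fin 3 × Fin 3) : Prop := ∀ a b, Pre3 (E27 (F25.e 12) r) a b → ∀ c,
  Fix3 (E27 (F25.e 12) r) a b c → (a = 0 ∧ b = 0) ∨ (a = 0 ∧ c = 0) ∨ (b = 0 ∧ c = 0) ∨
    (a * a * a = b * b * b ∧ b * b * b = c * c * c)

instance decFixL : DecidablePred FixL := fun r => by unfold FixL; infer_instance

theorem fixL : ∀ r, r ≠ 0 → FixL r := by decide +kernel

theorem enum9a : ∀ a, C9 0 0 a ∧ C9 0 a 0 ∧ C9 a 0 0 := by decide +kernel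

theorem enum9b : ∀ a b, a * a * a = b * b * b → ∀ c, b * b * b = c * c * c → C9 a b c := by decide +kernel

theorem enum9 {a b c : F25} {r : Fin 3 × Fin 3 × Fin 3} (h : r ≠ 0) (h' : Fix3 (E27 (F25.e 12) r) a b c) :
    C9 a b c := by
  rcases fixL r h a b ⟨fun e => by simpa [e] using h'.1, fun e => by simpa [e] using h'.2.1⟩ c h' with
    ⟨rfl, rfl⟩ | ⟨rfl, rfl⟩ | ⟨rfl, rfl⟩ | ⟨h1, h2⟩
  exacts [(enum9a _).1, (enum9a _).2.1, (enum9a _).2.2, enum9b _ _ h1 _ h2]

theorem extra5 {F : Type*} [Field F] [Fintype F] (hq : Fintype.card F = 5 ^ 2)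
    {R : Subgroup (GL (Fin 3) F)} (h1 : Geo.IsSymplecticTypeGroup 3 R)
    (h2 : Geo.ActsAbsolutelyIrreducibly (Geo.matrixSet R)) (h0 : R ≤ GU 3 F 5) (h3 : Nat.card R = 27)
    (h4 : Nat.card (Subgroup.center R) = 3) :
    ¬ Geo.IsMaximalIn (SUG 3 F 5) (Geo.subgroupNormalizer R ⊓ SUG 3 F 5) := by
  intro hH
  obtain ⟨φ, hφ⟩ := F25.exists_equiv hq
  obtain ⟨M, hG, hM⟩ := extra_model hq φ hφ (F25.e 12) (by decide +kernel) (by decide +kernel)
    (by decide +kernel) h1 h2 h0 h3 h4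
  refine not_max_pts hG hH L9 (fun g hg => ?_) (dm F25.e 3 0x84d6233aa2) (dm F25.e 3 0x84d6233aa2)
    (dm F25.e 3 0x155014600001) (dm F25.e 3 0x6781f500001) (by decide +kernel) (fun g hg e => ?_) (by decide +kernel)
  · obtain ⟨r, hr⟩ := hM g hg.1 (0, 1, 0)
    obtain ⟨s, hs⟩ := hM g hg.1 (0, 0, 1)
    have hd := M.mem_SL.1 hg.2.2
    have hn := hG.fm_col hg.2.1 0 0
    generalize M.mm g = A at *
    have e1 : ∀ j : Fin 3, E27 (F25.e 12) s *ᵥ (fun i => A i j) = fun i => A i (j + 1) := fun j => by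
      ext i
      refine (congrFun (congrFun hs i) j).symm.trans ?_
      fin_cases j <;> simp [Matrix.mul_apply, E27, Fin.sum_univ_three]
    have e0 : ![A 0 0, A 1 0, A 2 0] = fun i => A i 0 := by ext i; fin_cases i <;> rfl
    have e2 : A = col3 (E27 (F25.e 12) s) ![A 0 0, A 1 0, A 2 0] := by
      rw [e0]
      unfold col3
      rw [e1, e1]
      ext i j; fin_cases j <;> rfl
    have e3 : ∀ i, E27 (F25.e 12) r i 0 * A 0 0 + E27 (F25.e 12) r i 1 * A 1 0 + E27 (F25.e 12) r i 2 * A 2 0 =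
        A i 0 := fun i => by
      have := congrFun (congrFun hr i) 0
      rw [Matrix.mul_apply, Matrix.mul_apply, Fin.sum_univ_three, Fin.sum_univ_three] at this
      rw [← this]
      simp [E27]
    rw [e2]
    refine (enum9 ?_ ⟨e3 0, e3 1, e3 2⟩ (by simpa [fm_one, Fin.sum_univ_three] using hn) s
      (e2 ▸ (Matrix.det_fin_three A).symm.trans hd)).pres hT9
    rintro rfl
    rw [show E27 (F25.e 12) 0 = 1 by decide +kernel, one_mul, ((Matrix.isUnit_iff_isUnit_det A).2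
      (hd ▸ isUnit_one)).mul_eq_left] at hr
    revert hr; decide +kernel
  · obtain ⟨r, hr⟩ := hM g hg.1 (0, 1, 0)
    rw [e] at hr
    revert r; decide +kernel

end U3

end Cfsg.Agent.H2.Cases
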