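import Cfsg.Agent.H2.SingerU

set_option autoImplicit false
set_option synthInstance.maxSize 40000

/-! Field extension subgroups of two small three-dimensional unitary groups. -/

namespace Cfsg.Agent.H2.Cases

open Mdl
open scoped Matrix MatrixGroups

namespace Sing33

/-- Gram matrix -/
def G : Matrix (Fin 3) (Fin 3) F9 := dm F9.e 3 0x10902109c21
/-- powers of the Singer element -/
def P (k : ℕ) : Matrix (Fin 3) (Fin 3) F9 := dm F9.e 3 (List.getD
  [0x10000100001, 0x70810008400, 0x23844801c20, 0x411c42408e1, 0x1208a211047, 0x900510482,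
    0x42028024] k 0)
/-- the points -/
def L : List (Fin 3 → F9) := List.map (dv F9.e 3)
  [0x400, 0x20, 0x420, 0x1, 0x1401, 0x1c01, 0x21, 0x1021, 0x2021, 0x861, 0x1461, 0x2061, 0x481,
    0x1081, 0x1c81, 0x8c1, 0x14c1, 0x4e1, 0x10e1, 0x1d01, 0x2101]
/-- the elements -/
def T : List (Matrix (Fin 3) (Fin 3) F9) := List.map (dm F9.e 3)
  [0x42028024, 0x900510482, 0x30984041c86, 0x508c8108c06, 0x130c08290c3, 0x3390a010c26,
    0x118021080c1, 0x1208a211047, 0x619d0501861, 0x721802084c3, 0x30182139828, 0x430c4111867,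
    0x3042728505, 0x411c42408e1, 0x61842200ce4, 0x60a0e5420a1, 0x1414a821423, 0x23844801c20,
    0x82850408460, 0x70810008400, 0x10000100001]
/-- the generators -/
def S : List (Matrix (Fin 3) (Fin 3) F9) := [P 1, dm F9.e 3 0x82850408460]

theorem hT : GenPL L S T := by decide +kernel

theorem enum : ∀ a b c : F9, Q3 F9.cj G a b c = G 0 0 → ∀ i < 7,
    (∀ k : Fin 3, k ≠ 0 → Q3 F9.cj (G * (P (i * k % 7)).map F9.cj) a b c = G 0 k) →
    MemT T (List.map F9.e [1, 2, 3, 6]) (cyc 7 P i ![a, b, c]) := by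
  decide +kernel

theorem not_max {F : Type*} [Field F] [Fintype F] (hq : Fintype.card F = 3 ^ 2)
    {K : Subalgebra F (Matrix (Fin 3) (Fin 3) F)} (hK : Geo.IsFieldSubalgebra 3 K)
    (ha : Geo.IsAdjointClosedFor (hermForm 3 F 3) K) :
    ¬ Geo.IsMaximalIn (SUG 3 F 3) (Geo.subalgebraNormalizer K ⊓ SUG 3 F 3) := by
  obtain ⟨φ, hφ⟩ := F9.exists_equiv hq
  haveI : Fact (Nat.Prime 7) := ⟨by norm_num⟩
  refine singer_not_max (l := 7) hq (by norm_num) hK ha (by norm_num) (by decide) (by decide +kernel) φ hφ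
    (dm F9.e 3 0x62004201021) (dm F9.e 3 0x43010501c01) G (P 1) (P 6)
    (dm F9.e 3 0x221c02000c1) (dm F9.e 3 0x221c02000c1)
    (dm F9.e 3 0x310068020c1) (dm F9.e 3 0x8080c301061) P L
    (by decide +kernel) (by decide +kernel) (by decide +kernel) (by decide +kernel) fun v h i hi h1 h2 => ?_
  simp only [fm_three] at h h1
  have : v = ![v 0, v 1, v 2] := by ext i; fin_cases i <;> rfl
  rw [this] at h2 ⊢
  exact (enum _ _ _ h i hi h1).pres hT

end Sing33

namespace Sing35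

/-- Gram matrix -/
def G : Matrix (Fin 3) (Fin 3) F25 := dm F25.e 3 0x12868128681
/-- powers of the Singer element -/
def P (k : ℕ) : Matrix (Fin 3) (Fin 3) F25 := dm F25.e 3 (List.getD
  [0x10000100001, 0x16082e008400, 0x4b049705820, 0x725884b92c1, 0x13910421c96, 0x9c08204e4,
    0x42040027] k 0)
/-- the points -/
def L : List (Fin 3 → F25) := List.map (dv F25.e 3)
  [0x2c20, 0x3820, 0x5820, 0x5c20, 0x401, 0x10c1, 0x1121, 0x161, 0x1c1, 0xde1, 0xa81, 0x1ea1, 0x2c1,
    0x12c1, 0x42c1, 0x4ac1, 0x2e1, 0x12e1, 0x2ee1, 0x36e1, 0x5b01]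
/-- the elements -/
def T : List (Matrix (Fin 3) (Fin 3) F25) := List.map (dm F25.e 3)
  [0x42040027, 0x9c08204e4, 0x3bc6152c5e6, 0xf30a6c08b03, 0x178bea59bcc2, 0xfa8e439b00c,
    0x16600c5abea3, 0x13910421c96, 0x6161815e077, 0x11798b361858, 0x2c0c2b80ef1, 0x151d8733018f,
    0xc030b595476, 0x725884b92c1, 0x181dd70ade2f, 0x3b32662b1f5, 0x63eb290ecc, 0x4b049705820,
    0xc7d6521d980, 0x16082e008400, 0x10000100001]
/-- the generators -/
def S : List (Matrix (Fin 3) (Fin 3) F25) := [P 1, dm F25.e 3 0xc7d6521d980]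

theorem hT : GenPL L S T := by decide +kernel

theorem enum : ∀ a b c : F25, Q3 F25.cj G a b c = G 0 0 → ∀ i < 7,
    (∀ k : Fin 3, k ≠ 0 → Q3 F25.cj (G * (P (i * k % 7)).map F25.cj) a b c = G 0 k) →
    (cyc 7 P i ![a, b, c]).det = 1 → MemT T (List.map F25.e [1, 12, 17]) (cyc 7 P i ![a, b, c]) := by
  decide +kernel

theorem not_max {F : Type*} [Field F] [Fintype F] (hq : Fintype.card F = 5 ^ 2)
    {K : Subalgebra F (Matrix (Fin 3) (Fin 3) F)} (hK : Geo.IsFieldSubalgebra 3 K)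
    (ha : Geo.IsAdjointClosedFor (hermForm 3 F 5) K) :
    ¬ Geo.IsMaximalIn (SUG 3 F 5) (Geo.subalgebraNormalizer K ⊓ SUG 3 F 5) := by
  obtain ⟨φ, hφ⟩ := F25.exists_equiv hq
  haveI : Fact (Nat.Prime 7) := ⟨by norm_num⟩
  refine singer_not_max (l := 7) hq (by norm_num) hK ha (by norm_num) (by decide) (by decide +kernel) φ hφ
    (dm F25.e 3 0x64022d004a1) (dm F25.e 3 0x8a810e01541) G (P 1) (P 6)
    (dm F25.e 3 0x17498ada1ab7) (dm F25.e 3 0x17498ada1ab7)
    (dm F25.e 3 0x134804d00981) (dm F25.e 3 0xda807300e41) P L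
    (by decide +kernel) (by decide +kernel) (by decide +kernel) (by decide +kernel) fun v h i hi h1 h2 => ?_
  simp only [fm_three] at h h1
  have : v = ![v 0, v 1, v 2] := by ext i; fin_cases i <;> rfl
  rw [this] at h2 ⊢
  exact (enum _ _ _ h i hi h1 h2).pres hT

end Sing35

end Cfsg.Agent.H2.Cases
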