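import Cfsg.Agent.H2.Chain
import Cfsg.Agent.H7.SUX4

set_option autoImplicit false
set_option linter.unusedSectionVars false
set_option synthInstance.maxSize 4000

/-! Non-maximal geometric subgroups of the six-dimensional unitary group over the field of order four. -/

namespace Cfsg.Agent.H2.Cases

open Module Cfsg.Agent.Form Cfsg.Agent.H7 Cfsg.Agent.H6.SU Mdl
open scoped Matrix MatrixGroups

section
variable {F K : Type*} [Field F] [Field K] [Algebra F K] {V : Type*} [AddCommGroup V] [Module F V] [Module K V]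
  [IsScalarTower F K V] [FiniteDimensional F K] [FiniteDimensional K V] [FiniteDimensional F V] [Fintype F]
variable {σ : F →+* F} {hσ : ∀ a, σ (σ a) = a} {s : K →+* K} {hs : ∀ a, s (s a) = a}
variable {τ : K →ₗ[F] F} {f : PQ (FP.unit s hs) V} {S : PQ (FP.unit σ hσ) V}

theorem su62_aux (hq : Fintype.card F = 4) (h : ExtH τ f S) (h3 : finrank F K = 3) (h2 : finrank K V = 2) :
    ∃ B : Basis (Fin 3 × Fin 2) F V, (∀ x y, (∀ i, B.repr x i ^ 2 = B.repr x i) → (∀ i, B.repr y i ^ 2 = B.repr y i) →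
      σ (S.B x y) = S.B x y ∧ S.B x x = 0) ∧ ∀ g ∈ S.isom, LinearEquiv.det g = 1 → KSemi K g → ∃ c : F, c ≠ 0 ∧
      ∀ x, (∀ i, B.repr x i ^ 2 = B.repr x i) → ∀ i, B.repr (c • g x) i ^ 2 = B.repr (c • g x) i := by
  have : Finite K := Module.finite_of_finite F
  have := Fintype.ofFinite K
  have h2F := two_eq_zero_of_card_four hq
  have h2K : (2 : K) = 0 := by rw [← map_ofNat (algebraMap F K), h2F, map_zero]
  have hK : Fintype.card K = 8 ^ 2 := by rw [Module.card_eq_pow_finrank (K := F), hq, h3]; norm_num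
  have s8 : ∀ k, s k = k ^ 8 := fun k => congrArg (fun t : K ≃+* K => t k) (Asch.involution_unique
    (s := RingEquiv.ofBijective s (Function.Involutive.bijective hs)) (t := frobQ hK) hs (pow_q_pow_q hK) h.neK
    (exists_pow_q_ne hK))
  obtain ⟨b, hb1, hb2⟩ := singer_aux hq h3
  obtain ⟨u, -, w, -, hu, hw, huw⟩ := exists_hyp_on h.neK (f.nondegOn_top.2 h.nd) (by simp [h2])
  have hwu : f.B w u = 1 := by rw [← Bs, huw, map_one]
  obtain ⟨e, he⟩ := exists_basis_of_gram f ![u, w] ![w, u] (fun i j hij => by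
    fin_cases i <;> fin_cases j <;> simp_all) (fun i => by fin_cases i <;> simp [huw, hwu]) (by simp [h2])
  have dec : ∀ x, ∃ a c : K, x = a • u + c • w := fun x => ⟨e.repr x 0, e.repr x 1, by
    simpa [Fin.sum_univ_two, he] using (e.sum_repr x).symm⟩
  have real : ∀ x, (∀ i, (b.smulTower e).repr x i ^ 2 = (b.smulTower e).repr x i) ↔
      ∃ a c : K, s a = a ∧ s c = c ∧ x = a • u + c • w := fun x => by
    simp only [Basis.smulTower_repr, s8]
    rw [Prod.forall, forall_comm, Fin.forall_fin_two]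
    simp only [← hb1]
    refine ⟨fun h => ⟨_, _, h.1, h.2, by simpa [Fin.sum_univ_two, he] using (e.sum_repr x).symm⟩, ?_⟩
    rintro ⟨a, c, h1, h2, rfl⟩
    rw [show u = e 0 from (he 0).symm, show w = e 1 from (he 1).symm]
    simp [h1, h2]
  refine ⟨b.smulTower e, ?_, fun g hg hd hk => ?_⟩ <;> simp only [real]
  · rintro _ _ ⟨a, c, h1, h2, rfl⟩ ⟨a', c', h3, h4, rfl⟩
    refine ⟨?_, ?_⟩
    · rw [h.B, ← h.τs]
      simp [hu, hw, huw, hwu, h1, h2, h3, h4]
    · rw [h.B, ← map_zero τ]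
      congr 1
      simp [hu, hw, huw, hwu, h1, h2]
      linear_combination a * c * h2K
  choose α hα using hk
  have u0 : u ≠ 0 := by rintro rfl; simp at huw
  have gu0 : g u ≠ 0 := by simpa using u0
  have αs : Function.Surjective α := Finite.surjective_of_injective fun k l e =>
    smul_left_injective K u0 (g.injective (by simp only [hα, e]))
  have αr : ∀ k, s k = k → s (α k) = α k := fun k hk => smul_left_injective K gu0 (by
    rw [s8] at hk
    simp only [s8]
    rw [← hα k]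
    conv_rhs => rw [← hk]
    simp only [pow_succ, pow_zero, one_mul, mul_smul, hα])
  have key : ∀ x y k, τ (α k * f.B (g x) (g y)) = τ (k * f.B x y) := fun x y k => by
    rw [← f.B_smul_left, ← f.B_smul_left, ← h.B, ← h.B, ← hα, PQ.B_isom hg]
  have e1 : f.B (g u) (g u) = 0 := h.ext fun k => by obtain ⟨k, rfl⟩ := αs k; simp [key, hu]
  have e2 : f.B (g w) (g w) = 0 := h.ext fun k => by obtain ⟨k, rfl⟩ := αs k; simp [key, hw]
  have e3 : f.B (g w) (g u) = f.B (g u) (g w) := h.ext fun k => by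
    obtain ⟨k, rfl⟩ := αs k; simp [key, huw, hwu]
  have e4 : f.B (g u) (g w) ≠ 0 := fun e => h.tau (LinearMap.ext fun k => by simpa [e, huw] using (key u w k).symm)
  have e5 : s (f.B (g u) (g w)) = f.B (g u) (g w) := (Bs _ _ _).trans e3
  obtain ⟨a, c, ha⟩ := dec (g u)
  obtain ⟨a', c', ha'⟩ := dec (g w)
  obtain ⟨μ, hμ⟩ : ∃ μ, μ = f.B (g u) (g w) := ⟨_, rfl⟩
  rw [← hμ] at e3 e4 e5
  simp only [ha, ha', PQ.B_add_left, PQ.B_add_right, PQ.B_smul_left, Bsr, hu, hw, huw, hwu] at e1 e2 e3 hμ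
  have hδ : (a * c' - a' * c) * s (a * c' - a' * c) = μ * μ := by
    rw [map_sub, map_mul, map_mul]
    linear_combination (s a' * c + s c' * a) * e3 - μ * hμ - (s a' * c' + s c' * a') * e1
  have δ0 : a * c' - a' * c ≠ 0 := left_ne_zero_of_mul (hδ ▸ mul_ne_zero e4 e4)
  obtain ⟨l, l9, hl⟩ : ∃ l : K, l ^ 9 = 1 ∧ (a * c' - a' * c) * s l = μ * l := by
    have h9 : ((a * c' - a' * c) / μ) ^ 9 = 1 := by
      rw [pow_succ', ← s8, map_div₀, e5]; field_simp; linear_combination hδ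
    refine ⟨((a * c' - a' * c) / μ) ^ 5, by rw [pow_right_comm, h9, one_pow], ?_⟩
    rw [s8, ← mul_div_cancel₀ (a * c' - a' * c) e4, mul_div_cancel_left₀ _ e4]
    generalize (a * c' - a' * c) / μ = ε at h9
    linear_combination μ * ε ^ 5 * (ε ^ 27 + ε ^ 18 + ε ^ 9 + 1) * h9
  have l0 : l ≠ 0 := by rintro rfl; simp at l9
  have hr : ∀ x, (a * c' - a' * c) * s x = μ * x → s (l⁻¹ * x) = l⁻¹ * x := fun x hx => by
    have : s l ≠ 0 := by simpa using l0
    rw [map_mul, map_inv₀]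
    field_simp
    apply mul_left_cancel₀ δ0
    linear_combination l * hx - x * hl
  have r1 := hr a (by linear_combination a * e3 - a' * e1)
  have r2 := hr c (by linear_combination c' * e1 - c * e3 - μ * c * h2K)
  have r3 := hr a' (by linear_combination a * e2 + a' * hμ - μ * a' * h2K)
  have r4 := hr c' (by linear_combination -c' * hμ - c * e2)
  have hg0 : ∀ x, (∃ a c : K, s a = a ∧ s c = c ∧ x = a • u + c • w) →
      ∃ a c : K, s a = a ∧ s c = c ∧ l⁻¹ • g x = a • u + c • w := by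
    rintro _ ⟨x, y, h1, h2, rfl⟩
    refine ⟨α x * (l⁻¹ * a) + α y * (l⁻¹ * a'), α x * (l⁻¹ * c) + α y * (l⁻¹ * c'),
      by rw [map_add, map_mul _ (α x), map_mul _ (α y), αr x h1, αr y h2, r1, r3],
      by rw [map_add, map_mul _ (α x), map_mul _ (α y), αr x h1, αr y h2, r2, r4], ?_⟩
    rw [map_add, hα, hα, ha, ha']
    module
  let g0 : V →ₗ[F] V := (l⁻¹ • (LinearMap.id : V →ₗ[K] V)).restrictScalars F ∘ₗ (g : V →ₗ[F] V)
  have d1 : LinearMap.det g0 = Algebra.norm F (l⁻¹ ^ 2) := by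
    rw [LinearMap.det_comp, LinearMap.det_restrictScalars, LinearMap.det_smul, h2, ← LinearEquiv.coe_det, hd]; simp
  have d2 : LinearMap.det g0 ∈ subTwo h2F := by
    rw [← LinearMap.det_toMatrix (b.smulTower e), Matrix.det_apply']
    refine sum_mem fun s _ => mul_mem (intCast_mem _ _) (prod_mem fun i _ => ?_)
    rw [LinearMap.toMatrix_apply]
    refine (real _).2 (hg0 _ ((real _).1 fun j => ?_)) _
    rw [Basis.repr_self, Finsupp.single_apply]; split_ifs <;> simp
  have d3 : Algebra.norm F (l⁻¹ ^ 2) = 1 := by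
    rw [d1] at d2
    exact mul_left_cancel₀ (Algebra.norm_ne_zero_iff.2 (pow_ne_zero 2 (inv_ne_zero l0))) (by
      rw [← sq, mul_one]; exact d2)
  have d4 := FiniteField.algebraMap_norm_eq_pow (K := F) (K' := K) (x := l⁻¹ ^ 2)
  rw [d3, map_one, Nat.card_eq_fintype_card, Nat.card_eq_fintype_card, hK, hq] at d4
  obtain ⟨z, hz⟩ := hb2 l⁻¹ (by
    rw [← inv_inv l, inv_pow, inv_eq_one] at l9
    generalize l⁻¹ = m at *
    norm_num at d4
    linear_combination m ^ 4 * d4 + m * (m ^ 36 + m ^ 27 + m ^ 18 + m ^ 9 + 1) * l9)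
  refine ⟨z, fun e => inv_ne_zero l0 (by rw [hz, e, map_zero]), fun x hx => ?_⟩
  simpa only [hz, algebraMap_smul] using hg0 x hx

end

variable {F : Type*} [Field F] [Fintype F]

theorem su62_ext (hq : Fintype.card F = 2 ^ 2) {A : Subalgebra F (Matrix (Fin 6) (Fin 6) F)}
    (hA : Geo.IsFieldSubalgebra 3 A) (hac : Geo.IsAdjointClosedFor (hermForm 6 F 2) A)
    (hH : Geo.IsMaximalIn (SUG 6 F 2) (Geo.subalgebraNormalizer A ⊓ SUG 6 F 2)) :
    ∃ (F₀ : Subfield F) (P : GL (Fin 6) F) (ζ : F), Fintype.card F = Nat.card F₀ ^ 2 ∧ ζ ≠ 0 ∧ ζ + ζ ^ 2 = 0 ∧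
      Geo.IsFormRationalStructure (hermForm 6 F 2) F₀ ζ P ∧
      (∀ u : Fin 6 → F, (∀ i, u i ∈ F₀) → hermForm 6 F 2 (P.val *ᵥ u) (P.val *ᵥ u) = 0) ∧
      Geo.subalgebraNormalizer A ⊓ SUG 6 F 2 = Geo.subfieldSubgroup F₀ P ⊓ SUG 6 F 2 := by
  let _ := Asch.fieldOf A hA.comm hA.inv
  let inst : Module A (Fin 6 → F) :=
    Module.compHom _ ((Matrix.toLinAlgEquiv' (R := F)).toRingHom.comp A.val.toRingHom)
  have : @IsScalarTower F A (Fin 6 → F) Algebra.toSMul inst.toSMul _ :=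
    ⟨fun c k v => Matrix.smul_mulVec c k.1 v⟩
  have : FiniteDimensional A (Fin 6 → F) := Module.Finite.right F A _
  have e := Module.finrank_mul_finrank F A (Fin 6 → F)
  rw [finrank_fin_fun, hA.finrank_eq] at e
  obtain ⟨s, hs, τ, f, h⟩ := exists_extH (K := A) (std_ne hq) (std_nondeg hq 6) (hA.finrank_eq ▸ Nat.prime_three)
    hA.finrank_eq.ge (by omega) (fun k => by obtain ⟨k', a1, a2⟩ := hac k k.2; exact ⟨⟨k', a1⟩, a2⟩)
  obtain ⟨B, h1, h2⟩ := su62_aux hq h hA.finrank_eq (by omega)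
  have h2F := two_eq_zero_of_card_four (F := F) hq
  let B' : Basis (Fin 6) F (Fin 6 → F) := B.reindex finProdFinEquiv
  have hr : ∀ x : Fin 6 → F, (∀ i, x i ∈ subTwo h2F) → ∀ i, B.repr (B'.equivFun.symm x) i ^ 2 =
      B.repr (B'.equivFun.symm x) i := fun x hx i => by
    have := hx (finProdFinEquiv i)
    rwa [← B'.equivFun.apply_symm_apply x, Basis.equivFun_apply, Basis.repr_reindex_apply,
      Equiv.symm_apply_apply] at this
  have hc : Fintype.card F = Nat.card (subTwo h2F) ^ 2 := by rw [card_subTwo, hq]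
  refine ⟨subTwo h2F, toLE.symm B'.equivFun.symm, 1, hc, one_ne_zero, by linear_combination h2F,
    fun x y hx hy => ?_, fun x hx => ?_, eq_inf_of_max hH (fun g hg => ?_)
      (SU_not_le_subfieldSubgroup hq (by omega) (ne_top_of_card_pow Nat.prime_two hc) _)⟩
  · rw [one_mul, toLE_symm_mulVec, toLE_symm_mulVec]
    exact (h1 _ _ (hr x hx) (hr y hy)).1
  · rw [toLE_symm_mulVec]
    exact (h1 _ _ (hr x hx) (hr x hx)).2
  · obtain ⟨c, c0, hc⟩ := h2 (toLE g) (((std hq 6).unit_mem_isom _).2 hg.2.1) ((mem_SL_iff g).1 hg.2.2)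
      ((mem_subalgebraNormalizer_iff' A g).1 hg.1)
    refine (mem_subfieldSubgroup_iff _ _ _).2 ⟨c, c0, fun x hx i => ?_⟩
    have : theta (Equiv.refl _) (toLE.symm B'.equivFun.symm) g x = B'.equivFun (toLE g (B'.equivFun.symm x)) := by
      rw [theta_apply, LinearEquiv.symm_apply_eq, psi_apply, psi_apply, toLE_symm_mulVec, toLE_symm_mulVec]
      exact (B'.equivFun.symm_apply_apply _).symm
    rw [this, ← map_smul, Basis.equivFun_apply, Basis.repr_reindex_apply]
    exact hc _ (hr x hx) (finProdFinEquiv.symm i)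

/-- an invariant set of vectors -/
abbrev C64 (v : Fin 6 → Asch.F4) : Prop := wt v = 2 ∨ ∏ i, v i = 1

/-- a transvection -/
def T64 (k : ℕ) : Matrix (Fin 6) (Fin 6) Asch.F4 := 1 + Matrix.of fun i j => if i.1 < k ∧ j.1 < k then 1 else 0

theorem c64_aux : ∀ a b c d e f : Asch.F4, C64 ![a, b, c, d, e, f] → C64 (T64 6 *ᵥ ![a, b, c, d, e, f]) := by
  decide +kernel

theorem det_of_sq {A : Matrix (Fin 6) (Fin 6) Asch.F4} (h : A * A = 1) : A.det = 1 :=
  (by decide : ∀ x : Asch.F4, x * x = 1 → x = 1) _ (by rw [← Matrix.det_mul, h, Matrix.det_one])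

theorem su62_frame (hq : Fintype.card F = 2 ^ 2) {D : Fin 6 → Submodule F (Fin 6 → F)}
    (hD : Geo.IsNondegenerateMDecomposition (hermForm 6 F 2) 1 D) :
    ¬ Geo.IsMaximalIn (SUG 6 F 2) (Geo.decompositionStabilizer D ⊓ SUG 6 F 2) := by
  intro hH
  obtain ⟨φ, hφ⟩ := F4_equiv hq
  obtain ⟨M, hG, hM⟩ := frame_model hq φ hφ hD
  refine M.not_max hH (fun u _ => C64 u) (fun g hg u _ h => ?_) ?_ ?_
  · obtain ⟨σ, c, a1, a2, a3⟩ := hM g hg
    refine h.imp (fun h => by rwa [wt_mono (σ₀ := fun x => x * x) a1 (a3 u)]) fun h => ?_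
    rw [prod_mono (a3 u), h, mul_one]
    exact (by decide : ∀ x : Asch.F4, x * x = 1 → x = 1) _ (sq_of_sign a2)
  · obtain ⟨g, hg, e⟩ := hG.exists_su (T64 6) (T64 6) (by decide +kernel) (det_of_sq (by decide +kernel))
    refine ⟨g, hg, e ▸ fun u _ hu => ?_, fun h => ?_⟩
    · have : u = ![u 0, u 1, u 2, u 3, u 4, u 5] := by ext i; fin_cases i <;> rfl
      rw [this] at hu ⊢
      exact c64_aux _ _ _ _ _ _ hu
    · obtain ⟨σ, c, -, -, a3⟩ := hM g h
      have := mono_col a3 0 1 2 (by decide)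
      rw [e] at this
      revert this; decide +kernel
  · obtain ⟨g, hg, e⟩ := hG.exists_su (T64 4) (T64 4) (by decide +kernel) (det_of_sq (by decide +kernel))
    exact ⟨g, hg, e ▸ fun h => absurd (h ![1, 0, 0, 0, 1, 0] 0 (by decide +kernel)) (by decide +kernel)⟩

end Cfsg.Agent.H2.Cases
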