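import Cfsg.Agent.Asch.Uni
import Cfsg.Agent.H2.SpMax

set_option autoImplicit false
set_option linter.unusedSectionVars false

/-! Maximal subgroups of the special unitary groups: the list of types. -/

namespace Cfsg.Agent.H2.Cases

open Module Cfsg.Agent.Form Cfsg.Agent.H7
open scoped Matrix MatrixGroups

variable {F : Type*} [Field F] [Fintype F]

/-- the special unitary group inside the general linear group -/
abbrev SUG (n : ℕ) (F : Type*) [Field F] (q : ℕ) : Subgroup (GL (Fin n) F) :=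
  GU n F q ⊓ Geo.specialLinear (Fin n) F

theorem le_GU_of_exponent {q n r : ℕ} (hq : Fintype.card F = q ^ 2) (hn : 0 < n) {R : Subgroup (GL (Fin n) F)}
    (hR : R ≤ Geo.similarityGroup (hermForm n F q)) (hr : Monoid.exponent R = r) (hc : r.Coprime (q - 1)) :
    R ≤ GU n F q := by
  intro g hg
  obtain ⟨c, hc'⟩ := hR hg
  have hq2 := two_le_of_card_sq hq
  let u : Fin n → F := Pi.single ⟨0, hn⟩ 1
  have hu : hermForm n F q u u = 1 := by
    simp only [hermForm, u]
    rw [Finset.sum_eq_single ⟨0, hn⟩ (fun b _ hb => by simp [hb]) (by simp)]; simp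
  have h1 : ∀ k : ℕ, hermForm n F q ((g ^ k).val *ᵥ u) ((g ^ k).val *ᵥ u) = c ^ k := fun k => by
    induction k with
    | zero => simpa using hu
    | succ k ih => rw [pow_succ', Units.val_mul, ← Matrix.mulVec_mulVec, hc', ih, pow_succ']
  have h2 : g ^ r = 1 := hr ▸ congrArg Subtype.val (Monoid.pow_exponent_eq_one (⟨g, hg⟩ : R))
  have h3 : c ^ r = 1 := Units.ext (by
    have := h1 r
    rw [h2, Units.val_one, Matrix.one_mulVec, hu] at this
    simpa using this.symm)
  have h4 : c ^ (q - 1) = 1 := by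
    have := (isUnitaryFormPow_hermForm hq n).herm (g.val *ᵥ u) (g.val *ᵥ u)
    rw [hc', hu, mul_one] at this
    have h5 : c ^ q = c := Units.ext (by simpa using this.symm)
    rw [← mul_left_inj c, ← pow_succ, Nat.sub_add_cancel (by omega), h5, one_mul]
  have h5 : c = 1 := by
    have := (pow_gcd_eq_one (a := c)).2 ⟨h3, h4⟩
    rwa [hc, pow_one] at this
  intro x y
  simpa [h5] using hc' x y

/-- The possible shapes of a maximal subgroup of the special unitary group. -/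
inductive SUMax (n q : ℕ) (H : Subgroup (GL (Fin n) F)) : Prop
  | c1s (W : Submodule F (Fin n → F)) : W ≠ ⊥ → Geo.IsTotallySingularFor (hermForm n F q) W →
      H = Geo.subspaceStabilizer W ⊓ SUG n F q → SUMax n q H
  | c1n (W : Submodule F (Fin n → F)) : W ≠ ⊥ → Geo.IsNondegenerateOn (hermForm n F q) W →
      2 * finrank F W < n → H = Geo.subspaceStabilizer W ⊓ SUG n F q → SUMax n q H
  | c2n (t k : ℕ) (D : Fin t → Submodule F (Fin n → F)) :
      Geo.IsNondegenerateMDecomposition (hermForm n F q) k D → t * k = n → 2 ≤ t → (k = 2 → 3 ≤ q) →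
      H = Geo.decompositionStabilizer D ⊓ SUG n F q → SUMax n q H
  | c2s (k : ℕ) (D : Fin 2 → Submodule F (Fin n → F)) : 2 * k = n → Geo.IsMDecomposition k D →
      (∀ i, Geo.IsTotallySingularFor (hermForm n F q) (D i)) → H = Geo.decompositionStabilizer D ⊓ SUG n F q →
      SUMax n q H
  | c3 (r : ℕ) (K : Subalgebra F (Matrix (Fin n) (Fin n) F)) : r.Prime → Odd r → r ∣ n →
      Geo.IsFieldSubalgebra r K → Geo.IsAdjointClosedFor (hermForm n F q) K →
      H = Geo.subalgebraNormalizer K ⊓ SUG n F q → SUMax n q H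
  | c4 (n₁ n₂ : ℕ) (e : Fin n ≃ Fin n₁ × Fin n₂) (P : GL (Fin n) F) (f₁ : (Fin n₁ → F) → (Fin n₁ → F) → F)
      (f₂ : (Fin n₂ → F) → (Fin n₂ → F) → F) : 2 ≤ n₁ → n₁ < n₂ → n₁ * n₂ = n → (n₁ = 2 → 3 ≤ q) →
      Geo.IsUnitaryFormPow q f₁ → Geo.IsUnitaryFormPow q f₂ →
      Geo.IsTensorFormStructure (fun x : F => x ^ q) (hermForm n F q) f₁ f₂ e P →
      H = Geo.tensorProductSubgroup n₁ n₂ e P ⊓ SUG n F q → SUMax n q H
  | c5u (F₀ : Subfield F) (r : ℕ) (P : GL (Fin n) F) : r.Prime → Odd r → Fintype.card F = Nat.card F₀ ^ r →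
      Geo.IsFormRationalStructure (hermForm n F q) F₀ 1 P → H = Geo.subfieldSubgroup F₀ P ⊓ SUG n F q →
      SUMax n q H
  | c5o (F₀ : Subfield F) (P : GL (Fin n) F) : Odd q → Fintype.card F = Nat.card F₀ ^ 2 →
      Geo.IsFormRationalStructure (hermForm n F q) F₀ 1 P → H = Geo.subfieldSubgroup F₀ P ⊓ SUG n F q →
      SUMax n q H
  | c5s (F₀ : Subfield F) (P : GL (Fin n) F) (ζ : F) : Even n → Fintype.card F = Nat.card F₀ ^ 2 → ζ ≠ 0 →
      ζ + ζ ^ q = 0 → Geo.IsFormRationalStructure (hermForm n F q) F₀ ζ P →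
      (∀ u : Fin n → F, (∀ i, u i ∈ F₀) → hermForm n F q (P.val *ᵥ u) (P.val *ᵥ u) = 0) →
      H = Geo.subfieldSubgroup F₀ P ⊓ SUG n F q → SUMax n q H
  | c6o (r : ℕ) (R : Subgroup (GL (Fin n) F)) (p j a k : ℕ) : r.Prime → Odd r → p.Prime → CharP F p → q = p ^ j →
      p % r = a → a < r → 0 < j → 2 * j < r → a ^ (2 * j) % r = 1 % r →
      (∀ d, 0 < d → d < 2 * j → a ^ d % r ≠ 1 % r) → Geo.IsSymplecticTypeGroup r R →
      Geo.ActsAbsolutelyIrreducibly (Geo.matrixSet R) → R ≤ Geo.similarityGroup (hermForm n F q) →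
      R ≤ GU n F q → Nat.card R = r ^ (1 + 2 * k) → Nat.card (Subgroup.center R) = r → r ^ k = n →
      H = Geo.subgroupNormalizer R ⊓ SUG n F q → SUMax n q H
  | c6e (R : Subgroup (GL (Fin n) F)) (k : ℕ) : q.Prime → q % 4 = 3 → Geo.IsSymplecticTypeGroup 2 R →
      Geo.ActsAbsolutelyIrreducibly (Geo.matrixSet R) → R ≤ Geo.similarityGroup (hermForm n F q) →
      Nat.card R = 2 ^ (2 + 2 * k) → Nat.card (Subgroup.center R) = 4 → 2 ^ k = n →
      H = Geo.subgroupNormalizer R ⊓ SUG n F q → SUMax n q H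
  | c7 (k t : ℕ) (e : Fin n ≃ (Fin t → Fin k)) (P : GL (Fin n) F) (f₁ : (Fin k → F) → (Fin k → F) → F) :
      3 ≤ k → 2 ≤ t → k ^ t = n → (k = 3 → 3 ≤ q) → Geo.IsUnitaryFormPow q f₁ →
      Geo.IsTensorPowerFormStructure (fun x : F => x ^ q) (hermForm n F q) f₁ e P →
      H = Geo.tensorWreathSubgroup k t e P ⊓ SUG n F q → SUMax n q H
  | res : Geo.InUnitaryResidualClass H → SUMax n q H

theorem suMax {n q : ℕ} (hq : Fintype.card F = q ^ 2) (hn : 3 ≤ n) (h32 : ¬ (n = 3 ∧ q = 2))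
    {H : Subgroup (GL (Fin n) F)} (hH : Geo.IsMaximalIn (SUG n F q) H) : SUMax n q H := by
  have hf := isUnitaryForm_hermForm hq n
  have hH' : H ≤ GU n F q := hH.1.le.trans inf_le_left
  have hI : H ≤ Asch.IsoB (P := Asch.UP hq) (unitPQ hf) := hH'
  have : Nonempty (Fin n) := ⟨⟨0, by omega⟩⟩
  have hq2 := two_le_of_card_sq hq
  have c2n : ∀ (t k : ℕ) (D : Fin t → Submodule F (Fin n → F)),
      Geo.IsNondegenerateMDecomposition (hermForm n F q) k D → H ≤ Geo.decompositionStabilizer D →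
      SUMax n q H := by
    have aux : ∀ (t k : ℕ) (D : Fin t → Submodule F (Fin n → F)), (k = 2 → 3 ≤ q) →
        Geo.IsNondegenerateMDecomposition (hermForm n F q) k D → H ≤ Geo.decompositionStabilizer D →
        SUMax n q H := fun t k D h0 h1 h =>
      .c2n t k D h1 (by simpa using Asch.mul_eq_card_of_decomp h1.decomp) h1.decomp.two_le h0
        (eq_inf_of_max hH h (SU_not_le_decompositionStabilizer hq hn h32 h1.decomp))
    intro t k D h1 h
    by_cases a : k = 2 ∧ q = 2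
    · obtain ⟨rfl, rfl⟩ := a
      obtain ⟨D', b1, b2, -⟩ := unit_planes_card_four hq hf h1
      exact aux _ 1 D' (by omega) b1 ((le_inf h hH').trans b2)
    exact aux t k D (by omega) h1 h
  rcases Asch.uniCase (hq := hq) (unitPQ_nondeg hf) (by simp; omega) hI with ⟨W, h1, h2, h⟩ |
    ⟨W, h1, h2, h3, h⟩ | ⟨t, k, D, h1, h⟩ | ⟨k, D, h1, h2, h⟩ | ⟨r, K, h1, h2, h3, h4, h⟩ |
    ⟨n₁, n₂, e, P, f₁, f₂, h1, h2, h3, h4, h5, h⟩ | ⟨F₀, r, P, h1, h2, h3, h4, h⟩ | ⟨F₀, P, h1, h2, h3, h⟩ |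
    ⟨F₀, P, ζ, h1, h2, h3, h4, h5, h6, h⟩ | ⟨r, R, p, e, k, h1, h2, h3, h4, h5, h6, h7, h⟩ |
    ⟨k, t, e, P, f₁, h1, h2, h3, h4, h5, h⟩ | h
  · exact .c1s W h1 h2 (eq_inf_of_max hH h (SU_not_le_subspaceStabilizer hq hn h1
      (ne_top_of_ts (unitPQ_nondeg hf) h2)))
  · refine .c1n W h1 h2 (by simpa using h3) (eq_inf_of_max hH h (SU_not_le_subspaceStabilizer hq hn h1 ?_))
    rintro rfl
    simp at h3; omega
  · exact c2n t k D h1 h
  · exact .c2s k D (by simpa using Asch.mul_eq_card_of_decomp h1) h1 h2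
      (eq_inf_of_max hH h (SU_not_le_decompositionStabilizer hq hn h32 h1))
  · exact .c3 r K h1 h2 (by simpa using Asch.dvd_card_of_field h3) h3 h4
      (eq_inf_of_max hH h (SU_not_le_subalgebraNormalizer hq hn h3 h1.one_lt))
  · by_cases a : n₁ = 2 ∧ q = 2
    · obtain ⟨rfl, rfl⟩ := a
      obtain ⟨D, b1, b2, -⟩ := unit_tensor_card_four hq hf (by omega) h3 h4 h5
      exact c2n 2 _ D b1 ((le_inf h hH').trans b2)
    exact .c4 n₁ n₂ e P f₁ f₂ h1 h2 (by simpa using (Fintype.card_congr e).symm) (by omega) h3 h4 h5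
      (eq_inf_of_max hH h (SU_not_le_tensorProductSubgroup hq hn h1 (by omega) e P))
  · exact .c5u F₀ r P h1 h2 h3 h4
      (eq_inf_of_max hH h (SU_not_le_subfieldSubgroup hq hn (ne_top_of_card_pow h1 h3) P))
  · exact .c5o F₀ P h1 h2 h3
      (eq_inf_of_max hH h (SU_not_le_subfieldSubgroup hq hn (ne_top_of_card_pow Nat.prime_two h2) P))
  · exact .c5s F₀ P ζ (by simpa using h1) h2 h3 h4 h5 h6
      (eq_inf_of_max hH h (SU_not_le_subfieldSubgroup hq hn (ne_top_of_card_pow Nat.prime_two h2) P))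
  · have hE := eq_inf_of_max hH h (SU_not_le_subgroupNormalizer hq hn h32 h1.prime h1.pGroup h2)
    obtain ⟨m1, m2, m3⟩ := minimalField_mod h5
    obtain ⟨hp, hc, hce, -, m4⟩ := h5
    obtain ⟨p', j, hp', hc', hj, rfl⟩ := exists_prime_pow_of_card_sq hq
    obtain rfl : p' = p := CharP.eq F hc' hc
    obtain rfl : e = 2 * j := by
      rw [hq, ← pow_mul, mul_comm] at hce
      exact (Nat.pow_right_injective hp.two_le hce).symm
    rw [Fintype.card_fin] at h7
    rcases h6 with ⟨a1, a2, -, a3⟩ | ⟨rfl, a1, a2, a3⟩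
    · rw [a2] at m2 m3 m4
      have hrp := h1.prime
      refine .c6o r R p' j _ k hrp a1 hp hc rfl rfl (Nat.mod_lt _ hrp.pos) hj ?_ m2 m3 h1 h2 h3
        (le_GU_of_exponent hq (by omega) h3 (r := r) ?_ ?_) a3 a2 h7.symm hE
      · by_contra hlt
        have h8 := hrp.two_le
        obtain ⟨s, hs⟩ := a1
        refine m3 (r - 1) (by omega) (by omega) ?_
        rw [← Nat.pow_mod, ← Nat.totient_prime hrp]
        exact Nat.ModEq.pow_totient ((Nat.coprime_primes hp hrp).2 h4.symm)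
      · rw [h1.exponent_eq, (Nat.coprime_two_left.2 a1).gcd_eq_one, mul_one]
      · exact (Nat.Prime.coprime_iff_not_dvd hrp).2 (m4 j hj (by omega))
    · obtain rfl : j = 1 := by omega
      rw [a2] at m2 m3
      have h8 := m3 1 one_pos (by omega)
      have h9 : p' % 4 < 4 := Nat.mod_lt _ (by norm_num)
      refine .c6e R k (by simpa using hp) ?_ h1 h2 h3 a3 a2 h7.symm hE
      rw [pow_one]
      generalize p' % 4 = a at *
      interval_cases a <;> simp_all
  · exact .c7 k t e P f₁ h1 h2 (by simpa using (Fintype.card_congr e).symm) (by omega) h4 h5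
      (eq_inf_of_max hH h (SU_not_le_tensorWreathSubgroup hq hn (by omega) h2 e P))
  · exact .res h

end Cfsg.Agent.H2.Cases
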