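import Cfsg.Agent.H2.Chain

set_option autoImplicit false
set_option linter.unusedSectionVars false

/-! Normalisers of field extension subalgebras in small unitary groups. -/

namespace Cfsg.Agent.H2.Cases

open Module Cfsg.Agent.Form Cfsg.Agent.H7 Mdl
open scoped Matrix MatrixGroups Pointwise

theorem conj_mem_zpowers {G : Type*} [Group G] [Finite G] {l : ℕ} [hl : Fact l.Prime] (h : ¬ l ^ 2 ∣ Nat.card G)
    {x y : G} (hx : orderOf x = l) (hy : orderOf y = l) : ∃ k : G, k * y * k⁻¹ ∈ Subgroup.zpowers x := by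
  have h1 : ∀ x : G, orderOf x = l → ∃ P : Sylow l G, Subgroup.zpowers x = P := fun x hx => by
    have hp : IsPGroup l (Subgroup.zpowers x) := IsPGroup.of_card (n := 1) (by rw [Nat.card_zpowers, hx, pow_one])
    obtain ⟨P, hP⟩ := hp.exists_le_sylow
    refine ⟨P, Subgroup.eq_of_le_of_card_ge hP ?_⟩
    obtain ⟨m, hm⟩ := IsPGroup.iff_card.1 P.isPGroup'
    have h2 : m < 2 := not_le.1 fun h2 => h ((pow_dvd_pow l h2).trans (hm ▸ P.1.card_subgroup_dvd_card))
    rw [Nat.card_zpowers, hx, hm]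
    interval_cases m
    · simpa using hl.out.one_le
    · simp
  obtain ⟨P, hP⟩ := h1 x hx
  obtain ⟨Q, hQ⟩ := h1 y hy
  obtain ⟨k, rfl⟩ := MulAction.exists_smul_eq G Q P
  refine ⟨k, hP ▸ ?_⟩
  exact Subgroup.smul_mem_pointwise_smul y (MulAut.conj k) Q (hQ ▸ Subgroup.mem_zpowers y)

variable {F : Type*} [Field F] [Fintype F] {n q : ℕ}

theorem exists_singer [NeZero n] (hq : Fintype.card F = q ^ 2) (hp : q.Prime) {l r : ℕ} [hl : Fact l.Prime]
    {K : Subalgebra F (Matrix (Fin n) (Fin n) F)} (hK : Geo.IsFieldSubalgebra r K)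
    (ha : Geo.IsAdjointClosedFor (hermForm n F q) K) (h1 : l ∣ (q ^ 2) ^ r - 1)
    (h2 : ∀ a < 2 * r, 0 < a → ¬ l ∣ q ^ a - 1) : ∃ x ∈ Asch.IsoB (US hq n), orderOf x = l ∧
      ∀ g ∈ Geo.subalgebraNormalizer K, ∃ i < l, g * x = x ^ i * g := by
  have hS := US_nondeg hq n
  have ha' : Asch.AdjC (US hq n) (K : Set (Matrix (Fin n) (Fin n) F)) := fun k hk => by
    obtain ⟨k', a, b⟩ := ha k hk
    rwa [Asch.adj_unique hS b]
  letI := Asch.fieldOf K hK.comm hK.inv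
  have hc : Nat.card K = q ^ (2 * r) := by
    rw [Module.natCard_eq_pow_finrank (K := F), hK.finrank_eq, Nat.card_eq_fintype_card, hq, pow_mul]
  obtain ⟨y, hy⟩ := exists_prime_orderOf_dvd_card' (G := Kˣ) l (by rwa [Nat.card_units, hc, pow_mul])
  let τ := Asch.adjEquiv hS hK.comm ha'
  have hτ : ∀ k, τ (τ k) = k := fun k => Subtype.ext (Asch.adj_adj hS k)
  have hyl : (y : K) ^ l = 1 := by rw [← Units.val_pow_eq_pow_val, ← hy, pow_orderOf_eq_one, Units.val_one]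
  have hz : (y : K) * τ y = 1 := by
    by_contra hz
    let K₀ := RingHom.eqLocusField (τ : K →+* K) (RingHom.id K)
    let z : K₀ := ⟨y * τ y, by change τ _ = _; rw [map_mul, hτ, mul_comm]; rfl⟩
    have h3 : z ^ l = 1 := Subtype.ext (by
      change ((y : K) * τ y) ^ l = 1
      rw [mul_pow, ← map_pow, hyl, map_one, mul_one])
    have h4 := orderOf_eq_prime h3 fun h => hz (congrArg Subtype.val h)
    have h5 : z ≠ 0 := by rintro h; rw [h, zero_pow hl.out.ne_zero] at h3; exact zero_ne_one h3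
    obtain ⟨a, h6, h7⟩ := (Nat.dvd_prime_pow hp).1 (hc ▸ K₀.toAddSubgroup.card_addSubgroup_dvd_card)
    replace h7 : Nat.card K₀ = q ^ a := h7
    refine h2 a (lt_of_le_of_ne h6 ?_) (Nat.pos_of_ne_zero ?_) ?_
    · rintro rfl
      have h8 : K₀.toAddSubgroup = ⊤ := AddSubgroup.eq_top_of_card_eq _ (h7.trans hc.symm)
      obtain ⟨c, h9⟩ := exists_pow_q_ne hq
      have : Asch.adj (US hq n) (c • 1) = c • 1 :=
        congrArg Subtype.val (h8.ge (AddSubgroup.mem_top (⟨c • 1, K.smul_mem K.one_mem c⟩ : K)))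
      rw [Asch.adj_smul hS, Asch.adj_one hS] at this
      exact h9 (by simpa [Asch.UP_σ] using congrFun (congrFun this 0) 0)
    · rintro rfl
      exact absurd h7 (Finite.one_lt_card (α := K₀)).ne'
    · rw [← h4, ← h7, ← Nat.card_units]
      exact (orderOf_units (y := Units.mk0 z h5)).dvd.trans (orderOf_dvd_natCard _)
  let f : Kˣ →* GL (Fin n) F := Units.map K.val.toMonoidHom
  have hf : Function.Injective f := Units.map_injective Subtype.val_injective
  refine ⟨f y, Asch.mem_IsoB_of_adj hS ?_, by rw [orderOf_injective f hf, hy], fun g hg => ?_⟩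
  · exact (Units.inv_eq_of_mul_eq_one_right (congrArg Subtype.val hz)).symm
  · have hy' : IsPrimitiveRoot (y : K) l := IsPrimitiveRoot.coe_units_iff.2 (hy ▸ IsPrimitiveRoot.orderOf y)
    haveI : NeZero l := ⟨hl.out.ne_zero⟩
    obtain ⟨i, hi, e⟩ := hy'.eq_pow_of_pow_eq_one (ξ := ⟨Asch.cj g y.1.1, (hg _).1 y.1.2⟩) (Subtype.ext (by
      change Asch.cj g y.1.1 ^ l = 1
      rw [← map_pow, show y.1.1 ^ l = 1 from congrArg Subtype.val hyl, map_one]))
    exact ⟨i, hi, Units.ext ((Asch.cj_eq_iff _ _ _).1 (congrArg Subtype.val e).symm)⟩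

/-- the matrix determined by its first column -/
def cyc {K : Type*} [CommRing K] (l : ℕ) (P : ℕ → Matrix (Fin n) (Fin n) K) (i : ℕ) (v : Fin n → K) :
    Matrix (Fin n) (Fin n) K := fun r c => (P (i * c % l) *ᵥ v) r

theorem singer_not_max [NeZero n] (hq : Fintype.card F = q ^ 2) (hp : q.Prime) {l r : ℕ} [hl : Fact l.Prime]
    {K : Subalgebra F (Matrix (Fin n) (Fin n) F)} (hK : Geo.IsFieldSubalgebra r K)
    (ha : Geo.IsAdjointClosedFor (hermForm n F q) K) (h1 : l ∣ (q ^ 2) ^ r - 1)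
    (h2 : ∀ a < 2 * r, 0 < a → ¬ l ∣ q ^ a - 1) (h3 : ¬ l ^ 2 ∣ ∏ i : Fin n, ((q ^ 2) ^ n - (q ^ 2) ^ i.val))
    {E : Type*} [CommRing E] (φ : E ≃+* F) {σ₀ : E → E} (hφ : ∀ x, φ (σ₀ x) = φ x ^ q)
    (B B' G X X' T T' U U' : Matrix (Fin n) (Fin n) E) (P : ℕ → Matrix (Fin n) (Fin n) E) (L : List (Fin n → E))
    (hB : B * B' = 1 ∧ GramM 1 σ₀ B G)
    (hX : (X * X' = 1 ∧ IsoM G σ₀ X) ∧ X ≠ 1 ∧ P 0 = 1 ∧ (∀ k < l, P ((k + 1) % l) = P k * X) ∧
      ∀ c r : Fin n, P (c % l) r 0 = if r = c then 1 else 0)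
    (hT : (SUM G σ₀ T T' ∧ PL L T) ∧ ∀ i < l, T * X ≠ P i * T) (hU : SUM G σ₀ U U' ∧ NPL L U)
    (hE : ∀ v, fm G σ₀ v v = G 0 0 → ∀ i < l, (∀ c : Fin n, c ≠ 0 →
      fm (G * (P (i * c % l)).map σ₀) σ₀ v v = G 0 c) → (cyc l P i v).det = 1 → Pres (Pts L) (cyc l P i v)) :
    ¬ Geo.IsMaximalIn (SUG n F q) (Geo.subalgebraNormalizer K ⊓ SUG n F q) := by
  intro hH
  obtain ⟨hX, hX1, hP0, hP1, hP2⟩ := hX
  have hP : ∀ k, X ^ k = P (k % l) := fun k => by
    induction k with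
    | zero => simp [hP0]
    | succ k ih => rw [pow_succ, ih, ← hP1 _ (Nat.mod_lt _ hl.out.pos), Nat.mod_add_mod]
  obtain ⟨x, x1, x2, x3⟩ := exists_singer hq hp hK ha h1 h2
  obtain ⟨b, hb⟩ := (⟨φ, Pi.basisFun F (Fin n)⟩ : Mdl E _ _ F).exists_md hB.1
  have hG := (std_model hq φ hφ n).conj b (G' := G) (hb ▸ hB.2)
  generalize Mdl.conj (K := E) _ b = M at hG
  obtain ⟨y, y1, y2⟩ := hG.exists_iso' X X' hX
  have y3 : orderOf y = l := orderOf_eq_prime (Units.ext (M.mm_inj (by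
    rw [Units.val_pow_eq_pow_val, mm_pow, y2, hP, Nat.mod_self, hP0, Units.val_one, mm_one])))
    (by rintro rfl; exact hX1 (y2.symm.trans M.mm_one))
  obtain ⟨k, hk⟩ := conj_mem_zpowers (l := l) (G := Asch.IsoB (US hq n))
    (fun h => h3 (by
      have := h.trans (Subgroup.card_subgroup_dvd_card _)
      rwa [Matrix.card_GL_field, hq] at this)) (x := ⟨x, x1⟩) (y := ⟨y, y1⟩)
    (by rwa [Subgroup.orderOf_mk]) (by rwa [Subgroup.orderOf_mk])
  obtain ⟨a, ha⟩ := (Submonoid.mem_powers_iff _ _).1 (mem_powers_iff_mem_zpowers.2 hk)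
  replace ha : x ^ a = k * y * k⁻¹ := congrArg Subtype.val ha
  have hG' := hG.conj k.1 (hG.fm_col k.2)
  have hM : (M.conj k.1).mm (x ^ a).val = X := y2 ▸ M.conj_mm _ (by simp [ha])
  generalize M.conj k.1 = M' at hG' hM
  have key : ∀ g ∈ Geo.subalgebraNormalizer K, ∃ i < l, M'.mm g * X = X ^ i * M'.mm g := fun g hg => by
    obtain ⟨i, hi, e⟩ := x3 g hg
    refine ⟨i, hi, ?_⟩
    rw [← hM, ← mm_pow, ← mm_mul, ← mm_mul, ← Units.val_pow_eq_pow_val, ← Units.val_mul, ← Units.val_mul,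
      (SemiconjBy.pow_right e a).eq, pow_right_comm]
  refine not_max_pts hG' hH L (fun g hg => ?_) T T' U U' hT.1 (fun g hg e => ?_) hU
  · obtain ⟨i, hi, e⟩ := key g hg.1
    have h4 : M'.mm g = cyc l P i fun r => M'.mm g r 0 := by
      ext r c
      have := congrFun (congrFun (SemiconjBy.pow_right e c).eq r) 0
      rw [← pow_mul, hP, hP] at this
      simpa [Matrix.mul_apply, hP2, cyc, Matrix.mulVec, dotProduct] using this
    have h5 := hG'.fm_col hg.2.1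
    have h6 := M'.mem_SL.1 hg.2.2
    have h7 := fun c => h5 0 c
    rw [h4] at h6 ⊢
    refine hE _ (h5 0 0) i hi (fun c _ => ?_) h6
    rw [← fm_mulVec _ _ (fun x y => φ.injective (by simp only [map_add, hφ]; exact map_add (frobQ hq) _ _))
      (fun x y => φ.injective (by simp only [map_mul, hφ, mul_pow])), ← h7]
    congr 1
    ext r
    exact (congrFun (congrFun h4 r) c).symm
  · obtain ⟨i, hi, e'⟩ := key g hg.1
    rw [e, hP, Nat.mod_eq_of_lt hi] at e'
    exact hT.2 i hi e'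

end Cfsg.Agent.H2.Cases
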