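import Cfsg.Agent.H2.Pair

set_option autoImplicit false
set_option linter.unusedSectionVars false
set_option synthInstance.maxSize 4000

/-! Two non-maximal geometric subgroups of the symplectic group in dimension four over the field of order three. -/

namespace Cfsg.Agent.H2.Cases

open Module Cfsg.Agent.Form Cfsg.Agent.H7 Mdl
open scoped Matrix MatrixGroups

/-- two hyperbolic planes -/
abbrev C43 (a b c d : ZMod 3) : Prop := a * c + b * d = 0 ∧ (a ≠ 0 ∨ b ≠ 0) ∧ (c ≠ 0 ∨ d ≠ 0)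

theorem c43_aux : ∀ e a c a' c' : ZMod 3, e ≠ 0 → a * a' + c * c' = e → ∀ b d : ZMod 3, b * a' + d * c' = 0 →
    ∀ b' d' : ZMod 3, a * b' + c * d' = 0 → b * b' + d * d' = e → ∀ x y z w : ZMod 3, C43 x y z w →
    C43 (a * x + b * y) (c * x + d * y) (a' * z + b' * w) (c' * z + d' * w) ∧
    C43 (a' * z + b' * w) (c' * z + d' * w) (a * x + b * y) (c * x + d * y) := by decide +kernel

variable {F : Type*} [Field F] [Fintype F]

theorem sp43_pair (hq : Fintype.card F = 3) {D : Fin 2 → Submodule F (Fin 2 ⊕ Fin 2 → F)}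
    (hD : Geo.IsMDecomposition 2 D) (ht : ∀ i, Geo.IsTotallySingularFor (sympForm 2 F) (D i)) :
    ¬ Geo.IsMaximalIn (spGL 2 F) (Geo.decompositionStabilizer D ⊓ spGL 2 F) := by
  intro hH
  let S := sympPQ (isSymplecticForm_sympForm 2 F)
  obtain ⟨b, h0, h1, h2, h3, hb⟩ := pair_basis (S := S) (sympPQ_nondeg _) hD ht
  let M : Mdl (ZMod 3) (Fin 4) (Fin 2 ⊕ Fin 2) F := ⟨ZMod.ringEquivOfPrime F Nat.prime_three hq, b⟩
  have hG : M.Gram S id !![0, 0, 1, 0; 0, 0, 0, 1; -1, 0, 0, 0; 0, -1, 0, 0] := ⟨fun _ => rfl, fun i j => by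
    rw [hb]; fin_cases i <;> fin_cases j <;> simp⟩
  have hs := fun g => pair_shape (S := S) ht M h0 h1 h2 h3 hb (g := g)
  refine M.not_max hH (fun u _ => C43 (u 0) (u 1) (u 2) (u 3)) (fun g hg u _ hu => ?_) ?_ ?_
  · have hc := hG.fm_col hg.2
    obtain ⟨a, b, c, d, a', b', c', d', h | h⟩ := hs g hg.1 <;> rw [h] at hc ⊢
    · have := (c43_aux 1 a c a' c' one_ne_zero (by simpa [fm, Fin.sum_univ_four] using hc 0 2) b d
        (by simpa [fm, Fin.sum_univ_four] using hc 1 2) b' d' (by simpa [fm, Fin.sum_univ_four] using hc 0 3)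
        (by simpa [fm, Fin.sum_univ_four] using hc 1 3) _ _ _ _ hu).1
      simpa [Matrix.mulVec, dotProduct, Fin.sum_univ_four] using this
    · have := (c43_aux (-1) a c a' c' (by decide) (by simpa [fm, Fin.sum_univ_four, mul_comm] using hc 2 0) b d
        (by simpa [fm, Fin.sum_univ_four, mul_comm] using hc 2 1) b' d'
        (by simpa [fm, Fin.sum_univ_four, mul_comm] using hc 3 0)
        (by simpa [fm, Fin.sum_univ_four, mul_comm] using hc 3 1) _ _ _ _ hu).2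
      simpa [Matrix.mulVec, dotProduct, Fin.sum_univ_four] using this
  · obtain ⟨g, hg, e⟩ := hG.exists_iso' !![1, 1, -1, 0; 0, 1, 0, 0; 0, 0, 1, 0; 0, 1, -1, 1]
      !![1, -1, 1, 0; 0, 1, 0, 0; 0, 0, 1, 0; 0, -1, 1, 1] (by decide +kernel)
    refine ⟨g, hg, e ▸ fun u _ => ?_, fun h => ?_⟩
    · beta_reduce; revert u; decide +kernel
    · obtain ⟨a, b, c, d, a', b', c', d', h | h⟩ := hs g h.1 <;> rw [e] at h
      · exact absurd (congrFun (congrFun h 0) 2) (show (-1 : ZMod 3) ≠ 0 by decide)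
      · exact absurd (congrFun (congrFun h 0) 0) (show (1 : ZMod 3) ≠ 0 by decide)
  · obtain ⟨g, hg, e⟩ := hG.exists_iso' !![1, 0, -1, 0; 0, 1, 0, 0; 0, 0, 1, 0; 0, 0, 0, 1]
      !![1, 0, 1, 0; 0, 1, 0, 0; 0, 0, 1, 0; 0, 0, 0, 1] (by decide +kernel)
    exact ⟨g, hg, e ▸ fun h => absurd (h ![0, 1, 1, 0] 0 (by decide +kernel)) (by decide +kernel)⟩

section
variable {ι : Type} [Fintype ι] [DecidableEq ι]

omit [Fintype F] in
theorem quad_span [Nonempty ι] {K : Subalgebra F (Matrix ι ι F)} (hK : Geo.IsFieldSubalgebra 2 K)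
    {J : Matrix ι ι F} (hJ : J ∈ K) (h : ∀ c : F, J ≠ c • 1) {k : Matrix ι ι F} (hk : k ∈ K) :
    ∃ a b : F, k = a • 1 + b • J := by
  have hli : LinearIndependent F ![(1 : K), ⟨J, hJ⟩] :=
    (LinearIndependent.pair_iff' one_ne_zero).2 fun c hc => h c (congrArg Subtype.val hc).symm
  have := (hli.span_eq_top_of_card_eq_finrank (by simp [hK.finrank_eq])).ge (Submodule.mem_top (x := ⟨k, hk⟩))
  rw [Matrix.range_cons, Matrix.range_cons, Matrix.range_empty, Set.union_empty, Set.singleton_union] at this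
  obtain ⟨a, b, e⟩ := Submodule.mem_span_pair.1 this
  exact ⟨a, b, (congrArg Subtype.val e).symm⟩

omit [Fintype F] in
theorem field_eq_zero {r : ℕ} {K : Subalgebra F (Matrix ι ι F)} (hK : Geo.IsFieldSubalgebra r K)
    {x y : Matrix ι ι F} (hx : x ∈ K) (h : x * y = 0) : x = 0 ∨ y = 0 := by
  by_cases h0 : x = 0
  · exact Or.inl h0
  · obtain ⟨z, hz, e⟩ := hK.inv x hx h0
    rw [hK.comm x hx z hz] at e
    exact Or.inr (by rw [← one_mul y, ← e, mul_assoc, h, mul_zero])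

theorem exists_J [Nonempty ι] (hq : Fintype.card F = 3) {S : PQ (FP.symp F) (ι → F)} (hS : S.Nondeg)
    {K : Subalgebra F (Matrix ι ι F)} (hK : Geo.IsFieldSubalgebra 2 K) (h1 : Geo.IsAdjointClosedFor S.B K)
    (h2 : ¬ Geo.IsSelfAdjointFor S.B K) : ∃ J : Matrix ι ι F, J * J = -1 ∧ Asch.adj S J = -J ∧
      ∀ g ∈ Geo.subalgebraNormalizer K, ∃ ε : F, ε ≠ 0 ∧ g.val * J = ε • (J * g.val) := by
  have h3 := three_eq_zero_of_card_three hq
  have h20 : (2 : F) ≠ 0 := fun h => one_ne_zero (by linear_combination h3 - h : (1 : F) = 0)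
  have hsq : ∀ a : F, a ≠ 0 → a = 1 ∨ a = -1 := fun a ha =>
    mul_self_eq_one_iff.1 (by rw [← sq]; exact pow_card_pred (k := 2) hq ha)
  rw [Asch.selfAdj_iff hS] at h2
  push Not at h2
  obtain ⟨k, hk, hk'⟩ := h2
  obtain ⟨k', a1, a2⟩ := h1 k hk
  obtain rfl := Asch.adj_unique hS a2
  let J := k - Asch.adj S k
  have hJ : J ∈ K := sub_mem hk a1
  have hJ0 : J ≠ 0 := sub_ne_zero.2 hk'.symm
  have ha : Asch.adj S J = -J := by rw [Asch.adj_sub hS, Asch.adj_adj hS, neg_sub]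
  have hns : ∀ c : F, J ≠ c • 1 := fun c hc => by
    have := ha
    rw [hc, Asch.adj_smul hS, Asch.adj_one hS, FP.symp_σ, ← hc, eq_neg_iff_add_eq_zero, ← two_smul F] at this
    exact hJ0 ((smul_eq_zero.1 this).resolve_left h20)
  have hind : ∀ a b : F, a • (1 : Matrix ι ι F) + b • J = 0 → a = 0 ∧ b = 0 := fun a b h => by
    by_cases hb : b = 0
    · exact ⟨by simpa [hb] using h, hb⟩
    · exact (hns (-(b⁻¹ * a)) (by
        rw [← one_smul F J, ← inv_mul_cancel₀ hb, mul_smul, eq_neg_of_add_eq_zero_right h]; module)).elim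
  obtain ⟨s, r, e⟩ := quad_span hK hJ hns (mul_mem hJ hJ)
  have e1 := congrArg (Asch.adj S) e
  rw [Asch.adj_mul hS, ha, neg_mul_neg, Asch.adj_add hS, Asch.adj_smul hS, Asch.adj_smul hS, Asch.adj_one hS, ha,
    e, FP.symp_σ, FP.symp_σ] at e1
  obtain rfl : r = 0 := by
    have := (hind 0 (2 * r) (by linear_combination (norm := module) e1)).2
    simpa [h20] using this
  have hJJ : J * J = -1 := by
    rw [zero_smul, add_zero] at e
    rcases hsq s (by rintro rfl; simpa [hJ0] using field_eq_zero hK hJ (e.trans (zero_smul _ _))) with rfl | rfl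
    · rcases field_eq_zero hK (x := J - 1) (y := J + 1) (sub_mem hJ (one_mem K)) (by
        rw [one_smul] at e; rw [sub_mul, mul_add, e]; simp [add_comm]) with h | h
      · exact (hns 1 (by rw [one_smul]; exact sub_eq_zero.1 h)).elim
      · exact (hns (-1) (by rw [neg_smul, one_smul]; exact eq_neg_of_add_eq_zero_left h)).elim
    · simpa using e
  refine ⟨J, hJJ, ha, fun g hg => ?_⟩
  obtain ⟨a, b, e2⟩ := quad_span hK hJ hns ((hg J).1 hJ)
  change Asch.cj g J = _ at e2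
  have e3 := congrArg (Asch.cj g) hJJ
  rw [map_mul, map_neg, map_one, e2] at e3
  obtain ⟨e4, e5⟩ := hind (a * a - b * b + 1) (2 * a * b) (by
    simp only [mul_add, add_mul, smul_mul_assoc, mul_smul_comm, one_mul, mul_one, hJJ] at e3
    linear_combination (norm := module) e3)
  have hb : b ≠ 0 := by
    rintro rfl
    rcases hsq a (by rintro rfl; simp at e4) with rfl | rfl <;> exact h20 (by linear_combination e4)
  obtain rfl : a = 0 := by simpa [h20, hb] using e5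
  exact ⟨b, hb, by rw [(Asch.cj_eq_iff _ _ _).1 e2]; simp⟩

theorem exists_beta_one (hq : Fintype.card F = 3) {S : PQ (FP.symp F) (ι → F)} (hS : S.Nondeg) {J : Matrix ι ι F}
    (hJ : J * J = -1) (ha : Asch.adj S J = -J) {W : Submodule F (ι → F)} (hW : S.NondegOn W) (h0 : W ≠ ⊥)
    (hi : ∀ w ∈ W, J *ᵥ w ∈ W) : ∃ u ∈ W, S.B (J *ᵥ u) u = 1 := by
  have h3 := three_eq_zero_of_card_three hq
  have hJJ : ∀ v, J *ᵥ (J *ᵥ v) = -v := fun v => by rw [Matrix.mulVec_mulVec, hJ, Matrix.neg_mulVec, Matrix.one_mulVec]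
  have hs : ∀ u v, S.B (J *ᵥ u) v = S.B (J *ᵥ v) u := fun u v => by
    rw [Asch.B_adj hS, ha, Matrix.neg_mulVec, S.B_neg_right, S.symp_B_swap, neg_neg]
  obtain ⟨u, hu, hu'⟩ : ∃ u ∈ W, S.B (J *ᵥ u) u ≠ 0 := by
    by_contra hc
    push Not at hc
    obtain ⟨w, hw, hw0⟩ := (Submodule.ne_bot_iff W).1 h0
    have : J *ᵥ w = 0 := hW _ (hi w hw) fun y hy => by
      have := hc _ (add_mem hw hy)
      simp only [Matrix.mulVec_add, S.B_add_left, S.B_add_right, hc w hw, hc y hy, hs y w] at this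
      linear_combination S.B (J *ᵥ w) y * h3 - this
    exact hw0 (by rw [← neg_eq_zero, ← hJJ, this, Matrix.mulVec_zero])
  rcases mul_self_eq_one_iff.1 ((sq _).symm.trans (pow_card_pred (k := 2) hq hu')) with h | h
  · exact ⟨u, hu, h⟩
  · refine ⟨u + J *ᵥ u, add_mem hu (hi u hu), ?_⟩
    simp only [Matrix.mulVec_add, hJJ, S.B_add_left, S.B_add_right, S.B_neg_left, S.symp_B_self, h,
      S.symp_B_swap (J *ᵥ u) u]
    linear_combination -h3

end

/-- the complex structure -/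
abbrev J43 : Matrix (Fin 4) (Fin 4) (ZMod 3) := !![0, -1, 0, 0; 1, 0, 0, 0; 0, 0, 0, -1; 0, 0, 1, 0]

/-- a spread of hyperbolic lines -/
abbrev R43 (u v : Fin 4 → ZMod 3) : Prop :=
  (fm J43 id (J43 *ᵥ u) u ≠ 0 ∧ ∃ a b : ZMod 3, b ≠ 0 ∧ v = a • u + b • J43 *ᵥ u) ∨
  (fm J43 id (J43 *ᵥ u) u = 0 ∧ fm J43 id (J43 *ᵥ v) v = 0 ∧ fm J43 id (J43 *ᵥ u) v = 0 ∧ fm J43 id u v ≠ 0)

theorem sp43_unit (hq : Fintype.card F = 3)
    {K : Subalgebra F (Matrix (Fin 2 ⊕ Fin 2) (Fin 2 ⊕ Fin 2) F)} (hK : Geo.IsFieldSubalgebra 2 K)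
    (h1 : Geo.IsAdjointClosedFor (sympForm 2 F) K) (h2 : ¬ Geo.IsSelfAdjointFor (sympForm 2 F) K) :
    ¬ Geo.IsMaximalIn (spGL 2 F) (Geo.subalgebraNormalizer K ⊓ spGL 2 F) := by
  intro hH
  let S := sympPQ (isSymplecticForm_sympForm 2 F)
  have hS : S.Nondeg := sympPQ_nondeg _
  obtain ⟨J, hJ, ha, hN⟩ := exists_J hq hS hK h1 h2
  have hJJ : ∀ v, J *ᵥ (J *ᵥ v) = -v := fun v => by rw [Matrix.mulVec_mulVec, hJ, Matrix.neg_mulVec, Matrix.one_mulVec]
  have hs : ∀ u v, S.B (J *ᵥ u) v = -S.B u (J *ᵥ v) := fun u v => by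
    rw [Asch.B_adj hS, ha, Matrix.neg_mulVec, S.B_neg_right]
  obtain ⟨u, -, hu⟩ := exists_beta_one hq hS hJ ha (W := ⊤) (S.nondegOn_top.2 hS) top_ne_bot (fun _ _ => trivial)
  have hnd := S.nondegOn_span_pair (u := J *ᵥ u) (w := u) trivial trivial (by simp [hu])
  obtain ⟨w, hw, hw'⟩ := exists_beta_one hq hS hJ ha (hnd.perp hS) (fun h => by
    have := hS.finrank_perp (Submodule.span F {J *ᵥ u, u})
    have h4 := finrank_span_pair_le (F := F) (J *ᵥ u) u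
    rw [h] at this
    simp at this; omega) (fun w hw => by
    rw [S.mem_perp_span] at hw ⊢
    simp [hs, hJJ, hw u (by simp), hw (J *ᵥ u) (by simp)])
  rw [S.mem_perp_span] at hw
  have e1 := hw u (by simp)
  have e2 := hw (J *ᵥ u) (by simp)
  have e3 := S.B_comm_zero e1
  have e4 := S.B_comm_zero e2
  have e5 : S.B u (J *ᵥ u) = -1 := by rw [S.symp_B_swap, hu]
  have e6 : S.B w (J *ᵥ w) = -1 := by rw [S.symp_B_swap, hw']
  have e7 : S.B u (J *ᵥ w) = 0 := by rw [← neg_eq_zero, ← hs, e4]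
  let φ := ZMod.ringEquivOfPrime F Nat.prime_three hq
  let v : Fin 4 → Fin 2 ⊕ Fin 2 → F := ![u, J *ᵥ u, w, J *ᵥ w]
  have hv : ∀ i j, S.B (v i) (v j) = φ (J43 i j) := fun i j => by
    fin_cases i <;> fin_cases j <;> simp [v, hs, hJJ, S.symp_B_self, e1, e2, e3, e5, e6, e7]
  obtain ⟨b, hb⟩ := exists_basis_of_gram S v (fun i => v (![1, 0, 3, 2] i)) (fun i j h => by
    rw [hv, map_eq_zero]; revert i j; decide) (fun i => by rw [hv, map_ne_zero]; revert i; decide) (by simp)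
  let M : Mdl (ZMod 3) (Fin 4) (Fin 2 ⊕ Fin 2) F := ⟨φ, b⟩
  have hG : M.Gram S id J43 := ⟨fun _ => rfl, fun i j => by rw [hb, hb, hv]⟩
  have hm : M.mm J = J43 := M.mm_eq fun j => by
    rw [X_eq]
    fin_cases j <;> simp [M, hb, v, Fin.sum_univ_four, hJJ]
  have hN' : ∀ g ∈ Geo.subalgebraNormalizer K, ∃ ε : ZMod 3, ε ≠ 0 ∧ M.mm g * J43 = ε • (J43 * M.mm g) := by
    intro g hg
    obtain ⟨ε, h1, h2⟩ := hN g hg
    obtain ⟨ε, rfl⟩ := φ.surjective ε
    exact ⟨ε, by simpa using h1, by rw [← hm, ← mm_mul, ← mm_mul, ← mm_smul, h2]⟩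
  refine M.not_max hH R43 (fun g hg x y h => ?_) ?_ ?_
  · obtain ⟨ε, h1, h2⟩ := hN' g hg.1
    have hε : ε * ε = 1 := (by decide : ∀ ε : ZMod 3, ε ≠ 0 → ε * ε = 1) ε h1
    have h3 : ∀ x, J43 *ᵥ (M.mm g *ᵥ x) = ε • M.mm g *ᵥ (J43 *ᵥ x) := fun x => by
      rw [Matrix.mulVec_mulVec, Matrix.mulVec_mulVec, h2, Matrix.smul_mulVec, smul_smul, hε, one_smul]
    have h4 : ∀ x y, fm J43 id (J43 *ᵥ (M.mm g *ᵥ x)) (M.mm g *ᵥ y) = ε * fm J43 id (J43 *ᵥ x) y := fun x y => by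
      rw [h3, ← hG.fm_mm hg.2 (J43 *ᵥ x) y]
      simp [fm, Finset.mul_sum, mul_assoc]
    rcases h with ⟨a1, a, b, a2, rfl⟩ | ⟨a1, a2, a3, a4⟩
    · refine Or.inl ⟨by rw [h4]; exact mul_ne_zero h1 a1, a, b * ε, mul_ne_zero a2 h1, ?_⟩
      rw [h3, smul_smul, mul_assoc, hε, mul_one, Matrix.mulVec_add,
        Matrix.mulVec_smul, Matrix.mulVec_smul]
    · exact Or.inr ⟨by rw [h4, a1, mul_zero], by rw [h4, a2, mul_zero], by rw [h4, a3, mul_zero],
        by rwa [hG.fm_mm hg.2]⟩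
  · obtain ⟨g, hg, e⟩ := hG.exists_iso' !![1, 0, 0, 0; 0, 1, 0, 0; 0, 0, 1, 1; 0, 0, 1, 2]
      !![1, 0, 0, 0; 0, 1, 0, 0; 0, 0, 2, 2; 0, 0, 2, 1] (by decide +kernel)
    refine ⟨g, hg, e ▸ ?_, fun h => ?_⟩
    · unfold Pres; decide +kernel
    · have := hN' g h.1
      rw [e] at this
      revert this; decide +kernel
  · obtain ⟨g, hg, e⟩ := hG.exists_iso' !![1, 0, 0, 0; 0, 1, 0, 0; 0, 0, 1, 0; 0, 0, 2, 1]
      !![1, 0, 0, 0; 0, 1, 0, 0; 0, 0, 1, 0; 0, 0, 1, 1] (by decide +kernel)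
    refine ⟨g, hg, e ▸ ?_⟩
    unfold Pres; decide +kernel

end Cfsg.Agent.H2.Cases
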