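import Cfsg.Agent.H2.Model
import Cfsg.Agent.H7.SmallSL

set_option autoImplicit false
set_option linter.unusedSectionVars false

/-! The tensor product of a symplectic plane with an orthogonal four-space of plus type. -/

namespace Cfsg.Agent.H2.Cases

open Module Cfsg.Agent.Form Cfsg.Agent.H7
open scoped Matrix MatrixGroups

variable {F : Type*} [Field F]

/-- the standard alternating matrix -/
def om (F : Type*) [Field F] : Fin 2 → Fin 2 → F := !![0, 1; -1, 0]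

theorem om_succ (i j : Fin 2) (h : i ≠ j) : om F i (j + 1) = 0 := by
  fin_cases i <;> fin_cases j <;> simp_all [om]

theorem exists_plus_basis {B : Type*} [AddCommGroup B] [Module F B] [FiniteDimensional F B]
    (S : PQ (FP.orth F) B) (hS : S.Nondeg) (hd : finrank F B = 4) {U : Submodule F B} (hU : S.TS U)
    (hU2 : finrank F U = 2) : ∃ x : Basis (Fin 2 × Fin 2) F B,
      (∀ j k, S.B (x j) (x k) = om F j.1 k.1 * om F j.2 k.2) := by
  obtain ⟨u1, hu1, h10⟩ := exists_ne_zero_of_finrank_pos (A := U) (by omega)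
  obtain ⟨u2, hu2, h21⟩ := exists_mem_notMem_of_finrank_lt (U := U) (W := F ∙ u1)
    (by have := finrank_span_singleton_le (F := F) u1; omega)
  have h12 : u1 ∉ F ∙ u2 := fun h => by
    obtain ⟨c, rfl⟩ := Submodule.mem_span_singleton.1 h
    have hc : c ≠ 0 := by rintro rfl; simp at h10
    exact h21 (Submodule.mem_span_singleton.2 ⟨c⁻¹, by rw [smul_smul, inv_mul_cancel₀ hc, one_smul]⟩)
  obtain ⟨w1, a1, a2, a3⟩ := hS.exists_hyperbolic_perp (hU.1 u1 hu1) h12
    (S.mem_perp_span_singleton.2 (hU.2 _ hu1 _ hu2))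
  rw [S.mem_perp_span_singleton] at a1
  have e11 := hU.2 _ hu1 _ hu1
  have e12 := hU.2 _ hu1 _ hu2
  have e21 := hU.2 _ hu2 _ hu1
  have e22 := hU.2 _ hu2 _ hu2
  have a1' := S.B_comm_zero a1
  have a3' := (S.orth_B_swap _ _).trans a3
  have a4 := a2.B_self
  obtain ⟨w2, b1, b2, b3⟩ := hS.exists_hyperbolic_perp (X := Submodule.span F {u1, w1}) (hU.1 u2 hu2) (fun h => by
    obtain ⟨c, d, e⟩ := Submodule.mem_span_pair.1 h
    have h1 := congrArg (S.B u1) e
    simp only [S.B_add_right, S.B_smul_right, e11, e12, a3, FP.orth_σ, mul_zero, zero_add, mul_one] at h1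
    rw [h1, zero_smul, add_zero] at e
    exact h21 (Submodule.mem_span_singleton.2 ⟨c, e⟩)) (S.mem_perp_span.2 (by simp [e21, a1']))
  rw [S.mem_perp_span] at b1
  have b4 := b1 u1 (by simp)
  have b5 := b1 w1 (by simp)
  have b4' := S.B_comm_zero b4
  have b5' := S.B_comm_zero b5
  have b3' := (S.orth_B_swap _ _).trans b3
  have b6 := b2.B_self
  let v : Fin 2 × Fin 2 → B := fun j => !![u1, u2; -w2, w1] j.1 j.2
  have hv : ∀ j k, S.B (v j) (v k) = om F j.1 k.1 * om F j.2 k.2 := by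
    rintro ⟨j1, j2⟩ ⟨k1, k2⟩
    fin_cases j1 <;> fin_cases j2 <;> fin_cases k1 <;> fin_cases k2 <;> simp [v, om, *]
  obtain ⟨x, hx⟩ := exists_basis_of_gram S v (fun j => v (j.1 + 1, j.2 + 1)) (by
    rintro ⟨j1, j2⟩ ⟨k1, k2⟩ h
    rw [hv]
    fin_cases j1 <;> fin_cases j2 <;> fin_cases k1 <;> fin_cases k2 <;> simp_all [om]) (by
    rintro ⟨j1, j2⟩
    rw [hv]
    fin_cases j1 <;> fin_cases j2 <;> simp [om]) (by simp [hd])
  exact ⟨x, fun j k => by rw [hx, hx, hv]⟩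

theorem exists_rank_one {a b c d : F} (h : a * d = b * c) : ∃ s t : Fin 2 → F, a = s 0 * t 0 ∧ b = s 0 * t 1 ∧
    c = s 1 * t 0 ∧ d = s 1 * t 1 := by
  by_cases ha : a = 0
  · subst ha
    by_cases hb : b = 0
    · exact ⟨![0, 1], ![c, d], by simp [hb]⟩
    · have : c = 0 := by simpa [hb] using h.symm
      exact ⟨![b, d], ![0, 1], by simp [this]⟩
  · refine ⟨![1, c / a], ![a, b], by simp, by simp, by simp [ha], ?_⟩
    simp only [Matrix.cons_val_one, Matrix.cons_val_zero]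
    field_simp; linear_combination h

theorem sp8_tensor_plus [Fintype F] (hodd : Odd (Fintype.card F)) {e : Fin 4 ⊕ Fin 4 ≃ Fin 2 × Fin 4}
    {P : GL (Fin 4 ⊕ Fin 4) F} {f₁ : (Fin 2 → F) → (Fin 2 → F) → F} {f₂ : (Fin 4 → F) → (Fin 4 → F) → F}
    (hf₁ : Geo.IsSymplecticForm f₁) (hf₂ : Geo.IsSymmetricForm f₂)
    (hT : Geo.IsTensorFormStructure id (sympForm 4 F) f₁ f₂ e P)
    (hp : Geo.IsPlusTypeOn (fun v : Fin 4 → F => f₂ v v) ⊤) :
    ¬ Geo.IsMaximalIn (spGL 4 F) (Geo.tensorProductSubgroup 2 4 e P ⊓ spGL 4 F) := by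
  intro hH
  have h2 := two_ne_zero_of_odd_card hodd
  let S := sympPQ (isSymplecticForm_sympForm 4 F)
  let S₁ := sympPQ hf₁
  let S₂ := symmPQ h2 hf₂
  let τ := tensOf e P
  have hτ : IsTens τ := isTens_tensOf e P
  obtain ⟨c, hc, hB⟩ := tensorForm_apply S₁ S₂ (σ := id) (fun _ => rfl) (fun _ => rfl) hT
  change ∀ u w u' w', S.B (τ u w) (τ u' w') = _ at hB
  obtain ⟨U, -, hU, hU2⟩ := hp
  obtain ⟨x, hx⟩ := exists_plus_basis S₂ (symmPQ_nondeg h2 hf₂) (by simp) (U := U)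
    ((S₂.orth_ts U).2 fun w hw => by change f₂ w w / 2 = 0; rw [show f₂ w w = 0 from hU w hw, zero_div]) (by simp at hU2; omega)
  obtain ⟨p, -, q, -, hpq, hpq'⟩ := exists_symp_pair S₁ (U := ⊤) (S₁.nondegOn_top.2 (sympPQ_nondeg hf₁)) (by simp)
  let a : Fin 2 → Fin 2 → F := ![p, q]
  have ha : ∀ i j, S₁.B (a i) (a j) = om F i j := fun i j => by
    fin_cases i <;> fin_cases j <;> simp [a, om, S₁.symp_B_self, hpq, S₁.symp_B_swap p q]
  let v : Fin 2 × Fin 2 × Fin 2 → Fin 4 ⊕ Fin 4 → F := fun j => τ (a j.1) (x j.2)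
  have hv : ∀ j k, S.B (v j) (v k) = c * (om F j.1 k.1 * (om F j.2.1 k.2.1 * om F j.2.2 k.2.2)) := fun j k => by
    rw [hB, ha, hx]
  obtain ⟨b, hb⟩ := exists_basis_of_gram S v (fun j => v (j.1 + 1, j.2.1 + 1, j.2.2 + 1)) (by
    rintro ⟨j1, j2, j3⟩ ⟨k1, k2, k3⟩ h
    have h0 := om_succ (F := F)
    rw [hv]
    by_cases h1 : j1 = k1
    · by_cases h2 : j2 = k2
      · simp [h0 j3 k3 (fun h3 => h (by rw [h1, h2, h3]))]
      · simp [h0 _ _ h2]
    · simp [h0 _ _ h1]) (by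
    rintro ⟨j1, j2, j3⟩
    rw [hv]
    fin_cases j1 <;> fin_cases j2 <;> fin_cases j3 <;> simp [om, hc]) (by simp)
  let sw : Fin 2 × Fin 2 × Fin 2 ≃ Fin 2 × Fin 2 × Fin 2 :=
    ⟨fun j => (j.2.1, j.1, j.2.2), fun j => (j.2.1, j.1, j.2.2), fun _ => rfl, fun _ => rfl⟩
  let g := b.equiv b sw
  have hg : ∀ i j k, g (τ (a i) (x (j, k))) = τ (a j) (x (i, k)) := fun i j k => by
    have := b.equiv_apply (i, j, k) b sw
    rwa [hb, hb] at this
  let C : Set (Fin 4 ⊕ Fin 4 → F) := {y | ∃ u w, S₂.B w w = 0 ∧ y = τ u w}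
  have hsing : ∀ a b c d : F, S₂.B (a • x (0, 0) + b • x (0, 1) + c • x (1, 0) + d • x (1, 1))
      (a • x (0, 0) + b • x (0, 1) + c • x (1, 0) + d • x (1, 1)) = 2 * (a * d - b * c) := fun a b c d => by
    simp [S₂.B_add_left, S₂.B_smul_left, hx, om]; ring
  refine not_strict hH (M := stabilizing (glToMat _ F) C) (fun k hk => ?_) (fun hle => ?_) (g := toLE.symm g)
    ?_ ?_ (fun hk => ?_)
  · obtain ⟨a', b', h⟩ := (mem_tensorProductSubgroup_iff' e P k).1 hk.1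
    obtain ⟨μ, hμ, h1, -⟩ := sim_of_tensor (S := S) (sympPQ_nondeg hf₁) (symmPQ_nondeg h2 hf₂) hc hB
      ((mem_spGL_iff 4 k).1 hk.2) h
    refine mem_stabilizing_of_mapsTo ?_
    rintro _ ⟨u, w, hw, rfl⟩
    exact ⟨a' u, b' w, (mul_eq_zero.1 ((h1 w w).trans hw)).resolve_left hμ, h u w⟩
  · have hp0 : p ≠ 0 := by rintro rfl; simp at hpq
    have hs := hsing 1 0 0 1
    simp only [one_smul, zero_smul, add_zero, mul_one, mul_zero, sub_zero] at hs
    obtain ⟨_, ⟨k, hk, rfl⟩, d, hd, e1⟩ := Rich.trans (richGL_Sp (m := 4) (F := F) (by omega)) (τ p (x (0, 0)))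
      trivial (τ p (x (0, 0) + x (1, 1))) trivial (hτ.ne_zero hp0 (x.ne_zero _))
      (hτ.ne_zero hp0 (fun h => h2 (by rw [← hs, h]; simp)))
    obtain ⟨u, w, hw, e2⟩ := (hle hk (τ p (x (0, 0)))).1 ⟨p, x (0, 0), by simp [hx, om], rfl⟩
    have e3 : τ.flip (x (0, 0) + x (1, 1)) (d • p) = τ.flip w u := by
      rw [LinearMap.flip_apply, LinearMap.flip_apply, map_smul, LinearMap.smul_apply]
      exact e1.symm.trans e2
    obtain ⟨t, ht⟩ := Submodule.mem_span_singleton.1 (hτ.flip.mem_span_of_eq (smul_ne_zero hd hp0) e3)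
    rw [← ht, S₂.B_smul_left, S₂.B_smul_right, hw] at hs
    exact h2 (by simpa using hs.symm)
  · refine (mem_spGL_iff 4 _).2 ((S.symp_mem_isom _).2 fun y z => ?_)
    change S.B (toLE (toLE.symm g) y) (toLE (toLE.symm g) z) = _
    rw [MulEquiv.apply_symm_apply, ← b.sum_repr y, ← b.sum_repr z]
    have h0 : ∀ i j, S.B (g (b i)) (g (b j)) = S.B (b i) (b j) := fun i j => by
      rw [Basis.equiv_apply, Basis.equiv_apply, hb, hb, hb, hb, hv, hv]
      simp only [sw, Equiv.coe_fn_mk]; ring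
    simp only [map_sum, map_smul, S.B_sum_left, S.B_sum_right, S.B_smul_left, S.B_smul_right, h0]
  · refine mem_stabilizing_of_mapsTo ?_
    rintro _ ⟨u, w, hw, rfl⟩
    have hw' := (x.sum_repr w).symm
    simp only [Fintype.sum_prod_type, Fin.sum_univ_two, ← add_assoc] at hw'
    rw [hw', hsing] at hw
    obtain ⟨s, t, e1, e2, e3, e4⟩ := exists_rank_one (sub_eq_zero.1 ((mul_eq_zero.1 hw).resolve_left h2))
    refine ⟨s 0 • a 0 + s 1 • a 1, (S₁.B u q * t 0) • x (0, 0) + (S₁.B u q * t 1) • x (0, 1) +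
      (-S₁.B u p * t 0) • x (1, 0) + (-S₁.B u p * t 1) • x (1, 1), by rw [hsing]; ring, ?_⟩
    rw [MulEquiv.apply_symm_apply, hw', e1, e2, e3, e4]
    have hu : u = S₁.B u q • a 0 - S₁.B u p • a 1 := hpq' u trivial
    generalize S₁.B u q = α at *
    generalize S₁.B u p = β at *
    subst hu
    simp only [map_add, map_sub, map_smul, LinearMap.add_apply, LinearMap.sub_apply, LinearMap.smul_apply, hg]
    module
  · obtain ⟨a', b', h⟩ := (mem_tensorProductSubgroup_iff' e P _).1 hk.1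
    rw [MulEquiv.apply_symm_apply] at h
    obtain ⟨s, hs⟩ := Submodule.mem_span_singleton.1
      (hτ.mem_span_of_eq (x.ne_zero _) ((hg 0 0 0).symm.trans (h _ _)))
    obtain ⟨t, ht⟩ := Submodule.mem_span_singleton.1
      (hτ.mem_span_of_eq (x.ne_zero _) ((hg 0 1 0).symm.trans (h _ _)))
    have := ha 0 1
    rw [← ht] at this
    nth_rw 1 [← hs] at this
    simp [S₁.B_smul_left, S₁.symp_B_self, om] at this

end Cfsg.Agent.H2.Cases
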