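import Cfsg.Agent.H5.TA0
import Cfsg.Agent.H1.C5

set_option autoImplicit false

/-! Transvection groups with a centre on two axes: local analysis. -/

namespace Cfsg.Agent.H2.TL
open Module Cfsg.Agent.H7 Cfsg.Agent.H5.TA

variable {K V : Type*} [Field K] [AddCommGroup V] [Module K V] {M : Subgroup (V ≃ₗ[K] V)} {φ ψ χ : Dual K V} {v w : V}

/-- axes of a centre -/
def Ph (M : Subgroup (V ≃ₗ[K] V)) (v : V) (φ : Dual K V) : Prop := φ v = 0 ∧ Has M φ v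

theorem Ph.add (h : Ph M v φ) (h' : Ph M v ψ) : Ph M v (φ + ψ) := ⟨by simp [h.1, h'.1], h.2.add_left h'.2 h.1⟩
theorem Ph.sub (h : Ph M v φ) (h' : Ph M v ψ) : Ph M v (φ - ψ) := ⟨by simp [h.1, h'.1], h.2.sub_left h'.2 h.1 h'.1⟩
theorem Ph.map (h : Ph M v φ) {g : V ≃ₗ[K] V} (hg : g ∈ M) : Ph M (g v) (φ ∘ₗ (g.symm : V →ₗ[K] V)) :=
  ⟨by simp [h.1], h.2.conj hg⟩
theorem ph_smul {c : K} (hc : c ≠ 0) : Ph M (c • v) φ ↔ Ph M v (c • φ) :=
  ⟨fun h => ⟨by simpa using h.1, h.2.congr fun z => by simp [smul_smul, mul_comm]⟩,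
    fun h => ⟨by simpa [hc] using h.1, h.2.congr fun z => by simp [smul_smul, mul_comm]⟩⟩
theorem Ph.comm (h : Ph M v φ) (h' : Ph M w χ) (e : φ w = 0) : Ph M w (χ v • φ) :=
  ⟨by simp [e], h'.2.comm_left h.2 h'.1 h.1 e⟩

/-- the common kernel of the axes -/
def Lk (M : Subgroup (V ≃ₗ[K] V)) (v : V) : Submodule K V where
  carrier := {x | ∀ φ, Ph M v φ → φ x = 0}
  add_mem' := fun a b φ h => by simp [a φ h, b φ h]
  zero_mem' := fun φ _ => map_zero φ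
  smul_mem' := fun c x a φ h => by simp [a φ h]

theorem self_mem : v ∈ Lk M v := fun _ h => h.1

theorem lk_map {g : V ≃ₗ[K] V} (hg : g ∈ M) {x : V} : g x ∈ Lk M (g v) ↔ x ∈ Lk M v :=
  ⟨fun h φ a => by simpa using h _ (a.map hg), fun h φ a => by
    have := a.map (inv_mem hg)
    exact h (φ ∘ₗ (g⁻¹.symm : V →ₗ[K] V)) (by simpa using this)⟩

theorem lk_smul {c : K} (hc : c ≠ 0) : Lk M (c • v) = Lk M v := Submodule.ext fun x =>
  ⟨fun h φ a => by simpa [hc] using h (c⁻¹ • φ) ((ph_smul hc).2 (by simpa [smul_smul, hc] using a)),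
    fun h φ a => by simpa [hc] using h _ ((ph_smul hc).1 a)⟩

/-- two independent axes -/
def Big (M : Subgroup (V ≃ₗ[K] V)) (v : V) : Prop := ∃ φ ψ, Ph M v φ ∧ Ph M v ψ ∧ φ ≠ 0 ∧ ¬ ∃ c : K, ψ = c • φ

theorem Big.map (h : Big M v) {g : V ≃ₗ[K] V} (hg : g ∈ M) : Big M (g v) := by
  obtain ⟨φ, ψ, a, b, c, d⟩ := h
  exact ⟨_, _, a.map hg, b.map hg, fun e => c (LinearMap.ext fun z => by simpa using LinearMap.congr_fun e (g z)),
    fun ⟨t, e⟩ => d ⟨t, LinearMap.ext fun z => by simpa using LinearMap.congr_fun e (g z)⟩⟩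

theorem two_ker (h : finrank K V = 4) (φ ψ : Dual K V) (v : V) : ∃ x, x ∉ K ∙ v ∧ φ x = 0 ∧ ψ x = 0 := by
  have : FiniteDimensional K V := .of_finrank_eq_succ h
  have a := finrank_le_finrank_inf_ker (⊤ : Submodule K V) φ
  have b := finrank_le_finrank_inf_ker (⊤ ⊓ LinearMap.ker φ) ψ
  have c := finrank_span_singleton_le (F := K) v
  rw [finrank_top] at a
  obtain ⟨x, h1, h2⟩ := exists_mem_notMem_of_finrank_lt (U := ⊤ ⊓ LinearMap.ker φ ⊓ LinearMap.ker ψ) (W := K ∙ v) (by omega)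
  exact ⟨x, h2, h1.1.2, h1.2⟩

theorem dick [Finite K] (hd : finrank K V = 4) (hb : Big M v) (hχ : Ph M w χ) (h0 : χ v ≠ 0)
    (hN : ∀ φ, Ph M v φ → φ w = 0 → φ = 0) :
    ¬ Lk M v ≤ K ∙ v ∧ ∃ η : Dual K V, η ≠ 0 ∧ (∀ x ∈ Lk M v, η x = 0) ∧ ∀ x ∈ Lk M w, η x = 0 := by
  obtain ⟨φ, ψ, p1, p2, p3, p4⟩ := hb
  rw [← lk_smul (v := w) h0]
  obtain ⟨a, ha⟩ : ∃ a, a = χ v • w := ⟨_, rfl⟩
  replace hN : ∀ φ ψ, Ph M v φ → Ph M v ψ → φ a = ψ a → φ = ψ := fun φ ψ h h' e =>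
    sub_eq_zero.1 (hN _ (h.sub h') (by simpa [ha, h0, sub_eq_zero] using e))
  let K0 : Subgroup (V ≃ₗ[K] V) :=
    { carrier := {g | g ∈ M ∧ ∀ z, ∃ s t : K, g z = z + s • v + t • a}
      one_mem' := ⟨one_mem _, fun z => ⟨0, 0, by simp⟩⟩
      mul_mem' := fun {g h} hg hh => ⟨mul_mem hg.1 hh.1, fun z => by
        obtain ⟨s, t, e⟩ := hh.2 z
        obtain ⟨s', t', e'⟩ := hg.2 (h z)
        exact ⟨s + s', t + t', by rw [LinearEquiv.mul_apply, e', e]; module⟩⟩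
      inv_mem' := fun {g} hg => ⟨inv_mem hg.1, fun z => by
        obtain ⟨s, t, e⟩ := hg.2 (g⁻¹ z)
        exact ⟨-s, -t, by rw [show g (g⁻¹ z) = z by simp] at e; linear_combination (norm := module) -e⟩⟩ }
  let B : K → Prop := fun b => ∃ h ∈ K0, h v = v ∧ h a = a + b • v
  have tv : ∀ φ, Ph M v φ → B (φ a) := fun φ ⟨h1, g, hg, e⟩ =>
    ⟨g, ⟨hg, fun z => ⟨φ z, 0, by simp [e]⟩⟩, by simp [e, h1], e a⟩
  have z0 : Ph M v 0 := ⟨rfl, has_zero_left v⟩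
  have n1 : φ a ≠ 0 := fun e => p3 (hN _ _ p1 z0 e)
  have n2 : ψ a ≠ 0 := fun e => p4 ⟨0, by simpa using hN _ _ p2 z0 e⟩
  have n3 : ψ a ≠ φ a := fun e => p4 ⟨1, by simpa using hN _ _ p2 p1 e⟩
  obtain ⟨y, y1, y2, y3⟩ : ∃ h ∈ K0, h v = v + a ∧ h a = a := by
    obtain ⟨g, hg, e⟩ := hχ.2
    exact ⟨g, ⟨hg, fun z => ⟨0, χ z / χ v, by simp [e, ha, smul_smul, h0]⟩⟩, by rw [e, ha], by simp [e, ha, hχ.1]⟩
  obtain ⟨⟨x, x1, x2, x3⟩, d2, d3⟩ := H8.Dickson.plane (K := K0) (u := v) (a := a) ((Set.three_lt_ncard_iff).2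
    ⟨0, φ a, ψ a, (φ + ψ) a, tv _ z0, tv _ p1, tv _ p2, tv _ (p1.add p2), n1.symm, n2.symm,
      fun e => p4 ⟨-1, (eq_neg_of_add_eq_zero_right (hN _ _ (p1.add p2) z0 e.symm)).trans (by module)⟩, n3.symm,
      by simpa using n2, by simpa using n1⟩) ⟨y, y1, y2, y3⟩
  have x4 : x⁻¹ v = v := by simpa using (congrArg x.symm x2).symm
  have x5 : x⁻¹ a = a - v := x.symm_apply_eq.2 (by simp [x2, x3])
  have th : ∀ b, b ≠ 0 → B b → ∃ t : Dual K V → Dual K V, (∀ φ, Ph M v φ → Ph M v (t φ) ∧ t φ a = b ^ 2 * φ a) ∧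
      ∀ φ e, Ph M v φ → Ph M v e → e a • (t φ - b • φ) = φ a • (t e - b • e) := fun b b0 hb => by
    obtain ⟨h, h1, h2, h3⟩ := d2 b b0 hb
    refine ⟨fun φ => b • φ ∘ₗ (h.symm : V →ₗ[K] V), fun φ hφ => ⟨(ph_smul b0).1 (h2 ▸ hφ.map h1.1), ?_⟩,
      fun φ e hφ he => LinearMap.ext fun z => ?_⟩
    · simp [show h.symm a = b • a from h.symm_apply_eq.2 (by simp [h3, smul_smul, b0]), pow_two, mul_assoc]
    · obtain ⟨s, t, e'⟩ := (inv_mem h1).2 z
      simp [show h.symm z = _ from e', hφ.1, he.1]; ring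
  refine ⟨fun hL => ?_, ψ a • φ - φ a • ψ, fun e => p4 ⟨(φ a)⁻¹ * ψ a, by
    rw [← smul_smul, sub_eq_zero.1 e, smul_smul, inv_mul_cancel₀ n1, one_smul]⟩, fun x hx => by simp [hx _ p1, hx _ p2],
    fun z hz => ?_⟩
  swap
  · have hs := mul_mem (inv_mem x1) y1
    have s1 : (x⁻¹ * y) v = a := by rw [LinearEquiv.mul_apply, y2, map_add, x4, x5]; abel
    generalize x⁻¹ * y = s at *
    obtain ⟨c, t, e⟩ := hs.2 (s.symm z)
    have := lk_map (v := v) (x := s.symm z) hs.1 |>.1 (by simpa [s1, ← ha] using hz)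
    rw [← s.apply_symm_apply z, e]
    simp [this _ p1, this _ p2, p1.1, p2.1, mul_left_comm, mul_comm]
  by_cases h2 : (2 : K) = 0
  swap
  · obtain ⟨t, t1, t2⟩ := th (-1) (by simp) ⟨x⁻¹, inv_mem x1, x4, by simp [x5, sub_eq_add_neg]⟩
    have k : ∀ φ, Ph M v φ → t φ = φ := fun φ h => hN _ _ (t1 φ h).1 h (by simp [(t1 φ h).2])
    have := t2 ψ φ p2 p1
    rw [k _ p1, k _ p2] at this
    refine p4 ⟨(φ a)⁻¹ * ψ a, smul_right_injective _ (mul_ne_zero h2 n1) ?_⟩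
    simp only [smul_smul, show 2 * φ a * ((φ a)⁻¹ * ψ a) = 2 * ψ a by field_simp]
    linear_combination (norm := module) this
  have := Fintype.ofFinite K
  have pw : ∀ b, B b → ∀ n : ℕ, B (b ^ n) := fun b hb n => by
    induction n with
    | zero => exact ⟨x, x1, x2, by simpa using x3⟩
    | succ n ih => rw [pow_succ]; exact d3 _ _ ih hb
  have sq : ∀ η, Ph M v η → η ≠ 0 → ∃ κ, κ ≠ 0 ∧ κ ^ 2 * φ a = η a ∧ ∃ t : Dual K V → Dual K V, t φ = η ∧
      (∀ φ, Ph M v φ → Ph M v (t φ) ∧ t φ a = κ ^ 2 * φ a) ∧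
      ∀ φ e, Ph M v φ → Ph M v e → e a • (t φ - κ • φ) = φ a • (t e - κ • e) := fun η h h' => by
    have : CharP K 2 := (CharP.charP_iff_prime_eq_zero Nat.prime_two).2 h2
    have c1 := FiniteField.even_card_of_char_two (ringChar.eq K 2)
    have c2 := Fintype.one_lt_card (α := K)
    have e : ((η a * φ a ^ (Fintype.card K - 2)) ^ (Fintype.card K / 2)) ^ 2 * φ a = η a := by
      rw [← pow_mul, show Fintype.card K / 2 * 2 = Fintype.card K by omega, FiniteField.pow_card, mul_assoc, ← pow_succ,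
        show Fintype.card K - 2 + 1 = Fintype.card K - 1 by omega, FiniteField.pow_card_sub_one_eq_one _ n1, mul_one]
    have e0 : (η a * φ a ^ (Fintype.card K - 2)) ^ (Fintype.card K / 2) ≠ 0 :=
      pow_ne_zero _ (mul_ne_zero (fun e => h' (hN _ _ h z0 e)) (pow_ne_zero _ n1))
    obtain ⟨t, t1, t2⟩ := th _ e0 (pw _ (d3 _ _ (tv _ h) (pw _ (tv _ p1) _)) _)
    exact ⟨_, e0, e, t, hN _ _ (t1 _ p1).1 h ((t1 _ p1).2.trans e), t1, t2⟩
  obtain ⟨μ, m0, m1, s, s1, s2, s3⟩ := sq ψ p2 fun e => n2 (by simp [e])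
  obtain ⟨z, z1, z2, z3⟩ := two_ker hd φ ψ v
  refine z1 (hL fun η h => by_contra fun e => ?_)
  obtain ⟨κ, -, k1, t, t1, t2, t3⟩ := sq η h fun e' => e (by simp [e'])
  have a1 := LinearMap.congr_fun (t3 ψ φ p2 p1) z
  have a2 := LinearMap.congr_fun (s3 η φ h p1) z
  rw [hN _ _ (t2 _ p2).1 (s2 _ h).1 (by rw [(t2 _ p2).2, (s2 _ h).2, ← m1, ← k1]; ring), t1, ← m1] at a1
  simp only [s1, LinearMap.smul_apply, LinearMap.sub_apply, z2, z3, smul_eq_mul] at a1 a2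
  have : μ ≠ 1 := by rintro rfl; exact n3 (by simpa using m1.symm)
  exact mul_ne_zero (mul_ne_zero (mul_ne_zero n1 m0) (sub_ne_zero.2 this)) e (by linear_combination a2 - a1)

theorem two_gen {L S : Submodule K V} (hL : finrank K L = 2) {a b : V} (ha : a ∈ L) (hb : b ∈ L) (a0 : a ≠ 0)
    (h : b ∉ K ∙ a) (ha' : a ∈ S) (hb' : b ∈ S) : L ≤ S := by
  have : FiniteDimensional K L := .of_finrank_eq_succ hL
  have i : LinearIndependent K ![a, b] := (LinearIndependent.pair_iff' a0).2 fun c e =>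
    h (Submodule.mem_span_singleton.2 ⟨c, e⟩)
  have k : ∀ S : Submodule K V, a ∈ S → b ∈ S → Submodule.span K (Set.range ![a, b]) ≤ S := fun S x y =>
    Submodule.span_le.2 (by simp [Set.insert_subset_iff, x, y])
  rw [← Submodule.eq_of_le_of_finrank_eq (k L ha hb) (by rw [finrank_span_eq_card i, hL]; rfl)]
  exact k S ha' hb'

theorem planes {I : Type*} [FiniteDimensional K V] (L : I → Submodule K V) (i₁ : I) (h1 : ∀ i, finrank K (L i) = 2)
    (h2 : ∀ i j, ∃ x, x ≠ 0 ∧ x ∈ L i ∧ x ∈ L j) (h3 : ∀ x, x ≠ 0 → ∃ i, x ∉ L i)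
    (h4 : ∀ S : Submodule K V, finrank K S ≤ 3 → ∃ i, ¬ L i ≤ S) : False := by
  obtain ⟨x, x0, x1, -⟩ := h2 i₁ i₁
  obtain ⟨i₂, x2⟩ := h3 x x0
  obtain ⟨y, y0, y1, y2⟩ := h2 i₁ i₂
  have k : ∀ i, y ∉ L i → L i ≤ L i₁ ⊔ L i₂ := fun i hi => by
    obtain ⟨a, a0, a1, a2⟩ := h2 i i₁
    obtain ⟨b, b0, b1, b2⟩ := h2 i i₂
    refine two_gen (h1 i) b1 a1 b0 (fun e => hi (by_contra fun e' => ?_)) (Submodule.mem_sup_right b2)
      (Submodule.mem_sup_left a2)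
    exact x2 (two_gen (h1 i₁) a2 y1 a0 (fun h => e' ((Submodule.span_singleton_le_iff_mem _ _).2 a1 h))
      ((Submodule.span_singleton_le_iff_mem _ _).2 b2 e) y2 x1)
  obtain ⟨i₃, y3⟩ := h3 y y0
  obtain ⟨i₄, y4⟩ := h4 (L i₁ ⊔ L i₂) (by
    have := Submodule.finrank_sup_add_finrank_inf_eq (L i₁) (L i₂)
    have := Submodule.one_le_finrank_iff.2 ((Submodule.ne_bot_iff (L i₁ ⊓ L i₂)).2 ⟨y, ⟨y1, y2⟩, y0⟩)
    have := h1 i₁
    have := h1 i₂
    omega)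
  obtain ⟨z, z0, z1, z2⟩ := h2 i₃ i₄
  exact y4 (two_gen (h1 i₄) z2 (not_not.1 fun e => y4 (k _ e)) z0
    (fun h => y3 ((Submodule.span_singleton_le_iff_mem _ _).2 z1 h)) (k _ y3 z1) (Submodule.mem_sup_left y1))

theorem rk_le (hd : finrank K V = 4) (hb : Big M v) : finrank K (Lk M v) ≤ 2 := by
  have : FiniteDimensional K V := .of_finrank_eq_succ hd
  obtain ⟨φ, ψ, p1, p2, p3, p4⟩ := hb
  have a := Module.Dual.finrank_ker_add_one_of_ne_zero p3
  have b : Lk M v < LinearMap.ker φ := lt_of_le_of_ne (fun x hx => hx _ p1) fun e => p4 (by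
    have := mem_span_of_iInf_ker_le_ker (L := fun _ : Unit => φ) (K := ψ) (by
      rw [iInf_const]; exact fun x hx => (e.ge hx) _ p2)
    rw [Set.range_const, Submodule.mem_span_singleton] at this
    exact this.imp fun _ => Eq.symm)
  have := Submodule.finrank_lt_finrank_of_lt b
  omega

theorem good [Finite K] (h : Hy M) (hb : Big M v) (v0 : v ≠ 0) : Lk M v ≤ K ∙ v := by
  have : FiniteDimensional K V := .of_finrank_eq_succ h.dim
  by_contra hn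
  have a1 : ∀ g : M, finrank K (Lk M (g.1 v)) = 2 := fun g => le_antisymm (rk_le h.dim (hb.map g.2)) (by
    obtain ⟨x, x1, x2⟩ := SetLike.not_le_iff_exists.1 hn
    have := Submodule.finrank_lt_finrank_of_lt (lt_of_le_of_ne ((Submodule.span_singleton_le_iff_mem _ _).2
      (self_mem (M := M) (v := g.1 v))) fun e => x2 (by
        obtain ⟨c, hc⟩ := Submodule.mem_span_singleton.1 (e.ge ((lk_map g.2).2 x1))
        exact Submodule.mem_span_singleton.2 ⟨c, g.1.injective (by simpa using hc)⟩))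
    rwa [finrank_span_singleton (by simpa using v0)] at this)
  refine planes (fun g : M => Lk M (g.1 v)) 1 a1 (fun g g' => ?_) (fun x x0 => ?_) fun S hS => ?_
  · by_cases e : g.1 v ∈ Lk M (g'.1 v)
    · exact ⟨_, by simpa using v0, self_mem, e⟩
    obtain ⟨χ, c⟩ := not_forall.1 e
    obtain ⟨c1, c2⟩ := _root_.not_imp.1 c
    obtain ⟨η, e0, e1, e2⟩ : ∃ η : Dual K V, η ≠ 0 ∧ (∀ x ∈ Lk M (g.1 v), η x = 0) ∧ ∀ x ∈ Lk M (g'.1 v), η x = 0 := by
      by_cases hN : ∀ φ, Ph M (g.1 v) φ → φ (g'.1 v) = 0 → φ = 0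
      · exact (dick h.dim (hb.map g.2) c1 c2 hN).2
      · simp only [not_forall] at hN
        obtain ⟨φ, p1, p2, p3⟩ := hN
        exact ⟨φ, p3, fun x hx => hx _ p1, fun x hx => by simpa [c2] using hx _ (p1.comm c1 p2)⟩
    have b1 := Submodule.finrank_sup_add_finrank_inf_eq (Lk M (g.1 v)) (Lk M (g'.1 v))
    have b2 := Submodule.finrank_mono (sup_le (show Lk M (g.1 v) ≤ LinearMap.ker η from e1) e2)
    have b3 := Module.Dual.finrank_ker_add_one_of_ne_zero e0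
    rw [a1, a1] at b1
    obtain ⟨x, x1, x2⟩ := (Submodule.ne_bot_iff _).1 (Submodule.one_le_finrank_iff.1
      (show 1 ≤ finrank K (Lk M (g.1 v) ⊓ Lk M (g'.1 v) :) by have := h.dim; omega))
    exact ⟨x, x2, x1⟩
  · by_contra! e
    rcases h.irr (⨅ g : M, Lk M (g.1 v)) (fun g hg x hx => (Submodule.mem_iInf _).2 fun g' => by
      have := (lk_map hg).2 ((Submodule.mem_iInf _).1 hx (⟨g, hg⟩⁻¹ * g'))
      simpa using this) with e' | e'
    · exact x0 ((Submodule.mem_bot K).1 (e' ▸ (Submodule.mem_iInf _).2 e))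
    · have := Submodule.finrank_mono (e'.ge.trans (iInf_le _ 1))
      rw [a1, finrank_top, h.dim] at this
      omega
  · by_contra! e
    rcases h.irr (Submodule.span K (Set.range fun g : M => g.1 v)) (fun g hg x hx =>
      (Submodule.span_le (p := (Submodule.span K _).comap (g : V →ₗ[K] V))).2
        (by rintro _ ⟨g', rfl⟩; exact Submodule.subset_span ⟨⟨g, hg⟩ * g', rfl⟩) hx) with e' | e'
    · exact v0 ((Submodule.mem_bot K).1 (e' ▸ Submodule.subset_span ⟨1, rfl⟩))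
    · have := Submodule.finrank_mono (e'.ge.trans (Submodule.span_le.2 (by rintro _ ⟨g, rfl⟩; exact e g self_mem)))
      rw [finrank_top, h.dim] at this
      omega

end Cfsg.Agent.H2.TL
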