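import Cfsg.Agent.H8.U5Defs

/-!
Groups generated by unitary transvections in dimension five: triangles and full root groups.
-/

set_option autoImplicit false
set_option linter.unusedSectionVars false
set_option linter.unusedVariables false

namespace Cfsg.Agent.H2.U5G

open Module Subgroup Cfsg.Agent.Form Cfsg.Agent.H7 Cfsg.Agent.H6.SU Cfsg.Agent.H8.U5

/-- an alternating matrix of odd size is singular -/
theorem det_alt {n : ℕ} (hn : Odd n) {R : Type*} [CommRing R] (A : Matrix (Fin n) (Fin n) R)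
    (h1 : ∀ i j, A j i = -A i j) (h2 : ∀ i, A i i = 0) : A.det = 0 := by
  classical
  let A' : Matrix (Fin n) (Fin n) (MvPolynomial (Fin n × Fin n) ℤ) := Matrix.of fun i j =>
    if i < j then MvPolynomial.X (i, j) else if j < i then -MvPolynomial.X (j, i) else 0
  have e1 : A'.transpose = -A' := by
    ext1 i j
    simp only [A', Matrix.transpose_apply, Matrix.neg_apply, Matrix.of_apply]
    rcases lt_trichotomy i j with h | h | h
    · simp [h, h.not_gt]
    · simp [h]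
    · simp [h, h.not_gt]
  have e2 : A'.det = 0 := by
    have := Matrix.det_transpose A'
    rw [e1, Matrix.det_neg, Fintype.card_fin, hn.neg_one_pow] at this
    have h3 : (2 : MvPolynomial (Fin n × Fin n) ℤ) * A'.det = 0 := by linear_combination -this
    exact (mul_eq_zero.1 h3).resolve_left two_ne_zero
  let φ : MvPolynomial (Fin n × Fin n) ℤ →+* R :=
    MvPolynomial.eval₂Hom (Int.castRingHom R) fun p => A p.1 p.2
  have e3 : A = φ.mapMatrix A' := by
    ext i j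
    simp only [A', RingHom.mapMatrix_apply, Matrix.map_apply, Matrix.of_apply]
    rcases lt_trichotomy i j with h | h | h
    · simp [h, φ]
    · simp [h, h2]
    · simp [h, h.not_gt, φ, h1 j i]
  rw [e3, ← RingHom.map_det, e2, map_zero]

variable {F : Type*} [Field F] {σ : F →+* F} {hσ : ∀ a, σ (σ a) = a}
  {V : Type*} [AddCommGroup V] [Module F V] {S : PQ (FP.unit σ hσ) V} {M : Subgroup (V ≃ₗ[F] V)} {q : ℕ}
  [Finite F] [FiniteDimensional F V]

/-- no spanning set on which the form is alternating -/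
theorem not_alt (hS : S.Nondeg) (h5 : Odd (finrank F V)) (A : Set V) (hA : Submodule.span F A = ⊤)
    (h1 : ∀ x ∈ A, ∀ y ∈ A, S.B y x = -S.B x y) (h2 : ∀ x ∈ A, S.B x x = 0) : False := by
  classical
  obtain ⟨b, hb, hsp, hli⟩ := exists_linearIndependent F A
  rw [hA] at hsp
  let B0 : Basis b F V := Basis.mk hli (by simp [hsp])
  let B1 : Basis (Fin (finrank F V)) F V := B0.reindex (B0.indexEquiv (finBasis F V))
  have hm : ∀ i, B1 i ∈ A := fun i => by
    simp only [B1, B0, Basis.reindex_apply, Basis.mk_apply]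
    exact hb (Subtype.prop _)
  let G : Matrix (Fin (finrank F V)) (Fin (finrank F V)) F := fun i j => S.B (B1 i) (B1 j)
  have hd : G.det = 0 := det_alt h5 G (fun i j => h1 _ (hm i) _ (hm j)) fun i => h2 _ (hm i)
  obtain ⟨c, hc0, hc⟩ := Matrix.exists_vecMul_eq_zero_iff.2 hd
  have hx : ∑ i, c i • B1 i = 0 := by
    refine hS _ fun y => ?_
    have k : ∀ j, S.B (∑ i, c i • B1 i) (B1 j) = 0 := fun j => by
      have := congrFun hc j
      simp only [Matrix.vecMul, dotProduct, G, Pi.zero_apply] at this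
      rw [← this, ← S.lin_apply, map_sum]
      simp
    have : (∑ i, c i • B1 i) ∈ S.perp (Submodule.span F (Set.range B1)) :=
      S.mem_perp_span.2 (by rintro _ ⟨j, rfl⟩; exact k j)
    exact this y (by rw [B1.span_eq]; trivial)
  exact hc0 (funext (Fintype.linearIndependent_iff.1 B1.linearIndependent c hx))

theorem finrank_sup_perp {U W : Submodule F V} (hU : S.NondegOn U) (h : W ≤ S.perp U) :
    finrank F (U ⊔ W : Submodule F V) = finrank F U + finrank F W := by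
  have h1 := Submodule.finrank_sup_add_finrank_inf_eq U W
  have h2 : U ⊓ W = ⊥ := (((S.nondegOn_iff_disjoint U).1 hU).mono_right h).eq_bot
  rw [h2, finrank_bot] at h1
  omega

/-- the neighbours of a vertex span the space -/
theorem span_nbr (h : Un S q) (hM : M ≤ S.isom) (hi : Irr2 M) (D : Set V)
    (h0 : ∀ d ∈ D, S.B d d = 0) (h1 : ∀ d ∈ D, ∃ c, c ≠ 0 ∧ c + σ c = 0 ∧ HT S M d c)
    (h2 : ∀ g ∈ M, ∀ d ∈ D, g d ∈ D) {d e : V} (hd : d ∈ D) (he : e ∈ D) (hde : S.B d e ≠ 0) :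
    Submodule.span F {y | y ∈ D ∧ S.B y d ≠ 0} = ⊤ := by
  set Y := Submodule.span F {y | y ∈ D ∧ S.B y d ≠ 0} with hY
  have hed := ne_swap hde
  have heY : e ∈ Y := Submodule.subset_span ⟨he, hed⟩
  have hdY : d ∈ Y := by
    obtain ⟨c, c0, -, g, hg, eg⟩ := h1 e he
    have m : g d ∈ Y := Submodule.subset_span ⟨h2 g hg d hd, by
      rw [eg]; simp [h0 d hd, c0, hde, hed]⟩
    have := Y.sub_mem m (Y.smul_mem (c * S.B d e) heY)
    rwa [eg, add_sub_cancel_right] at this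
  have dich : ∀ z ∈ D, z ∈ Y ∨ z ∈ S.perp Y := by
    intro z hz
    by_cases hzd : S.B z d = 0
    swap
    · exact Or.inl (Submodule.subset_span ⟨hz, hzd⟩)
    by_cases hzY : z ∈ Y
    · exact Or.inl hzY
    right
    refine S.mem_perp_span.2 fun y hy => ?_
    by_contra hne
    obtain ⟨c, c0, -, g, hg, eg⟩ := h1 z hz
    have m : g y ∈ Y := Submodule.subset_span ⟨h2 g hg y hy.1, by
      rw [eg]; simpa [hzd] using hy.2⟩
    have m2 := Y.sub_mem m (Submodule.subset_span hy)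
    rw [eg, add_sub_cancel_left] at m2
    exact hzY ((Y.smul_mem_iff (mul_ne_zero c0 (ne_swap hne))).1 m2)
  have key : ∀ g ∈ M, (∀ y ∈ Y, g y ∈ Y) ∨ ∀ y ∈ Y, g y ∈ S.perp Y := by
    intro g hg
    have hg' := hM hg
    have red : ∀ W : Submodule F V, (∀ y, y ∈ D → S.B y d ≠ 0 → g y ∈ W) → ∀ y ∈ Y, g y ∈ W := by
      intro W hW y hy
      have : Y ≤ W.comap (g : V →ₗ[F] V) := Submodule.span_le.2 fun y hy => hW y hy.1 hy.2
      exact this hy
    rcases dich _ (h2 g hg d hd) with k | k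
    · refine Or.inl (red _ fun y hy hyd => ?_)
      refine (dich _ (h2 g hg y hy)).resolve_right fun k' => hyd ?_
      rw [← PQ.B_isom hg']; exact k' _ k
    · refine Or.inr (red _ fun y hy hyd => ?_)
      refine (dich _ (h2 g hg y hy)).resolve_left fun k' => hyd ?_
      rw [← PQ.B_isom hg']; exact S.B_comm_zero (k _ k')
  refine hi Y (fun hb => ?_) fun g hg y hy => ?_
  · rw [hb, Submodule.mem_bot] at hdY
    simp [hdY] at hde
  rcases key g hg with k | k
  · exact k _ (k _ hy)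
  rcases key (g * g) (M.mul_mem hg hg) with k2 | k2
  · exact k2 y hy
  exfalso
  have hg' := hM hg
  have sp : ∀ x ∈ M, S.NondegOn (Submodule.span F {x d, x e}) ∧
      finrank F (Submodule.span F {x d, x e}) = 2 := fun x hx => by
    have a1 : S.Sing (x d) := sing (h0 _ (h2 x hx d hd))
    have a2 : S.Sing (x e) := sing (h0 _ (h2 x hx e he))
    have a3 : S.B (x d) (x e) ≠ 0 := by rwa [PQ.B_isom (hM hx)]
    exact ⟨S.nondegOn_span_pair a1 a2 a3, S.finrank_span_pair_of_hyperbolic a1 a3⟩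
  obtain ⟨n1, f1⟩ := sp 1 M.one_mem
  obtain ⟨n2, f2⟩ := sp g hg
  obtain ⟨n3, f3⟩ := sp (g * g) (M.mul_mem hg hg)
  have pp : ∀ x x' : V ≃ₗ[F] V, (∀ y ∈ Y, ∀ y' ∈ Y, S.B (x y) (x' y') = 0) →
      Submodule.span F {x d, x e} ≤ S.perp (Submodule.span F {x' d, x' e}) := by
    intro x x' hx
    refine Submodule.span_le.2 ?_
    rintro _ (rfl | rfl) <;> refine S.mem_perp_span.2 ?_ <;> rintro _ (rfl | rfl) <;> apply hx <;>
      assumption
  have p21 := pp g 1 fun y hy y' hy' => k y hy y' hy'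
  have p31 := pp (g * g) 1 fun y hy y' hy' => k2 y hy y' hy'
  have p32 := pp (g * g) g fun y hy y' hy' => by
    rw [LinearEquiv.mul_apply, PQ.B_isom hg']; exact k y hy y' hy'
  have r1 := finrank_sup_perp n1 p21
  have r2 := finrank_sup_perp (n1.sup n2 p21) (W := Submodule.span F {(g * g) d, (g * g) e})
    (by rw [S.perp_sup]; exact le_inf p31 p32)
  have r3 := Submodule.finrank_le (Submodule.span F {(1 : V ≃ₗ[F] V) d, (1 : V ≃ₗ[F] V) e} ⊔
    Submodule.span F {g d, g e} ⊔ Submodule.span F {(g * g) d, (g * g) e})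
  rw [h.dim] at r3
  omega

theorem exists_edge (h : Un S q) (hi : Irr2 M) (D : Set V) (hD : ∃ d ∈ D, d ≠ 0)
    (h2 : ∀ g ∈ M, ∀ d ∈ D, g d ∈ D) : ∃ d ∈ D, ∃ e ∈ D, S.B d e ≠ 0 := by
  by_contra hc
  push Not at hc
  obtain ⟨d, hd, hd0⟩ := hD
  have ht : Submodule.span F D = ⊤ := by
    refine hi _ (fun hb => hd0 ?_) fun g hg y hy => ?_
    · have : d ∈ Submodule.span F D := Submodule.subset_span hd
      rwa [hb, Submodule.mem_bot] at this
    · have : Submodule.span F D ≤ (Submodule.span F D).comap ((g * g : V ≃ₗ[F] V) : V →ₗ[F] V) :=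
        Submodule.span_le.2 fun y hy => Submodule.subset_span (h2 _ (M.mul_mem hg hg) y hy)
      exact this hy
  refine hd0 (h.nd d fun y => ?_)
  have : d ∈ S.perp (Submodule.span F D) := S.mem_perp_span.2 fun u hu => hc d hd u hu
  exact this y (by rw [ht]; trivial)

/-- a triangle with non-zero trace at a prescribed vertex -/
theorem GT' (h : Un S q) (hM : M ≤ S.isom) (hi : Irr2 M) (D : Set V)
    (h0 : ∀ d ∈ D, S.B d d = 0) (h1 : ∀ d ∈ D, ∃ c, c ≠ 0 ∧ c + σ c = 0 ∧ HT S M d c)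
    (h2 : ∀ g ∈ M, ∀ d ∈ D, g d ∈ D) {d e : V} (hd : d ∈ D) (he : e ∈ D) (hde : S.B d e ≠ 0) :
    ∃ e ∈ D, ∃ y ∈ D, S.B d e ≠ 0 ∧
      S.B d e * S.B e y * S.B y d + σ (S.B d e * S.B e y * S.B y d) ≠ 0 := by
  by_contra hc
  push Not at hc
  have hY := span_nbr h hM hi D h0 h1 h2 hd he hde
  obtain ⟨δ, δ0, hδ⟩ := exists_tr_zero h.ne hσ
  refine not_alt h.nd (by rw [h.dim]; decide)
    {x | ∃ y ∈ D, S.B y d ≠ 0 ∧ x = (δ / S.B y d) • y} ?_ ?_ ?_
  · rw [eq_top_iff, ← hY, Submodule.span_le]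
    rintro y ⟨hy, hyd⟩
    exact (Submodule.smul_mem_iff _ (div_ne_zero δ0 hyd)).1 (Submodule.subset_span ⟨y, hy, hyd, rfl⟩)
  · rintro _ ⟨y, hy, hyd, rfl⟩ _ ⟨z, hz, hzd, rfl⟩
    have k := hc y hy z hz (ne_swap hyd)
    have hσδ : σ δ = -δ := by linear_combination hδ
    have a1 := ne_swap hyd
    have a2 := ne_swap hzd
    simp only [map_mul, Bs] at k
    simp only [PQ.B_smul_left, Bsr, map_div₀, hσδ, Bs]
    field_simp
    linear_combination -k
  · rintro _ ⟨y, hy, hyd, rfl⟩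
    simp [h0 y hy]

theorem GT (h : Un S q) (hM : M ≤ S.isom) (hi : Irr2 M) (D : Set V) (hD : ∃ d ∈ D, d ≠ 0)
    (h0 : ∀ d ∈ D, S.B d d = 0) (h1 : ∀ d ∈ D, ∃ c, c ≠ 0 ∧ c + σ c = 0 ∧ HT S M d c)
    (h2 : ∀ g ∈ M, ∀ d ∈ D, g d ∈ D) :
    ∃ d ∈ D, ∃ e ∈ D, ∃ y ∈ D, S.B d e ≠ 0 ∧
      S.B d e * S.B e y * S.B y d + σ (S.B d e * S.B e y * S.B y d) ≠ 0 := by
  obtain ⟨d, hd, e, he, hde⟩ := exists_edge h hi D hD h2
  exact ⟨d, hd, GT' h hM hi D h0 h1 h2 hd he hde⟩

/-- a fixed element other than `0, 1` -/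
theorem exists_real (h : Un S q) (hq : 3 ≤ q) : ∃ a : F, σ a = a ∧ a ≠ 0 ∧ a ≠ 1 := by
  classical
  have := Fintype.ofFinite F
  by_contra hc
  push Not at hc
  have hN : ∀ a : F, a ≠ 0 → a ^ (q + 1) = 1 := fun a ha => by
    have := hc (a * σ a) (by rw [map_mul, hσ, mul_comm]) (mul_ne_zero ha (σ_ne ha))
    rw [pow_succ', ← h.pow, this]
  obtain ⟨g, hg⟩ := IsCyclic.exists_ofOrder_eq_natCard (α := Fˣ)
  have h1 : orderOf g ∣ q + 1 := orderOf_dvd_of_pow_eq_one (Units.ext (by simpa using hN g g.ne_zero))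
  rw [hg, Nat.card_units, h.card] at h1
  have h2 := Nat.le_of_dvd (by omega) h1
  have h3 : q * 3 ≤ q ^ 2 := by rw [sq]; exact Nat.mul_le_mul_left _ hq
  omega

theorem GC (h : Un S q) (hq : 3 ≤ q) (hM : M ≤ sisom S) (hi : Irr2 M) {d : V} (hd : d ≠ 0)
    (hc : Ctr S M d) : sisom S ≤ M := by
  have hM' : M ≤ S.isom := fun g hg => (hM hg).1
  obtain ⟨δ, δ0, hδ⟩ := exists_tr_zero h.ne hσ
  have h0 : ∀ d ∈ {x | Ctr S M x}, S.B d d = 0 := fun d hd => hd.1.B_self
  have h1 : ∀ d ∈ {x | Ctr S M x}, ∃ c, c ≠ 0 ∧ c + σ c = 0 ∧ HT S M d c := fun d hd =>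
    ⟨δ, δ0, hδ, Ctr.ht hd hδ⟩
  have h2 : ∀ g ∈ M, ∀ d ∈ {x | Ctr S M x}, g d ∈ {x | Ctr S M x} := fun g hg d hd =>
    Ctr.map hd hg (hM' hg)
  obtain ⟨d, hd, e, he, y, hy, hde, ht⟩ := GT h hM' hi {x | Ctr S M x} ⟨d, hc, hd⟩ h0 h1 h2
  have hed := ne_swap hde
  obtain ⟨Y, hdY, heY, hF, hY⟩ := core_of_three h.ne (exists_real h hq) hd he hy hde (by
    intro k
    apply ht
    simp only [map_mul, Bs]
    field_simp at k
    linear_combination k)
  have hsp := span_nbr h hM' hi _ h0 h1 h2 hd he hde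
  have : Y = ⊤ := by
    rw [eq_top_iff, ← hsp, Submodule.span_le]
    rintro z ⟨hz, hzd⟩
    exact (hY z hz).resolve_right fun k => hzd (k d hdY)
  rw [this] at hF
  exact hF.sisom_le h.ne h.nd (by rw [h.dim]; omega)

theorem GD (h : Un S q) (hM : M ≤ S.isom) (hT : HasT S M)
    (hO : ∀ v (a : F), S.B v v = 0 → σ a = a → a ≠ 0 → a • v ∈ Orb σ M v) :
    ∃ d, d ≠ 0 ∧ Ctr S M d := by
  obtain ⟨d, c, hd0, hd, c0, hc, ht⟩ := hT
  have k1 : ∀ a : F, σ a = a → HT S M d (a ^ 2 * c) := by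
    intro a ha
    by_cases a0 : a = 0
    · simpa [a0] using ht_zero d
    obtain ⟨g, hg, μ, hμ, e⟩ := hO d a hd ha a0
    have t1 : HT S M (μ • g d) c := HT.smul' (by simpa [hμ] using ht.conj hg (hM hg))
    rw [← e] at t1
    simpa [ha, sq] using t1.smul
  refine ⟨d, hd0, ctr_iff.2 ⟨hd, fun c' hc' => ?_⟩⟩
  let E : Subfield F :=
    { carrier := {a | σ a = a}
      mul_mem' := fun {a b} ha hb => by simp only [Set.mem_setOf_eq] at *; rw [map_mul, ha, hb]
      one_mem' := map_one σ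
      add_mem' := fun {a b} ha hb => by simp only [Set.mem_setOf_eq] at *; rw [map_add, ha, hb]
      zero_mem' := map_zero σ
      neg_mem' := fun {a} ha => by simp only [Set.mem_setOf_eq] at *; rw [map_neg, ha]
      inv_mem' := fun a ha => by simp only [Set.mem_setOf_eq] at *; rw [map_inv₀, ha] }
  have hσc : σ c = -c := by linear_combination hc
  have hσc' : σ c' = -c' := by linear_combination hc'
  have hr : c' / c ∈ E := by
    change σ (c' / c) = c' / c
    rw [map_div₀, hσc, hσc', neg_div_neg_eq]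
  have hab : ∃ a b : E, (⟨c' / c, hr⟩ : E) = a ^ 2 - b ^ 2 := by
    by_cases h2 : (2 : E) = 0
    · have hch : ringChar E = 2 := by
        have := CharP.ringChar_of_prime_eq_zero (R := E) Nat.prime_two (by exact_mod_cast h2)
        exact this
      obtain ⟨a, ha⟩ := FiniteField.isSquare_of_char_two hch (⟨c' / c, hr⟩ : E)
      exact ⟨a, 0, by rw [ha]; ring⟩
    · exact ⟨(⟨c' / c, hr⟩ + 1) / 2, (⟨c' / c, hr⟩ - 1) / 2, by field_simp; ring⟩
  obtain ⟨a, b, e⟩ := hab
  have e' : c' / c = (a : F) ^ 2 - (b : F) ^ 2 := by simpa using congrArg Subtype.val e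
  have := (k1 a a.2).sub (k1 b b.2) hd
  convert this using 1
  rw [← sub_mul, ← e', div_mul_cancel₀ _ c0]

end Cfsg.Agent.H2.U5G
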