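import Cfsg.Agent.H2.U5G1
import Cfsg.Agent.H9.FOrd
import Cfsg.Agent.H1.Basic

/-!
Large orbits on non-singular vectors force a transvection in dimension five.
-/

set_option autoImplicit false
set_option linter.unusedSectionVars false
set_option linter.unusedVariables false

namespace Cfsg.Agent.H2.U5G

open Module Subgroup Cfsg.Agent.Form Cfsg.Agent.H7 Cfsg.Agent.H6.SU Cfsg.Agent.H8.U5

universe u v

variable {F : Type u} [Field F] {σ : F →+* F} {hσ : ∀ a, σ (σ a) = a}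
  {V : Type v} [AddCommGroup V] [Module F V] {S : PQ (FP.unit σ hσ) V} {M : Subgroup (V ≃ₗ[F] V)} {q : ℕ}
  [Finite F] [FiniteDimensional F V]

theorem exists_fix_mod {p : ℕ} [Fact p.Prime] [CharP F p] {P : Subgroup (V ≃ₗ[F] V)} [Finite P]
    (hP : IsPGroup p P) {U W : Submodule F V} (hU : ∀ s ∈ P, ∀ x ∈ U, s x ∈ U)
    (hW : ∀ s ∈ P, ∀ x ∈ W, s x ∈ W) (hne : ¬ W ≤ U) :
    ∃ x ∈ W, x ∉ U ∧ ∀ s ∈ P, s x - x ∈ U := by
  let ρ : Representation F P V := Representation.ofDistribMulAction F P V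
  have hρ : ∀ (s : P) x, ρ s x = s.1 x := fun _ _ => rfl
  let ρ' := ρ.quotient U fun s x hx => hU s.1 s.2 x hx
  have hρ' : ∀ (s : P) x, ρ' s (U.mkQ x) = U.mkQ (s.1 x) := fun _ _ => rfl
  obtain ⟨v, hv, hv0, hf⟩ := H1.Basic.exists_fixed_vector hP ρ' (W.map U.mkQ)
    (by rintro s _ ⟨x, hx, rfl⟩; exact ⟨_, hW s.1 s.2 x hx, (hρ' s x).symm⟩)
    (fun hb => hne fun x hx => by
      have : U.mkQ x ∈ W.map U.mkQ := ⟨x, hx, rfl⟩
      rw [hb, Submodule.mem_bot] at this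
      simpa using this)
  obtain ⟨x, hx, rfl⟩ := hv
  refine ⟨x, hx, fun h => hv0 (by simpa using h), fun s hs => ?_⟩
  have := hf ⟨s, hs⟩
  rw [hρ'] at this
  exact (Submodule.Quotient.eq U).1 this

theorem perp_inv {P : Subgroup (V ≃ₗ[F] V)} (hi : P ≤ S.isom) {U : Submodule F V}
    (hU : ∀ s ∈ P, ∀ x ∈ U, s x ∈ U) : ∀ s ∈ P, ∀ x ∈ S.perp U, s x ∈ S.perp U := by
  intro s hs x hx u hu
  have := hx _ (hU _ (P.inv_mem hs) u hu)
  rw [← PQ.B_isom (hi hs)] at this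
  simpa using this

theorem flag_step {p : ℕ} [Fact p.Prime] [CharP F p] {P : Subgroup (V ≃ₗ[F] V)} [Finite P]
    (hP : IsPGroup p P) (hi : P ≤ S.isom) (hne : ∃ a, σ a ≠ a) (hS : S.Nondeg) {U : Submodule F V}
    (hU : ∀ s ∈ P, ∀ x ∈ U, s x ∈ U) (ht : U ≤ S.perp U) (hd : 2 * finrank F U + 2 ≤ finrank F V) :
    ∃ x ∈ S.perp U, x ∉ U ∧ S.B x x = 0 ∧ ∀ s ∈ P, s x - x ∈ U := by
  let V1 : Submodule F V :=
    { carrier := {x | x ∈ S.perp U ∧ ∀ s ∈ P, s x - x ∈ U}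
      zero_mem' := ⟨Submodule.zero_mem _, fun s _ => by simp⟩
      add_mem' := fun {a b} ha hb => ⟨add_mem ha.1 hb.1, fun s hs => by
        have := U.add_mem (ha.2 s hs) (hb.2 s hs)
        convert this using 1; rw [map_add]; abel⟩
      smul_mem' := fun c a ha => ⟨Submodule.smul_mem _ _ ha.1, fun s hs => by
        have := U.smul_mem c (ha.2 s hs)
        rwa [smul_sub, ← map_smul] at this⟩ }
  have hUV : U ≤ V1 := fun x hx => ⟨ht hx, fun s hs => U.sub_mem (hU s hs x hx) hx⟩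
  have hV1 : ∀ s ∈ P, ∀ x ∈ V1, s x ∈ V1 := fun s hs x hx => by
    have := V1.add_mem (hUV (hx.2 s hs)) hx
    rwa [sub_add_cancel] at this
  by_cases h1 : S.perp V1 ≤ U
  · have h2 : S.perp U ≤ V1 := by
      rw [← hS.perp_perp V1]; exact S.perp_anti h1
    obtain ⟨C, hC⟩ := Submodule.exists_isCompl U
    have r1 := hS.finrank_perp U
    have r2 := Submodule.finrank_sup_add_finrank_inf_eq (S.perp U) C
    have r3 := Submodule.finrank_add_eq_of_isCompl hC
    have r4 := Submodule.finrank_le (S.perp U ⊔ C)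
    obtain ⟨e, he, he0, hs⟩ := (trP hne).exists_sing_of_two_le S (S.perp U ⊓ C) (by omega)
    exact ⟨e, he.1, fun h => he0 ((Submodule.disjoint_def.1 hC.disjoint) e h he.2), hs.B_self,
      (h2 he.1).2⟩
  · obtain ⟨x, hx, hxU, hf⟩ := exists_fix_mod hP hU (perp_inv hi hV1) h1
    have hx' : x ∈ S.perp U := S.perp_anti hUV hx
    exact ⟨x, hx', hxU, hx x ⟨hx', hf⟩, hf⟩

/-- an invariant flag -/
structure Flg (S : PQ (FP.unit σ hσ) V) (P : Subgroup (V ≃ₗ[F] V)) (e₁ e₂ w : V) : Prop where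
  iso : P ≤ S.isom
  li : ∀ a b : F, a • e₁ + b • e₂ = 0 → a = 0 ∧ b = 0
  ts : ∀ x ∈ Submodule.span F {e₁, e₂}, ∀ y ∈ Submodule.span F {e₁, e₂}, S.B x y = 0
  wp : ∀ y ∈ Submodule.span F {e₁, e₂}, S.B w y = 0
  ww : S.B w w ≠ 0
  pp : ∀ x ∈ S.perp (Submodule.span F {e₁, e₂}), ∃ c : F, x - c • w ∈ Submodule.span F {e₁, e₂}
  f1 : ∀ s ∈ P, s e₁ = e₁
  f2 : ∀ s ∈ P, ∃ l : F, s e₂ = e₂ + l • e₁
  f3 : ∀ s ∈ P, ∃ a b : F, s w = w + (a • e₁ + b • e₂)

theorem exists_flg {p : ℕ} [Fact p.Prime] [CharP F p] {P : Subgroup (V ≃ₗ[F] V)} [Finite P]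
    (h : Un S q) (hP : IsPGroup p P) (hi : P ≤ S.isom) : ∃ e₁ e₂ w, Flg S P e₁ e₂ w := by
  obtain ⟨e₁, -, n1, s1, f1⟩ := flag_step hP hi h.ne h.nd (U := ⊥) (by simp) bot_le
    (by rw [h.dim]; simp)
  rw [Submodule.mem_bot] at n1
  have f1' : ∀ s ∈ P, s e₁ = e₁ := fun s hs => sub_eq_zero.1 (by simpa using f1 s hs)
  have i1 : ∀ s ∈ P, ∀ x ∈ F ∙ e₁, s x ∈ F ∙ e₁ := fun s hs x hx => by
    obtain ⟨a, rfl⟩ := Submodule.mem_span_singleton.1 hx
    rwa [map_smul, f1' s hs]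
  obtain ⟨e₂, p2, n2, s2, f2⟩ := flag_step hP hi h.ne h.nd i1 ((sing s1).ts_span.le_perp)
    (by rw [h.dim, finrank_span_singleton n1]; omega)
  have b21 : S.B e₂ e₁ = 0 := S.mem_perp_span_singleton.1 p2
  have b12 := S.B_comm_zero b21
  have f2' : ∀ s ∈ P, ∃ l : F, s e₂ = e₂ + l • e₁ := fun s hs => by
    obtain ⟨a, ha⟩ := Submodule.mem_span_singleton.1 (f2 s hs)
    exact ⟨a, by rw [ha]; abel⟩
  have li : ∀ a b : F, a • e₁ + b • e₂ = 0 → a = 0 ∧ b = 0 := fun a b hab => by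
    by_cases hb : b = 0
    · subst hb; simpa [n1] using hab
    exfalso
    refine n2 (Submodule.mem_span_singleton.2 ⟨-(a / b), ?_⟩)
    apply smul_right_injective V hb
    simp only [smul_smul]
    rw [eq_neg_of_add_eq_zero_right hab, ← neg_smul]; congr 1; field_simp
  set L := Submodule.span F {e₁, e₂} with hL
  have m1 : e₁ ∈ L := Submodule.subset_span (by simp)
  have m2 : e₂ ∈ L := Submodule.subset_span (by simp)
  have ts : ∀ x ∈ L, ∀ y ∈ L, S.B x y = 0 := fun x hx y hy => by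
    obtain ⟨a, b, rfl⟩ := Submodule.mem_span_pair.1 hx
    obtain ⟨c, d, rfl⟩ := Submodule.mem_span_pair.1 hy
    simp [s1, s2, b12, b21]
  have iL : ∀ s ∈ P, ∀ x ∈ L, s x ∈ L := fun s hs x hx => by
    obtain ⟨a, b, rfl⟩ := Submodule.mem_span_pair.1 hx
    obtain ⟨l, hl⟩ := f2' s hs
    rw [map_add, map_smul, map_smul, f1' s hs, hl]
    exact L.add_mem (L.smul_mem _ m1) (L.smul_mem _ (L.add_mem m2 (L.smul_mem _ m1)))
  have dL : finrank F L = 2 := by
    have hli : LinearIndependent F ![e₁, e₂] := LinearIndependent.pair_iff.2 li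
    have := finrank_span_eq_card hli
    rw [Matrix.range_cons, Matrix.range_cons, Matrix.range_empty, Set.union_empty] at this
    rw [hL, Set.insert_eq, this]; rfl
  have dP : finrank F (S.perp L) = 3 := by
    have := h.nd.finrank_perp L
    rw [h.dim] at this; omega
  obtain ⟨w, hw, nw, f3⟩ := exists_fix_mod hP iL (perp_inv hi iL) (fun hle => by
    have := Submodule.finrank_mono hle; omega)
  have hsup : L ⊔ F ∙ w = S.perp L := by
    refine Submodule.eq_of_le_of_finrank_le (sup_le ts (by rwa [Submodule.span_singleton_le_iff_mem])) ?_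
    have := Submodule.finrank_lt_finrank_of_lt (s := L) (t := L ⊔ F ∙ w) (lt_of_le_of_ne le_sup_left
      fun e => nw (e ▸ Submodule.mem_sup_right (Submodule.mem_span_singleton_self _)))
    omega
  have pp : ∀ x ∈ S.perp L, ∃ c : F, x - c • w ∈ L := fun x hx => by
    rw [← hsup] at hx
    obtain ⟨y, hy, z, hz, rfl⟩ := Submodule.mem_sup.1 hx
    obtain ⟨c, rfl⟩ := Submodule.mem_span_singleton.1 hz
    exact ⟨c, by simpa using hy⟩
  refine ⟨e₁, e₂, w, hi, li, ts, hw, fun h0 => nw ?_, pp, f1', f2', fun s hs => ?_⟩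
  · rw [← h.nd.perp_perp L]
    intro x hx
    obtain ⟨c, hc⟩ := pp x hx
    have := hw _ hc
    simpa [h0] using this
  · obtain ⟨a, b, hab⟩ := Submodule.mem_span_pair.1 (f3 s hs)
    exact ⟨a, b, by rw [hab]; abel⟩

section flag

variable {P : Subgroup (V ≃ₗ[F] V)} {e₁ e₂ w : V}

theorem Flg.fixL (h : Flg S P e₁ e₂ w) {s : V ≃ₗ[F] V} (hs : s ∈ P) (h2 : s e₂ = e₂) :
    ∀ y ∈ Submodule.span F {e₁, e₂}, s y = y := fun y hy => by
  obtain ⟨a, b, rfl⟩ := Submodule.mem_span_pair.1 hy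
  rw [map_add, map_smul, map_smul, h.f1 s hs, h2]

theorem Flg.act (h : Flg S P e₁ e₂ w) {s : V ≃ₗ[F] V} (hs : s ∈ P) (h2 : s e₂ = e₂) {b : V}
    (hb : b ∈ Submodule.span F {e₁, e₂}) (e : s w = w + b) (x : V) :
    ∃ y ∈ Submodule.span F {e₁, e₂}, s x = x - (S.B x b / S.B w w) • w + y := by
  have h1 : s x - x ∈ S.perp (Submodule.span F {e₁, e₂}) := fun u hu => by
    rw [PQ.B_sub_left]
    nth_rewrite 1 [← h.fixL hs h2 u hu]
    rw [PQ.B_isom (h.iso hs), sub_self]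
  obtain ⟨c, hc⟩ := h.pp _ h1
  obtain ⟨y, hy⟩ : ∃ y, y = s x - x - c • w := ⟨_, rfl⟩
  rw [← hy] at hc
  have e1 : s x = x + c • w + y := by rw [hy]; abel
  have e2 := PQ.B_isom (h.iso hs) x w
  rw [e1, e] at e2
  simp only [PQ.B_add_left, PQ.B_add_right, PQ.B_smul_left, h.wp b hb, h.ts y hc b hb,
    S.B_comm_zero (h.wp y hc)] at e2
  have e3 : c = -(S.B x b / S.B w w) := by
    have := h.ww
    field_simp
    linear_combination e2
  exact ⟨y, hc, by rw [e1, e3, neg_smul, sub_eq_add_neg x]⟩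

theorem Flg.hasT (h : Flg S P e₁ e₂ w) (hPM : P ≤ M) {b : V} (hb : b ∈ Submodule.span F {e₁, e₂})
    (hb0 : b ≠ 0) {c : F} (c0 : c ≠ 0) (hc : c + σ c = 0) {g : V ≃ₗ[F] V} (hg : g ∈ P)
    (e : ∀ x, g x = x + (c / S.B w w * S.B x b) • b) : HasT S M :=
  ⟨b, c / S.B w w, hb0, h.ts b hb b hb, div_ne_zero c0 h.ww, by
    rw [map_div₀, Bs, ← add_div, hc, zero_div], g, hPM hg, e⟩

theorem Flg.comm (h : Flg S P e₁ e₂ w) (hPM : P ≤ M) {s t : V ≃ₗ[F] V} (hs : s ∈ P) (h2 : s e₂ = e₂)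
    (ht : t ∈ P) (h2' : t e₂ = e₂) {b : V} (hb : b ∈ Submodule.span F {e₁, e₂}) (hb0 : b ≠ 0)
    {μ : F} (hμ : σ μ ≠ μ) (e : s w = w + b) (e' : t w = w + μ • b) : HasT S M := by
  have hb' := Submodule.smul_mem _ μ hb
  refine h.hasT hPM hb hb0 (c := μ - σ μ) (sub_ne_zero.2 hμ.symm) (by rw [map_sub, hσ]; ring)
    (g := (t * s)⁻¹ * (s * t)) (P.mul_mem (P.inv_mem (P.mul_mem ht hs)) (P.mul_mem hs ht)) fun x => ?_
  apply (t * s).injective
  obtain ⟨y, hy, a1⟩ := h.act hs h2 hb e x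
  obtain ⟨z, hz, a2⟩ := h.act ht h2' hb' e' x
  rw [← LinearEquiv.mul_apply, mul_inv_cancel_left]
  simp only [LinearEquiv.mul_apply, map_add, map_smul, h.fixL hs h2 b hb, h.fixL ht h2' b hb]
  rw [a2]
  conv_rhs => rw [a1]
  simp only [map_add, map_sub, map_smul, a1, a2, e, e', h.fixL hs h2 z hz, h.fixL ht h2' y hy, Bsr]
  match_scalars <;> ring

theorem Flg.sq (h : Flg S P e₁ e₂ w) (hPM : P ≤ M) (hc : (2 : F) = 0) {s : V ≃ₗ[F] V} (hs : s ∈ P)
    (h2 : s e₂ = e₂) {b : V} (hb : b ∈ Submodule.span F {e₁, e₂}) (hb0 : b ≠ 0)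
    (e : s w = w + b) : HasT S M := by
  refine h.hasT hPM hb hb0 (c := -1) (by simp) (by simp; linear_combination -hc)
    (g := s * s) (P.mul_mem hs hs) fun x => ?_
  obtain ⟨y, hy, a1⟩ := h.act hs h2 hb e x
  rw [LinearEquiv.mul_apply, a1]
  simp only [map_add, map_sub, map_smul, a1, e, h.fixL hs h2 y hy]
  have t : ∀ v : V, (2 : F) • v = 0 := fun v => by rw [hc, zero_smul]
  have := t (y - (S.B x b / S.B w w) • w)
  rw [← sub_eq_zero, ← this]
  match_scalars <;> ring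

end flag

/-- a Sylow subgroup has orbits as large as the `p`-part of the whole orbit -/
theorem exists_syl (h : Un S q) : ∃ (p : ℕ) (_ : Fact p.Prime) (_ : CharP F p) (P : Subgroup (V ≃ₗ[F] V)),
    P ≤ M ∧ IsPGroup p P ∧ (∃ k, q = p ^ k) ∧
      ∀ v k, q ^ k ∣ (Orb σ M v).ncard → q ^ k ∣ (MulAction.orbit P v).ncard := by
  classical
  have := Fintype.ofFinite F
  obtain ⟨p, hp⟩ := CharP.exists F
  obtain ⟨n, hpp, hn⟩ := FiniteField.card F p
  have : Fact p.Prime := ⟨hpp⟩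
  have : Finite V := Module.finite_of_finite F
  have : Finite (V ≃ₗ[F] V) := Finite.of_injective _ (DFunLike.coe_injective (F := V ≃ₗ[F] V))
  have hq : ∃ k, q = p ^ k := by
    have : q ∣ p ^ (n : ℕ) := by
      rw [← hn, ← Nat.card_eq_fintype_card, h.card]; exact dvd_pow_self _ two_ne_zero
    obtain ⟨k, -, e⟩ := (Nat.dvd_prime_pow hpp).1 this
    exact ⟨k, e⟩
  obtain ⟨P0⟩ : Nonempty (Sylow p M) := inferInstance
  refine ⟨p, inferInstance, hp, (P0 : Subgroup M).map M.subtype, map_subtype_le _, P0.2.map _, hq,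
    fun v k hk => ?_⟩
  set P := (P0 : Subgroup M).map M.subtype with hP
  let Z : Subgroup Fˣ :=
    { carrier := {c | (c : F) * σ c = 1}
      one_mem' := by simp
      mul_mem' := fun {a b} ha hb => by
        simp only [Set.mem_setOf_eq, Units.val_mul, map_mul] at *
        linear_combination (b * σ b) * ha + hb
      inv_mem' := fun {a} ha => by
        simp only [Set.mem_setOf_eq, Units.val_inv_eq_inv_val, map_inv₀] at *
        rw [← mul_inv, ha, inv_one] }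
  letI act : MulAction (M × Z) V :=
    { smul := fun x v => ((x.2 : Fˣ) : F) • x.1.1 v
      one_smul := fun v => by
        change (((1 : Z) : Fˣ) : F) • (1 : M).1 v = v
        simp
      mul_smul := fun x y v => by
        change (((x.2 * y.2 : Z) : Fˣ) : F) • (x.1 * y.1).1 v =
          ((x.2 : Fˣ) : F) • x.1.1 (((y.2 : Fˣ) : F) • y.1.1 v)
        simp [smul_smul] }
  have hact : ∀ (x : M × Z) (v : V), x • v = ((x.2 : Fˣ) : F) • x.1.1 v := fun _ _ => rfl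
  have ho : MulAction.orbit (M × Z) v = Orb σ M v := by
    ext w
    constructor
    · rintro ⟨x, rfl⟩
      exact ⟨x.1.1, x.1.2, _, x.2.2, hact x v⟩
    · rintro ⟨g, hg, c, hc, rfl⟩
      exact ⟨(⟨g, hg⟩, ⟨Units.mk0 c (left_ne_zero_of_mul_eq_one hc), hc⟩), rfl⟩
  have c1 := (MulAction.stabilizer (M × Z) v).index_mul_card
  rw [MulAction.index_stabilizer, ho, Nat.card_prod] at c1
  have c2 := (MulAction.stabilizer P v).index_mul_card
  rw [MulAction.index_stabilizer] at c2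
  have c3 : Nat.card (MulAction.stabilizer P v) ∣ Nat.card (MulAction.stabilizer (M × Z) v) := by
    let φ : MulAction.stabilizer P v →* MulAction.stabilizer (M × Z) v :=
      { toFun := fun s => ⟨(⟨s.1.1, map_subtype_le _ s.1.2⟩, 1), by
          rw [MulAction.mem_stabilizer_iff, hact]
          exact (one_smul F _).trans (MulAction.mem_stabilizer_iff.1 s.2)⟩
        map_one' := rfl
        map_mul' := fun a b => Subtype.ext (Prod.ext rfl (by simp)) }
    exact Subgroup.card_dvd_of_injective φ fun a b e =>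
      Subtype.ext (Subtype.ext (congrArg (fun x => x.1.1.1) e))
  have c4 : Nat.card P = Nat.card P0 := Subgroup.card_subtype _ _
  have c5 := (P0 : Subgroup M).index_mul_card
  have c6 : ¬ p ∣ (P0 : Subgroup M).index := P0.not_dvd_index
  have c7 : ¬ p ∣ Nat.card Z := fun hd => by
    have h1 := hd.trans Z.card_subgroup_dvd_card
    rw [Nat.card_units, Nat.card_eq_fintype_card, hn] at h1
    have h2 : p ∣ p ^ (n : ℕ) := dvd_pow_self _ n.ne_zero
    have h3 := (Nat.dvd_sub h2 h1)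
    rw [Nat.sub_sub_self (Nat.one_le_pow _ _ hpp.pos)] at h3
    exact hpp.one_lt.ne' (Nat.dvd_one.1 h3)
  have c8 := Nat.mul_dvd_mul hk c3
  rw [c1, ← c5, ← c4, ← c2] at c8
  have c9 : q ^ k ∣ (MulAction.orbit P v).ncard * ((P0 : Subgroup M).index * Nat.card Z) := by
    refine Nat.dvd_of_mul_dvd_mul_right (k := Nat.card (MulAction.stabilizer P v)) Nat.card_pos ?_
    convert c8 using 1; ring
  obtain ⟨j, rfl⟩ := hq
  refine Nat.Coprime.dvd_of_dvd_mul_right ?_ c9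
  refine Nat.Coprime.pow_left _ (Nat.Coprime.pow_left _ ((Nat.Prime.coprime_iff_not_dvd hpp).2 fun hd => ?_))
  exact ((Nat.Prime.dvd_mul hpp).1 hd).elim c6 c7

theorem surj_of_dvd {α β : Type*} [Finite α] [Finite β] {A : Set β} (hA : A.Nonempty) (f : α → β)
    (h1 : A ⊆ Set.range f) (h2 : Nat.card α ∣ A.ncard) : ∀ a, f a ∈ A := by
  have h3 : (Set.range f).ncard ≤ Nat.card α := by
    rw [← Set.image_univ, ← Set.ncard_univ]; exact Set.ncard_image_le
  have h4 := Nat.le_of_dvd ((Set.ncard_pos).2 hA) h2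
  have := Set.eq_of_subset_of_ncard_le h1 (h3.trans h4)
  intro a; rw [this]; exact ⟨a, rfl⟩

theorem GA (h : Un S q) (hM : M ≤ S.isom) (h2 : (2 : F) = 0)
    (hO : ∀ v, S.B v v ≠ 0 → q ^ 2 ∣ (Orb σ M v).ncard) : HasT S M := by
  by_contra hT
  have : Finite V := Module.finite_of_finite F
  have : Finite (V ≃ₗ[F] V) := Finite.of_injective _ (DFunLike.coe_injective (F := V ≃ₗ[F] V))
  obtain ⟨p, _, _, P, hPM, hP, -, hd⟩ := exists_syl (M := M) h
  obtain ⟨e₁, e₂, w, H⟩ := exists_flg h hP (hPM.trans hM)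
  have mem : ∀ a b : F, a • e₁ + b • e₂ ∈ Submodule.span F {e₁, e₂} := fun a b =>
    Submodule.mem_span_pair.2 ⟨a, b, rfl⟩
  have n1 : ∀ a : F, a • e₁ = 0 → a = 0 := fun a ha => (H.li a 0 (by simpa using ha)).1
  have k1 : ∀ s ∈ P, s e₂ = e₂ → s w = w := fun s hs e => by
    obtain ⟨a, b, hab⟩ := H.f3 s hs
    by_cases h0 : a • e₁ + b • e₂ = 0
    · rw [hab, h0, add_zero]
    · exact (hT (H.sq hPM h2 hs e (mem a b) h0 hab)).elim
  have t : ∀ v : V, (2 : F) • v = 0 := fun v => by rw [h2, zero_smul]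
  have k2 : ∀ s ∈ P, ∃ l c : F, s e₂ = e₂ + l • e₁ ∧ s w = w + c • e₁ := fun s hs => by
    obtain ⟨a, b, hab⟩ := H.f3 s hs
    obtain ⟨l, hl⟩ := H.f2 s hs
    by_cases l0 : l = 0
    · exact ⟨l, 0, hl, by rw [k1 s hs (by simpa [l0] using hl)]; simp⟩
    have a1 := k1 (s * s) (P.mul_mem hs hs) (by
      rw [LinearEquiv.mul_apply, hl, map_add, map_smul, hl, H.f1 s hs, ← sub_eq_zero, ← t (l • e₁)]
      module)
    rw [LinearEquiv.mul_apply, hab] at a1
    simp only [map_add, map_smul, hab, hl, H.f1 s hs] at a1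
    have a2 : (l * b) • e₁ = 0 := by
      rw [← sub_eq_zero] at a1
      have := t (a • e₁ + b • e₂)
      rw [← sub_eq_zero.2 (a1.trans this.symm)]
      module
    have a3 : b = 0 := (mul_eq_zero.1 (n1 _ a2)).resolve_left l0
    exact ⟨l, a, hl, by simpa [a3] using hab⟩
  have k3 : ∀ μ a : F, ∃ s ∈ P, s (w + μ • e₂) = w + μ • e₂ + a • e₁ := fun μ a => by
    have m2 : μ • e₂ ∈ Submodule.span F {e₁, e₂} := by simpa using mem 0 μ
    have hn : S.B (w + μ • e₂) (w + μ • e₂) ≠ 0 := by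
      rw [PQ.B_add_left, PQ.B_add_right, PQ.B_add_right, H.wp _ m2, H.ts _ m2 _ m2,
        S.B_comm_zero (H.wp _ m2)]
      simpa using H.ww
    obtain ⟨s, hs⟩ := surj_of_dvd (A := MulAction.orbit P (w + μ • e₂)) ⟨_, MulAction.mem_orbit_self _⟩
      (fun a : F => w + μ • e₂ + a • e₁) (by
        rintro _ ⟨s, rfl⟩
        obtain ⟨l, c, a1, a2⟩ := k2 s.1 s.2
        refine ⟨c + μ * l, ?_⟩
        change _ = s.1 _
        rw [map_add, map_smul, a1, a2]; module) (by rw [h.card]; exact hd _ 2 (hO _ hn)) a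
    exact ⟨s.1, s.2, hs⟩
  have k4 : ∀ s ∈ P, ∀ t ∈ P, s e₂ = t e₂ → s w = t w := fun s hs t ht e => by
    have := k1 (t⁻¹ * s) (P.mul_mem (P.inv_mem ht) hs) (by
      rw [LinearEquiv.mul_apply, e]; exact t.symm_apply_apply _)
    rw [LinearEquiv.mul_apply] at this
    rw [← t.apply_symm_apply (s w)]; exact congrArg t this
  obtain ⟨s₀, hs₀, e₀⟩ := k3 0 1
  obtain ⟨l₀, c₀, b1, b2⟩ := k2 s₀ hs₀
  have l0 : l₀ ≠ 0 := fun l0 => by
    rw [zero_smul, add_zero, k1 s₀ hs₀ (by simpa [l0] using b1)] at e₀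
    exact one_ne_zero (n1 1 (by simpa using e₀))
  choose s hs es using k3 (-(c₀ / l₀))
  choose l c a1 a2 using fun a => k2 (s a) (hs a)
  have k5 : ∀ a, ∀ t ∈ P, t e₂ = e₂ + l a • e₁ →
      t (w + -(c₀ / l₀) • e₂) = w + -(c₀ / l₀) • e₂ + a • e₁ := fun a t ht e => by
    rw [← es a, map_add, map_add, map_smul, map_smul, k4 t ht _ (hs a) (by rw [e, a1]), e, a1]
  have inj : Function.Injective l := fun a b e => by
    have := (k5 a _ (hs b) (by rw [a1, e])).symm.trans (es b)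
    exact sub_eq_zero.1 (n1 _ (by rw [sub_smul, sub_eq_zero]; exact add_left_cancel this))
  obtain ⟨a, ha⟩ := Finite.surjective_of_injective inj 0
  obtain ⟨b, hb⟩ := Finite.surjective_of_injective inj l₀
  have a0 : a = 0 := n1 _ (by simpa using k5 a 1 P.one_mem (by simp [ha]))
  have b0 : b = 0 := by
    have := k5 b s₀ hs₀ (by rw [hb, b1])
    rw [map_add, map_smul, b1, b2, ← sub_eq_zero] at this
    refine neg_eq_zero.1 (n1 _ ?_)
    rw [← this]
    match_scalars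
    · field_simp; ring
    · ring
    · ring
  rw [a0] at ha
  exact l0 (by rw [← hb, b0, ha])

theorem dvd_card_norm (h : Un S q) {c : F} (hc : σ c = c) (c0 : c ≠ 0) :
    q ^ 4 ∣ {v | S.B v v = c}.ncard := by
  classical
  have := Fintype.ofFinite F
  have : Finite V := Module.finite_of_finite F
  have hF : Fintype.card F = q ^ 2 := by rw [← Nat.card_eq_fintype_card, h.card]
  have h1 := H9.FCount.card_sing hF 2 h.nd
    (by rw [H9.FClass.widx_top_of_trP (trP h.ne) h.nd, h.dim])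
  rw [H9.FOrd.card_Λ_unit hF hσ h.ne, h.dim] at h1
  have h2 : Nat.card V = (q ^ 2) ^ 5 := by rw [Module.natCard_eq_pow_finrank (K := F), h.card, h.dim]
  have h3 := H9.FOrd.card_ne_zero (fun a : F => σ a = a) (map_zero σ)
  rw [(H9.FOrd.card_Λ_unit_aux hF hσ h.ne).2] at h3
  choose r hr using fun a : {a : F // σ a = a ∧ a ≠ 0} =>
    exists_norm_mul h.ne hσ hc c0 a.2.1
  have r0 : ∀ a, r a ≠ 0 := fun a e => a.2.2 (by rw [← hr a, e]; simp)
  let f : {a : F // σ a = a ∧ a ≠ 0} × {v | S.B v v = c} → {v // ¬ S.Sing v} := fun x =>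
    ⟨r x.1 • x.2.1, fun hs => x.1.2.2 (by
      have := hs.B_self
      rw [PQ.B_smul_left, Bsr, x.2.2] at this
      rw [← hr x.1, mul_assoc, this])⟩
  have fN : ∀ x, S.B (f x).1 (f x).1 = x.1.1 := fun x => by
    rw [← hr x.1, PQ.B_smul_left, Bsr, x.2.2, mul_assoc]
  have hf : Function.Bijective f := by
    constructor
    · rintro ⟨a, v⟩ ⟨b, w⟩ e
      have e1 : a = b := Subtype.ext ((fN (a, v)).symm.trans (e ▸ fN (b, w)))
      subst e1
      exact Prod.ext rfl (Subtype.ext (smul_right_injective V (r0 a) (congrArg Subtype.val e)))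
    · rintro ⟨v, hv⟩
      let a : {a : F // σ a = a ∧ a ≠ 0} := ⟨S.B v v, Bs S v v, fun e => hv (sing e)⟩
      refine ⟨(a, ⟨(r a)⁻¹ • v, ?_⟩), Subtype.ext ?_⟩
      · have := hr a
        have h0 := r0 a
        have h0' := σ_ne (σ := σ) h0
        change S.B _ _ = c
        rw [PQ.B_smul_left, Bsr, map_inv₀]
        change _ = S.B v v at this
        rw [← this]; field_simp
      · change r a • (r a)⁻¹ • v = v
        rw [smul_smul, mul_inv_cancel₀ (r0 a), one_smul]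
  have h4 := Nat.card_congr (Equiv.ofBijective f hf)
  rw [Nat.card_prod, h3, Nat.card_coe_set_eq] at h4
  have h5 := Nat.card_congr (Equiv.sumCompl S.Sing)
  rw [Nat.card_sum, h1, h2, ← h4] at h5
  have hq : 1 ≤ q := by
    have : 0 < q ^ 2 := hF ▸ Fintype.card_pos
    exact Nat.pos_of_ne_zero (by rintro rfl; simp at this)
  refine Nat.Coprime.dvd_of_dvd_mul_left (m := q - 1) ?_ ?_
  · refine Nat.Coprime.pow_left _ ?_
    obtain ⟨k, rfl⟩ : ∃ k, q = k + 1 := ⟨q - 1, by omega⟩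
    simp
  · refine (Nat.dvd_add_right (b := (q ^ 2) ^ 2 + ((q ^ 2) ^ 2 - 1) * ((q ^ 2) ^ (5 - 2 - 1) * q)) ?_).1 ?_
    · exact dvd_add ⟨1, by ring⟩ (Dvd.dvd.mul_left ⟨q, by rw [← pow_mul]⟩ _)
    · rw [h5]; exact ⟨q ^ 6, by ring⟩

theorem GB (h : Un S q) (hM : M ≤ S.isom)
    (hO : ∀ v w, S.B v v ≠ 0 → S.B w w = S.B v v → w ∈ Orb σ M v) : HasT S M := by
  classical
  by_contra hT
  have := Fintype.ofFinite F
  have hF : Fintype.card F = q ^ 2 := by rw [← Nat.card_eq_fintype_card, h.card]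
  have : Finite V := Module.finite_of_finite F
  have : Finite (V ≃ₗ[F] V) := Finite.of_injective _ (DFunLike.coe_injective (F := V ≃ₗ[F] V))
  obtain ⟨p, _, _, P, hPM, hP, -, hd⟩ := exists_syl (M := M) h
  obtain ⟨e₁, e₂, w, H⟩ := exists_flg h hP (hPM.trans hM)
  have mem : ∀ a b : F, a • e₁ + b • e₂ ∈ Submodule.span F {e₁, e₂} := fun a b =>
    Submodule.mem_span_pair.2 ⟨a, b, rfl⟩
  have n1 : ∀ a : F, a • e₁ = 0 → a = 0 := fun a ha => (H.li a 0 (by simpa using ha)).1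
  have ho : Orb σ M w = {v | S.B v v = S.B w w} := by
    ext v
    refine ⟨?_, hO w v H.ww⟩
    rintro ⟨g, hg, c, hc, rfl⟩
    change S.B _ _ = _
    rw [PQ.B_smul_left, Bsr, PQ.B_isom (hM hg), ← mul_assoc, hc, one_mul]
  have tr : ∀ x : F × F, ∃ s ∈ P, s w = w + (x.1 • e₁ + x.2 • e₂) := fun x => by
    obtain ⟨s, hs⟩ := surj_of_dvd (A := MulAction.orbit P w) ⟨_, MulAction.mem_orbit_self _⟩
      (fun x : F × F => w + (x.1 • e₁ + x.2 • e₂)) (by
        rintro _ ⟨s, rfl⟩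
        obtain ⟨a, b, e⟩ := H.f3 s.1 s.2
        exact ⟨(a, b), e.symm⟩) (by
        rw [Nat.card_prod, h.card, ← pow_add]
        exact hd _ _ (ho ▸ dvd_card_norm h (Bs S w w) H.ww)) x
    exact ⟨s.1, s.2, hs⟩
  let Λ : Set F := {l | ∃ s ∈ P, s e₂ = e₂ + l • e₁}
  let B₂ : Set F := {b | ∃ s ∈ P, s e₂ = e₂ ∧ ∃ a : F, s w = w + (a • e₁ + b • e₂)}
  let C₀ : Set F := {a | ∃ s ∈ P, s e₂ = e₂ ∧ s w = w + a • e₁}
  have hq : 2 ≤ q := by
    have : 1 < q ^ 2 := hF ▸ Fintype.one_lt_card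
    by_contra hlt
    have : q ≤ 1 := by omega
    interval_cases q <;> simp_all
  have c1 : C₀.ncard ≤ q := by
    by_cases hz : ∀ a ∈ C₀, a = 0
    · have : C₀ ⊆ {0} := hz
      have := Set.ncard_le_ncard this
      rw [Set.ncard_singleton] at this; omega
    push Not at hz
    obtain ⟨a, ⟨s, hs, s2, sw⟩, a0⟩ := hz
    have hfix : {x : F | σ x = x}.ncard = q := by
      rw [← Nat.card_coe_set_eq]; exact (H9.FOrd.card_Λ_unit_aux hF hσ h.ne).2
    rw [← hfix]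
    refine Set.ncard_le_ncard_of_injOn (fun x => x / a) ?_ (fun x _ y _ e => by
      simpa [a0] using e)
    rintro b ⟨t, ht, t2, tw⟩
    by_contra hμ
    exact hT (H.comm hPM hs s2 ht t2 (b := a • e₁) (by simpa using mem a 0) (fun e => a0 (n1 _ e))
      hμ sw (by rw [tw, smul_smul, div_mul_cancel₀ _ a0]))
  have c2 : ∀ l ∈ Λ, ∀ b ∈ B₂, l * b ∈ C₀ := by
    rintro l ⟨s, hs, s2⟩ b ⟨t, ht, t2, a, tw⟩
    have i2 : ∀ y ∈ Submodule.span F {e₁, e₂}, t⁻¹ y = y := fun y hy => by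
      nth_rewrite 1 [← H.fixL ht t2 y hy]; exact t.symm_apply_apply y
    obtain ⟨l', hl'⟩ := H.f2 _ (P.inv_mem hs)
    obtain ⟨a', b', hw'⟩ := H.f3 _ (P.inv_mem hs)
    have j : ∀ y, s (s⁻¹ y) = y := fun y => s.apply_symm_apply y
    refine ⟨t⁻¹ * (s * t * s⁻¹), P.mul_mem (P.inv_mem ht) (P.mul_mem (P.mul_mem hs ht) (P.inv_mem hs)),
      ?_, ?_⟩
    · simp only [LinearEquiv.mul_apply]
      rw [H.fixL ht t2 (s⁻¹ e₂) (by rw [hl', add_comm]; simpa using mem l' 1), j,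
        i2 e₂ (by simpa using mem 0 1)]
    · simp only [LinearEquiv.mul_apply]
      have e1 : t (s⁻¹ w) = s⁻¹ w + (a • e₁ + b • e₂) := by
        rw [hw', map_add, tw, H.fixL ht t2 _ (mem a' b')]; abel
      have e2 : s (t (s⁻¹ w)) = t (w + (l * b) • e₁) := by
        rw [e1]
        simp only [map_add, map_smul, j, H.f1 s hs, H.f1 t ht, s2, tw]
        module
      rw [e2]; exact t.symm_apply_apply _
  have c3 : q ^ 4 ≤ Λ.ncard * (B₂.ncard * C₀.ncard) := by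
    have t1 : ∀ l : F, ∃ s ∈ P, l ∈ Λ → s e₂ = e₂ + l • e₁ := fun l => by
      by_cases hl : l ∈ Λ
      · obtain ⟨s, hs, e⟩ := hl; exact ⟨s, hs, fun _ => e⟩
      · exact ⟨1, P.one_mem, fun k => (hl k).elim⟩
    have t2 : ∀ b : F, ∃ s ∈ P, b ∈ B₂ → s e₂ = e₂ ∧ ∃ a : F, s w = w + (a • e₁ + b • e₂) := fun b => by
      by_cases hb : b ∈ B₂
      · obtain ⟨s, hs, e⟩ := hb; exact ⟨s, hs, fun _ => e⟩
      · exact ⟨1, P.one_mem, fun k => (hb k).elim⟩
    choose τ hτ eτ using t1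
    choose ρ hρ eρ using t2
    have sub : Set.range (fun x : F × F => w + (x.1 • e₁ + x.2 • e₂)) ⊆
        (fun x : F × F × F => τ x.1 (ρ x.2.1 (w + x.2.2 • e₁))) '' (Λ ×ˢ (B₂ ×ˢ C₀)) := by
      rintro _ ⟨x, rfl⟩
      obtain ⟨s, hs, es⟩ := tr x
      obtain ⟨l, hl⟩ := H.f2 s hs
      have ml : l ∈ Λ := ⟨s, hs, hl⟩
      have hu := P.mul_mem (P.inv_mem (hτ l)) hs
      have u2 : ((τ l)⁻¹ * s) e₂ = e₂ := by
        rw [LinearEquiv.mul_apply, hl, ← eτ l ml]; exact (τ l).symm_apply_apply _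
      obtain ⟨a, b, uw⟩ := H.f3 _ hu
      have mb : b ∈ B₂ := ⟨_, hu, u2, a, uw⟩
      obtain ⟨r2, a', rw'⟩ := eρ b mb
      have key : ((τ l)⁻¹ * s) w = ρ b (w + (a - a') • e₁) := by
        rw [uw, map_add, map_smul, rw', H.f1 _ (hρ b)]; module
      refine ⟨(l, b, a - a'), ⟨ml, mb, (ρ b)⁻¹ * ((τ l)⁻¹ * s), P.mul_mem (P.inv_mem (hρ b)) hu, ?_, ?_⟩, ?_⟩
      · rw [LinearEquiv.mul_apply, u2]
        nth_rewrite 1 [← r2]; exact (ρ b).symm_apply_apply _
      · rw [LinearEquiv.mul_apply, key]; exact (ρ b).symm_apply_apply _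
      · simp only
        rw [← key, ← es]; exact (τ l).apply_symm_apply _
    have inj : Function.Injective (fun x : F × F => w + (x.1 • e₁ + x.2 • e₂)) := fun x y e => by
      have := H.li (x.1 - y.1) (x.2 - y.2) (by
        rw [← sub_eq_zero.2 (add_left_cancel e)]; module)
      exact Prod.ext (sub_eq_zero.1 this.1) (sub_eq_zero.1 this.2)
    have a1 := (Set.ncard_le_ncard sub).trans Set.ncard_image_le
    rw [← Set.image_univ, Set.ncard_image_of_injective _ inj, Set.ncard_univ, Nat.card_prod, h.card,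
      ← pow_add, Set.ncard_prod, Set.ncard_prod] at a1
    exact a1
  have top : ∀ A : Set F, A.ncard ≤ q ^ 2 := fun A => by
    rw [← h.card, ← Set.ncard_univ]; exact Set.ncard_le_ncard (Set.subset_univ _)
  have one : ∀ A : Set F, (∀ a ∈ A, a = 0) → A.ncard ≤ 1 := fun A hA => by
    rw [← Set.ncard_singleton (0 : F)]; exact Set.ncard_le_ncard hA
  have c4 : Λ.ncard * B₂.ncard ≤ q ^ 2 := by
    by_cases z1 : ∀ a ∈ Λ, a = 0
    · simpa using Nat.mul_le_mul (one _ z1) (top B₂)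
    by_cases z2 : ∀ a ∈ B₂, a = 0
    · simpa using Nat.mul_le_mul (top Λ) (one _ z2)
    push Not at z1 z2
    obtain ⟨l, hl, l0⟩ := z1
    obtain ⟨b, hb, b0⟩ := z2
    rw [sq]
    exact Nat.mul_le_mul
      ((Set.ncard_le_ncard_of_injOn (fun x => x * b) (fun x hx => c2 x hx b hb)
        fun x _ y _ e => mul_right_cancel₀ b0 e).trans c1)
      ((Set.ncard_le_ncard_of_injOn (fun x => l * x) (fun x hx => c2 l hl x hx)
        fun x _ y _ e => mul_left_cancel₀ l0 e).trans c1)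
  rw [← mul_assoc] at c3
  have c5 := c3.trans (Nat.mul_le_mul c4 c1)
  rw [← pow_succ] at c5
  have := Nat.pow_lt_pow_right (show 1 < q by omega) (show 2 + 1 < 4 by omega)
  omega

end Cfsg.Agent.H2.U5G
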