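import Cfsg.Agent.H2.UG4
import Cfsg.Agent.H9.U7Defs

/-!
Geometry of overgroups in `SU₇(q)`.
-/

set_option autoImplicit false
set_option linter.unusedSectionVars false
set_option linter.unusedVariables false

namespace Cfsg.Agent.H2.U7G

open Module Subgroup Cfsg.Agent.Form Cfsg.Agent.H7 Cfsg.Agent.H6.SU Cfsg.Agent.H8.U5 Cfsg.Agent.H9.U7
  Cfsg.Agent.H2.UG

universe u v

variable {F : Type u} [Field F] {σ : F →+* F} {hσ : ∀ a, σ (σ a) = a}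
  {V : Type v} [AddCommGroup V] [Module F V] {S : PQ (FP.unit σ hσ) V} {M : Subgroup (V ≃ₗ[F] V)} {q : ℕ}
  [Finite F] [FiniteDimensional F V]

theorem GA (h : Un7 S q) (hM : M ≤ S.isom) (hO : ∀ v, S.B v v ≠ 0 → q ^ 6 ∣ (Orb σ M v).ncard) :
    HasT S M := GB7' h.card h.ne h.nd h.dim hM hO

theorem GB (h : Un7 S q) (hM : M ≤ S.isom)
    (hO : ∀ v w, S.B v v ≠ 0 → S.B w w = S.B v v → w ∈ Orb σ M v) : HasT S M :=
  GB7 h.card h.ne h.nd h.dim hM hO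

theorem GD (h : Un7 S q) (hM : M ≤ S.isom) (hT : HasT S M)
    (hO : ∀ v (a : F), S.B v v = 0 → σ a = a → a ≠ 0 → a • v ∈ Orb σ M v) : ∃ d, d ≠ 0 ∧ Ctr S M d :=
  UG.GD hM hT hO

theorem GT (h : Un7 S q) (hM : M ≤ S.isom) (hi : Irr1 M) (D : Set V) (hD : ∃ d ∈ D, d ≠ 0)
    (h0 : ∀ d ∈ D, S.B d d = 0) (h1 : ∀ d ∈ D, ∃ c, c ≠ 0 ∧ c + σ c = 0 ∧ HT S M d c)
    (h2 : ∀ g ∈ M, ∀ d ∈ D, g d ∈ D) :
    ∃ d ∈ D, ∃ e ∈ D, ∃ y ∈ D, S.B d e ≠ 0 ∧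
      S.B d e * S.B e y * S.B y d + σ (S.B d e * S.B e y * S.B y d) ≠ 0 :=
  UG.GT h.ne h.nd (by rw [h.dim]; norm_num) (by rw [h.dim]; decide) hM hi D hD h0 h1 h2

theorem GC (h : Un7 S q) (hq : 3 ≤ q) (hM : M ≤ S.isom) (hi : Irr1 M) {d : V} (hd : d ≠ 0)
    (hc : Ctr S M d) : sisom S ≤ M :=
  UG.GC h.ne h.nd (by rw [h.dim]; norm_num) (by rw [h.dim]; norm_num) (exists_real hσ h.card h.pow hq)
    hM hi hd hc

end Cfsg.Agent.H2.U7G
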