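import Cfsg.Agent.H8.U5d
import Cfsg.Agent.H8.U5h
import Mathlib.GroupTheory.FiniteAbelian.Duality
import Mathlib.LinearAlgebra.Eigenspace.Zero

/-!
The Weil characters in even characteristic cannot all be reducible.
-/

set_option autoImplicit false
set_option linter.unusedSectionVars false
set_option linter.unusedVariables false

namespace Cfsg.Agent.H2.U7e

open Finset Module Cfsg.Agent.Form Cfsg.Agent.H6.SU Cfsg.Agent.H7 Cfsg.Agent.H5.Char Cfsg.Agent.H2.Tr
  Cfsg.Agent.H4.CAG Cfsg.Agent.H8.U5 Cfsg.Agent.H5.Zas1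
open scoped ComplexConjugate Classical

theorem four_const {A : Type*} [CommGroup A] [Fintype A] (b : A → ℂ)
    (h : ∀ l : A →* ℂ, l ≠ 1 → ∑ c, l c⁻¹ * b c = 0) (c c' : A) : b c = b c' := by
  have := Fintype.ofFinite (A →* ℂˣ)
  have e1 : ∀ x : A, ∑ φ : A →* ℂˣ, (φ x : ℂ) = if x = 1 then (Fintype.card (A →* ℂˣ) : ℂ) else 0 := fun x => by
    split_ifs with hx
    · simp [hx]
    · obtain ⟨φ, hφ⟩ := CommGroup.exists_apply_ne_one_of_hasEnoughRootsOfUnity A ℂ hx
      exact sum_hom_units_eq_zero ((Units.coeHom ℂ).comp (MonoidHom.eval x)) fun e =>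
        hφ (Units.ext (DFunLike.congr_fun e φ))
  have key : ∀ c : A, (Fintype.card (A →* ℂˣ) : ℂ) * b c = ∑ x, b x := fun c => by
    have e2 : ∑ φ : A →* ℂˣ, (φ c : ℂ) * ∑ x, (φ x⁻¹ : ℂ) * b x = ∑ x, b x := by
      rw [sum_eq_single 1 (fun φ _ h1 => ?_) (by simp)]
      · simp
      · rw [show ∑ x, (φ x⁻¹ : ℂ) * b x = 0 from h ((Units.coeHom ℂ).comp φ) fun e =>
          h1 (MonoidHom.ext fun x => Units.ext (DFunLike.congr_fun e x)), mul_zero]
    rw [← e2]
    simp only [mul_sum, ← mul_assoc, ← Units.val_mul, ← map_mul]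
    rw [sum_comm]
    simp only [← sum_mul, e1, mul_inv_eq_one, ite_mul, zero_mul, sum_ite_eq, mem_univ, if_true]
  exact mul_left_cancel₀ (Nat.cast_ne_zero.2 Fintype.card_ne_zero) ((key c).trans (key c').symm)

variable {F : Type*} [Field F] [Fintype F] {σ : F →+* F} {hσ : ∀ a, σ (σ a) = a}
  {V : Type*} [AddCommGroup V] [Module F V] [Fintype V] {S : PQ (FP.unit σ hσ) V} {q : ℕ} {χ : AddChar F ℂ}

theorem fx_sum (g : V ≃ₗ[F] V) : ∑ c : ZZ σ, fx (g * scl V c) ≤ finrank F V := by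
  let f : ZZ σ → F := fun c => (((c : Fˣ) : F))⁻¹
  have inj : Function.Injective f := fun a b e => Subtype.ext (Units.ext (inv_injective e))
  have e1 : ∀ c : ZZ σ, fx (g * scl V c) ≤ (g : V →ₗ[F] V).charpoly.roots.count (f c) := fun c => by
    rw [Polynomial.count_roots]
    refine le_trans (Submodule.finrank_mono fun v hv => ?_) (LinearMap.finrank_eigenspace_le _ _)
    have : ((c : Fˣ) : F) • g v = v := by simpa [scl_ap, sub_eq_zero] using hv
    rw [Module.End.mem_eigenspace_iff, eq_inv_smul_iff₀ (c : Fˣ).ne_zero]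
    exact this
  refine (sum_le_sum fun c _ => e1 c).trans ?_
  rw [← sum_image (f := fun a => (g : V →ₗ[F] V).charpoly.roots.count a) inj.injOn]
  refine (sum_le_sum_of_subset (subset_univ _)).trans ?_
  rw [Multiset.sum_count_eq_card fun a _ => mem_univ a, ← LinearMap.charpoly_natDegree (g : V →ₗ[F] V)]
  exact Polynomial.card_roots' _

theorem val_ineq {q : ℝ} (hq : 1 ≤ q) (a : ℕ) :
    0 ≤ ((q + 1)⁻¹ * (-(-q) ^ a - q)) ^ 2 - q * (q - 1) * ((q + 1)⁻¹ * (-(-q) ^ a - q)) := by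
  have h0 : 0 < q + 1 := by linarith
  have key : ∀ z : ℝ, z ≤ 0 ∨ q * (q - 1) ≤ z → 0 ≤ z ^ 2 - q * (q - 1) * z := fun z hz => by
    have : 0 ≤ q * (q - 1) := by nlinarith
    rcases hz with h | h <;> nlinarith
  refine key _ ?_
  rcases Nat.even_or_odd a with h | ⟨k, rfl⟩
  · left
    rw [h.neg_pow]
    have := pow_pos (show 0 < q by linarith) a
    exact mul_nonpos_of_nonneg_of_nonpos (inv_pos.2 h0).le (by linarith)
  · rw [Odd.neg_pow ⟨k, rfl⟩, neg_neg]
    rcases k with _ | k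
    · left; simp
    · right
      rw [le_inv_mul_iff₀ h0]
      have : q ^ 3 ≤ q ^ (2 * (k + 1) + 1) := pow_le_pow_right₀ hq (by omega)
      nlinarith

theorem even_core (H : Wd S q χ) (h7 : finrank F V = 7) (h4 : 4 ≤ q) {K : Subgroup (V ≃ₗ[F] V)}
    (hK : K ≤ S.isom) {Γ : Type*} [Group Γ] [Fintype Γ] {π : K →* Γ} (hπ : Function.Surjective π)
    {X : Subgroup Γ} (ca : CA X) (hw : wt X = 7) (hn : 3 ≤ Nat.card X) {ζ : Γ → ℂ} {m : Irr Γ → ℕ}
    (hm : Ch ζ m) (hζ : ∀ g : K, (q ^ 7 : ℕ) * (WW H g.1 * ee H 1) 0 = ζ (π g)) (h1 : classInner ζ ζ = 1)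
    (hX : ∀ x ∈ X, x ≠ 1 → ζ x = -1) {φ : Irr Γ} (φ1 : φ ≠ triv Γ)
    (hφ : ∀ l : ZZ σ →* ℂ, l ≠ 1 → ∀ g : K, (q ^ 7 : ℕ) * (WW H g.1 * ee H l) 0 = 1 + φ.1 (π g)) : False := by
  have z7 : ∀ (g : K) (l : ZZ σ →* ℂ), (q ^ 7 : ℕ) * (WW H g.1 * ee H l) 0 =
      (q + 1 : ℂ)⁻¹ * ∑ c, l c⁻¹ * -(-q) ^ fx (g.1 * scl V c) := fun g l => by
    have := zeta_eq H (hK g.2) l
    rw [h7] at this
    simpa [Odd.neg_one_pow (n := 7) (by decide)] using this
  have q1 := H.q1
  have cZ := H.fd.cZ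
  have e1 : ∀ (g : K) (c : ZZ σ), c ≠ 1 → -(-q : ℂ) ^ fx (g.1 * scl V c) = ζ (π g) - (1 + φ.1 (π g)) := by
    intro g c hc
    let b : ZZ σ → ℂ := fun c => -(-q : ℂ) ^ fx (g.1 * scl V c) - if c = 1 then (q + 1) * (1 + φ.1 (π g)) else 0
    have s1 : ∀ l : ZZ σ →* ℂ, ∑ c, l c⁻¹ * b c =
        (q + 1) * ((q ^ 7 : ℕ) * (WW H g.1 * ee H l) 0 - (1 + φ.1 (π g))) := fun l => by
      rw [z7, mul_sub, mul_inv_cancel_left₀ q1]
      simp [b, mul_sub, sum_sub_distrib]
    have s2 := four_const b (fun l hl => by rw [s1, hφ l hl, sub_self, mul_zero]) c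
    have s3 := s1 1
    simp only [MonoidHom.one_apply, one_mul, ← s2, sum_const, card_univ, cZ, nsmul_eq_mul, hζ] at s3
    push_cast at s3
    simpa [b, hc] using mul_left_cancel₀ q1 s3
  obtain ⟨c₀, hc₀⟩ : ∃ c : ZZ σ, c ≠ 1 := by
    have : Nontrivial (ZZ σ) := Fintype.one_lt_card_iff_nontrivial.1 (by omega)
    exact exists_ne 1
  have qR : (4 : ℝ) ≤ q := by exact_mod_cast h4
  have e2 : ∀ g : K, fx (g.1 * scl V c₀) ≤ 1 := fun g => by
    have a1 : ∀ c ∈ univ.erase (1 : ZZ σ), fx (g.1 * scl V c) = fx (g.1 * scl V c₀) := fun c hc => by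
      have := congrArg norm (neg_injective ((e1 g c (ne_of_mem_erase hc)).trans (e1 g c₀ hc₀).symm))
      simp only [norm_pow, norm_neg, Complex.norm_natCast] at this
      exact pow_right_injective₀ (by linarith) (by linarith) this
    have a2 := (sum_le_sum_of_subset (erase_subset (1 : ZZ σ) univ)).trans (fx_sum (σ := σ) g.1)
    rw [sum_congr rfl a1, sum_const, card_erase_of_mem (mem_univ _), card_univ, cZ, h7, smul_eq_mul] at a2
    by_contra hc
    have := Nat.mul_le_mul h4 (show 2 ≤ fx (g.1 * scl V c₀) by omega)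
    rw [Nat.add_sub_cancel] at a2
    omega
  have m0 : m (triv Γ) = 0 := by
    by_contra h0
    have a1 := hm.norm
    rw [h1, eq_comm, Nat.cast_eq_one] at a1
    have a2 : ∀ ψ, ψ ≠ triv Γ → m ψ = 0 := fun ψ hψ => by
      by_contra h2
      have := sum_le_sum_of_subset (f := fun ψ => m ψ * m ψ) (subset_univ {ψ, triv Γ})
      rw [sum_pair hψ, a1] at this
      have := Nat.mul_pos (Nat.pos_of_ne_zero h2) (Nat.pos_of_ne_zero h2)
      have := Nat.mul_pos (Nat.pos_of_ne_zero h0) (Nat.pos_of_ne_zero h0)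
      omega
    have : Nontrivial X := Finite.one_lt_card_iff_nontrivial.1 (by omega)
    obtain ⟨x, hx⟩ := exists_ne (1 : X)
    have a3 := hX x x.2 fun e => hx (Subtype.ext e)
    rw [hm, sum_eq_single (triv Γ) (fun ψ _ hψ => by simp [a2 ψ hψ]) (by simp), triv_apply, mul_one] at a3
    norm_cast at a3
  have mean : ∀ f : Γ → ℂ, classInner f (triv Γ).1 = 0 → ∑ γ, f γ = 0 := fun f hf => by
    simpa [classInner, triv_apply, (card_ne : (Nat.card Γ : ℂ) ≠ 0)] using hf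
  have s0 : ∑ γ, ζ γ = 0 := mean _ (by rw [hm.inner, m0, Nat.cast_zero])
  have s1 : ∑ γ, φ.1 γ = 0 := mean _ (by rw [inner_irr, if_neg φ1])
  have e3 : ∀ γ, ζ γ = φ.1 γ := by
    have a1 : ∀ γ, ζ γ - φ.1 γ = 0 ∨ ζ γ - φ.1 γ = q + 1 := fun γ => by
      obtain ⟨g, rfl⟩ := hπ γ
      have a2 := e1 g c₀ hc₀
      have a3 := e2 g
      generalize fx (g.1 * scl V c₀) = k at a2 a3
      interval_cases k
      · left; linear_combination -a2
      · right; linear_combination -a2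
    have a2 : ∑ γ, (ζ γ - φ.1 γ).re = 0 := by rw [← Complex.re_sum, sum_sub_distrib, s0, s1]; simp
    rw [sum_eq_zero_iff_of_nonneg fun γ _ => by
      rcases a1 γ with e | e <;> rw [e] <;> simp
      positivity] at a2
    intro γ
    refine sub_eq_zero.1 ((a1 γ).resolve_right fun e => ?_)
    have := a2 γ (mem_univ _)
    rw [e] at this
    simp at this
    linarith
  have e4 : ∀ γ, ∃ a : ℕ, ζ γ = (((q + 1 : ℝ)⁻¹ * (-(-q) ^ a - q) : ℝ) : ℂ) := fun γ => by
    obtain ⟨g, rfl⟩ := hπ γ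
    refine ⟨fx (g.1 * scl V (1 : ZZ σ)), ?_⟩
    rw [← hζ, z7, ← add_sum_erase _ _ (mem_univ 1), sum_congr rfl fun c hc => by
      rw [e1 g c (ne_of_mem_erase hc), e3, MonoidHom.one_apply], sum_const, card_erase_of_mem (mem_univ _),
      card_univ, cZ]
    simp [sub_eq_add_neg]
  let f : Γ → ℝ := fun γ => (ζ γ).re ^ 2 - q * (q - 1) * (ζ γ).re
  have f0 : ∀ γ, 0 ≤ f γ := fun γ => by
    obtain ⟨a, ha⟩ := e4 γ
    simp only [f, ha, Complex.ofReal_re]
    exact val_ineq (by linarith) a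
  have f1 : ∑ γ, f γ = Nat.card Γ := by
    rw [classInner, inv_mul_eq_one₀ card_ne] at h1
    have a1 := congrArg Complex.re h1
    rw [Complex.re_sum, Complex.natCast_re] at a1
    rw [sum_sub_distrib, ← mul_sum, ← Complex.re_sum, s0, Complex.zero_re, mul_zero, sub_zero, a1]
    refine sum_congr rfl fun γ _ => ?_
    obtain ⟨a, ha⟩ := e4 γ
    rw [ha, Complex.conj_ofReal, ← Complex.ofReal_mul, Complex.ofReal_re, Complex.ofReal_re, sq]
  have f2 := sum_Cl ca f fun g x => by simp only [f, hm.cl x g]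
  have f3 : ∀ [Fintype X], ∑ x : X, f x - f 1 = (Nat.card X - 1) * (1 + q * (q - 1)) := by
    intro _
    rw [← add_sum_erase _ _ (mem_univ (1 : X)), OneMemClass.coe_one, add_sub_cancel_left,
      sum_congr rfl fun x hx => by
        rw [show f x = 1 + q * (q - 1) by simp [f, hX x x.2 fun e => ne_of_mem_erase hx (Subtype.ext e)]],
      sum_const, card_erase_of_mem (mem_univ _), card_univ, ← Nat.card_eq_fintype_card, nsmul_eq_mul,
      Nat.cast_pred (by omega)]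
  have f4 := sum_le_sum_of_subset_of_nonneg (filter_subset (· ∈ Cl X) univ) fun γ _ _ => f0 γ
  rw [@f3 (_), card_Nm, hw] at f2
  rw [f1] at f4
  have n3 : (3 : ℝ) ≤ Nat.card X := by exact_mod_cast hn
  have g0 : (0 : ℝ) < Nat.card Γ := by exact_mod_cast Nat.card_pos
  have f5 := mul_le_mul_of_nonneg_left f4 (show (0 : ℝ) ≤ (Nat.card X * 7 : ℕ) by positivity)
  rw [f2, mul_comm, mul_le_mul_iff_left₀ g0] at f5
  push_cast at f5
  nlinarith [mul_le_mul_of_nonneg_left (show (13 : ℝ) ≤ 1 + q * (q - 1) by nlinarith)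
    (show (0 : ℝ) ≤ Nat.card X - 1 by linarith)]

end Cfsg.Agent.H2.U7e
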