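import Cfsg.Agent.H2.U5G2

/-!
Groups generated by unitary transvections in prime dimension: triangles and full root groups.
-/

set_option autoImplicit false
set_option linter.unusedSectionVars false
set_option linter.unusedVariables false

namespace Cfsg.Agent.H2.UG

open Module Subgroup Cfsg.Agent.Form Cfsg.Agent.H7 Cfsg.Agent.H6.SU Cfsg.Agent.H8.U5 Cfsg.Agent.H2.U5G

variable {F : Type*} [Field F] {σ : F →+* F} {hσ : ∀ a, σ (σ a) = a}
  {V : Type*} [AddCommGroup V] [Module F V] {S : PQ (FP.unit σ hσ) V} {M : Subgroup (V ≃ₗ[F] V)} {q : ℕ}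
  [Finite F] [FiniteDimensional F V]

/-- `M` acts irreducibly -/
def Irr1 (M : Subgroup (V ≃ₗ[F] V)) : Prop :=
  ∀ Y : Submodule F V, Y ≠ ⊥ → (∀ g ∈ M, ∀ y ∈ Y, g y ∈ Y) → Y = ⊤

theorem irr1_of_irr2 (h : Irr2 M) : Irr1 M := fun Y hY hg =>
  h Y hY fun g hm y hy => hg g hm _ (hg g hm y hy)

theorem finrank_fam (s : Finset (Submodule F V)) (m : ℕ) (hn : ∀ Y ∈ s, S.NondegOn Y)
    (hd : ∀ Y ∈ s, finrank F Y = m) (ho : ∀ Y ∈ s, ∀ Y' ∈ s, Y ≠ Y' → Y ≤ S.perp Y') :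
    finrank F (s.sup id : Submodule F V) = s.card * m := by
  classical
  induction s using Finset.induction_on with
  | empty => simp
  | insert Y s hY ih =>
    have h1 := ih (fun Z hZ => hn Z (Finset.mem_insert_of_mem hZ))
      (fun Z hZ => hd Z (Finset.mem_insert_of_mem hZ))
      fun Z hZ Z' hZ' => ho Z (Finset.mem_insert_of_mem hZ) Z' (Finset.mem_insert_of_mem hZ')
    have h2 : s.sup id ≤ S.perp Y := Finset.sup_le fun Z hZ =>
      ho Z (Finset.mem_insert_of_mem hZ) Y (Finset.mem_insert_self _ _) fun e => hY (e ▸ hZ)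
    rw [Finset.sup_insert, id, finrank_sup_perp (hn Y (Finset.mem_insert_self _ _)) h2, h1,
      hd Y (Finset.mem_insert_self _ _), Finset.card_insert_of_notMem hY]
    ring

/-- a block of imprimitivity in prime dimension -/
theorem top_of_block (hS : S.Nondeg) (hp : (finrank F V).Prime) (hM : M ≤ S.isom) (hi : Irr1 M)
    {Y : Submodule F V} (h2 : 2 ≤ finrank F Y)
    (key : ∀ g ∈ M, (∀ y ∈ Y, g y ∈ Y) ∨ ∀ y ∈ Y, g y ∈ S.perp Y) : Y = ⊤ := by
  classical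
  have : Finite V := Module.finite_of_finite F
  have : Finite (Submodule F V) := Finite.of_injective _ (SetLike.coe_injective (A := Submodule F V))
  have := Fintype.ofFinite (Submodule F V)
  let s : Finset (Submodule F V) :=
    Finset.univ.filter fun Z => ∃ g ∈ M, Z = Y.map (g : V →ₗ[F] V)
  have ms : ∀ Z, Z ∈ s ↔ ∃ g ∈ M, Z = Y.map (g : V →ₗ[F] V) := fun Z => by simp [s]
  have mY : Y ∈ s := (ms Y).2 ⟨1, M.one_mem, by ext; simp⟩
  have hd : ∀ Z ∈ s, finrank F Z = finrank F Y := fun Z hZ => by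
    obtain ⟨g, -, rfl⟩ := (ms Z).1 hZ
    exact g.finrank_map_eq Y
  have ho : ∀ Z ∈ s, ∀ Z' ∈ s, Z ≠ Z' → Z ≤ S.perp Z' := fun Z hZ Z' hZ' hne => by
    obtain ⟨g, hg, rfl⟩ := (ms Z).1 hZ
    obtain ⟨g', hg', rfl⟩ := (ms Z').1 hZ'
    rcases key (g'⁻¹ * g) (M.mul_mem (M.inv_mem hg') hg) with k | k
    · refine (hne (Submodule.eq_of_le_of_finrank_eq ?_ ((hd _ hZ).trans (hd _ hZ').symm))).elim
      rintro _ ⟨y, hy, rfl⟩
      exact ⟨_, k y hy, g'.apply_symm_apply _⟩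
    · rintro _ ⟨y, hy, rfl⟩ _ ⟨y', hy', rfl⟩
      have := k y hy y' hy'
      rw [← PQ.B_isom (hM hg')] at this
      rw [← this]
      congr 1
      exact (g'.apply_symm_apply _).symm
  have ht : s.sup id = ⊤ := by
    refine hi _ (fun hb => ?_) fun g hg y hy => ?_
    · have : Y ≤ ⊥ := hb ▸ Finset.le_sup (f := id) mY
      rw [le_bot_iff] at this
      rw [this, finrank_bot] at h2
      omega
    · have : s.sup id ≤ (s.sup id).comap (g : V →ₗ[F] V) := Finset.sup_le fun Z hZ => by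
        obtain ⟨g', hg', rfl⟩ := (ms Z).1 hZ
        rintro _ ⟨z, hz, rfl⟩
        exact Finset.le_sup (f := id) ((ms _).2 ⟨g * g', M.mul_mem hg hg', rfl⟩) ⟨z, hz, rfl⟩
      exact this hy
  have hn : S.NondegOn Y := fun x hx hx' => hS x fun y => by
    have : s.sup id ≤ S.perp (F ∙ x) := Finset.sup_le fun Z hZ z hz => by
      rw [S.mem_perp_span_singleton]
      by_cases e : Z = Y
      · subst e; exact S.B_comm_zero (hx' z hz)
      · exact ho Z hZ Y mY e hz x hx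
    exact S.B_comm_zero (S.mem_perp_span_singleton.1 (this (ht ▸ Submodule.mem_top)))
  have hc := finrank_fam (S := S) s _ (fun Z hZ => by
    obtain ⟨g, hg, rfl⟩ := (ms Z).1 hZ
    exact (S.nondegOn_map_iff (hM hg) Y).2 hn) hd ho
  rw [ht, finrank_top] at hc
  rcases hp.eq_one_or_self_of_dvd _ (Dvd.intro_left _ hc.symm) with e | e
  · omega
  · exact Submodule.eq_top_of_finrank_eq e

/-- the neighbours of a vertex span the space -/
theorem span_nbr (hS : S.Nondeg) (hp : (finrank F V).Prime) (hM : M ≤ S.isom) (hi : Irr1 M) (D : Set V)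
    (h0 : ∀ d ∈ D, S.B d d = 0) (h1 : ∀ d ∈ D, ∃ c, c ≠ 0 ∧ c + σ c = 0 ∧ HT S M d c)
    (h2 : ∀ g ∈ M, ∀ d ∈ D, g d ∈ D) {d e : V} (hd : d ∈ D) (he : e ∈ D) (hde : S.B d e ≠ 0) :
    Submodule.span F {y | y ∈ D ∧ S.B y d ≠ 0} = ⊤ := by
  set Y := Submodule.span F {y | y ∈ D ∧ S.B y d ≠ 0} with hY
  have hed := ne_swap hde
  have heY : e ∈ Y := Submodule.subset_span ⟨he, hed⟩
  have hdY : d ∈ Y := by
    obtain ⟨c, c0, -, g, hg, eg⟩ := h1 e he
    have m : g d ∈ Y := Submodule.subset_span ⟨h2 g hg d hd, by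
      rw [eg]; simp [h0 d hd, c0, hde, hed]⟩
    have := Y.sub_mem m (Y.smul_mem (c * S.B d e) heY)
    rwa [eg, add_sub_cancel_right] at this
  have dich : ∀ z ∈ D, z ∈ Y ∨ z ∈ S.perp Y := by
    intro z hz
    by_cases hzd : S.B z d = 0
    swap
    · exact Or.inl (Submodule.subset_span ⟨hz, hzd⟩)
    by_cases hzY : z ∈ Y
    · exact Or.inl hzY
    right
    refine S.mem_perp_span.2 fun y hy => ?_
    by_contra hne
    obtain ⟨c, c0, -, g, hg, eg⟩ := h1 z hz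
    have m : g y ∈ Y := Submodule.subset_span ⟨h2 g hg y hy.1, by
      rw [eg]; simpa [hzd] using hy.2⟩
    have m2 := Y.sub_mem m (Submodule.subset_span hy)
    rw [eg, add_sub_cancel_left] at m2
    exact hzY ((Y.smul_mem_iff (mul_ne_zero c0 (ne_swap hne))).1 m2)
  refine top_of_block hS hp hM hi ?_ fun g hg => ?_
  · rw [← S.finrank_span_pair_of_hyperbolic (sing (h0 d hd)) hde]
    refine Submodule.finrank_mono (Submodule.span_le.2 ?_)
    rintro _ (rfl | rfl) <;> assumption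
  have hg' := hM hg
  have red : ∀ W : Submodule F V, (∀ y, y ∈ D → S.B y d ≠ 0 → g y ∈ W) → ∀ y ∈ Y, g y ∈ W := by
    intro W hW y hy
    have : Y ≤ W.comap (g : V →ₗ[F] V) := Submodule.span_le.2 fun y hy => hW y hy.1 hy.2
    exact this hy
  rcases dich _ (h2 g hg d hd) with k | k
  · refine Or.inl (red _ fun y hy hyd => ?_)
    refine (dich _ (h2 g hg y hy)).resolve_right fun k' => hyd ?_
    rw [← PQ.B_isom hg']; exact k' _ k
  · refine Or.inr (red _ fun y hy hyd => ?_)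
    refine (dich _ (h2 g hg y hy)).resolve_left fun k' => hyd ?_
    rw [← PQ.B_isom hg']; exact S.B_comm_zero (k _ k')

theorem exists_edge (hS : S.Nondeg) (hi : Irr1 M) (D : Set V) (hD : ∃ d ∈ D, d ≠ 0)
    (h2 : ∀ g ∈ M, ∀ d ∈ D, g d ∈ D) : ∃ d ∈ D, ∃ e ∈ D, S.B d e ≠ 0 := by
  by_contra hc
  push Not at hc
  obtain ⟨d, hd, hd0⟩ := hD
  have ht : Submodule.span F D = ⊤ := by
    refine hi _ (fun hb => hd0 ?_) fun g hg y hy => ?_
    · have : d ∈ Submodule.span F D := Submodule.subset_span hd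
      rwa [hb, Submodule.mem_bot] at this
    · have : Submodule.span F D ≤ (Submodule.span F D).comap (g : V →ₗ[F] V) :=
        Submodule.span_le.2 fun y hy => Submodule.subset_span (h2 _ hg y hy)
      exact this hy
  refine hd0 (hS d fun y => ?_)
  have : d ∈ S.perp (Submodule.span F D) := S.mem_perp_span.2 fun u hu => hc d hd u hu
  exact this y (by rw [ht]; trivial)

/-- a triangle with non-zero trace at a prescribed vertex -/
theorem GT' (hne : ∃ a, σ a ≠ a) (hS : S.Nondeg) (hp : (finrank F V).Prime) (hodd : Odd (finrank F V))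
    (hM : M ≤ S.isom) (hi : Irr1 M) (D : Set V)
    (h0 : ∀ d ∈ D, S.B d d = 0) (h1 : ∀ d ∈ D, ∃ c, c ≠ 0 ∧ c + σ c = 0 ∧ HT S M d c)
    (h2 : ∀ g ∈ M, ∀ d ∈ D, g d ∈ D) {d e : V} (hd : d ∈ D) (he : e ∈ D) (hde : S.B d e ≠ 0) :
    ∃ e ∈ D, ∃ y ∈ D, S.B d e ≠ 0 ∧
      S.B d e * S.B e y * S.B y d + σ (S.B d e * S.B e y * S.B y d) ≠ 0 := by
  by_contra hc
  push Not at hc
  have hY := span_nbr hS hp hM hi D h0 h1 h2 hd he hde
  obtain ⟨δ, δ0, hδ⟩ := exists_tr_zero hne hσ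
  refine not_alt hS hodd
    {x | ∃ y ∈ D, S.B y d ≠ 0 ∧ x = (δ / S.B y d) • y} ?_ ?_ ?_
  · rw [eq_top_iff, ← hY, Submodule.span_le]
    rintro y ⟨hy, hyd⟩
    exact (Submodule.smul_mem_iff _ (div_ne_zero δ0 hyd)).1 (Submodule.subset_span ⟨y, hy, hyd, rfl⟩)
  · rintro _ ⟨y, hy, hyd, rfl⟩ _ ⟨z, hz, hzd, rfl⟩
    have k := hc y hy z hz (ne_swap hyd)
    have hσδ : σ δ = -δ := by linear_combination hδ
    have a1 := ne_swap hyd
    have a2 := ne_swap hzd
    simp only [map_mul, Bs] at k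
    simp only [PQ.B_smul_left, Bsr, map_div₀, hσδ, Bs]
    field_simp
    linear_combination -k
  · rintro _ ⟨y, hy, hyd, rfl⟩
    simp [h0 y hy]

theorem GT (hne : ∃ a, σ a ≠ a) (hS : S.Nondeg) (hp : (finrank F V).Prime) (hodd : Odd (finrank F V))
    (hM : M ≤ S.isom) (hi : Irr1 M) (D : Set V) (hD : ∃ d ∈ D, d ≠ 0)
    (h0 : ∀ d ∈ D, S.B d d = 0) (h1 : ∀ d ∈ D, ∃ c, c ≠ 0 ∧ c + σ c = 0 ∧ HT S M d c)
    (h2 : ∀ g ∈ M, ∀ d ∈ D, g d ∈ D) :
    ∃ d ∈ D, ∃ e ∈ D, ∃ y ∈ D, S.B d e ≠ 0 ∧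
      S.B d e * S.B e y * S.B y d + σ (S.B d e * S.B e y * S.B y d) ≠ 0 := by
  obtain ⟨d, hd, e, he, hde⟩ := exists_edge hS hi D hD h2
  exact ⟨d, hd, GT' hne hS hp hodd hM hi D h0 h1 h2 hd he hde⟩

/-- a fixed element other than `0, 1` -/
theorem exists_real (hσ : ∀ a, σ (σ a) = a) (hF : Nat.card F = q ^ 2) (hpow : ∀ a, σ a = a ^ q) (hq : 3 ≤ q) :
    ∃ a : F, σ a = a ∧ a ≠ 0 ∧ a ≠ 1 := by
  classical
  have := Fintype.ofFinite F
  by_contra hc
  push Not at hc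
  have hN : ∀ a : F, a ≠ 0 → a ^ (q + 1) = 1 := fun a ha => by
    have := hc (a * σ a) (by rw [map_mul, hσ, mul_comm]) (mul_ne_zero ha (σ_ne ha))
    rw [pow_succ', ← hpow, this]
  obtain ⟨g, hg⟩ := IsCyclic.exists_ofOrder_eq_natCard (α := Fˣ)
  have h1 : orderOf g ∣ q + 1 := orderOf_dvd_of_pow_eq_one (Units.ext (by simpa using hN g g.ne_zero))
  rw [hg, Nat.card_units, hF] at h1
  have h2 := Nat.le_of_dvd (by omega) h1
  have h3 : q * 3 ≤ q ^ 2 := by rw [sq]; exact Nat.mul_le_mul_left _ hq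
  omega

theorem GC (hne : ∃ a, σ a ≠ a) (hS : S.Nondeg) (hp : (finrank F V).Prime) (h4 : 4 ≤ finrank F V)
    (h3 : ∃ a : F, σ a = a ∧ a ≠ 0 ∧ a ≠ 1) (hM : M ≤ S.isom) (hi : Irr1 M) {d : V} (hd : d ≠ 0)
    (hc : Ctr S M d) : sisom S ≤ M := by
  have hodd : Odd (finrank F V) := hp.odd_of_ne_two (by omega)
  obtain ⟨δ, δ0, hδ⟩ := exists_tr_zero hne hσ
  have h0 : ∀ d ∈ {x | Ctr S M x}, S.B d d = 0 := fun d hd => hd.1.B_self
  have h1 : ∀ d ∈ {x | Ctr S M x}, ∃ c, c ≠ 0 ∧ c + σ c = 0 ∧ HT S M d c := fun d hd =>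
    ⟨δ, δ0, hδ, Ctr.ht hd hδ⟩
  have h2 : ∀ g ∈ M, ∀ d ∈ {x | Ctr S M x}, g d ∈ {x | Ctr S M x} := fun g hg d hd =>
    Ctr.map hd hg (hM hg)
  obtain ⟨d, hd, e, he, y, hy, hde, ht⟩ := GT hne hS hp hodd hM hi {x | Ctr S M x} ⟨d, hc, hd⟩ h0 h1 h2
  have hed := ne_swap hde
  obtain ⟨Y, hdY, heY, hF, hY⟩ := core_of_three hne h3 hd he hy hde (by
    intro k
    apply ht
    simp only [map_mul, Bs]
    field_simp at k
    linear_combination k)
  have hsp := span_nbr hS hp hM hi _ h0 h1 h2 hd he hde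
  have : Y = ⊤ := by
    rw [eq_top_iff, ← hsp, Submodule.span_le]
    rintro z ⟨hz, hzd⟩
    exact (hY z hz).resolve_right fun k => hzd (k d hdY)
  rw [this] at hF
  exact hF.sisom_le hne hS h4

theorem GD (hM : M ≤ S.isom) (hT : HasT S M)
    (hO : ∀ v (a : F), S.B v v = 0 → σ a = a → a ≠ 0 → a • v ∈ Orb σ M v) :
    ∃ d, d ≠ 0 ∧ Ctr S M d := by
  obtain ⟨d, c, hd0, hd, c0, hc, ht⟩ := hT
  have k1 : ∀ a : F, σ a = a → HT S M d (a ^ 2 * c) := by
    intro a ha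
    by_cases a0 : a = 0
    · simpa [a0] using ht_zero d
    obtain ⟨g, hg, μ, hμ, e⟩ := hO d a hd ha a0
    have t1 : HT S M (μ • g d) c := HT.smul' (by simpa [hμ] using ht.conj hg (hM hg))
    rw [← e] at t1
    simpa [ha, sq] using t1.smul
  refine ⟨d, hd0, ctr_iff.2 ⟨hd, fun c' hc' => ?_⟩⟩
  let E : Subfield F :=
    { carrier := {a | σ a = a}
      mul_mem' := fun {a b} ha hb => by simp only [Set.mem_setOf_eq] at *; rw [map_mul, ha, hb]
      one_mem' := map_one σ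
      add_mem' := fun {a b} ha hb => by simp only [Set.mem_setOf_eq] at *; rw [map_add, ha, hb]
      zero_mem' := map_zero σ
      neg_mem' := fun {a} ha => by simp only [Set.mem_setOf_eq] at *; rw [map_neg, ha]
      inv_mem' := fun a ha => by simp only [Set.mem_setOf_eq] at *; rw [map_inv₀, ha] }
  have hσc : σ c = -c := by linear_combination hc
  have hσc' : σ c' = -c' := by linear_combination hc'
  have hr : c' / c ∈ E := by
    change σ (c' / c) = c' / c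
    rw [map_div₀, hσc, hσc', neg_div_neg_eq]
  have hab : ∃ a b : E, (⟨c' / c, hr⟩ : E) = a ^ 2 - b ^ 2 := by
    by_cases h2 : (2 : E) = 0
    · have hch : ringChar E = 2 := by
        have := CharP.ringChar_of_prime_eq_zero (R := E) Nat.prime_two (by exact_mod_cast h2)
        exact this
      obtain ⟨a, ha⟩ := FiniteField.isSquare_of_char_two hch (⟨c' / c, hr⟩ : E)
      exact ⟨a, 0, by rw [ha]; ring⟩
    · exact ⟨(⟨c' / c, hr⟩ + 1) / 2, (⟨c' / c, hr⟩ - 1) / 2, by field_simp; ring⟩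
  obtain ⟨a, b, e⟩ := hab
  have e' : c' / c = (a : F) ^ 2 - (b : F) ^ 2 := by simpa using congrArg Subtype.val e
  have := (k1 a a.2).sub (k1 b b.2) hd
  convert this using 1
  rw [← sub_mul, ← e', div_mul_cancel₀ _ c0]

end Cfsg.Agent.H2.UG
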