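import Cfsg.Agent.H2.UG1

/-!
Transitive unipotent affine groups in dimension three with few translations.
-/

set_option autoImplicit false
set_option linter.unusedSectionVars false
set_option linter.unusedVariables false

namespace Cfsg.Agent.H2.UG

/-- unitriangular matrices of size four -/
@[ext] structure U4 (F : Type*) where
  l : F
  b : F
  g : F
  c : F
  e : F
  f : F

namespace U4

variable {F : Type*} [Field F]

instance : Mul (U4 F) :=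
  ⟨fun u v => ⟨u.l + v.l, u.b + v.b, u.g + v.g + u.l * v.b, u.c + v.c, u.e + v.e + u.b * v.c,
    u.f + v.f + u.g * v.c + u.l * v.e⟩⟩
instance : One (U4 F) := ⟨⟨0, 0, 0, 0, 0, 0⟩⟩
instance : Inv (U4 F) :=
  ⟨fun u => ⟨-u.l, -u.b, -u.g + u.l * u.b, -u.c, -u.e + u.b * u.c,
    -u.f + u.g * u.c + u.l * u.e - u.l * u.b * u.c⟩⟩

@[simp] theorem mul_l (u v : U4 F) : (u * v).l = u.l + v.l := rfl
@[simp] theorem mul_b (u v : U4 F) : (u * v).b = u.b + v.b := rfl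
@[simp] theorem mul_g (u v : U4 F) : (u * v).g = u.g + v.g + u.l * v.b := rfl
@[simp] theorem mul_c (u v : U4 F) : (u * v).c = u.c + v.c := rfl
@[simp] theorem mul_e (u v : U4 F) : (u * v).e = u.e + v.e + u.b * v.c := rfl
@[simp] theorem mul_f (u v : U4 F) : (u * v).f = u.f + v.f + u.g * v.c + u.l * v.e := rfl
@[simp] theorem one_l : (1 : U4 F).l = 0 := rfl
@[simp] theorem one_b : (1 : U4 F).b = 0 := rfl
@[simp] theorem one_g : (1 : U4 F).g = 0 := rfl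
@[simp] theorem one_c : (1 : U4 F).c = 0 := rfl
@[simp] theorem one_e : (1 : U4 F).e = 0 := rfl
@[simp] theorem one_f : (1 : U4 F).f = 0 := rfl
@[simp] theorem inv_l (u : U4 F) : u⁻¹.l = -u.l := rfl
@[simp] theorem inv_b (u : U4 F) : u⁻¹.b = -u.b := rfl
@[simp] theorem inv_g (u : U4 F) : u⁻¹.g = -u.g + u.l * u.b := rfl
@[simp] theorem inv_c (u : U4 F) : u⁻¹.c = -u.c := rfl
@[simp] theorem inv_e (u : U4 F) : u⁻¹.e = -u.e + u.b * u.c := rfl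
@[simp] theorem inv_f (u : U4 F) : u⁻¹.f = -u.f + u.g * u.c + u.l * u.e - u.l * u.b * u.c := rfl

instance : Group (U4 F) := Group.ofLeftAxioms
  (fun u v w => by ext <;> simp <;> ring) (fun u => by ext <;> simp) fun u => by ext <;> simp <;> ring

/-- the image of the base point -/
def pt (u : U4 F) : F × F × F := (u.c, u.e, u.f)

end U4

theorem cnt {G α β : Type*} [Group G] [Finite α] [Finite β] (π : G → α)
    (hπ : ∀ u v v', π v = π v' → π (u * v) = π (u * v')) (H K : Set G) (χ : G → β)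
    (h : ∀ s ∈ H, ∀ t ∈ H, χ s = χ t → s⁻¹ * t ∈ K) :
    (π '' H).ncard ≤ (χ '' H).ncard * (π '' K).ncard := by
  classical
  have t1 : ∀ a : β, ∃ s, a ∈ χ '' H → s ∈ H ∧ χ s = a := fun a => by
    by_cases ha : a ∈ χ '' H
    · obtain ⟨s, hs, e⟩ := ha; exact ⟨s, fun _ => ⟨hs, e⟩⟩
    · exact ⟨1, fun k => (ha k).elim⟩
  have t2 : ∀ y : α, ∃ s, y ∈ π '' K → π s = y := fun y => by
    by_cases hy : y ∈ π '' K
    · obtain ⟨s, hs, e⟩ := hy; exact ⟨s, fun _ => e⟩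
    · exact ⟨1, fun k => (hy k).elim⟩
  choose r hr using t1
  choose r' hr' using t2
  rw [← Set.ncard_prod]
  refine le_trans (Set.ncard_le_ncard (t := (fun x : β × α => π (r x.1 * r' x.2)) '' ((χ '' H) ×ˢ (π '' K)))
    ?_) Set.ncard_image_le
  rintro _ ⟨t, ht, rfl⟩
  obtain ⟨a1, a2⟩ := hr (χ t) ⟨t, ht, rfl⟩
  have k := h _ a1 t ht a2
  refine ⟨(χ t, π ((r (χ t))⁻¹ * t)), ⟨⟨t, ht, rfl⟩, _, k, rfl⟩, ?_⟩
  simp only
  rw [hπ _ _ _ (hr' _ ⟨_, k, rfl⟩), mul_inv_cancel_left]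

variable {F : Type*} [Field F] [Finite F] {σ : F →+* F} {q : ℕ}

theorem line_card (hfix : {x : F | σ x = x}.ncard = q) (A : Set F)
    (h : ∀ a ∈ A, ∀ a' ∈ A, a ≠ 0 → σ (a' / a) = a' / a) : A.ncard ≤ q := by
  rw [← hfix]
  by_cases hz : ∀ a ∈ A, a = 0
  · exact Set.ncard_le_ncard fun a ha => by simp [hz a ha]
  push Not at hz
  obtain ⟨a, ha, a0⟩ := hz
  exact Set.ncard_le_ncard_of_injOn (fun x => x / a) (fun x hx => h a ha x hx a0)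
    fun x _ y _ e => by simpa [a0] using e

/-- the hypotheses on the affine group -/
structure Aff (σ : F →+* F) (q : ℕ) (R : Subgroup (U4 F)) : Prop where
  card : Nat.card F = q ^ 2
  fix : {x : F | σ x = x}.ncard = q
  ne : ∃ a, σ a ≠ a
  tr : ∀ x, ∃ s ∈ R, s.pt = x
  tl : ∀ c e f μ : F, (⟨0, 0, 0, c, e, f⟩ : U4 F) ∈ R → (⟨0, 0, 0, μ * c, μ * e, μ * f⟩ : U4 F) ∈ R →
    σ μ = μ ∨ (c = 0 ∧ e = 0 ∧ f = 0)
  two : (2 : F) = 0 → ∀ c e f : F, (⟨0, 0, 0, c, e, f⟩ : U4 F) ∈ R → c = 0 ∧ e = 0 ∧ f = 0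

variable {R : Subgroup (U4 F)}

theorem pt_mul (u v v' : U4 F) (h : v.pt = v'.pt) : (u * v).pt = (u * v').pt := by
  simp only [U4.pt, Prod.mk.injEq] at h
  simp [U4.pt, h.1, h.2.1, h.2.2]

theorem Aff.two_le (h : Aff σ q R) : 2 ≤ q := by
  have : 1 < q ^ 2 := h.card ▸ Finite.one_lt_card
  by_contra hlt
  have : q ≤ 1 := by omega
  interval_cases q <;> simp_all

theorem Aff.top (h : Aff σ q R) (A : Set F) : A.ncard ≤ q ^ 2 := by
  rw [← h.card, ← Set.ncard_univ]; exact Set.ncard_le_ncard (Set.subset_univ _)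

theorem Aff.c0 (h : Aff σ q R) : q ^ 6 ≤ (U4.pt '' (R : Set (U4 F))).ncard := by
  have : U4.pt '' (R : Set (U4 F)) = Set.univ := Set.eq_univ_of_forall fun x => h.tr x
  rw [this, Set.ncard_univ, Nat.card_prod, Nat.card_prod, h.card]
  exact le_of_eq (by ring)

theorem Aff.c2 (h : Aff σ q R) :
    (U4.pt '' {s | s ∈ R ∧ s.l = 0 ∧ s.b = 0 ∧ s.g = 0 ∧ s.c = 0}).ncard ≤ q ^ 2 := by
  obtain ⟨δ, hδ⟩ := h.ne
  set B := U4.pt '' {s | s ∈ R ∧ s.l = 0 ∧ s.b = 0 ∧ s.g = 0 ∧ s.c = 0}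
  have key : (B ×ˢ B).ncard ≤ (Set.univ : Set (F × F)).ncard := by
    refine Set.ncard_le_ncard_of_injOn
      (fun x => (x.1.2.1 + δ * x.2.2.1, x.1.2.2 + δ * x.2.2.2)) (fun _ _ => trivial) ?_
    rintro ⟨_, _⟩ ⟨⟨s, ⟨s0, s1, s2, s3, s4⟩, rfl⟩, ⟨t, ⟨t0, t1, t2, t3, t4⟩, rfl⟩⟩
      ⟨_, _⟩ ⟨⟨u, ⟨u0, u1, u2, u3, u4⟩, rfl⟩, ⟨v, ⟨v0, v1, v2, v3, v4⟩, rfl⟩⟩ e
    simp only [U4.pt, Prod.mk.injEq] at e
    have m1 : (⟨0, 0, 0, 0, v.e - t.e, v.f - t.f⟩ : U4 F) ∈ R := by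
      convert R.mul_mem v0 (R.inv_mem t0) using 1
      ext <;> simp [*] <;> ring
    have m2 : (⟨0, 0, 0, δ * 0, δ * (v.e - t.e), δ * (v.f - t.f)⟩ : U4 F) ∈ R := by
      convert R.mul_mem s0 (R.inv_mem u0) using 1
      ext <;> simp [*]
      · linear_combination -e.1
      · linear_combination -e.2
    obtain ⟨-, k1, k2⟩ := (h.tl _ _ _ _ m1 m2).resolve_left hδ
    simp only [U4.pt, Prod.mk.injEq]
    refine ⟨⟨by rw [s4, u4], ?_, ?_⟩, by rw [t4, v4], ?_, ?_⟩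
    · linear_combination e.1 + δ * k1
    · linear_combination e.2 + δ * k2
    · linear_combination -k1
    · linear_combination -k2
  rw [Set.ncard_prod, Set.ncard_univ, Nat.card_prod, h.card] at key
  exact Nat.mul_self_le_mul_self_iff.1 key

theorem Aff.a1 (h : Aff σ q R) (hl : (U4.l '' (R : Set (U4 F))).ncard ≤ q) : False := by
  have hq := h.two_le
  obtain ⟨δ, hδ⟩ := h.ne
  have c0 := h.c0
  have c2 := h.c2
  have c3 := cnt U4.pt pt_mul (R : Set (U4 F)) {s | s ∈ R ∧ s.l = 0} U4.l fun s hs t ht e =>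
    ⟨R.mul_mem (R.inv_mem hs) ht, by simp [e]⟩
  have c4 := cnt U4.pt pt_mul {s | s ∈ R ∧ s.l = 0} {s | s ∈ R ∧ s.l = 0 ∧ s.c = 0} U4.c
    fun s hs t ht e => ⟨R.mul_mem (R.inv_mem hs.1) ht.1, by simp [hs.2, ht.2], by simp [e]⟩
  have c5 := cnt U4.pt pt_mul {s | s ∈ R ∧ s.l = 0 ∧ s.c = 0}
    {s | s ∈ R ∧ s.l = 0 ∧ s.b = 0 ∧ s.g = 0 ∧ s.c = 0} (fun s => (s.b, s.g))
    fun s hs t ht e => by
      simp only [Prod.mk.injEq] at e
      exact ⟨R.mul_mem (R.inv_mem hs.1) ht.1, by simp [hs.2, ht.2], by simp [e.1], by simp [e.2, hs.2],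
        by simp [hs.2, ht.2]⟩
  have c6 : (U4.pt '' {s | s ∈ R ∧ s.l = 0 ∧ s.c = 0}).ncard ≤ q ^ 4 := by
    have : (U4.pt '' {s | s ∈ R ∧ s.l = 0 ∧ s.c = 0}).ncard ≤ (Set.univ : Set (F × F)).ncard := by
      refine Set.ncard_le_ncard_of_injOn Prod.snd (fun _ _ => trivial) ?_
      rintro _ ⟨s, hs, rfl⟩ _ ⟨t, ht, rfl⟩ e
      exact Prod.ext (hs.2.2.trans ht.2.2.symm) e
    rw [Set.ncard_univ, Nat.card_prod, h.card] at this
    exact this.trans (le_of_eq (by ring))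
  set n0 := (U4.pt '' (R : Set (U4 F))).ncard
  set n1 := (U4.pt '' {s | s ∈ R ∧ s.l = 0}).ncard
  set n2 := (U4.pt '' {s | s ∈ R ∧ s.l = 0 ∧ s.c = 0}).ncard
  set n3 := (U4.pt '' {s | s ∈ R ∧ s.l = 0 ∧ s.b = 0 ∧ s.g = 0 ∧ s.c = 0}).ncard
  have fin : ∀ a b : ℕ, (U4.c '' {s | s ∈ R ∧ s.l = 0}).ncard ≤ q ^ a → n2 ≤ q ^ b → a + b ≤ 4 → False :=
    fun a b ha hb hab => by
      have k := c0.trans (c3.trans (Nat.mul_le_mul hl (c4.trans (Nat.mul_le_mul ha hb))))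
      rw [← pow_add, ← pow_succ'] at k
      have := (Nat.pow_le_pow_iff_right (by omega)).1 k
      omega
  have comm : ∀ s ∈ R, s.l = 0 → ∀ u ∈ R, u.l = 0 → u.c = 0 →
      (⟨0, 0, 0, 0, s.c * u.b, s.c * u.g⟩ : U4 F) ∈ R := fun s hs s1 u hu u1 u2 => by
    convert R.mul_mem (R.inv_mem (R.mul_mem hs hu)) (R.mul_mem hu hs) using 1
    ext <;> simp [*] <;> ring
  by_cases z1 : ∀ u ∈ R, u.l = 0 → u.c = 0 → u.b = 0 ∧ u.g = 0
  · refine fin 2 2 (h.top _) (le_trans (Set.ncard_le_ncard (Set.image_mono ?_)) c2) le_rfl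
    rintro u ⟨hu, u1, u2⟩
    exact ⟨hu, u1, (z1 u hu u1 u2).1, (z1 u hu u1 u2).2, u2⟩
  by_cases z2 : ∀ s ∈ R, s.l = 0 → s.c = 0
  · refine fin 0 4 ?_ c6 le_rfl
    rw [pow_zero, ← Set.ncard_singleton (0 : F)]
    refine Set.ncard_le_ncard ?_
    rintro _ ⟨s, hs, rfl⟩
    exact z2 s hs.1 hs.2
  push Not at z1 z2
  obtain ⟨u₀, hu₀, u1, u2, u3⟩ := z1
  obtain ⟨s₀, hs₀, s1, s2⟩ := z2
  have hC : ∀ s ∈ R, s.l = 0 → ∀ t ∈ R, t.l = 0 → s.c ≠ 0 → σ (t.c / s.c) = t.c / s.c :=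
    fun s hs a1 t ht a2 a3 => by
      refine (h.tl _ _ _ (t.c / s.c) (comm s hs a1 u₀ hu₀ u1 u2) ?_).resolve_right fun k => ?_
      · convert comm t ht a2 u₀ hu₀ u1 u2 using 2 <;> field_simp
        simp
      · exact u3 ((mul_eq_zero.1 k.2.1).resolve_left a3) ((mul_eq_zero.1 k.2.2).resolve_left a3)
  have c7 : (U4.c '' {s | s ∈ R ∧ s.l = 0}).ncard ≤ q ^ 1 := by
    rw [pow_one]
    refine line_card h.fix _ ?_
    rintro _ ⟨s, hs, rfl⟩ _ ⟨t, ht, rfl⟩ a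
    exact hC s hs.1 hs.2 t ht.1 ht.2 a
  by_cases z3 : ∀ u ∈ R, u.l = 0 → u.c = 0 → u.b = 0
  · refine fin 1 3 c7 (c5.trans ?_) le_rfl
    rw [pow_succ' q 2]
    refine Nat.mul_le_mul ?_ c2
    have k : (U4.g '' {s | s ∈ R ∧ s.l = 0 ∧ s.c = 0}).ncard ≤ q := by
      refine line_card h.fix _ ?_
      rintro _ ⟨u, hu, rfl⟩ _ ⟨v, hv, rfl⟩ a
      refine (h.tl _ _ _ (v.g / u.g) (comm s₀ hs₀ s1 u hu.1 hu.2.1 hu.2.2) ?_).resolve_right fun k => ?_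
      · convert comm s₀ hs₀ s1 v hv.1 hv.2.1 hv.2.2 using 2
        · simp
        · simp [z3 u hu.1 hu.2.1 hu.2.2, z3 v hv.1 hv.2.1 hv.2.2]
        · field_simp
      · exact a ((mul_eq_zero.1 k.2.2).resolve_left s2)
    refine le_trans (Set.ncard_le_ncard_of_injOn Prod.snd ?_ ?_) k
    · rintro _ ⟨u, hu, rfl⟩; exact ⟨u, hu, rfl⟩
    · rintro _ ⟨u, hu, rfl⟩ _ ⟨v, hv, rfl⟩ e
      exact Prod.ext ((z3 u hu.1 hu.2.1 hu.2.2).trans (z3 v hv.1 hv.2.1 hv.2.2).symm) e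
  push Not at z3
  obtain ⟨u, hu, a1, a2, a3⟩ := z3
  obtain ⟨s, hs, es⟩ := h.tr (δ * s₀.c, 0, 0)
  have ec : s.c = δ * s₀.c := congrArg Prod.fst es
  have l0 : s.l ≠ 0 := fun e => hδ (by simpa [ec, s2] using hC s₀ hs₀ s1 s hs e s2)
  have m1 : (⟨0, 0, s.l * u.b, 0, -(u.b * s.c), s.l * u.e - u.g * s.c - s.l * u.b * s.c⟩ : U4 F) ∈ R := by
    convert R.mul_mem (R.mul_mem hs hu) (R.inv_mem (R.mul_mem hu hs)) using 1
    ext <;> simp [a1, a2] <;> ring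
  have m2 := comm s₀ hs₀ s1 _ m1 rfl rfl
  have m3 : (⟨0, 0, 0, -(2 * δ) * 0, -(2 * δ) * (s₀.c * 0), -(2 * δ) * (s₀.c * (s.l * u.b))⟩ : U4 F) ∈ R := by
    convert R.mul_mem (R.mul_mem hs m1) (R.inv_mem (R.mul_mem m1 hs)) using 1
    ext <;> simp [ec] <;> ring
  have n0 : s₀.c * (s.l * u.b) ≠ 0 := mul_ne_zero s2 (mul_ne_zero l0 a3)
  by_cases h2 : (2 : F) = 0
  · exact n0 (h.two h2 _ _ _ m2).2.2
  · have := (h.tl _ _ _ _ m2 m3).resolve_right fun k => n0 k.2.2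
    rw [map_neg, map_mul, map_ofNat, neg_inj] at this
    exact hδ (mul_left_cancel₀ h2 this)

theorem Aff.a2 (h : Aff σ q R) (hb : ∀ s ∈ R, s.b = 0 ↔ s.l = 0)
    (hg : (U4.g '' {s | s ∈ R ∧ s.l = 0}).ncard ≤ q) : False := by
  have hq := h.two_le
  by_cases z : ∀ u ∈ R, u.l = 0 → u.g = 0 → u.c = 0
  · have c3 := cnt U4.pt pt_mul (R : Set (U4 F)) {s | s ∈ R ∧ s.l = 0} U4.l fun s hs t ht e =>
      ⟨R.mul_mem (R.inv_mem hs) ht, by simp [e]⟩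
    have c4 := cnt U4.pt pt_mul {s | s ∈ R ∧ s.l = 0}
      {s | s ∈ R ∧ s.l = 0 ∧ s.b = 0 ∧ s.g = 0 ∧ s.c = 0} U4.g fun s hs t ht e => by
        have m := R.mul_mem (R.inv_mem hs.1) ht.1
        have a1 : (s⁻¹ * t).l = 0 := by simp [hs.2, ht.2]
        have a2 : (s⁻¹ * t).g = 0 := by simp [hs.2, e]
        exact ⟨m, a1, (hb _ m).2 a1, a2, z _ m a1 a2⟩
    have k := h.c0.trans (c3.trans (Nat.mul_le_mul (h.top _) (c4.trans (Nat.mul_le_mul hg h.c2))))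
    rw [← pow_succ', ← pow_add] at k
    have := (Nat.pow_le_pow_iff_right (by omega)).1 k
    omega
  push Not at z
  obtain ⟨u, hu, a1, a2, a3⟩ := z
  have a4 := (hb u hu).2 a1
  refine h.a1 (line_card h.fix _ ?_)
  rintro _ ⟨s, hs, rfl⟩ _ ⟨t, ht, rfl⟩ l0
  have m1 : (⟨0, 0, 0, 0, s.b * u.c, s.g * u.c + s.l * u.e⟩ : U4 F) ∈ R := by
    convert R.mul_mem (R.mul_mem (R.mul_mem hs hu) (R.inv_mem hs)) (R.inv_mem hu) using 1
    ext <;> simp [a1, a2, a4] <;> ring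
  have m2 : ∀ t ∈ R, (⟨0, 0, 0, 0, 0, t.l * (s.b * u.c)⟩ : U4 F) ∈ R := fun t ht => by
    convert R.mul_mem (R.mul_mem (R.mul_mem ht m1) (R.inv_mem ht)) (R.inv_mem m1) using 1
    ext <;> simp <;> ring
  refine (h.tl _ _ _ (t.l / s.l) (m2 s hs) ?_).resolve_right fun k => ?_
  · convert m2 t ht using 2
    · simp
    · simp
    · field_simp
  · exact mul_ne_zero l0 (mul_ne_zero (fun e => l0 ((hb s hs).1 e)) a3) k.2.2

end Cfsg.Agent.H2.UG
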