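import Cfsg.Agent.H2.UG2

/-!
Large orbits on non-singular vectors: the invariant maximal isotropic subspace.
-/

set_option autoImplicit false
set_option linter.unusedSectionVars false
set_option linter.unusedVariables false

namespace Cfsg.Agent.H2.UG

open Module Subgroup Cfsg.Agent.Form Cfsg.Agent.H7 Cfsg.Agent.H6.SU Cfsg.Agent.H8.U5 Cfsg.Agent.H2.U5G

universe u v

variable {F : Type u} [Field F] {σ : F →+* F} {hσ : ∀ a, σ (σ a) = a}
  {V : Type v} [AddCommGroup V] [Module F V] {S : PQ (FP.unit σ hσ) V} {M : Subgroup (V ≃ₗ[F] V)} {q : ℕ}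
  [Finite F] [FiniteDimensional F V]

/-- a Sylow subgroup has orbits as large as the `p`-part of the whole orbit -/
theorem exists_syl (σ : F →+* F) (M : Subgroup (V ≃ₗ[F] V)) (hF : Nat.card F = q ^ 2) :
    ∃ (p : ℕ) (_ : Fact p.Prime) (_ : CharP F p) (P : Subgroup (V ≃ₗ[F] V)),
    P ≤ M ∧ IsPGroup p P ∧ (∃ k, q = p ^ k) ∧
      ∀ v k, q ^ k ∣ (Orb σ M v).ncard → q ^ k ∣ (MulAction.orbit P v).ncard := by
  classical
  have := Fintype.ofFinite F
  obtain ⟨p, hp⟩ := CharP.exists F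
  obtain ⟨n, hpp, hn⟩ := FiniteField.card F p
  have : Fact p.Prime := ⟨hpp⟩
  have : Finite V := Module.finite_of_finite F
  have : Finite (V ≃ₗ[F] V) := Finite.of_injective _ (DFunLike.coe_injective (F := V ≃ₗ[F] V))
  have hq : ∃ k, q = p ^ k := by
    have : q ∣ p ^ (n : ℕ) := by
      rw [← hn, ← Nat.card_eq_fintype_card, hF]; exact dvd_pow_self _ two_ne_zero
    obtain ⟨k, -, e⟩ := (Nat.dvd_prime_pow hpp).1 this
    exact ⟨k, e⟩
  obtain ⟨P0⟩ : Nonempty (Sylow p M) := inferInstance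
  refine ⟨p, inferInstance, hp, (P0 : Subgroup M).map M.subtype, map_subtype_le _, P0.2.map _, hq,
    fun v k hk => ?_⟩
  set P := (P0 : Subgroup M).map M.subtype with hP
  let Z : Subgroup Fˣ :=
    { carrier := {c | (c : F) * σ c = 1}
      one_mem' := by simp
      mul_mem' := fun {a b} ha hb => by
        simp only [Set.mem_setOf_eq, Units.val_mul, map_mul] at *
        linear_combination (b * σ b) * ha + hb
      inv_mem' := fun {a} ha => by
        simp only [Set.mem_setOf_eq, Units.val_inv_eq_inv_val, map_inv₀] at *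
        rw [← mul_inv, ha, inv_one] }
  letI act : MulAction (M × Z) V :=
    { smul := fun x v => ((x.2 : Fˣ) : F) • x.1.1 v
      one_smul := fun v => by
        change (((1 : Z) : Fˣ) : F) • (1 : M).1 v = v
        simp
      mul_smul := fun x y v => by
        change (((x.2 * y.2 : Z) : Fˣ) : F) • (x.1 * y.1).1 v =
          ((x.2 : Fˣ) : F) • x.1.1 (((y.2 : Fˣ) : F) • y.1.1 v)
        simp [smul_smul] }
  have hact : ∀ (x : M × Z) (v : V), x • v = ((x.2 : Fˣ) : F) • x.1.1 v := fun _ _ => rfl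
  have ho : MulAction.orbit (M × Z) v = Orb σ M v := by
    ext w
    constructor
    · rintro ⟨x, rfl⟩
      exact ⟨x.1.1, x.1.2, _, x.2.2, hact x v⟩
    · rintro ⟨g, hg, c, hc, rfl⟩
      exact ⟨(⟨g, hg⟩, ⟨Units.mk0 c (left_ne_zero_of_mul_eq_one hc), hc⟩), rfl⟩
  have c1 := (MulAction.stabilizer (M × Z) v).index_mul_card
  rw [MulAction.index_stabilizer, ho, Nat.card_prod] at c1
  have c2 := (MulAction.stabilizer P v).index_mul_card
  rw [MulAction.index_stabilizer] at c2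
  have c3 : Nat.card (MulAction.stabilizer P v) ∣ Nat.card (MulAction.stabilizer (M × Z) v) := by
    let φ : MulAction.stabilizer P v →* MulAction.stabilizer (M × Z) v :=
      { toFun := fun s => ⟨(⟨s.1.1, map_subtype_le _ s.1.2⟩, 1), by
          rw [MulAction.mem_stabilizer_iff, hact]
          exact (one_smul F _).trans (MulAction.mem_stabilizer_iff.1 s.2)⟩
        map_one' := rfl
        map_mul' := fun a b => Subtype.ext (Prod.ext rfl (by simp)) }
    exact Subgroup.card_dvd_of_injective φ fun a b e =>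
      Subtype.ext (Subtype.ext (congrArg (fun x => x.1.1.1) e))
  have c4 : Nat.card P = Nat.card P0 := Subgroup.card_subtype _ _
  have c5 := (P0 : Subgroup M).index_mul_card
  have c6 : ¬ p ∣ (P0 : Subgroup M).index := P0.not_dvd_index
  have c7 : ¬ p ∣ Nat.card Z := fun hd => by
    have h1 := hd.trans Z.card_subgroup_dvd_card
    rw [Nat.card_units, Nat.card_eq_fintype_card, hn] at h1
    have h2 : p ∣ p ^ (n : ℕ) := dvd_pow_self _ n.ne_zero
    have h3 := (Nat.dvd_sub h2 h1)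
    rw [Nat.sub_sub_self (Nat.one_le_pow _ _ hpp.pos)] at h3
    exact hpp.one_lt.ne' (Nat.dvd_one.1 h3)
  have c8 := Nat.mul_dvd_mul hk c3
  rw [c1, ← c5, ← c4, ← c2] at c8
  have c9 : q ^ k ∣ (MulAction.orbit P v).ncard * ((P0 : Subgroup M).index * Nat.card Z) := by
    refine Nat.dvd_of_mul_dvd_mul_right (k := Nat.card (MulAction.stabilizer P v)) Nat.card_pos ?_
    convert c8 using 1; ring
  obtain ⟨j, rfl⟩ := hq
  refine Nat.Coprime.dvd_of_dvd_mul_right ?_ c9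
  refine Nat.Coprime.pow_left _ (Nat.Coprime.pow_left _ ((Nat.Prime.coprime_iff_not_dvd hpp).2 fun hd => ?_))
  exact ((Nat.Prime.dvd_mul hpp).1 hd).elim c6 c7

theorem dvd_card_norm (hF' : Nat.card F = q ^ 2) (hne : ∃ a, σ a ≠ a) (hS : S.Nondeg) {m : ℕ}
    (hd : finrank F V = 2 * m + 1) {c : F} (hc : σ c = c) (c0 : c ≠ 0) :
    q ^ (2 * m) ∣ {v | S.B v v = c}.ncard := by
  classical
  have := Fintype.ofFinite F
  have : Finite V := Module.finite_of_finite F
  have hF : Fintype.card F = q ^ 2 := by rw [← Nat.card_eq_fintype_card, hF']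
  have h1 := H9.FCount.card_sing hF m hS
    (by rw [H9.FClass.widx_top_of_trP (trP hne) hS, hd]; omega)
  rw [H9.FOrd.card_Λ_unit hF hσ hne, hd] at h1
  have h2 : Nat.card V = (q ^ 2) ^ (2 * m + 1) := by rw [Module.natCard_eq_pow_finrank (K := F), hF', hd]
  have h3 := H9.FOrd.card_ne_zero (fun a : F => σ a = a) (map_zero σ)
  rw [(H9.FOrd.card_Λ_unit_aux hF hσ hne).2] at h3
  choose r hr using fun a : {a : F // σ a = a ∧ a ≠ 0} =>
    exists_norm_mul hne hσ hc c0 a.2.1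
  have r0 : ∀ a, r a ≠ 0 := fun a e => a.2.2 (by rw [← hr a, e]; simp)
  let f : {a : F // σ a = a ∧ a ≠ 0} × {v | S.B v v = c} → {v // ¬ S.Sing v} := fun x =>
    ⟨r x.1 • x.2.1, fun hs => x.1.2.2 (by
      have := hs.B_self
      rw [PQ.B_smul_left, Bsr, x.2.2] at this
      rw [← hr x.1, mul_assoc, this])⟩
  have fN : ∀ x, S.B (f x).1 (f x).1 = x.1.1 := fun x => by
    rw [← hr x.1, PQ.B_smul_left, Bsr, x.2.2, mul_assoc]
  have hf : Function.Bijective f := by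
    constructor
    · rintro ⟨a, v⟩ ⟨b, w⟩ e
      have e1 : a = b := Subtype.ext ((fN (a, v)).symm.trans (e ▸ fN (b, w)))
      subst e1
      exact Prod.ext rfl (Subtype.ext (smul_right_injective V (r0 a) (congrArg Subtype.val e)))
    · rintro ⟨v, hv⟩
      let a : {a : F // σ a = a ∧ a ≠ 0} := ⟨S.B v v, Bs S v v, fun e => hv (sing e)⟩
      refine ⟨(a, ⟨(r a)⁻¹ • v, ?_⟩), Subtype.ext ?_⟩
      · have := hr a
        have h0 := r0 a
        have h0' := σ_ne (σ := σ) h0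
        change S.B _ _ = c
        rw [PQ.B_smul_left, Bsr, map_inv₀]
        change _ = S.B v v at this
        rw [← this]; field_simp
      · change r a • (r a)⁻¹ • v = v
        rw [smul_smul, mul_inv_cancel₀ (r0 a), one_smul]
  have h4 := Nat.card_congr (Equiv.ofBijective f hf)
  rw [Nat.card_prod, h3, Nat.card_coe_set_eq] at h4
  have h5 := Nat.card_congr (Equiv.sumCompl S.Sing)
  rw [Nat.card_sum, h1, h2, ← h4] at h5
  have hq : 1 ≤ q := by
    have : 0 < q ^ 2 := hF ▸ Fintype.card_pos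
    exact Nat.pos_of_ne_zero (by rintro rfl; simp at this)
  refine Nat.Coprime.dvd_of_dvd_mul_left (m := q - 1) ?_ ?_
  · refine Nat.Coprime.pow_left _ ?_
    obtain ⟨k, rfl⟩ : ∃ k, q = k + 1 := ⟨q - 1, by omega⟩
    simp
  · refine (Nat.dvd_add_right
      (b := (q ^ 2) ^ m + ((q ^ 2) ^ m - 1) * ((q ^ 2) ^ (2 * m + 1 - m - 1) * q)) ?_).1 ?_
    · refine dvd_add ⟨1, by ring⟩ (Dvd.dvd.mul_left ⟨q, ?_⟩ _)
      rw [show 2 * m + 1 - m - 1 = m by omega, ← pow_mul]
    · rw [h5]; exact ⟨q ^ (2 * m + 2), by ring⟩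

/-- an invariant maximal isotropic subspace in odd dimension -/
structure Lw (S : PQ (FP.unit σ hσ) V) (P : Subgroup (V ≃ₗ[F] V)) (L : Submodule F V) (w : V) : Prop where
  iso : P ≤ S.isom
  inv : ∀ s ∈ P, ∀ x ∈ L, s x ∈ L
  ts : ∀ x ∈ L, ∀ y ∈ L, S.B x y = 0
  wp : ∀ y ∈ L, S.B w y = 0
  ww : S.B w w ≠ 0
  pp : ∀ x ∈ S.perp L, ∃ c : F, x - c • w ∈ L
  f3 : ∀ s ∈ P, s w - w ∈ L

theorem exists_ts {p : ℕ} [Fact p.Prime] [CharP F p] {P : Subgroup (V ≃ₗ[F] V)} [Finite P]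
    (hP : IsPGroup p P) (hi : P ≤ S.isom) (hne : ∃ a, σ a ≠ a) (hS : S.Nondeg) (k : ℕ)
    (hk : 2 * k ≤ finrank F V) :
    ∃ U : Submodule F V, (∀ s ∈ P, ∀ x ∈ U, s x ∈ U) ∧ U ≤ S.perp U ∧ finrank F U = k := by
  induction k with
  | zero => exact ⟨⊥, by simp, bot_le, by simp⟩
  | succ k ih =>
    obtain ⟨U, h1, h2, h3⟩ := ih (by omega)
    obtain ⟨x, x1, x2, x3, x4⟩ := flag_step hP hi hne hS h1 h2 (by omega)
    refine ⟨U ⊔ F ∙ x, fun s hs y hy => ?_, fun y hy z hz => ?_, ?_⟩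
    · obtain ⟨u, hu, z, hz, rfl⟩ := Submodule.mem_sup.1 hy
      obtain ⟨c, rfl⟩ := Submodule.mem_span_singleton.1 hz
      have : s (u + c • x) = (s u + c • (s x - x)) + c • x := by rw [map_add, map_smul]; module
      rw [this]
      exact Submodule.add_mem_sup (U.add_mem (h1 s hs u hu) (U.smul_mem _ (x4 s hs))) hz
    · obtain ⟨u, hu, _, hy', rfl⟩ := Submodule.mem_sup.1 hy
      obtain ⟨c, rfl⟩ := Submodule.mem_span_singleton.1 hy'
      obtain ⟨u', hu', _, hz', rfl⟩ := Submodule.mem_sup.1 hz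
      obtain ⟨c', rfl⟩ := Submodule.mem_span_singleton.1 hz'
      simp [x3, h2 hu u' hu', x1 u' hu', S.B_comm_zero (x1 u hu)]
    · rw [Submodule.finrank_sup_span_singleton x2, h3]

theorem exists_lw {p : ℕ} [Fact p.Prime] [CharP F p] {P : Subgroup (V ≃ₗ[F] V)} [Finite P]
    (hP : IsPGroup p P) (hi : P ≤ S.isom) (hne : ∃ a, σ a ≠ a) (hS : S.Nondeg) {m : ℕ}
    (hd : finrank F V = 2 * m + 1) : ∃ L w, Lw S P L w ∧ finrank F L = m := by
  obtain ⟨L, iL, ts, dL⟩ := exists_ts hP hi hne hS m (by omega)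
  have dP : finrank F (S.perp L) = m + 1 := by
    have := hS.finrank_perp L
    omega
  obtain ⟨w, hw, nw, f3⟩ := exists_fix_mod hP iL (perp_inv hi iL) (fun hle => by
    have := Submodule.finrank_mono hle; omega)
  have hsup : L ⊔ F ∙ w = S.perp L := by
    refine Submodule.eq_of_le_of_finrank_le (sup_le ts (by rwa [Submodule.span_singleton_le_iff_mem])) ?_
    rw [Submodule.finrank_sup_span_singleton nw]
    omega
  have pp : ∀ x ∈ S.perp L, ∃ c : F, x - c • w ∈ L := fun x hx => by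
    rw [← hsup] at hx
    obtain ⟨y, hy, z, hz, rfl⟩ := Submodule.mem_sup.1 hx
    obtain ⟨c, rfl⟩ := Submodule.mem_span_singleton.1 hz
    exact ⟨c, by simpa using hy⟩
  refine ⟨L, w, ⟨hi, iL, fun x hx => ts hx, hw, fun h0 => nw ?_, pp, f3⟩, dL⟩
  rw [← hS.perp_perp L]
  intro x hx
  obtain ⟨c, hc⟩ := pp x hx
  have := hw _ hc
  simpa [h0] using this

section flag

variable {P : Subgroup (V ≃ₗ[F] V)} {L : Submodule F V} {w : V}

theorem Lw.act (h : Lw S P L w) {s : V ≃ₗ[F] V} (hs : s ∈ P) (h2 : ∀ y ∈ L, s y = y) {b : V}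
    (hb : b ∈ L) (e : s w = w + b) (x : V) :
    ∃ y ∈ L, s x = x - (S.B x b / S.B w w) • w + y := by
  have h1 : s x - x ∈ S.perp L := fun u hu => by
    rw [PQ.B_sub_left]
    nth_rewrite 1 [← h2 u hu]
    rw [PQ.B_isom (h.iso hs), sub_self]
  obtain ⟨c, hc⟩ := h.pp _ h1
  obtain ⟨y, hy⟩ : ∃ y, y = s x - x - c • w := ⟨_, rfl⟩
  rw [← hy] at hc
  have e1 : s x = x + c • w + y := by rw [hy]; abel
  have e2 := PQ.B_isom (h.iso hs) x w
  rw [e1, e] at e2
  simp only [PQ.B_add_left, PQ.B_add_right, PQ.B_smul_left, h.wp b hb, h.ts y hc b hb,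
    S.B_comm_zero (h.wp y hc)] at e2
  have e3 : c = -(S.B x b / S.B w w) := by
    have := h.ww
    field_simp
    linear_combination e2
  exact ⟨y, hc, by rw [e1, e3, neg_smul, sub_eq_add_neg x]⟩

theorem Lw.hasT (h : Lw S P L w) (hPM : P ≤ M) {b : V} (hb : b ∈ L)
    (hb0 : b ≠ 0) {c : F} (c0 : c ≠ 0) (hc : c + σ c = 0) {g : V ≃ₗ[F] V} (hg : g ∈ P)
    (e : ∀ x, g x = x + (c / S.B w w * S.B x b) • b) : HasT S M :=
  ⟨b, c / S.B w w, hb0, h.ts b hb b hb, div_ne_zero c0 h.ww, by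
    rw [map_div₀, Bs, ← add_div, hc, zero_div], g, hPM hg, e⟩

theorem Lw.comm (h : Lw S P L w) (hPM : P ≤ M) {s t : V ≃ₗ[F] V} (hs : s ∈ P) (h2 : ∀ y ∈ L, s y = y)
    (ht : t ∈ P) (h2' : ∀ y ∈ L, t y = y) {b : V} (hb : b ∈ L) (hb0 : b ≠ 0)
    {μ : F} (hμ : σ μ ≠ μ) (e : s w = w + b) (e' : t w = w + μ • b) : HasT S M := by
  have hb' := Submodule.smul_mem _ μ hb
  refine h.hasT hPM hb hb0 (c := μ - σ μ) (sub_ne_zero.2 hμ.symm) (by rw [map_sub, hσ]; ring)
    (g := (t * s)⁻¹ * (s * t)) (P.mul_mem (P.inv_mem (P.mul_mem ht hs)) (P.mul_mem hs ht)) fun x => ?_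
  apply (t * s).injective
  obtain ⟨y, hy, a1⟩ := h.act hs h2 hb e x
  obtain ⟨z, hz, a2⟩ := h.act ht h2' hb' e' x
  rw [← LinearEquiv.mul_apply, mul_inv_cancel_left]
  simp only [LinearEquiv.mul_apply, map_add, map_smul, h2 b hb, h2' b hb]
  rw [a2]
  conv_rhs => rw [a1]
  simp only [map_add, map_sub, map_smul, a1, a2, e, e', h2 z hz, h2' y hy, Bsr]
  match_scalars <;> ring

theorem Lw.sq (h : Lw S P L w) (hPM : P ≤ M) (hc : (2 : F) = 0) {s : V ≃ₗ[F] V} (hs : s ∈ P)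
    (h2 : ∀ y ∈ L, s y = y) {b : V} (hb : b ∈ L) (hb0 : b ≠ 0)
    (e : s w = w + b) : HasT S M := by
  refine h.hasT hPM hb hb0 (c := -1) (by simp) (by simp; linear_combination -hc)
    (g := s * s) (P.mul_mem hs hs) fun x => ?_
  obtain ⟨y, hy, a1⟩ := h.act hs h2 hb e x
  rw [LinearEquiv.mul_apply, a1]
  simp only [map_add, map_sub, map_smul, a1, e, h2 y hy]
  have t : ∀ v : V, (2 : F) • v = 0 := fun v => by rw [hc, zero_smul]
  have := t (y - (S.B x b / S.B w w) • w)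
  rw [← sub_eq_zero, ← this]
  match_scalars <;> ring

theorem Lw.tr (h : Lw S P L w) (hF : Nat.card F = q ^ 2) {m : ℕ} (hm : finrank F L = m)
    (hd : q ^ (2 * m) ∣ (MulAction.orbit P w).ncard) : ∀ y ∈ L, ∃ s ∈ P, s w = w + y := fun y hy => by
  have : Finite V := Module.finite_of_finite F
  obtain ⟨s, hs⟩ := surj_of_dvd (A := MulAction.orbit P w) ⟨_, MulAction.mem_orbit_self _⟩
    (fun x : L => w + x) (by
      rintro _ ⟨s, rfl⟩
      exact ⟨⟨_, h.f3 s.1 s.2⟩, add_sub_cancel _ _⟩) (by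
      rwa [Module.natCard_eq_pow_finrank (K := F), hF, hm, ← pow_mul]) ⟨y, hy⟩
  exact ⟨s.1, s.2, hs⟩

/-- invariant subspaces are comparable with `L` -/
theorem Lw.dich (h : Lw S P L w) (hS : S.Nondeg) (tr : ∀ y ∈ L, ∃ s ∈ P, s w = w + y)
    {U : Submodule F V} (hU : ∀ s ∈ P, ∀ x ∈ U, s x ∈ U) : U ≤ L ∨ S.perp L ≤ U := by
  have key : ∀ U : Submodule F V, (∀ s ∈ P, ∀ x ∈ U, s x ∈ U) → U ⊓ S.perp L ≤ L ∨ S.perp L ≤ U := by
    intro U hU
    by_cases k : U ⊓ S.perp L ≤ L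
    · exact Or.inl k
    right
    obtain ⟨x, hx, hxL⟩ := SetLike.not_le_iff_exists.1 k
    obtain ⟨c, hc⟩ := h.pp x hx.2
    have c0 : c ≠ 0 := fun e => hxL (by simpa [e] using hc)
    obtain ⟨s, hs, e⟩ := tr _ (L.smul_mem c⁻¹ hc)
    have hw : w ∈ U := by
      have h1 : s w = c⁻¹ • x := by rw [e, smul_sub, smul_smul, inv_mul_cancel₀ c0, one_smul]; abel
      have h2 := hU _ (P.inv_mem hs) _ (U.smul_mem c⁻¹ hx.1)
      rw [← h1] at h2
      exact (s.symm_apply_apply w) ▸ h2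
    intro y hy
    obtain ⟨a, ha⟩ := h.pp y hy
    obtain ⟨t, ht, e'⟩ := tr _ ha
    have := U.add_mem (U.sub_mem (hU t ht w hw) hw) (U.smul_mem a hw)
    rw [e'] at this
    convert this using 1; abel
  rcases key U hU with k | k
  swap
  · exact Or.inr k
  rcases key _ (perp_inv h.iso hU) with k' | k'
  swap
  · left
    rw [← hS.perp_perp L, ← hS.perp_perp U]
    exact S.perp_anti k'
  exfalso
  have h1 : S.perp L ≤ U ⊔ L := by
    rw [← hS.perp_perp (U ⊔ L), S.perp_sup]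
    exact S.perp_anti k'
  obtain ⟨t, ht, l, hl, e⟩ := Submodule.mem_sup.1 (h1 h.wp)
  have h2 : t ∈ L := k ⟨ht, by
    rw [eq_sub_of_add_eq e]; exact (S.perp L).sub_mem h.wp (h.ts l hl)⟩
  exact h.ww (h.wp w (e ▸ L.add_mem h2 hl))

/-- central elements are quadratic -/
theorem Lw.central (h : Lw S P L w) (hne : ∃ a, σ a ≠ a) (hS : S.Nondeg)
    (tr : ∀ y ∈ L, ∃ s ∈ P, s w = w + y) {z : V ≃ₗ[F] V} (hz : z ∈ P) (hc : ∀ s ∈ P, ∀ x, s (z x) = z (s x)) :
    ∀ x, z x - x ∈ L := by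
  let X : V →ₗ[F] V := (z : V →ₗ[F] V) - LinearMap.id
  have hX : ∀ x, X x = z x - x := fun _ => rfl
  have hs : ∀ s ∈ P, ∀ x, s (X x) = X (s x) := fun s hs x => by rw [hX, hX, map_sub, hc s hs]
  rcases h.dich hS tr (U := LinearMap.range X) (by
    rintro s h1 _ ⟨x, rfl⟩; exact ⟨_, (hs s h1 x).symm⟩) with k | k
  · exact fun x => k ⟨x, rfl⟩
  exfalso
  have ker : ∀ x y, X x = 0 → S.B x (X y) = 0 := fun x y e => by
    rw [hX] at e
    rw [hX, PQ.B_sub_right]
    nth_rewrite 1 [← sub_eq_zero.1 e]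
    rw [PQ.B_isom (h.iso hz), sub_self]
  obtain ⟨x₀, e₀⟩ := k h.wp
  have main : ∀ y ∈ L, S.B x₀ y = 0 := fun y hy => by
    obtain ⟨x₁, e₁⟩ := k (h.ts y hy)
    have a1 : ∀ a : F, σ a * S.B x₀ y + a * S.B x₁ w + a * σ a * S.B x₁ y = 0 := fun a => by
      obtain ⟨s, h1, e⟩ := tr _ (L.smul_mem a hy)
      have a2 := ker (x₀ + a • x₁ - s x₀) (s x₀) (by
        rw [map_sub, map_add, map_smul, ← hs s h1, e₀, e₁, e, sub_self])
      rw [← hs s h1, e₀, PQ.B_sub_left, PQ.B_isom (h.iso h1), e] at a2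
      simp only [PQ.B_add_left, PQ.B_add_right, PQ.B_smul_left, Bsr] at a2
      linear_combination a2
    obtain ⟨δ, hδ⟩ := hne
    have a3 : ∀ a : F, (a + σ a) * S.B x₁ y = 0 := fun a => by
      have := a1 (a + 1)
      rw [map_add, map_one] at this
      linear_combination this - a1 a - (by simpa using a1 1 : S.B x₀ y + S.B x₁ w + S.B x₁ y = 0)
    have a4 : S.B x₁ y = 0 := by
      have b1 := a3 δ
      have b2 := a3 1
      rw [map_one] at b2
      have : (σ δ - δ) * S.B x₁ y = 0 := by linear_combination b1 - δ * b2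
      exact (mul_eq_zero.1 this).resolve_left (sub_ne_zero.2 hδ)
    have b1 := a1 δ
    have b2 := a1 1
    rw [map_one] at b2
    have : (σ δ - δ) * S.B x₀ y = 0 := by
      linear_combination b1 - δ * b2 - (δ * σ δ - δ) * a4
    exact (mul_eq_zero.1 this).resolve_left (sub_ne_zero.2 hδ)
  obtain ⟨c, hc'⟩ := h.pp x₀ main
  have : w ∈ L := by
    have a1 : X x₀ = (z (x₀ - c • w) - (x₀ - c • w)) + c • (z w - w) := by
      rw [hX, map_sub, map_smul]; module
    rw [← e₀, a1]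
    exact L.add_mem (L.sub_mem (h.inv z hz _ hc') hc') (L.smul_mem _ (h.f3 z hz))
  exact h.ww (h.wp w this)

end flag

end Cfsg.Agent.H2.UG
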