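import Cfsg.Agent.H2.UG3

/-!
Large orbits on non-singular vectors force a transvection in dimension seven.
-/

set_option autoImplicit false
set_option linter.unusedSectionVars false
set_option linter.unusedVariables false

namespace Cfsg.Agent.H2.UG

open Module Subgroup Cfsg.Agent.Form Cfsg.Agent.H7 Cfsg.Agent.H6.SU Cfsg.Agent.H8.U5 Cfsg.Agent.H2.U5G

universe u v

variable {F : Type u} [Field F] {σ : F →+* F} {hσ : ∀ a, σ (σ a) = a}
  {V : Type v} [AddCommGroup V] [Module F V] {S : PQ (FP.unit σ hσ) V} {M : Subgroup (V ≃ₗ[F] V)} {q : ℕ}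
  [Finite F] [FiniteDimensional F V]

theorem card_fix (hσ : ∀ a, σ (σ a) = a) (hF : Nat.card F = q ^ 2) (hne : ∃ a, σ a ≠ a) :
    {x : F | σ x = x}.ncard = q := by
  have := Fintype.ofFinite F
  rw [← Nat.card_coe_set_eq]
  exact (H9.FOrd.card_Λ_unit_aux (by rw [← Nat.card_eq_fintype_card, hF]) hσ hne).2

theorem line2 (hfix : {x : F | σ x = x}.ncard = q) {α β : F} (hα : α ≠ 0) (A : Set F)
    (h : ∀ a ∈ A, a * α + σ a * β = 0) : A.ncard ≤ q := by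
  refine line_card hfix A fun a ha a' ha' a0 => ?_
  have h1 := h a ha
  have h2 := h a' ha'
  have hβ : β ≠ 0 := fun e => mul_ne_zero a0 hα (by simpa [e] using h1)
  rw [map_div₀, div_eq_div_iff (σ_ne a0) a0]
  apply mul_right_cancel₀ hβ
  linear_combination a * h2 - a' * h1

variable {P : Subgroup (V ≃ₗ[F] V)} {L : Submodule F V} {w : V}

theorem Lw.aff {p : ℕ} [Fact p.Prime] [CharP F p] [Finite P] (hP : IsPGroup p P) (h : Lw S P L w)
    (hPM : P ≤ M) (hT : ¬ HasT S M) (hF : Nat.card F = q ^ 2) (hne : ∃ a, σ a ≠ a)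
    (h3 : finrank F L = 3) (tr : ∀ y ∈ L, ∃ s ∈ P, s w = w + y) {e₁ e₂ : V} (m1 : e₁ ∈ L) (m2 : e₂ ∈ L)
    (n1 : e₁ ≠ 0) (n2 : e₂ ∉ F ∙ e₁) (f1 : ∀ s ∈ P, s e₁ = e₁) (f2 : ∀ s ∈ P, s e₂ - e₂ ∈ F ∙ e₁) :
    ∃ (e₃ : V) (R : Subgroup (U4 F)), (∀ y ∈ L, ∃ a b c : F, y = a • e₃ + b • e₂ + c • e₁) ∧ Aff σ q R ∧
      ∀ u ∈ R, ∃ s ∈ P, s e₂ = e₂ + u.l • e₁ ∧ s e₃ = e₃ + u.b • e₂ + u.g • e₁ := by
  have f2' : ∀ s ∈ P, ∃ l : F, s e₂ = e₂ + l • e₁ := fun s hs => by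
    obtain ⟨a, ha⟩ := Submodule.mem_span_singleton.1 (f2 s hs)
    exact ⟨a, by rw [ha]; abel⟩
  have mem : ∀ x, x ∈ (F ∙ e₁) ⊔ (F ∙ e₂) ↔ ∃ b c : F, x = b • e₂ + c • e₁ := fun x => by
    rw [← Submodule.span_insert, Submodule.mem_span_pair]
    exact ⟨fun ⟨a, b, e⟩ => ⟨b, a, by rw [← e, add_comm]⟩, fun ⟨a, b, e⟩ => ⟨b, a, by rw [e, add_comm]⟩⟩
  have d2 : finrank F ((F ∙ e₁) ⊔ (F ∙ e₂) : Submodule F V) = 2 := by
    rw [Submodule.finrank_sup_span_singleton n2, finrank_span_singleton n1]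
  obtain ⟨e₃, m3, n3, f3⟩ := exists_fix_mod hP (U := (F ∙ e₁) ⊔ (F ∙ e₂)) (W := L) (fun s hs x hx => by
    obtain ⟨b, c, rfl⟩ := (mem x).1 hx
    obtain ⟨l, hl⟩ := f2' s hs
    exact (mem _).2 ⟨b, c + b * l, by rw [map_add, map_smul, map_smul, hl, f1 s hs]; module⟩) h.inv
    fun k => by have := Submodule.finrank_mono k; omega
  have ml : ∀ a b c : F, a • e₃ + b • e₂ + c • e₁ ∈ L := fun a b c =>
    L.add_mem (L.add_mem (L.smul_mem _ m3) (L.smul_mem _ m2)) (L.smul_mem _ m1)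
  have sp : ∀ y ∈ L, ∃ a b c : F, y = a • e₃ + b • e₂ + c • e₁ := fun y hy => by
    have : (F ∙ e₁) ⊔ (F ∙ e₂) ⊔ (F ∙ e₃) = L := by
      refine Submodule.eq_of_le_of_finrank_eq (sup_le (sup_le ?_ ?_) ?_) ?_
      · rwa [Submodule.span_singleton_le_iff_mem]
      · rwa [Submodule.span_singleton_le_iff_mem]
      · rwa [Submodule.span_singleton_le_iff_mem]
      · rw [Submodule.finrank_sup_span_singleton n3, d2, h3]
    rw [← this] at hy
    obtain ⟨x, hx, z, hz, rfl⟩ := Submodule.mem_sup.1 hy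
    obtain ⟨b, c, rfl⟩ := (mem x).1 hx
    obtain ⟨a, rfl⟩ := Submodule.mem_span_singleton.1 hz
    exact ⟨a, b, c, by abel⟩
  have li : ∀ a b c : F, a • e₃ + b • e₂ + c • e₁ = 0 → a = 0 ∧ b = 0 ∧ c = 0 := fun a b c e => by
    have a0 : a = 0 := by
      by_contra a0
      refine n3 ((Submodule.smul_mem_iff _ a0).1 ((mem _).2 ⟨-b, -c, ?_⟩))
      rw [← sub_eq_zero, ← e]; module
    have b0 : b = 0 := by
      by_contra b0
      refine n2 ((Submodule.smul_mem_iff _ b0).1 (Submodule.mem_span_singleton.2 ⟨-c, ?_⟩))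
      rw [← sub_eq_zero, ← neg_eq_zero, ← e, a0]; module
    exact ⟨a0, b0, by simpa [a0, b0, n1] using e⟩
  let R : Subgroup (U4 F) :=
    { carrier := {u | ∃ s ∈ P, s e₂ = e₂ + u.l • e₁ ∧ s e₃ = e₃ + u.b • e₂ + u.g • e₁ ∧
        s w = w + (u.c • e₃ + u.e • e₂ + u.f • e₁)}
      one_mem' := ⟨1, P.one_mem, by simp, by simp, by simp⟩
      mul_mem' := by
        rintro u v ⟨s, hs, s2, s3, s4⟩ ⟨t, ht, t2, t3, t4⟩
        refine ⟨s * t, P.mul_mem hs ht, ?_, ?_, ?_⟩ <;>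
          simp only [LinearEquiv.mul_apply, t2, t3, t4, map_add, map_smul, s2, s3, s4, f1 s hs, U4.mul_l,
            U4.mul_b, U4.mul_g, U4.mul_c, U4.mul_e, U4.mul_f] <;> module
      inv_mem' := by
        rintro u ⟨s, hs, s2, s3, s4⟩
        have j : ∀ y, s (s⁻¹ y) = y := fun y => s.apply_symm_apply y
        refine ⟨s⁻¹, P.inv_mem hs, ?_, ?_, ?_⟩ <;> apply s.injective <;>
          simp only [j, map_add, map_smul, s2, s3, s4, f1 s hs, U4.inv_l,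
            U4.inv_b, U4.inv_g, U4.inv_c, U4.inv_e, U4.inv_f] <;> module }
  have fixL : ∀ s ∈ P, s e₂ = e₂ + (0 : F) • e₁ → s e₃ = e₃ + (0 : F) • e₂ + (0 : F) • e₁ →
      ∀ y ∈ L, s y = y := fun s hs s2 s3 y hy => by
    obtain ⟨a, b, c, rfl⟩ := sp y hy
    simp [s2, s3, f1 s hs]
  refine ⟨e₃, R, sp, ⟨hF, card_fix hσ hF hne, hne, fun x => ?_, ?_, ?_⟩, ?_⟩
  · obtain ⟨s, hs, e⟩ := tr _ (ml x.1 x.2.1 x.2.2)
    obtain ⟨l, hl⟩ := f2' s hs
    obtain ⟨b, g, hb⟩ := (mem _).1 (f3 s hs)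
    exact ⟨⟨l, b, g, x.1, x.2.1, x.2.2⟩, ⟨s, hs, hl, by rw [add_assoc, ← hb]; abel, e⟩, rfl⟩
  · rintro c e f μ ⟨s, hs, s2, s3, s4⟩ ⟨t, ht, t2, t3, t4⟩
    by_contra k
    push Not at k
    refine hT (h.comm hPM hs (fixL s hs s2 s3) ht (fixL t ht t2 t3) (ml c e f) (fun e0 => ?_) k.1 s4 ?_)
    · obtain ⟨a1, a2, a3⟩ := li _ _ _ e0
      exact k.2 a1 a2 a3
    · rw [t4]; module
  · rintro h2 c e f ⟨s, hs, s2, s3, s4⟩
    by_contra k
    exact hT (h.sq hPM h2 hs (fixL s hs s2 s3) (ml c e f) (fun e0 => k (li _ _ _ e0)) s4)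
  · rintro u ⟨s, hs, s2, s3, -⟩
    exact ⟨s, hs, s2, s3⟩

theorem GB7' (hF : Nat.card F = q ^ 2) (hne : ∃ a, σ a ≠ a) (hS : S.Nondeg) (hd : finrank F V = 7)
    (hM : M ≤ S.isom) (hO : ∀ v, S.B v v ≠ 0 → q ^ 6 ∣ (Orb σ M v).ncard) : HasT S M := by
  classical
  by_contra hT
  have : Finite V := Module.finite_of_finite F
  have : Finite (V ≃ₗ[F] V) := Finite.of_injective _ (DFunLike.coe_injective (F := V ≃ₗ[F] V))
  have hfix := card_fix hσ hF hne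
  obtain ⟨p, _, _, P, hPM, hP, -, hdv⟩ := exists_syl σ M hF
  obtain ⟨L, w, H, h3⟩ := exists_lw (m := 3) hP (hPM.trans hM) hne hS hd
  have tr := H.tr hF h3 (hdv _ _ (hO w H.ww))
  have : Nontrivial P := by
    obtain ⟨y, hy, y0⟩ := L.exists_mem_ne_zero_of_ne_bot (fun e => by rw [e, finrank_bot] at h3; omega)
    obtain ⟨s, hs, e⟩ := tr y hy
    exact ⟨⟨s, hs⟩, 1, fun k => y0 (by
      have : s = 1 := congrArg Subtype.val k
      simpa [this] using e)⟩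
  obtain ⟨⟨⟨z, hz⟩, hzc⟩, z1⟩ := @exists_ne _ hP.center_nontrivial 1
  have hc : ∀ s ∈ P, ∀ x, s (z x) = z (s x) := fun s hs x =>
    congrArg (fun g : P => g.1 x) (Subgroup.mem_center_iff.1 hzc ⟨s, hs⟩)
  have hTL := H.central hne hS tr hz hc
  let X : V →ₗ[F] V := (z : V →ₗ[F] V) - LinearMap.id
  have hX : ∀ x, X x = z x - x := fun _ => rfl
  have hs : ∀ s ∈ P, ∀ x, s (X x) = X (s x) := fun s hs x => by rw [hX, hX, map_sub, hc s hs]
  have skew : ∀ x y, S.B (X x) y + S.B x (X y) = 0 := fun x y => by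
    have a1 := PQ.B_isom (H.iso hz) x y
    have a2 := H.ts _ (hTL x) _ (hTL y)
    simp only [hX, PQ.B_sub_left, PQ.B_sub_right] at a2 ⊢
    linear_combination a1 - a2
  have iT : ∀ s ∈ P, ∀ x ∈ LinearMap.range X, s x ∈ LinearMap.range X := by
    rintro s h1 _ ⟨x, rfl⟩; exact ⟨_, (hs s h1 x).symm⟩
  have ginv : ∀ s ∈ P, ∀ y y', X y' = s (X y) → ∀ t ∈ LinearMap.range X, S.B y' (s t) = S.B y t := by
    rintro s h1 y y' e _ ⟨x, rfl⟩
    have := skew (y' - s y) (s x)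
    rw [map_sub, e, hs s h1, sub_self, PQ.B_zero_left, zero_add, ← hs s h1, PQ.B_sub_left,
      PQ.B_isom (H.iso h1)] at this
    exact sub_eq_zero.1 this
  obtain ⟨e₁, m1, n1, f1⟩ := exists_fix_mod hP (U := ⊥) (by simp) iT fun k => z1 (by
    refine Subtype.ext (Subtype.ext (LinearEquiv.ext fun x => ?_))
    exact sub_eq_zero.1 (k ⟨x, rfl⟩))
  rw [Submodule.mem_bot] at n1
  have f1' : ∀ s ∈ P, s e₁ = e₁ := fun s hs => sub_eq_zero.1 (f1 s hs)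
  have i1 : ∀ s ∈ P, ∀ x ∈ F ∙ e₁, s x ∈ F ∙ e₁ := fun s hs x hx => by
    obtain ⟨a, rfl⟩ := Submodule.mem_span_singleton.1 hx
    rwa [map_smul, f1' s hs]
  have TL : LinearMap.range X ≤ L := by rintro _ ⟨x, rfl⟩; exact hTL x
  obtain ⟨y₁, hy₁⟩ := id m1
  by_cases r1 : LinearMap.range X ≤ F ∙ e₁
  · obtain ⟨x₀, hx₀⟩ : ∃ x₀, S.B x₀ e₁ = 1 := by
      by_contra k
      refine n1 (hS e₁ fun y => S.B_comm_zero ?_)
      by_contra k'
      exact k ⟨(S.B y e₁)⁻¹ • y, by rw [PQ.B_smul_left, inv_mul_cancel₀ k']⟩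
    obtain ⟨c, e⟩ := Submodule.mem_span_singleton.1 (r1 ⟨x₀, rfl⟩)
    have k : ∀ x, X x = (c * S.B x e₁) • e₁ := fun x => by
      obtain ⟨a, ea⟩ := Submodule.mem_span_singleton.1 (r1 ⟨x, rfl⟩)
      have a1 := skew x x₀
      have a2 := skew x₀ x₀
      have a3 : S.B e₁ x₀ = 1 := by rw [← Bs S x₀ e₁, hx₀, map_one]
      rw [← ea, ← e, PQ.B_smul_left, Bsr, a3] at a1
      rw [← e, PQ.B_smul_left, Bsr, a3, hx₀] at a2
      rw [← ea]; congr 1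
      linear_combination a1 - S.B x e₁ * a2
    refine hT ⟨e₁, c, n1, H.ts _ (TL m1) _ (TL m1), fun c0 => n1 ?_, ?_, z, hPM hz, fun x => ?_⟩
    · rw [← hy₁, k, c0, zero_mul, zero_smul]
    · have a2 := skew x₀ x₀
      have a3 : S.B e₁ x₀ = 1 := by rw [← Bs S x₀ e₁, hx₀, map_one]
      rw [← e, PQ.B_smul_left, Bsr, a3, hx₀] at a2
      linear_combination a2
    · rw [← k, hX]; abel
  have iT1 : ∀ s ∈ P, ∀ x ∈ LinearMap.range X ⊓ S.perp (F ∙ y₁), s x ∈ LinearMap.range X ⊓ S.perp (F ∙ y₁) :=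
    fun s h1 x hx => ⟨iT s h1 x hx.1, S.mem_perp_span_singleton.2 (S.B_comm_zero (by
      rw [ginv s h1 y₁ y₁ (by rw [hy₁, f1' s h1]) x hx.1]
      exact S.B_comm_zero (S.mem_perp_span_singleton.1 hx.2)))⟩
  have zero : ∀ R : Subgroup (U4 F), Aff σ q R → (∀ u ∈ R, u.l = 0) → False := fun R A k =>
    A.a1 (line2 hfix (α := 1) (β := 0) one_ne_zero _ (by rintro _ ⟨u, hu, rfl⟩; simp [k u hu]))
  by_cases g11 : S.B y₁ e₁ = 0
  swap
  · have g11' := ne_swap g11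
    obtain ⟨e₂, m2, n2, f2⟩ := exists_fix_mod hP (U := ⊥) (by simp) iT1 fun k => r1 fun t ht => by
      have := k (x := t - (S.B t y₁ / S.B e₁ y₁) • e₁) ⟨Submodule.sub_mem _ ht (Submodule.smul_mem _ _ m1),
        S.mem_perp_span_singleton.2 (by rw [PQ.B_sub_left, PQ.B_smul_left]; field_simp; ring)⟩
      exact Submodule.mem_span_singleton.2 ⟨_, (sub_eq_zero.1 this).symm⟩
    obtain ⟨e₃, R, sp, A, hR⟩ := H.aff hP hPM hT hF hne h3 tr (TL m1) (TL m2.1) n1 (fun k => by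
      obtain ⟨a, rfl⟩ := Submodule.mem_span_singleton.1 k
      have := S.mem_perp_span_singleton.1 m2.2
      rw [PQ.B_smul_left] at this
      exact n2 (by simp [(mul_eq_zero.1 this).resolve_right g11'])) f1' fun s h1 => (bot_le : ⊥ ≤ F ∙ e₁) (f2 s h1)
    refine zero R A fun u hu => ?_
    obtain ⟨s, h1, s2, -⟩ := hR u hu
    have := f2 s h1
    simpa [s2, n1] using this
  by_cases r2 : LinearMap.range X ⊓ S.perp (F ∙ y₁) ≤ F ∙ e₁
  · obtain ⟨e₂, m2, n2, f2⟩ := exists_fix_mod hP i1 iT r1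
    obtain ⟨e₃, R, sp, A, hR⟩ := H.aff hP hPM hT hF hne h3 tr (TL m1) (TL m2) n1 n2 f1' f2
    obtain ⟨y₂, hy₂⟩ := id m2
    refine A.a1 (line2 hfix (α := S.B y₁ e₂) (β := S.B y₂ e₁) (fun k => n2 (r2 ⟨m2,
      S.mem_perp_span_singleton.2 (S.B_comm_zero k)⟩)) _ ?_)
    rintro _ ⟨u, hu, rfl⟩
    obtain ⟨s, h1, s2, -⟩ := hR u hu
    have := ginv s h1 y₂ (y₂ + u.l • y₁) (by rw [map_add, map_smul, hy₁, hy₂, s2]) e₂ m2
    simp only [s2, PQ.B_add_left, PQ.B_add_right, PQ.B_smul_left, Bsr, g11] at this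
    linear_combination this
  obtain ⟨e₂, m2, n2, f2⟩ := exists_fix_mod hP i1 iT1 r2
  obtain ⟨e₃, R, sp, A, hR⟩ := H.aff hP hPM hT hF hne h3 tr (TL m1) (TL m2.1) n1 n2 f1' f2
  obtain ⟨y₂, hy₂⟩ := id m2.1
  have g12 : S.B y₁ e₂ = 0 := S.B_comm_zero (S.mem_perp_span_singleton.1 m2.2)
  have g21 : S.B y₂ e₁ = 0 := by
    have := skew y₂ y₁
    rwa [hy₁, hy₂, S.B_comm_zero g12, zero_add] at this
  obtain ⟨x, hx⟩ : ∃ x, S.B y₁ (X x) ≠ 0 := by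
    by_contra k
    push Not at k
    exact n1 (hS e₁ fun y => by have := skew y₁ y; rwa [k, add_zero, hy₁] at this)
  obtain ⟨a, b, c, e⟩ := sp _ (hTL x)
  rw [← hX] at e
  rw [e] at hx
  simp only [PQ.B_add_right, Bsr, g11, g12, mul_zero, add_zero] at hx
  have g13 := right_ne_zero_of_mul hx
  have m3 : e₃ ∈ LinearMap.range X := by
    refine (Submodule.smul_mem_iff _ (fun a0 : a = 0 => hx (by simp [a0]))).1 ?_
    have : a • e₃ = X x - b • e₂ - c • e₁ := by rw [e]; abel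
    rw [this]
    exact Submodule.sub_mem _ (Submodule.sub_mem _ ⟨x, rfl⟩ (Submodule.smul_mem _ _ m2.1))
      (Submodule.smul_mem _ _ m1)
  obtain ⟨y₃, hy₃⟩ := id m3
  have k1 : ∀ u ∈ R, σ u.b * S.B y₂ e₂ + u.l * S.B y₁ e₃ = 0 := fun u hu => by
    obtain ⟨s, h1, s2, s3⟩ := hR u hu
    have := ginv s h1 y₂ (y₂ + u.l • y₁) (by rw [map_add, map_smul, hy₁, hy₂, s2]) e₃ m3
    simp only [s3, PQ.B_add_left, PQ.B_add_right, PQ.B_smul_left, Bsr, g11, g12, g21] at this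
    linear_combination this
  by_cases g22 : S.B y₂ e₂ = 0
  · exact zero R A fun u hu => (mul_eq_zero.1 (by simpa [g22] using k1 u hu)).resolve_right g13
  have k2 : ∀ u ∈ R, u.b = 0 ↔ u.l = 0 := fun u hu =>
    ⟨fun k => (mul_eq_zero.1 (by simpa [k] using k1 u hu)).resolve_right g13,
      fun k => by simpa [k, g22] using k1 u hu⟩
  refine A.a2 k2 (line2 hfix (β := S.B y₃ e₁) g13 _ ?_)
  rintro _ ⟨u, ⟨hu, l0⟩, rfl⟩
  obtain ⟨s, h1, s2, s3⟩ := hR u hu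
  rw [(k2 u hu).2 l0, zero_smul, add_zero] at s3
  have := ginv s h1 y₃ (y₃ + u.g • y₁) (by rw [map_add, map_smul, hy₁, hy₃, s3]) e₃ m3
  simp only [s3, PQ.B_add_left, PQ.B_add_right, PQ.B_smul_left, Bsr, g11] at this
  linear_combination this

theorem GB7 (hF : Nat.card F = q ^ 2) (hne : ∃ a, σ a ≠ a) (hS : S.Nondeg) (hd : finrank F V = 7)
    (hM : M ≤ S.isom) (hO : ∀ v w, S.B v v ≠ 0 → S.B w w = S.B v v → w ∈ Orb σ M v) : HasT S M := by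
  refine GB7' hF hne hS hd hM fun w hw => ?_
  have ho : Orb σ M w = {v | S.B v v = S.B w w} := by
    ext v
    refine ⟨?_, hO w v hw⟩
    rintro ⟨g, hg, c, hc, rfl⟩
    change S.B _ _ = _
    rw [PQ.B_smul_left, Bsr, PQ.B_isom (hM hg), ← mul_assoc, hc, one_mul]
  rw [ho]
  exact dvd_card_norm (m := 3) hF hne hS hd (Bs S w w) hw

end Cfsg.Agent.H2.UG
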